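import Cfsg.Agent.RootSubgroups.Contained

/-!
# Classes of abstract root subgroups: elementary lemmas
-/

set_option autoImplicit false

namespace CfsgLib.RootSubgroups.Cls

open scoped commutatorElement

open Cfsg CfsgLib.RootSubgroups

variable {G : Type*} [Group G] {S : Set (Subgroup G)}

/-- Every member has a rank one partner. -/
def AllPartners (S : Set (Subgroup G)) : Prop := ∀ A ∈ S, ∃ P ∈ S, IsRankOnePair A P

theorem allPartners_of_class (hcl : IsConjClassOfSubgroups S) (hS : IsRootSubgroupSet S)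
    {A₀ P₀ : Subgroup G} (hA₀ : A₀ ∈ S) (hP₀ : P₀ ∈ S) (h₀ : IsRankOnePair A₀ P₀) :
    AllPartners S := by
  intro A hA
  obtain ⟨g, rfl⟩ := hcl.2 A₀ hA₀ A hA
  exact ⟨conjBy P₀ g, hS.conj_mem _ hP₀ g, RankOne.conj h₀ g⟩

theorem exists_ne_one (hS : IsRootSubgroupSet S) {A : Subgroup G} (hA : A ∈ S) :
    ∃ a ∈ A, a ≠ 1 :=
  (Subgroup.bot_or_exists_ne_one A).resolve_left (hS.ne_bot A hA)

theorem commute_of_bot {A B : Subgroup G} (h : ⁅A, B⁆ = ⊥) {a b : G} (ha : a ∈ A) (hb : b ∈ B) :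
    Commute a b :=
  commutator_eq_bot_iff_commutes.1 h a ha b hb

theorem bot_comm {A B : Subgroup G} (h : ⁅A, B⁆ = ⊥) : ⁅B, A⁆ = ⊥ := by
  rw [Subgroup.commutator_comm]; exact h

/-- Elements of the join of two subgroups that commute elementwise. -/
theorem mem_sup_of_bot {A B : Subgroup G} (h : ⁅A, B⁆ = ⊥) {x : G} :
    x ∈ A ⊔ B ↔ ∃ a ∈ A, ∃ b ∈ B, a * b = x := by
  constructor
  · intro hx
    rw [Subgroup.sup_eq_closure] at hx
    induction hx using Subgroup.closure_induction with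
    | mem y hy =>
      rcases hy with hy | hy
      · exact ⟨y, hy, 1, one_mem _, mul_one y⟩
      · exact ⟨1, one_mem _, y, hy, one_mul y⟩
    | one => exact ⟨1, one_mem _, 1, one_mem _, one_mul 1⟩
    | mul y z _ _ ihy ihz =>
      obtain ⟨a, ha, b, hb, rfl⟩ := ihy
      obtain ⟨a', ha', b', hb', rfl⟩ := ihz
      exact ⟨a * a', mul_mem ha ha', b * b', mul_mem hb hb',
        (commute_of_bot h ha' hb).mul_mul_mul_comm a b'⟩
    | inv y _ ih =>
      obtain ⟨a, ha, b, hb, rfl⟩ := ih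
      exact ⟨a⁻¹, inv_mem ha, b⁻¹, inv_mem hb, by
        rw [mul_inv_rev]; exact (commute_of_bot h ha hb).inv_inv.eq⟩
  · rintro ⟨a, ha, b, hb, rfl⟩
    exact mul_mem (Subgroup.mem_sup_left ha) (Subgroup.mem_sup_right hb)

/-- A subgroup commuting with two subgroups commutes with their commutator subgroup. -/
theorem bot_commutator {C A B : Subgroup G} (hA : ⁅C, A⁆ = ⊥) (hB : ⁅C, B⁆ = ⊥) :
    ⁅C, ⁅A, B⁆⁆ = ⊥ := by
  rw [Subgroup.commutator_eq_bot_iff_le_centralizer, Subgroup.le_centralizer_iff] at hA hB ⊢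
  rw [Subgroup.commutator_le]
  intro x hx y hy
  exact mul_mem (mul_mem (mul_mem (hA hx) (hB hy)) (inv_mem (hA hx))) (inv_mem (hB hy))

theorem bot_sup {C A B : Subgroup G} (hA : ⁅C, A⁆ = ⊥) (hB : ⁅C, B⁆ = ⊥) : ⁅C, A ⊔ B⁆ = ⊥ := by
  rw [Subgroup.commutator_eq_bot_iff_le_centralizer, Subgroup.le_centralizer_iff] at hA hB ⊢
  exact sup_le hA hB

theorem bot_mono {C A B : Subgroup G} (h : ⁅C, B⁆ = ⊥) (hle : A ≤ B) : ⁅C, A⁆ = ⊥ :=
  eq_bot_iff.2 (h ▸ Subgroup.commutator_mono le_rfl hle)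

/-- A subgroup centralizing `A` and `⁅A, B⁆` centralizes the partner `B`. -/
theorem commutes_partner (hS : IsRootSubgroupSet S) {A B C : Subgroup G}
    (hB : B ∈ S) (h : IsRankOnePair A B) (hCA : ⁅C, A⁆ = ⊥) (hCN : ⁅C, ⁅A, B⁆⁆ = ⊥) :
    ⁅C, B⁆ = ⊥ := by
  have hle : ⁅A, B⁆ ≤ A ⊔ B := by
    rw [Subgroup.commutator_le]
    intro x hx y hy
    exact mul_mem (mul_mem (mul_mem (Subgroup.mem_sup_left hx) (Subgroup.mem_sup_right hy))
      (inv_mem (Subgroup.mem_sup_left hx))) (inv_mem (Subgroup.mem_sup_right hy))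
  have hn : A ⊔ B ≤ Subgroup.normalizer ((⁅A, B⁆ : Subgroup G) : Set G) :=
    sup_le (CommCase.left_le_normalizer A B)
      (by rw [Subgroup.commutator_comm]; exact CommCase.left_le_normalizer B A)
  rcases RankOne.normal_dichotomy h hle
      (fun x hx n hm => (Subgroup.mem_normalizer_iff.1 (hn hx) n).1 hm) with hs | hc
  · exact bot_mono (hs ▸ bot_sup hCN hCA) le_sup_right
  · exfalso
    obtain ⟨a, ha, ha1⟩ := RankOne.exists_left h
    refine ha1 (RankOne.eq_one_of_normalizes h ha (RootSet.eq_of_mem_unipotent_of_commutes h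
      (RankOne.right_mem_unipotent h) (RankOne.conjBy_mem_unipotent (RankOne.right_mem_unipotent h)
        (Subgroup.mem_sup_left ha)) (commutator_eq_bot_iff_commutes.2 fun b hb x hx => ?_)).symm)
    have hy : a⁻¹ * x * a ∈ B := mem_conjBy.1 hx
    have h1 : Commute b ⁅a, a⁻¹ * x * a⁆ := Subgroup.mem_centralizer_iff.1
      (hc (Subgroup.commutator_mem_commutator ha hy)) b (Subgroup.mem_sup_right hb)
    have h2 : Commute b (a⁻¹ * x * a) := RootSet.comm_of_mem hS hB hb hy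
    have h3 := h1.mul_right h2
    have hx' : ⁅a, a⁻¹ * x * a⁆ * (a⁻¹ * x * a) = x := by
      simp [commutatorElement_def, mul_assoc]
    rw [hx'] at h3
    exact h3.eq

theorem conjBy_commutator (A B : Subgroup G) (g : G) :
    conjBy ⁅A, B⁆ g = ⁅conjBy A g, conjBy B g⁆ :=
  Subgroup.map_commutator _ _ _

theorem commCase_conj (hS : IsRootSubgroupSet S) {A B : Subgroup G} (hA : A ∈ S) (hB : B ∈ S)
    (h : RootCommutatorCase S A B) (g : G) : RootCommutatorCase S (conjBy A g) (conjBy B g) :=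
  CommCase.of_mem hS (hS.conj_mem A hA g) (hS.conj_mem B hB g)
    (conjBy_commutator A B g ▸ hS.conj_mem _ h.1 g)

theorem not_commCase_of_rankOne (hS : IsRootSubgroupSet S) {A B : Subgroup G} (hA : A ∈ S)
    (hB : B ∈ S) (h : IsRankOnePair A B) : ¬ RootCommutatorCase S A B :=
  fun hc => CommCase.commutator_not_mem hS hA hB h hc.1

theorem membersIn_conj (hS : IsRootSubgroupSet S) (V : Subgroup G) (g : G) {E : Subgroup G}
    (hE : E ∈ membersIn S V) : conjBy E g ∈ membersIn S (conjBy V g) :=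
  ⟨hS.conj_mem _ hE.1 g, conjBy_mono g hE.2⟩

theorem commutingPartners_conj (hS : IsRootSubgroupSet S) {A B : Subgroup G}
    (h : B ∈ commutingPartners S A) (g : G) :
    conjBy B g ∈ commutingPartners S (conjBy A g) := by
  obtain ⟨hB, hne, hc⟩ := h
  exact ⟨hS.conj_mem B hB g, fun he => hne (conjBy_inj.1 he),
    by rw [← conjBy_commutator, hc, conjBy_bot]⟩

theorem linePartners_conj (hS : IsRootSubgroupSet S) {A B : Subgroup G}
    (h : B ∈ linePartners S A) (g : G) : conjBy B g ∈ linePartners S (conjBy A g) := by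
  obtain ⟨hc, -, hcov, hdis⟩ := h
  refine ⟨commutingPartners_conj hS hc g, fun C hC => hC.2, fun x hx hx1 => ?_, ?_⟩
  · rw [← conjBy_sup, mem_conjBy] at hx
    obtain ⟨E, hE, hxE⟩ := hcov _ hx (fun h1 => hx1 (by
      simpa [mul_assoc] using congrArg (fun t => g * t * g⁻¹) h1))
    exact ⟨conjBy E g, conjBy_sup A B g ▸ membersIn_conj hS _ g hE, mem_conjBy.2 hxE⟩
  · intro C hC D hD hne
    have hC' := membersIn_conj hS _ g⁻¹ hC
    have hD' := membersIn_conj hS _ g⁻¹ hD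
    rw [← conjBy_sup, conjBy_conjBy, inv_mul_cancel, conjBy_one] at hC' hD'
    have := hdis _ hC' _ hD' (fun he => hne (conjBy_inj.1 he))
    rw [Subgroup.eq_bot_iff_forall] at this ⊢
    intro x hx
    have hy := this (g⁻¹ * x * g) ⟨mem_conjBy.2 (by simpa [mul_assoc] using hx.1),
      mem_conjBy.2 (by simpa [mul_assoc] using hx.2)⟩
    simpa [mul_assoc] using congrArg (fun t => g * t * g⁻¹) hy

theorem le_normalizer_of_conjBy_le {K V : Subgroup G} (h : ∀ k ∈ K, conjBy V k ≤ V) :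
    K ≤ Subgroup.normalizer (V : Set G) := by
  intro k hk
  refine conjBy_eq_self_iff.1 (le_antisymm (h k hk) ?_)
  have := conjBy_mono k (h k⁻¹ (inv_mem hk))
  rwa [conjBy_conjBy, mul_inv_cancel, conjBy_one] at this

end CfsgLib.RootSubgroups.Cls
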