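import Cfsg.Agent.RootSubgroups.ClassesBasic

/-!
# The rank one group acting on the plane `A ⊔ ⁅A, B⁆`
-/

set_option autoImplicit false

namespace CfsgLib.RootSubgroups.Cls

open scoped commutatorElement

open Cfsg CfsgLib.RootSubgroups

variable {G : Type*} [Group G] {S : Set (Subgroup G)}

/-- The data `⁅A, B⁆ ∈ S` and `⁅D, ⁅A, B⁆⁆ = A`. -/
structure Plane (S : Set (Subgroup G)) (A B D : Subgroup G) : Prop where
  hA : A ∈ S
  hB : B ∈ S
  hD : D ∈ S
  up : RootCommutatorCase S A B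
  down : RootCommutatorCase S D ⁅A, B⁆
  eq : ⁅D, ⁅A, B⁆⁆ = A

namespace Plane

variable {A B D : Subgroup G}

theorem line_bot (hp : Plane S A B D) : ⁅A, ⁅A, B⁆⁆ = ⊥ :=
  commutator_eq_bot_iff_commutes.2 fun _ ha _ hc => (CommCase.central_left hp.up hc ha).symm

theorem comm_A_D (hp : Plane S A B D) {a d : G} (ha : a ∈ A) (hd : d ∈ D) : a * d = d * a :=
  CommCase.central_left hp.down (hp.eq.symm ▸ ha) hd

theorem eq_one_of_mem (hS : IsRootSubgroupSet S) (hp : Plane S A B D) {x : G} (hA : x ∈ A)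
    (hC : x ∈ ⁅A, B⁆) : x = 1 := by
  by_contra hx
  exact RootSet.commCase_not_commutes hS hp.up hA hx fun b hb =>
    CommCase.central_right hp.up hC hb

theorem coord_eq (hS : IsRootSubgroupSet S) (hp : Plane S A B D) {c c' a a' : G}
    (hc : c ∈ ⁅A, B⁆) (hc' : c' ∈ ⁅A, B⁆) (ha : a ∈ A) (ha' : a' ∈ A)
    (h : c * a = c' * a') : c = c' ∧ a = a' := by
  have h1 : c'⁻¹ * c = a' * a⁻¹ :=
    mul_right_cancel (b := a) (by simp [mul_assoc, h])
  have h2 := eq_one_of_mem hS hp (h1.symm ▸ mul_mem ha' (inv_mem ha) :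
    c'⁻¹ * c ∈ A) (mul_mem (inv_mem hc') hc)
  refine ⟨(inv_mul_eq_one.1 h2).symm, ?_⟩
  rw [inv_mul_eq_one.1 h2] at h
  exact mul_left_cancel h

theorem fixed_right (hS : IsRootSubgroupSet S) (hp : Plane S A B D) :
    (A ⊔ ⁅A, B⁆) ⊓ Subgroup.centralizer (B : Set G) = ⁅A, B⁆ := by
  apply le_antisymm
  · rintro x ⟨hx, hxc⟩
    obtain ⟨a, ha, c, hc, rfl⟩ := (CommCase.mem_sup hp.up).1 hx
    have ha1 : a = 1 := by
      by_contra ha1
      refine RootSet.commCase_not_commutes hS hp.up ha ha1 fun b hb => ?_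
      have h1 : Commute (a * c) b := (Subgroup.mem_centralizer_iff.1 hxc b hb).symm
      have h2 : Commute c⁻¹ b := CommCase.central_right hp.up (inv_mem hc) hb
      simpa using (h1.mul_left h2).eq
    rw [ha1, one_mul]; exact hc
  · intro c hc
    exact ⟨Subgroup.mem_sup_right hc,
      Subgroup.mem_centralizer_iff.2 fun b hb => (CommCase.central_right hp.up hc hb).symm⟩

theorem fixed_left (hS : IsRootSubgroupSet S) (hp : Plane S A B D) :
    (A ⊔ ⁅A, B⁆) ⊓ Subgroup.centralizer (D : Set G) = A := by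
  apply le_antisymm
  · rintro x ⟨hx, hxc⟩
    obtain ⟨a, ha, c, hc, rfl⟩ := (CommCase.mem_sup hp.up).1 hx
    have hc1 : c = 1 := by
      by_contra hc1
      refine RootSet.commCase_not_commutes hS (CommCase.symm hp.down) hc hc1 fun d hd => ?_
      have h1 : Commute (a * c) d := (Subgroup.mem_centralizer_iff.1 hxc d hd).symm
      have h2 : Commute a⁻¹ d := comm_A_D hp (inv_mem ha) hd
      simpa using (h2.mul_left h1).eq
    rw [hc1, mul_one]; exact ha
  · intro a ha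
    exact ⟨Subgroup.mem_sup_left ha,
      Subgroup.mem_centralizer_iff.2 fun d hd => (comm_A_D hp ha hd).symm⟩

theorem sup_le_normalizer (hp : Plane S A B D) :
    B ⊔ D ≤ Subgroup.normalizer ((A ⊔ ⁅A, B⁆ : Subgroup G) : Set G) := by
  refine sup_le (le_normalizer_of_conjBy_le fun b hb => ?_)
    (le_normalizer_of_conjBy_le fun d hd => ?_)
  · rw [conjBy_sup]
    exact sup_le (CommCase.conjBy_le_sup hp.up hb) ((conjBy_eq_of_commutes fun c hc =>
      (CommCase.central_right hp.up hc hb).symm).le.trans le_sup_right)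
  · rw [conjBy_sup]
    refine sup_le ((conjBy_eq_of_commutes fun a ha => (comm_A_D hp ha hd).symm).le.trans
      le_sup_left) ?_
    have := CommCase.conjBy_le_sup (CommCase.symm hp.down) hd
    rwa [Subgroup.commutator_comm ⁅A, B⁆ D, hp.eq, sup_comm] at this

theorem conjBy_line (hp : Plane S A B D) {x : G} (hx : x ∈ B ⊔ D) :
    conjBy (A ⊔ ⁅A, B⁆) x = A ⊔ ⁅A, B⁆ :=
  conjBy_eq_self_iff.2 (sup_le_normalizer hp hx)

theorem fixed_conj (hp : Plane S A B D) {U : Subgroup G} {x : G} (hx : x ∈ B ⊔ D) :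
    (A ⊔ ⁅A, B⁆) ⊓ Subgroup.centralizer ((conjBy U x : Subgroup G) : Set G) =
      conjBy ((A ⊔ ⁅A, B⁆) ⊓ Subgroup.centralizer (U : Set G)) x := by
  ext y
  have hV : y ∈ A ⊔ ⁅A, B⁆ ↔ x⁻¹ * y * x ∈ A ⊔ ⁅A, B⁆ := by
    rw [← mem_conjBy, conjBy_line hp hx]
  rw [mem_conjBy]
  simp only [Subgroup.mem_inf, Subgroup.mem_centralizer_iff, SetLike.mem_coe, mem_conjBy, ← hV]
  refine and_congr_right fun _ => ⟨fun h u hu => ?_, fun h u hu => ?_⟩
  · have h1 := h (x * u * x⁻¹) (by simpa [mul_assoc] using hu)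
    simpa [mul_assoc] using congrArg (fun t => x⁻¹ * t * x) h1
  · simpa [mul_assoc] using congrArg (fun t => x * t * x⁻¹) (h _ hu)

theorem rankOne (hS : IsRootSubgroupSet S) (hp : Plane S A B D) : IsRankOnePair B D := by
  rcases hS.pair B hp.hB D hp.hD with h | h | h
  · exfalso
    apply hS.ne_bot A hp.hA
    rw [← hp.eq, Subgroup.commutator_comm]
    refine Subgroup.commutator_commutator_eq_bot_of_rotate ?_ ?_
    · rw [h, Subgroup.commutator_bot_left]
    · rw [commutator_eq_bot_iff_commutes.2 fun d hd a ha => (comm_A_D hp ha hd).symm,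
        Subgroup.commutator_bot_left]
  · exact h
  exfalso
  obtain ⟨d, hd, hd1⟩ := exists_ne_one hS hp.hD
  have hK : ∀ b ∈ B, b * d * b⁻¹ * d⁻¹ ∈ B ⊔ D := fun b hb =>
    mul_mem (mul_mem (mul_mem (Subgroup.mem_sup_left hb) (Subgroup.mem_sup_right hd))
      (inv_mem (Subgroup.mem_sup_left hb))) (inv_mem (Subgroup.mem_sup_right hd))
  have key : ∀ b ∈ B, b ≠ 1 → ∀ c ∈ ⁅A, B⁆,
      b * (d * c * d⁻¹ * c⁻¹) = (d * c * d⁻¹ * c⁻¹) * b := by
    intro b hb hb1
    set k := b * d * b⁻¹ * d⁻¹ with hk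
    have hkV := hK b hb
    have hkfix : ∀ U : Subgroup G, (∀ u ∈ U, k * u = u * k) →
        conjBy ((A ⊔ ⁅A, B⁆) ⊓ Subgroup.centralizer (U : Set G)) k =
          (A ⊔ ⁅A, B⁆) ⊓ Subgroup.centralizer (U : Set G) := fun U hU => by
      rw [← fixed_conj hp hkV, conjBy_eq_of_commutes hU]
    have hkA : ∀ a ∈ A, k * a * k⁻¹ ∈ A := fun a ha => by
      have h1 := hkfix D fun u hu => CommCase.central_right h (CommCase.comm_mem h hb hd) hu
      rw [fixed_left hS hp] at h1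
      exact h1 ▸ mem_conjBy.2 (by simpa [mul_assoc] using ha)
    have hkC : ∀ c ∈ ⁅A, B⁆, k * c * k⁻¹ ∈ ⁅A, B⁆ := fun a ha => by
      have h1 := hkfix B fun u hu => CommCase.central_left h (CommCase.comm_mem h hb hd) hu
      rw [fixed_right hS hp] at h1
      exact h1 ▸ mem_conjBy.2 (by simpa [mul_assoc] using ha)
    have hbd : b * d = k * (d * b) := by simp [hk, mul_assoc]
    -- `k` centralizes `⁅A, B⁆`
    have hkfixC : ∀ c ∈ ⁅A, B⁆, k * c * k⁻¹ = c := by
      intro c hc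
      obtain ⟨a, ha, hac⟩ := CommCase.exists_comm_eq (CommCase.symm hp.up) hb hb1
        (show c ∈ ⁅B, A⁆ by rw [Subgroup.commutator_comm]; exact hc)
      set a1 := d * c * d⁻¹ * c⁻¹ with ha1
      have ha1A : a1 ∈ A := hp.eq.le (CommCase.comm_mem hp.down hd hc)
      have e1 : (b * d) * a * (b * d)⁻¹ = c * a := by
        rw [← hac]
        calc b * d * a * (b * d)⁻¹ = b * (d * a) * d⁻¹ * b⁻¹ := by simp [mul_assoc]
          _ = _ := by rw [← comm_A_D hp ha hd]; simp [mul_assoc]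
      have e2 : (d * b) * a * (d * b)⁻¹ = a1 * (c * a) := by
        rw [ha1, ← hac]
        calc d * b * a * (d * b)⁻¹ = d * (b * a * b⁻¹ * a⁻¹) * (a * d⁻¹) := by simp [mul_assoc]
          _ = d * (b * a * b⁻¹ * a⁻¹) * (d⁻¹ * a) := by rw [comm_A_D hp ha (inv_mem hd)]
          _ = _ := by simp [mul_assoc]
      have e3 : a1 * (c * a) = c * (a1 * a) := by
        rw [← mul_assoc, ← CommCase.central_left hp.up hc ha1A, mul_assoc]
      have e4 : c * a = (k * c * k⁻¹) * (k * (a1 * a) * k⁻¹) := by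
        rw [← e1, hbd]
        calc k * (d * b) * a * (k * (d * b))⁻¹ = k * ((d * b) * a * (d * b)⁻¹) * k⁻¹ := by
              simp [mul_assoc]
          _ = _ := by rw [e2, e3]; simp [mul_assoc]
      exact (coord_eq hS hp hc (hkC c hc) ha (hkA _ (mul_mem ha1A ha)) e4).1.symm
    intro c hc
    set a2 := d * c * d⁻¹ * c⁻¹ with ha2
    have ha2A : a2 ∈ A := hp.eq.le (CommCase.comm_mem hp.down hd hc)
    have hcb : b * c * b⁻¹ = c := by rw [← CommCase.central_right hp.up hc hb]; simp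
    have hc2 : b * a2 * b⁻¹ * a2⁻¹ ∈ ⁅A, B⁆ := by
      rw [Subgroup.commutator_comm]; exact Subgroup.commutator_mem_commutator hb ha2A
    have e1 : (b * d) * c * (b * d)⁻¹ = b * a2 * b⁻¹ * c := by
      calc b * d * c * (b * d)⁻¹ = b * (d * c * d⁻¹ * c⁻¹) * b⁻¹ * (b * c * b⁻¹) := by
            simp [mul_assoc]
        _ = _ := by rw [hcb]
    have e2 : (d * b) * c * (d * b)⁻¹ = a2 * c := by
      calc d * b * c * (d * b)⁻¹ = d * (b * c * b⁻¹) * d⁻¹ := by simp [mul_assoc]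
        _ = _ := by rw [hcb]; simp [ha2, mul_assoc]
    have e3 : b * a2 * b⁻¹ * c = k * a2 * k⁻¹ * c := by
      rw [← e1, hbd]
      calc k * (d * b) * c * (k * (d * b))⁻¹ = k * ((d * b) * c * (d * b)⁻¹) * k⁻¹ := by
            simp [mul_assoc]
        _ = k * a2 * k⁻¹ * (k * c * k⁻¹) := by rw [e2]; simp [mul_assoc]
        _ = _ := by rw [hkfixC c hc]
    have e4 := eq_one_of_mem hS hp
      (by rw [mul_right_cancel e3]; exact mul_mem (hkA _ ha2A) (inv_mem ha2A)) hc2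
    calc b * a2 = b * a2 * b⁻¹ * a2⁻¹ * (a2 * b) := by simp [mul_assoc]
      _ = a2 * b := by rw [e4, one_mul]
  refine RootSet.commCase_not_commutes hS hp.down hd hd1 fun c hc => ?_
  have ha2A : d * c * d⁻¹ * c⁻¹ ∈ A := hp.eq.le (CommCase.comm_mem hp.down hd hc)
  have h1 : d * c * d⁻¹ * c⁻¹ = 1 := by
    by_contra hne
    refine RootSet.commCase_not_commutes hS hp.up ha2A hne fun b hb => ?_
    by_cases hb1 : b = 1
    · simp [hb1]
    · exact (key b hb hb1 c hc).symm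
  calc d * c = d * c * d⁻¹ * c⁻¹ * (c * d) := by simp [mul_assoc]
    _ = c * d := by rw [h1, one_mul]

/-- Non-identity elements of `A` and `B` do not commute. -/
theorem eq_one_of_commute_up (hS : IsRootSubgroupSet S) (hp : Plane S A B D) {a b : G}
    (ha : a ∈ A) (hb : b ∈ B) (hb1 : b ≠ 1) (hab : a * b = b * a) : a = 1 := by
  obtain ⟨d, hd, -, hbd⟩ := (rankOne hS hp).cond_left b hb hb1
  have hbx : b⁻¹ ∈ B ⊔ D := Subgroup.mem_sup_left (inv_mem hb)
  have hdx : d⁻¹ ∈ B ⊔ D := Subgroup.mem_sup_right (inv_mem hd)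
  have h1 : a ∈ conjBy ((A ⊔ ⁅A, B⁆) ⊓ Subgroup.centralizer (D : Set G)) b⁻¹ := by
    rw [fixed_left hS hp, mem_conjBy, inv_inv, ← hab]
    simpa using ha
  rw [← fixed_conj hp hbx, ← hbd, fixed_conj hp hdx, fixed_right hS hp, mem_conjBy, inv_inv,
    ← comm_A_D hp ha hd] at h1
  exact eq_one_of_mem hS hp ha (by simpa using h1)

theorem symm (hp : Plane S A B D) : Plane S ⁅A, B⁆ D B := by
  have h1 : ⁅⁅A, B⁆, D⁆ = A := by rw [Subgroup.commutator_comm]; exact hp.eq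
  refine ⟨hp.up.1, hp.hD, hp.hB, CommCase.symm hp.down, ?_, ?_⟩
  · rw [h1]; exact CommCase.symm hp.up
  · rw [h1, Subgroup.commutator_comm]

theorem conj_eq_conj (hS : IsRootSubgroupSet S) (hp : Plane S A B D) {b : G} (hb : b ∈ B)
    (hb1 : b ≠ 1) : ∃ d ∈ D, conjBy A b = conjBy ⁅A, B⁆ d := by
  obtain ⟨d, hd, -, hbd⟩ :=
    (rankOne hS hp).cond_left b⁻¹ (inv_mem hb) (by simpa using hb1)
  rw [inv_inv] at hbd
  refine ⟨d⁻¹, inv_mem hd, ?_⟩
  have h1 := fixed_conj hp (U := D) (Subgroup.mem_sup_left (T := D) hb)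
  rw [← hbd, fixed_conj hp (Subgroup.mem_sup_right (inv_mem hd)), fixed_right hS hp,
    fixed_left hS hp] at h1
  exact h1.symm

theorem orbit_sets_eq (hS : IsRootSubgroupSet S) (hp : Plane S A B D) :
    (fun b : G => conjBy A b) '' (B : Set G) ∪ {⁅A, B⁆} =
      (fun d : G => conjBy ⁅A, B⁆ d) '' (D : Set G) ∪ {A} := by
  have key : ∀ {A B D : Subgroup G}, Plane S A B D →
      (fun b : G => conjBy A b) '' (B : Set G) ∪ {⁅A, B⁆} ⊆
        (fun d : G => conjBy ⁅A, B⁆ d) '' (D : Set G) ∪ {A} := by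
    intro A B D hq
    rintro E (⟨b, hb, rfl⟩ | rfl)
    · by_cases hb1 : b = 1
      · exact Or.inr (by simp [hb1, conjBy_one])
      · obtain ⟨d, hd, he⟩ := conj_eq_conj hS hq hb hb1
        exact Or.inl ⟨d, hd, he.symm⟩
    · exact Or.inl ⟨1, one_mem _, conjBy_one _⟩
  refine Set.Subset.antisymm (key hp) ?_
  have := key (symm hp)
  rwa [show ⁅⁅A, B⁆, D⁆ = A by rw [Subgroup.commutator_comm]; exact hp.eq] at this

theorem orbit_eq (hS : IsRootSubgroupSet S) (hp : Plane S A B D) :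
    {E | ∃ x ∈ B ⊔ D, E = conjBy A x} =
      (fun b : G => conjBy A b) '' (B : Set G) ∪ {⁅A, B⁆} ∧
    {E | ∃ x ∈ B ⊔ D, E = conjBy A x} = {E | ∃ x ∈ B ⊔ D, E = conjBy ⁅A, B⁆ x} := by
  obtain ⟨x, hx, hxD⟩ := RankOne.right_mem_unipotent (rankOne hS hp)
  have hAC : A = conjBy ⁅A, B⁆ x := by
    rw [← fixed_right hS hp, ← fixed_conj hp hx, ← hxD, fixed_left hS hp]
  refine ⟨Set.Subset.antisymm ?_ ?_, ?_⟩
  · rintro E ⟨y, hy, rfl⟩
    refine conjBy_mem_of_sup ?_ ?_ (Or.inl ⟨1, one_mem _, conjBy_one A⟩) hy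
    · rintro E (⟨b, hb, rfl⟩ | rfl) b' hb'
      · exact Or.inl ⟨b' * b, mul_mem hb' hb, (conjBy_conjBy A b' b).symm⟩
      · exact Or.inr (conjBy_eq_of_commutes fun c hc =>
          (CommCase.central_right hp.up hc hb').symm)
    · rw [orbit_sets_eq hS hp]
      rintro E (⟨d, hd, rfl⟩ | rfl) d' hd'
      · exact Or.inl ⟨d' * d, mul_mem hd' hd, (conjBy_conjBy _ d' d).symm⟩
      · exact Or.inr (conjBy_eq_of_commutes fun a ha => (comm_A_D hp ha hd').symm)
  · rintro E (⟨b, hb, rfl⟩ | rfl)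
    · exact ⟨b, Subgroup.mem_sup_left hb, rfl⟩
    · exact ⟨x⁻¹, inv_mem hx, by conv_rhs => rw [hAC, conjBy_conjBy, inv_mul_cancel, conjBy_one]⟩
  · ext E
    constructor
    · rintro ⟨y, hy, rfl⟩
      exact ⟨y * x, mul_mem hy hx, by rw [hAC, conjBy_conjBy, ← hAC]⟩
    · rintro ⟨y, hy, rfl⟩
      exact ⟨y * x⁻¹, mul_mem hy (inv_mem hx), by
        conv_rhs => rw [hAC, conjBy_conjBy, mul_assoc, inv_mul_cancel, mul_one]⟩

theorem partition (hS : IsRootSubgroupSet S) (hp : Plane S A B D) :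
    IsSubgroupPartition (A ⊔ ⁅A, B⁆) {E | ∃ x ∈ B ⊔ D, E = conjBy A x} := by
  rw [(orbit_eq hS hp).1]
  have hle : ∀ b ∈ B, conjBy A b ≤ A ⊔ ⁅A, B⁆ := fun b hb => CommCase.conjBy_le_sup hp.up hb
  have hd : ∀ b ∈ B, conjBy A b ⊓ ⁅A, B⁆ = ⊥ := by
    intro b hb
    rw [Subgroup.eq_bot_iff_forall]
    rintro x ⟨hx, hxC⟩
    have h1 := mem_conjBy.1 hx
    rw [mul_assoc, CommCase.central_right hp.up hxC hb, inv_mul_cancel_left] at h1
    exact eq_one_of_mem hS hp h1 hxC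
  refine ⟨?_, fun x hx hx1 => ?_, ?_⟩
  · rintro E (⟨b, hb, rfl⟩ | rfl)
    exacts [hle b hb, le_sup_right]
  · obtain ⟨a, ha, c, hc, rfl⟩ := (CommCase.mem_sup hp.up).1 hx
    by_cases ha1 : a = 1
    · exact ⟨_, Or.inr rfl, by simpa [ha1] using hc⟩
    · obtain ⟨b, hb, hbc⟩ := CommCase.exists_conj_eq hp.up ha ha1 hc
      refine ⟨conjBy A b, Or.inl ⟨b, hb, rfl⟩, ?_⟩
      rw [← CommCase.central_left hp.up hc ha, ← hbc]
      exact mem_conjBy.2 (by simpa [mul_assoc] using ha)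
  · rintro E (⟨b, hb, rfl⟩ | rfl) F (⟨b', hb', rfl⟩ | rfl) hne
    · rw [Subgroup.eq_bot_iff_forall]
      rintro x ⟨hx, hx'⟩
      have ha := mem_conjBy.1 hx
      have ha' := mem_conjBy.1 hx'
      set β := b'⁻¹ * b with hβ
      have hβB : β ∈ B := mul_mem (inv_mem hb') hb
      have hb1 : β ≠ 1 := fun h0 => hne (by rw [← inv_mul_eq_one.1 h0])
      -- moving by `β` fixes the component in `A`
      have h1 : β * (b⁻¹ * x * b) * β⁻¹ * (b⁻¹ * x * b)⁻¹ ∈ ⁅A, B⁆ := by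
        rw [Subgroup.commutator_comm]; exact Subgroup.commutator_mem_commutator hβB ha
      have h2 : β * (b⁻¹ * x * b) * β⁻¹ ∈ A := by simpa [hβ, mul_assoc] using ha'
      have h3 := eq_one_of_mem hS hp (mul_mem h2 (inv_mem ha)) h1
      have h4 : b⁻¹ * x * b = 1 := eq_one_of_commute_up hS hp ha hβB hb1 (by
        calc b⁻¹ * x * b * β = 1 * (b⁻¹ * x * b * β) := (one_mul _).symm
          _ = _ := by rw [← h3]; simp [mul_assoc])
      simpa [mul_assoc] using congrArg (fun t => b * t * b⁻¹) h4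
    · exact hd b hb
    · rw [inf_comm]; exact hd b' hb'
    · exact absurd rfl hne

theorem centralizer_central (hS : IsRootSubgroupSet S) (hp : Plane S A B D) :
    ∀ z ∈ (B ⊔ D) ⊓ Subgroup.centralizer ((A ⊔ ⁅A, B⁆ : Subgroup G) : Set G),
      ∀ y ∈ B ⊔ D, z * y = y * z := by
  have key : ∀ {A B D : Subgroup G}, Plane S A B D → ∀ z ∈ B ⊔ D,
      z ∈ Subgroup.centralizer ((A ⊔ ⁅A, B⁆ : Subgroup G) : Set G) →
      ∀ b ∈ B, z * b = b * z := by
    intro A B D hq z hz hzc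
    have hV : ∀ v ∈ A ⊔ ⁅A, B⁆, z * v = v * z := fun v hv =>
      (Subgroup.mem_centralizer_iff.1 hzc v hv).symm
    have hC : conjBy ⁅A, B⁆ z = ⁅A, B⁆ :=
      conjBy_eq_of_commutes fun c hc => hV c (Subgroup.mem_sup_right hc)
    have hBz : conjBy B z = B := by
      rcases (RankOne.mem_unipotent_iff (rankOne hS hq)).1
        (RankOne.conjBy_mem_unipotent RankOne.left_mem_unipotent hz) with h | ⟨b, hb, h⟩
      · exact h
      · exfalso
        have h1 := fixed_conj hq (U := B) hz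
        rw [fixed_right hS hq, hC, h, fixed_conj hq (Subgroup.mem_sup_left hb),
          fixed_left hS hq] at h1
        obtain ⟨c, hc, hc1⟩ := exists_ne_one hS hq.up.1
        rw [← h1, mem_conjBy] at hc
        apply hc1
        have hc' : c ∈ ⁅A, B⁆ := h1 ▸ mem_conjBy.2 hc
        have h2 := CommCase.central_right hq.up hc' hb
        rw [mul_assoc, h2, inv_mul_cancel_left] at hc
        exact eq_one_of_mem hS hq hc hc'
    intro b hb
    have hb' : z * b * z⁻¹ ∈ B := hBz ▸ mem_conjBy.2 (by simpa [mul_assoc] using hb)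
    obtain ⟨a, ha, ha1⟩ := exists_ne_one hS hq.hA
    have hba : b⁻¹ * (z * b * z⁻¹) = 1 := by
      by_contra hne
      apply ha1
      refine eq_one_of_commute_up hS hq ha (mul_mem (inv_mem hb) hb') hne ?_
      have h1 : z⁻¹ * a * z = a := by
        rw [mul_assoc, ← hV a (Subgroup.mem_sup_left ha), inv_mul_cancel_left]
      have h2 : b * a * b⁻¹ ∈ A ⊔ ⁅A, B⁆ :=
        CommCase.conjBy_le_sup hq.up hb (mem_conjBy.2 (by simpa [mul_assoc] using ha))
      have h3 : (z * b * z⁻¹) * a = (b * a * b⁻¹) * (z * b * z⁻¹) := by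
        calc (z * b * z⁻¹) * a = z * b * (z⁻¹ * a * z) * z⁻¹ := by simp [mul_assoc]
          _ = z * (b * a * b⁻¹) * b * z⁻¹ := by rw [h1]; simp [mul_assoc]
          _ = _ := by rw [hV _ h2]; simp [mul_assoc]
      calc a * (b⁻¹ * (z * b * z⁻¹)) = b⁻¹ * ((b * a * b⁻¹) * (z * b * z⁻¹)) := by
            simp [mul_assoc]
        _ = _ := by rw [← h3]; simp [mul_assoc]
    calc z * b = z * b * z⁻¹ * z := by simp [mul_assoc]
      _ = b * z := by rw [← inv_mul_eq_one.1 hba]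
  rintro z ⟨hz, hzc⟩
  have hd := key (symm hp) z (sup_comm B D ▸ hz) (by
    rw [show ⁅⁅A, B⁆, D⁆ = A by rw [Subgroup.commutator_comm]; exact hp.eq, sup_comm]
    exact hzc)
  intro y hy
  exact (Subgroup.mem_centralizer_iff.1 (RankOne.commutes_sup (key hp z hz hzc) hd) y hy).symm

end Plane

end CfsgLib.RootSubgroups.Cls
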