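import Cfsg.Agent.RootSubgroups.ClassesLine
import Cfsg.Agent.RootSubgroups.ClassesPlane

/-!
# Generation and connectivity for non-degenerate classes
-/

set_option autoImplicit false

namespace CfsgLib.RootSubgroups.Cls

open scoped commutatorElement

open Cfsg CfsgLib.RootSubgroups

variable {G : Type*} [Group G] {S : Set (Subgroup G)}

theorem allPartners_of_nondeg (hS : IsRootSubgroupClass S) (hnd : IsNondegenerateRootSet S) :
    AllPartners S := by
  obtain ⟨-, ⟨A, hA, B, hB, h⟩, -⟩ := hnd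
  exact allPartners_of_class hS.2 hS.1 hA hB h

theorem exists_line (hS : IsRootSubgroupClass S) (hnd : IsNondegenerateRootSet S)
    {A : Subgroup G} (hA : A ∈ S) : ∃ B, B ∈ linePartners S A := by
  have hall := allPartners_of_nondeg hS hnd
  obtain ⟨-, -, A₀, hA₀, B₀, hB₀, h⟩ := hnd
  obtain ⟨P, hP, hAP⟩ := hall A₀ hA₀
  have hl := CommCase.line_commutator hS.1 h hA₀ hP hAP
  obtain ⟨g, rfl⟩ := hS.2.2 _ h.1 A hA
  exact ⟨_, linePartners_conj hS.1 hl g⟩

theorem exists_line_comm (hS : IsRootSubgroupClass S) (hnd : IsNondegenerateRootSet S)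
    {A B : Subgroup G} (hA : A ∈ S) (hB : B ∈ rankOnePartners S A) :
    ∃ C ∈ linePartners S A, RootCommutatorCase S C B := by
  obtain ⟨L, hL⟩ := exists_line hS hnd hA
  obtain ⟨E, hE, hEA, hEP, -, -, hAE⟩ :=
    line_structure hS.1 (allPartners_of_nondeg hS hnd) hA hB.1 hB.2 hL
  refine ⟨E, ⟨⟨hE.1, hEA, commutator_eq_bot_iff_commutes.2 fun a ha e he =>
    (commute_of_bot (line_comm hS.1 hA hL) (Subgroup.mem_sup_left ha) (hE.2 he)).eq⟩, ?_⟩, hEP⟩
  rw [hAE]; exact hL.2

theorem special_of_nondeg (hS : IsRootSubgroupClass S) (hnd : IsNondegenerateRootSet S)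
    {A B : Subgroup G} (hA : A ∈ S) (hB : B ∈ rankOnePartners S A) :
    IsSpecialRankOnePair A B := by
  obtain ⟨E, hE, hEB⟩ := exists_line_comm hS hnd hA hB
  refine ⟨hB.2, fun a ha ha1 b hb hb1 hab => ?_⟩
  have h := (line_key hS.1 (allPartners_of_nondeg hS hnd) hA hE.1.1 hB.1 hE.1.2.1.symm hE.1.2.2
    (fun x hx e he hne => by
      obtain ⟨M, hM, hMm⟩ := hE.2.2.1 _
        (mul_mem (Subgroup.mem_sup_left hx) (Subgroup.mem_sup_right he)) hne
      exact ⟨M, hM.1, hMm⟩) hB.2 hEB).2 a⁻¹ (inv_mem ha) (by simpa using ha1) b⁻¹ (inv_mem hb)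
        (by simpa using hb1) hab
  simpa [mul_assoc] using congrArg (fun t => t⁻¹) h

theorem line_connected (hS : IsRootSubgroupClass S) (hnd : IsNondegenerateRootSet S) :
    IsConnectedFamily (EAdj S S) S := by
  have hall := allPartners_of_nondeg hS hnd
  have hsymm : ∀ {X Y : Subgroup G}, Relation.ReflTransGen (EAdj S S) X Y →
      Relation.ReflTransGen (EAdj S S) Y X := by
    intro X Y h
    induction h with
    | refl => exact .refl
    | tail _ hadj ih => exact .head ⟨hadj.2.1, hadj.1, linePartners_symm hadj.1 hadj.2.2⟩ ih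
  have hconj : ∀ {X Y : Subgroup G}, Relation.ReflTransGen (EAdj S S) X Y → ∀ g : G,
      Relation.ReflTransGen (EAdj S S) (conjBy X g) (conjBy Y g) := by
    intro X Y h g
    induction h with
    | refl => exact .refl
    | tail _ hadj ih =>
      exact ih.tail ⟨hS.1.conj_mem _ hadj.1 g, hS.1.conj_mem _ hadj.2.1 g,
        linePartners_conj hS.1 hadj.2.2 g⟩
  have hcomm : ∀ {X E : Subgroup G}, X ∈ S → RootCommutatorCase S X E → ∀ e ∈ E,
      Relation.ReflTransGen (EAdj S S) X (conjBy X e) := by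
    intro X E hX h e he
    by_cases he1 : e = 1
    · rw [he1, conjBy_one]
    obtain ⟨P, hP, hXP⟩ := hall X hX
    exact .single ⟨hX, hS.1.conj_mem X hX e, CommCase.line_conj hS.1 h hX hP hXP he he1⟩
  intro A hA B hB
  have step : ∀ E ∈ S, ∀ e ∈ E, Relation.ReflTransGen (EAdj S S) A (conjBy A e) := by
    intro E hE e he
    rcases hS.1.pair A hA E hE with h | h | h
    · rw [conjBy_eq_of_commutes fun x hx =>
        (commutator_eq_bot_iff_commutes.1 h x hx e he).symm]
    · obtain ⟨C, hC, hCE⟩ := exists_line_comm hS hnd hA ⟨hE, h⟩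
      exact ((Relation.ReflTransGen.single (show EAdj S S A C from ⟨hA, hC.1.1, hC⟩)).trans
        (hcomm hC.1.1 hCE e he)).tail
          ⟨hS.1.conj_mem _ hC.1.1 e, hS.1.conj_mem _ hA e,
            linePartners_conj hS.1 (linePartners_symm hA hC) e⟩
    · exact hcomm hA h e he
  let K : Subgroup G :=
    { carrier := {g | Relation.ReflTransGen (EAdj S S) A (conjBy A g)}
      one_mem' := by simp only [Set.mem_ofPred_eq, conjBy_one]; exact .refl
      mul_mem' := by
        intro x y hx hy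
        have := hconj hy x
        rw [conjBy_conjBy] at this
        exact Relation.ReflTransGen.trans hx this
      inv_mem' := by
        intro x hx
        have := hconj hx x⁻¹
        rw [conjBy_conjBy, inv_mul_cancel, conjBy_one] at this
        exact hsymm this }
  have hK : K = ⊤ := by
    rw [eq_top_iff, ← hS.1.generates]
    exact iSup₂_le fun E hE e he => step E hE e he
  obtain ⟨g, rfl⟩ := hS.2.2 A hA B hB
  exact (hK ▸ Subgroup.mem_top g : g ∈ K)

theorem line_generates (hS : IsRootSubgroupClass S) (hnd : IsNondegenerateRootSet S)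
    {A B : Subgroup G} (hA : A ∈ S) (hB : B ∈ rankOnePartners S A) :
    (⨆ C ∈ linePartners S A, C) ⊔ B = ⊤ := by
  have hall := allPartners_of_nondeg hS hnd
  set H := (⨆ C ∈ linePartners S A, C) ⊔ B with hH
  have hline : ∀ C ∈ linePartners S A, C ≤ H := fun C hC =>
    (le_iSup₂ (f := fun (C : Subgroup G) (_ : C ∈ linePartners S A) => C) C hC).trans le_sup_left
  -- a line through `A`: the movers lie in `H`
  have main : ∀ C ∈ linePartners S A, A ≤ H ∧ ∃ x ∈ H, conjBy A x = C := by
    intro C hC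
    obtain ⟨E, hE, hEA, hEB, hAK, hAKE, hAE⟩ := line_structure hS.1 hall hA hB.1 hB.2 hC
    have hEline : E ∈ linePartners S A := ⟨⟨hE.1, hEA, commutator_eq_bot_iff_commutes.2
      fun a ha e he => (commute_of_bot (line_comm hS.1 hA hC) (Subgroup.mem_sup_left ha)
        (hE.2 he)).eq⟩, by rw [hAE]; exact hC.2⟩
    have hKH : ⁅E, B⁆ ≤ H := by
      rw [Subgroup.commutator_le]
      intro e he b hb
      have he' := hline E hEline he
      have hb' : b ∈ H := Subgroup.mem_sup_right hb
      exact mul_mem (mul_mem (mul_mem he' hb') (inv_mem he')) (inv_mem hb')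
    obtain ⟨k, hk, hk1⟩ := exists_ne_one hS.1 hEB.1
    have hlk := CommCase.line_conj hS.1 hAK hA hB.1 hB.2 hk hk1
    have hmem : ∀ M ∈ membersIn S (A ⊔ C), (∃ k ∈ ⁅E, B⁆, conjBy A k = M) ∨ M = E := by
      intro M hM
      have h1 : M ∈ membersIn S (A ⊔ ⁅A, ⁅E, B⁆⁆) := by rw [hAKE, hAE]; exact hM
      rw [CommCase.membersIn_eq hS.1 hAK hA hB.1 hB.2] at h1
      rcases h1 with ⟨k, hk, hk'⟩ | h1
      · exact Or.inl ⟨k, hk, hk'⟩
      · exact Or.inr (h1.trans hAKE)
    have hAkm : conjBy A k ∈ membersIn S (A ⊔ C) :=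
      ⟨hS.1.conj_mem A hA k, (CommCase.conjBy_le_sup hAK hk).trans (by rw [hAKE, hAE])⟩
    have hne : E ≠ conjBy A k := by
      intro he
      have h1 := congrArg (fun U => conjBy U k⁻¹) he
      simp only [conjBy_conjBy, inv_mul_cancel, conjBy_one] at h1
      rw [conjBy_eq_of_commutes fun e he' =>
        CommCase.central_left hEB (inv_mem hk) he'] at h1
      exact hEA h1
    have hAH : A ≤ H := by
      have h1 := line_sup_eq hS.1 hall hA hC hE hAkm hne
      exact (le_sup_left.trans h1.ge).trans (sup_le (hline E hEline) (hline _ hlk))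
    refine ⟨hAH, ?_⟩
    rcases hmem C ⟨hC.1.1, le_sup_right⟩ with ⟨x, hx, hxC⟩ | hCE
    · exact ⟨x, hKH hx, hxC⟩
    obtain ⟨D, hD, hED, hEDA⟩ :=
      exists_mover hS.1 hall hA hC hE ⟨hA, le_sup_left⟩ hEA
    obtain ⟨PD, hPD, hDPD⟩ := hall D hD
    have hDH : D ≤ H := by
      have h1 := CommCase.line_commutator hS.1 (CommCase.symm hED) hD hPD hDPD
      rw [Subgroup.commutator_comm, hEDA] at h1
      exact hline D h1
    obtain ⟨d, hd, hd1⟩ := exists_ne_one hS.1 hD
    obtain ⟨PE, hPE, hEPE⟩ := hall E hE.1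
    have hdm : conjBy E d ∈ membersIn S (A ⊔ C) :=
      ⟨hS.1.conj_mem E hE.1 d, (CommCase.conjBy_le_sup hED hd).trans
        (by rw [hEDA]; exact sup_le hE.2 le_sup_left)⟩
    rcases hmem _ hdm with ⟨x, hx, hxd⟩ | hdE
    · refine ⟨d⁻¹ * x, mul_mem (inv_mem (hDH hd)) (hKH hx), ?_⟩
      rw [hCE, ← conjBy_conjBy, hxd, conjBy_conjBy, inv_mul_cancel, conjBy_one]
    · exact absurd hdE (CommCase.line_conj hS.1 hED hE.1 hPE hEPE hd hd1).1.2.1
  obtain ⟨L, hL⟩ := exists_line hS hnd hA
  have hAH := (main L hL).1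
  rw [eq_top_iff, ← hS.1.generates]
  refine iSup₂_le fun M hM => ?_
  obtain ⟨x, hx, rfl⟩ : ∃ x ∈ H, conjBy A x = M := by
    have hconn := line_connected hS hnd A hA M hM
    clear hM
    induction hconn with
    | refl => exact ⟨1, one_mem _, conjBy_one A⟩
    | tail _ hadj ih =>
      obtain ⟨x, hx, rfl⟩ := ih
      have h1 := linePartners_conj hS.1 hadj.2.2 x⁻¹
      rw [conjBy_conjBy, inv_mul_cancel, conjBy_one] at h1
      obtain ⟨y, hy, hy'⟩ := (main _ h1).2
      refine ⟨x * y, mul_mem hx hy, ?_⟩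
      rw [← conjBy_conjBy, hy', conjBy_conjBy, mul_inv_cancel, conjBy_one]
  intro m hm
  have := mul_mem (mul_mem hx (hAH (mem_conjBy.1 hm))) (inv_mem hx)
  simpa [mul_assoc] using this

/-- A weak TI-subset of a non-degenerate class is abelian. -/
theorem weakTI_abelian (hS : IsRootSubgroupClass S) (hnd : IsNondegenerateRootSet S)
    {Δ : Set (Subgroup G)} (hΔ : IsWeakTISubset S Δ) : IsAbelianFamily Δ := by
  obtain ⟨hsub, -, hne, hti⟩ := hΔ
  have hall := allPartners_of_nondeg hS hnd
  let N : Subgroup G :=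
    { carrier := {g | (fun X => conjBy X g) '' Δ = Δ}
      one_mem' := by simp [conjBy_one]
      mul_mem' := by
        intro x y hx hy
        show (fun X => conjBy X (x * y)) '' Δ = Δ
        have : (fun X : Subgroup G => conjBy X (x * y)) =
            (fun X => conjBy X x) ∘ fun X => conjBy X y := by
          funext X; exact (conjBy_conjBy X x y).symm
        rw [this, Set.image_comp, show (fun X => conjBy X y) '' Δ = Δ from hy]
        exact hx
      inv_mem' := by
        intro x hx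
        show (fun X => conjBy X x⁻¹) '' Δ = Δ
        conv_lhs => rw [← show (fun X => conjBy X x) '' Δ = Δ from hx]
        rw [Set.image_image]
        simp only [conjBy_conjBy, inv_mul_cancel, conjBy_one, Set.image_id'] }
  -- members centralizing a member of `Δ` stabilize `Δ`
  have hN : ∀ X ∈ Δ, ∀ M ∈ S, ⁅M, X⁆ = ⊥ → M ≤ N := by
    intro X hX M hM hc m hm
    by_cases hm1 : m = 1
    · rw [hm1]; exact one_mem _
    rcases hti m ⟨hm1, M, hM, hm⟩ with h | h
    · exact h
    · exact absurd hX (Set.disjoint_left.1 h ⟨X, hX,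
        conjBy_eq_of_commutes fun x hx => commutator_eq_bot_iff_commutes.1 hc m hm x hx⟩)
  have hself : ∀ X ∈ Δ, X ≤ N := fun X hX => hN X hX X (hsub hX)
    (commutator_eq_bot_iff_commutes.2 fun _ hx _ hy =>
      RootSet.comm_of_mem hS.1 (hsub hX) hx hy)
  have hproper : ∀ (A B : Subgroup G), A ∈ Δ → B ∈ rankOnePartners S A → ¬ B ≤ N := by
    intro A B hA hB hBN
    apply hne
    have htop : N = ⊤ := by
      rw [eq_top_iff, ← line_generates hS hnd (hsub hA) hB]
      exact sup_le (iSup₂_le fun C hC => hN A hA C hC.1.1 (bot_comm hC.1.2.2)) hBN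
    refine Set.Subset.antisymm hsub fun M hM => ?_
    obtain ⟨g, rfl⟩ := hS.2.2 A (hsub hA) M hM
    have hg : g ∈ N := htop ▸ Subgroup.mem_top g
    exact (show (fun X => conjBy X g) '' Δ = Δ from hg) ▸ ⟨A, hA, rfl⟩
  intro A hA B hB a ha b hb
  rcases hS.1.pair A (hsub hA) B (hsub hB) with h | h | h
  · exact commutator_eq_bot_iff_commutes.1 h a ha b hb
  · exact absurd (hself B hB) (hproper A B hA ⟨hsub hB, h⟩)
  · exfalso
    obtain ⟨P, hP, hBP⟩ := hall B (hsub hB)
    have h' := CommCase.symm h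
    have hline := CommCase.line_commutator hS.1 h' (hsub hB) hP hBP
    obtain ⟨D, hD, hKD, hKDB⟩ := exists_mover hS.1 hall h'.1 hline ⟨h'.1, le_sup_left⟩
      ⟨hsub hB, le_sup_right⟩ hline.1.2.1.symm
    have hp : Plane S B A D := ⟨hsub hB, hsub hA, hD, h', CommCase.symm hKD,
      by rw [Subgroup.commutator_comm]; exact hKDB⟩
    refine hproper A D hA ⟨hD, hp.rankOne hS.1⟩ (hN B hB D hD ?_)
    exact commutator_eq_bot_iff_commutes.2 fun d hd y hy =>
      (CommCase.central_right hKD (hKDB.symm ▸ hy) hd).symm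

end CfsgLib.RootSubgroups.Cls
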