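import Cfsg.Agent.RootSubgroups.ClassesTriple

/-!
# Lines of abstract root subgroups
-/

set_option autoImplicit false

namespace CfsgLib.RootSubgroups.Cls

open scoped commutatorElement

open Cfsg CfsgLib.RootSubgroups

variable {G : Type*} [Group G] {S : Set (Subgroup G)}

theorem exists_swap {M P : Subgroup G} (h : IsRankOnePair M P) {m : G} (hm : m ∈ M)
    (hm1 : m ≠ 1) : ∃ q ∈ P, q ≠ 1 ∧ conjBy M q = conjBy P m := by
  obtain ⟨b, hb, hb1, hmb⟩ := h.cond_left m⁻¹ (inv_mem hm) (by simpa using hm1)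
  exact ⟨b⁻¹, inv_mem hb, by simpa using hb1, by rwa [inv_inv] at hmb⟩

/-- If `E` commutes with `A`, the products lie in members, `(A, P)` is a rank one pair and
`(E, P)` is in the commutator case, then `⁅E, P⁆` moves `A` onto `E` and `(A, P)` is special. -/
theorem line_key (hS : IsRootSubgroupSet S) (hall : AllPartners S) {A E P : Subgroup G}
    (hA : A ∈ S) (hE : E ∈ S) (hP : P ∈ S) (hne : A ≠ E) (hAE : ⁅A, E⁆ = ⊥)
    (hcov : ∀ a ∈ A, ∀ e ∈ E, a * e ≠ 1 → ∃ M ∈ S, a * e ∈ M)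
    (hAP : IsRankOnePair A P) (hEP : RootCommutatorCase S E P) :
    (RootCommutatorCase S A ⁅E, P⁆ ∧ ⁅A, ⁅E, P⁆⁆ = E) ∧
      ∀ a ∈ A, a ≠ 1 → ∀ q ∈ P, q ≠ 1 → conjBy A q = conjBy P a →
        q * a * q⁻¹ = a * q⁻¹ * a⁻¹ := by
  set K := ⁅E, P⁆ with hKdef
  obtain ⟨PE, hPE, hEPE⟩ := hall E hE
  obtain ⟨PK, hPK, hKPK⟩ := hall K hEP.1
  have hEK : ∀ k ∈ K, ∀ e ∈ E, k * e = e * k := fun k hk e he => CommCase.central_left hEP hk he
  have hPK' : ∀ k ∈ K, ∀ p ∈ P, k * p = p * k := fun k hk p hp =>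
    CommCase.central_right hEP hk hp
  have hae : ∀ a ∈ A, a ≠ 1 → ∀ e ∈ E, a * e ≠ 1 := by
    intro a ha ha1 e he h0
    have : a ∈ E := by rw [eq_inv_of_mul_eq_one_left h0]; exact inv_mem he
    exact hne (RootSet.eq_of_inter hS hA hP hAP hE ha this ha1).symm
  have hAK : RootCommutatorCase S A K := by
    rcases hS.pair A hA K hEP.1 with h | h | h
    · exfalso
      have h1 : ⁅⁅A, P⁆, E⁆ = ⊥ := by
        refine Subgroup.commutator_commutator_eq_bot_of_rotate ?_ ?_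
        · rw [Subgroup.commutator_comm P E, Subgroup.commutator_comm]
          exact h
        · rw [bot_comm hAE, Subgroup.commutator_bot_left]
      exact hS.ne_bot _ hEP.1 (commutes_partner hS hP hAP (bot_comm hAE) (bot_comm h1))
    · exfalso
      obtain ⟨a, ha, ha1⟩ := RankOne.exists_left hAP
      obtain ⟨e, he, he1⟩ := exists_ne_one hS hE
      obtain ⟨M, hM, haM⟩ := hcov a ha e he (hae a ha ha1 e he)
      have hea : e * a = a * e := (commute_of_bot hAE ha he).symm.eq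
      exact RootSet.translate_not_root hS hA hEP.1 h
        (RankOne.commutes_sup (fun x hx => ((commute_of_bot hAE hx he).symm : Commute e x).eq)
          fun k hk => (hEK k hk e he).symm)
        he1 a ha ha1 ⟨by rw [hea]; exact hae a ha ha1 e he, M, hM, by rw [hea]; exact haM⟩
    · exact h
  set H := ⁅A, K⁆ with hHdef
  have hHA : ∀ h ∈ H, ∀ a ∈ A, h * a = a * h := fun h hh a ha => CommCase.central_left hAK hh ha
  have hHK : ∀ h ∈ H, ∀ k ∈ K, h * k = k * h := fun h hh k hk => CommCase.central_right hAK hh hk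
  have hHE : ∀ h ∈ H, ∀ e ∈ E, h * e = e * h := by
    intro h hh e he
    have h1 : ⁅E, H⁆ = ⊥ := bot_commutator (bot_comm hAE)
      (commutator_eq_bot_iff_commutes.2 fun e he k hk => (hEK k hk e he).symm)
    exact (commute_of_bot h1 he hh).symm.eq
  have main : ∀ a ∈ A, a ≠ 1 → ∀ q ∈ P, q ≠ 1 → conjBy A q = conjBy P a → ∀ e ∈ E, e ≠ 1 →
      q * a * q⁻¹ = a * q⁻¹ * a⁻¹ ∧ e ∈ H := by
    intro a ha ha1 q hq hq1 haq e he he1
    have hea : e * a = a * e := (commute_of_bot hAE ha he).symm.eq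
    obtain ⟨M, hM, haM⟩ := hcov a ha e he (hae a ha ha1 e he)
    have hMP : IsRankOnePair M P := line_third_adj hS hA hM hP hAP (bot_comm hAE) he he1 ha ha1
      (hea.symm ▸ haM) (by rw [hea]; exact hae a ha ha1 e he) (Or.inr hEP)
    obtain ⟨q', hq', -, hMq⟩ := exists_swap hMP haM (hae a ha ha1 e he)
    have hqq : q' = q := by
      by_contra hqq
      set r := q⁻¹ * q' with hr
      have hrP : r ∈ P := mul_mem (inv_mem hq) hq'
      have hr1 : r ≠ 1 := fun h0 => hqq (inv_mul_eq_one.1 h0).symm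
      have hcomm : ⁅A, conjBy M r⁆ = ⊥ := by
        have h1 : ⁅P, conjBy P e⁆ = ⊥ := commutator_eq_bot_iff_commutes.2
          (RootSet.commCase_conj_commutes hS hP hEP he)
        have h2 := congrArg (fun U => conjBy U (q⁻¹ * a)) h1
        simp only [conjBy_commutator, conjBy_bot, conjBy_conjBy] at h2
        rw [← conjBy_conjBy P q⁻¹ a, ← haq, conjBy_conjBy, inv_mul_cancel, conjBy_one,
          mul_assoc, ← conjBy_conjBy P q⁻¹ (a * e), ← hMq, conjBy_conjBy] at h2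
        exact h2
      set k := r * e * r⁻¹ * e⁻¹ with hk
      have hkK : k ∈ K := by
        rw [hKdef, Subgroup.commutator_comm]; exact Subgroup.commutator_mem_commutator hrP he
      have hk1 : k ≠ 1 :=
        CommCase.comm_ne_one hS (CommCase.symm hEP) hP hA (RankOnePair_symm hAP) hrP hr1 he he1
      set u := r * a * r⁻¹ with hu
      have huA : u ∈ conjBy A r := mem_conjBy.2 (by simpa [hu, mul_assoc] using ha)
      have hX : u ∈ A ⊔ P := mul_mem (mul_mem (Subgroup.mem_sup_right hrP)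
        (Subgroup.mem_sup_left ha)) (inv_mem (Subgroup.mem_sup_right hrP))
      have key : ∀ a0 ∈ A, a0 * u * a0⁻¹ * (a0 * k * a0⁻¹ * k⁻¹) = u := by
        intro a0 ha0
        have hm : r * (a * e) * r⁻¹ ∈ conjBy M r :=
          mem_conjBy.2 (by simpa [mul_assoc] using haM)
        have h1 : a0 * (r * (a * e) * r⁻¹) = r * (a * e) * r⁻¹ * a0 :=
          (commute_of_bot hcomm ha0 hm).eq
        have h2 : r * (a * e) * r⁻¹ = u * k * e := by simp [hu, hk, mul_assoc]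
        rw [h2] at h1
        have hea0 : e * a0⁻¹ = a0⁻¹ * e := (commute_of_bot hAE (inv_mem ha0) he).symm.eq
        calc a0 * u * a0⁻¹ * (a0 * k * a0⁻¹ * k⁻¹)
            = a0 * (u * k) * (a0⁻¹ * e) * e⁻¹ * k⁻¹ := by simp [mul_assoc]
          _ = a0 * (u * k * e) * a0⁻¹ * e⁻¹ * k⁻¹ := by rw [← hea0]; simp [mul_assoc]
          _ = u := by rw [h1]; simp [mul_assoc]
      have hHle : H ≤ A ⊔ P := by
        rw [hHdef, ← hAK.2.2.2 k hkK hk1, Subgroup.closure_le]
        rintro _ ⟨a0, ha0, rfl⟩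
        have := key a0 ha0
        rw [← eq_inv_mul_iff_mul_eq] at this
        show a0 * k * a0⁻¹ * k⁻¹ ∈ A ⊔ P
        rw [this]
        exact mul_mem (inv_mem (mul_mem (mul_mem (Subgroup.mem_sup_left ha0) hX)
          (inv_mem (Subgroup.mem_sup_left ha0)))) hX
      rcases RootSet.eq_or_central_of_commutes hS hA hP hAP hAK.1 hHle
          (commutator_eq_bot_iff_commutes.2 hHA) with hHA' | hcen
      · exact CommCase.left_ne hS hAK hHA'.symm
      · have hpair : IsRankOnePair (conjBy A r) A := by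
          refine RankOne.pair_of_mem hAP (RankOne.conjBy_mem_unipotent RankOne.left_mem_unipotent
            (Subgroup.mem_sup_right hrP)) RankOne.left_mem_unipotent ?_
          exact fun h => hr1 (RankOne.eq_one_of_normalizes (RankOnePair_symm hAP) hrP h)
        have hu1 : u ≠ 1 := fun h0 => ha1 (by
          simpa [hu, mul_assoc] using congrArg (fun t => r⁻¹ * t * r) h0)
        refine hu1 (RankOne.eq_one_of_commutes hpair huA fun a0 ha0 => ?_)
        have h0eq := key a0 ha0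
        set z := (a0 * k * a0⁻¹ * k⁻¹)⁻¹ with hz
        have hzH : z ∈ H := inv_mem (CommCase.comm_mem hAK ha0 hkK)
        have hzc := hcen hzH
        have hzu : z * u = a0 * u * a0⁻¹ := by
          have h3 : z * u = u * z := (Subgroup.mem_centralizer_iff.1 hzc u hX).symm
          rw [h3, hz]; exact mul_inv_eq_of_eq_mul h0eq.symm
        have hle : conjBy A r ⊔ A ≤ A ⊔ P := sup_le (RankOne.le_sup_of_mem
          (RankOne.conjBy_mem_unipotent RankOne.left_mem_unipotent (Subgroup.mem_sup_right hrP)))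
          le_sup_left
        have hz1 : z = 1 := by
          by_contra hz1
          refine RootSet.translate_not_root hS (hS.conj_mem A hA r) hA hpair
            (Subgroup.centralizer_le hle hzc) hz1 u huA hu1 ⟨?_, conjBy A (a0 * r),
              hS.conj_mem A hA _, ?_⟩
          · rw [hzu]
            exact fun h => hu1 (by simpa [mul_assoc] using congrArg (fun t => a0⁻¹ * t * a0) h)
          · rw [hzu, mem_conjBy]
            simpa [hu, mul_assoc] using ha
        rw [hz1, one_mul] at hzu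
        calc u * a0 = a0 * u * a0⁻¹ * a0 := by rw [← hzu]
          _ = a0 * u := by simp [mul_assoc]
    subst hqq
    -- comparison of the two descriptions of `conjBy M q'`
    have hmem : q' * (a * e) * q'⁻¹ ∈ conjBy P (a * e) :=
      hMq ▸ mem_conjBy.2 (by simpa [mul_assoc] using haM)
    obtain ⟨p, hp, hpe⟩ : ∃ p ∈ P, q' * (a * e) * q'⁻¹ = (a * e) * p * (a * e)⁻¹ :=
      ⟨_, mem_conjBy.1 hmem, by simp [mul_assoc]⟩
    obtain ⟨p0, hp0, hp0e⟩ : ∃ p0 ∈ P, q' * a * q'⁻¹ = a * p0 * a⁻¹ := by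
      have h1 : q' * a * q'⁻¹ ∈ conjBy A q' := mem_conjBy.2 (by simpa [mul_assoc] using ha)
      rw [haq] at h1
      exact ⟨_, mem_conjBy.1 h1, by simp [mul_assoc]⟩
    set k0 := q' * e * q'⁻¹ * e⁻¹ with hk0
    set k1 := e * p * e⁻¹ * p⁻¹ with hk1'
    have hk0K : k0 ∈ K := by
      rw [hKdef, Subgroup.commutator_comm]; exact Subgroup.commutator_mem_commutator hq he
    have hk1K : k1 ∈ K := Subgroup.commutator_mem_commutator he hp
    set h' := a⁻¹ * k0 * a * k0⁻¹ with hh'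
    have hh'H : h' ∈ H := by
      have := Subgroup.commutator_mem_commutator (H₁ := A) (H₂ := K) (inv_mem ha) hk0K
      simpa [hh', hHdef, commutatorElement_def, mul_assoc] using this
    have hae' : Commute a e := commute_of_bot hAE ha he
    have e1 : p0 * h' * k0 * e = k1 * p := by
      calc p0 * h' * k0 * e = a⁻¹ * ((a * p0 * a⁻¹) * (k0 * (a * e))) := by
            simp [hh', mul_assoc]
        _ = a⁻¹ * ((q' * a * q'⁻¹) * (k0 * (e * a))) := by rw [hp0e, hae'.eq]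
        _ = a⁻¹ * (q' * (a * e) * q'⁻¹) * a := by simp [hk0, mul_assoc]
        _ = a⁻¹ * ((a * e) * p * (a * e)⁻¹) * a := by rw [hpe]
        _ = k1 * p := by simp [hk1', mul_assoc]
    have hp0k1 : k1 * p0 = p0 * k1 := hPK' k1 hk1K p0 hp0
    have e2 : p0⁻¹ * p = k1⁻¹ * (h' * k0 * e) := by
      rw [eq_inv_mul_iff_mul_eq, ← mul_assoc,
        show k1 * p0⁻¹ = p0⁻¹ * k1 from hPK' k1 hk1K _ (inv_mem hp0), mul_assoc, ← e1]
      simp [mul_assoc]
    have e3 : p0⁻¹ * p = 1 := by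
      by_contra hne'
      refine CommCase.comm_ne_one hS hEP hE hPE hEPE he he1 (mul_mem (inv_mem hp0) hp) hne' ?_
      have hc : Commute e (p0⁻¹ * p) := by
        rw [e2]
        exact (show Commute e k1 from (hEK k1 hk1K e he).symm).inv_right.mul_right
          (((show Commute e h' from (hHE h' hh'H e he).symm).mul_right
            (show Commute e k0 from (hEK k0 hk0K e he).symm)).mul_right (Commute.refl e))
      rw [hc.eq, mul_assoc _ e, mul_inv_cancel, mul_one, mul_inv_cancel]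
    have hpp : p0 = p := inv_mul_eq_one.1 e3
    have e4 : e = h'⁻¹ * (k0⁻¹ * k1) := by
      have h1 : h' * k0 * e = k1 := by
        rw [e3] at e2; exact (inv_mul_eq_one.1 e2.symm).symm
      rw [← h1, hHK h' hh'H k0 hk0K]
      simp [mul_assoc]
    have e5 : k0⁻¹ * k1 = 1 := by
      by_contra hne'
      refine CommCase.comm_ne_one hS hAK hA hP hAP ha ha1 (mul_mem (inv_mem hk0K) hk1K) hne' ?_
      have hc : Commute a (k0⁻¹ * k1) := by
        have h1 : k0⁻¹ * k1 = h' * e := by rw [e4]; simp [mul_assoc]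
        rw [h1]
        exact (show Commute a h' from (hHA h' hh'H a ha).symm).mul_right hae'
      rw [hc.eq, mul_assoc _ a, mul_inv_cancel, mul_one, mul_inv_cancel]
    refine ⟨?_, by rw [e4, e5, mul_one]; exact inv_mem hh'H⟩
    have e6 : p = q'⁻¹ := by
      have h1 : CommCase.commHom hEP he ⟨p, hp⟩ = CommCase.commHom hEP he ⟨q'⁻¹, inv_mem hq⟩ := by
        rw [show (⟨q'⁻¹, inv_mem hq⟩ : ↥P) = (⟨q', hq⟩ : ↥P)⁻¹ from rfl, map_inv]
        show k1 = (e * q' * e⁻¹ * q'⁻¹)⁻¹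
        rw [(inv_mul_eq_one.1 e5).symm, hk0]
        simp [mul_assoc]
      exact congrArg Subtype.val (CommCase.commHom_injective hS hEP hE hPE hEPE he he1 h1)
    rw [hp0e, hpp, e6]
  refine ⟨⟨hAK, ?_⟩, fun a ha ha1 q hq hq1 haq => ?_⟩
  · obtain ⟨a, ha, ha1⟩ := RankOne.exists_left hAP
    obtain ⟨q, hq, hq1, haq⟩ := exists_swap hAP ha ha1
    obtain ⟨e, he, he1⟩ := exists_ne_one hS hE
    exact RootSet.eq_of_inter hS hE hPE hEPE hAK.1 he (main a ha ha1 q hq hq1 haq e he he1).2 he1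
  · obtain ⟨e, he, he1⟩ := exists_ne_one hS hE
    exact (main a ha ha1 q hq hq1 haq e he he1).1

theorem line_comm (hS : IsRootSubgroupSet S) {A B : Subgroup G} (hA : A ∈ S)
    (h : B ∈ linePartners S A) : ⁅A ⊔ B, A ⊔ B⁆ = ⊥ := by
  have hAA : ⁅A, A⁆ = ⊥ :=
    commutator_eq_bot_iff_commutes.2 fun x hx y hy => RootSet.comm_of_mem hS hA hx hy
  have hBB : ⁅B, B⁆ = ⊥ :=
    commutator_eq_bot_iff_commutes.2 fun x hx y hy => RootSet.comm_of_mem hS h.1.1 hx hy
  exact bot_sup (bot_comm (bot_sup hAA h.1.2.2)) (bot_comm (bot_sup (bot_comm h.1.2.2) hBB))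

/-- On a line through a member `A` with partner `P` some member is in the commutator case
with `P`. -/
theorem exists_comm_member (hS : IsRootSubgroupSet S) {A B P : Subgroup G} (hA : A ∈ S)
    (hP : P ∈ S) (hAP : IsRankOnePair A P) (h : B ∈ linePartners S A) :
    ∃ E ∈ membersIn S (A ⊔ B), E ≠ A ∧ RootCommutatorCase S E P := by
  have hV := line_comm hS hA h
  by_contra hcon
  push Not at hcon
  have hmA : A ∈ membersIn S (A ⊔ B) := ⟨hA, le_sup_left⟩
  have hmB : B ∈ membersIn S (A ⊔ B) := ⟨h.1.1, le_sup_right⟩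
  have hrk : ∀ M ∈ membersIn S (A ⊔ B), IsRankOnePair M P := by
    intro M hM
    by_cases hMA : M = A
    · rw [hMA]; exact hAP
    rcases hS.pair M hM.1 P hP with hc | hr | hk
    · exfalso
      obtain ⟨a, ha, ha1⟩ := RankOne.exists_left hAP
      obtain ⟨e, he, he1⟩ := exists_ne_one hS hM.1
      have hmem : e * a ∈ A ⊔ B := mul_mem (hM.2 he) (Subgroup.mem_sup_left ha)
      have hne : e * a ≠ 1 := fun h0 => hMA (RootSet.eq_of_inter hS hA hP hAP hM.1 ha
        (by rw [eq_inv_of_mul_eq_one_right h0]; exact inv_mem he) ha1)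
      obtain ⟨N, hN, hNm⟩ := h.2.2.1 _ hmem hne
      exact RootSet.translate_not_root hS hA hP hAP
        (RankOne.commutes_sup
          (fun x hx => (commute_of_bot hV (hM.2 he) (Subgroup.mem_sup_left hx)).eq)
          (fun x hx => (commute_of_bot hc he hx).eq)) he1 a ha ha1 ⟨hne, N, hN.1, hNm⟩
    · exact hr
    · exact absurd hk (hcon M hM hMA)
  obtain ⟨d, hd, hd1⟩ := RankOne.exists_left (RankOnePair_symm hAP)
  obtain ⟨a, ha, ha1, had⟩ := (hrk A hmA).cond_right d hd hd1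
  obtain ⟨b, hb, -, hbd⟩ := (hrk B hmB).cond_right d hd hd1
  have hab : a * b⁻¹ ≠ 1 := fun h0 => h.1.2.1 (RootSet.eq_of_inter hS hA hP hAP h.1.1 ha
    (by rw [mul_inv_eq_one.1 h0]; exact hb) ha1)
  obtain ⟨M, hM, hMm⟩ := h.2.2.1 (a * b⁻¹)
    (mul_mem (Subgroup.mem_sup_left ha) (inv_mem (Subgroup.mem_sup_right hb))) hab
  have hcomm : ⁅P, conjBy P (a * b⁻¹)⁆ = ⊥ := by
    have h1 : ⁅conjBy A d⁻¹, conjBy B d⁻¹⁆ = ⊥ := by
      rw [← conjBy_commutator, h.1.2.2, conjBy_bot]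
    rw [← had, ← hbd] at h1
    have h2 := congrArg (fun U => conjBy U a) h1
    simp only [conjBy_commutator, conjBy_conjBy, conjBy_bot, mul_inv_cancel, conjBy_one] at h2
    exact h2
  have hu := RankOne.conjBy_mem_unipotent (RankOne.right_mem_unipotent (hrk M hM))
    (Subgroup.mem_sup_left hMm)
  exact hab (RankOne.eq_one_of_normalizes (hrk M hM) hMm (RootSet.eq_of_mem_unipotent_of_commutes
    (hrk M hM) (RankOne.right_mem_unipotent (hrk M hM)) hu hcomm).symm)

/-- The structure of a line through a member `A` with partner `P`. -/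
theorem line_structure (hS : IsRootSubgroupSet S) (hall : AllPartners S) {A B P : Subgroup G}
    (hA : A ∈ S) (hP : P ∈ S) (hAP : IsRankOnePair A P) (h : B ∈ linePartners S A) :
    ∃ E ∈ membersIn S (A ⊔ B), E ≠ A ∧ RootCommutatorCase S E P ∧
      RootCommutatorCase S A ⁅E, P⁆ ∧ ⁅A, ⁅E, P⁆⁆ = E ∧ A ⊔ E = A ⊔ B := by
  obtain ⟨E, hE, hEA, hEP⟩ := exists_comm_member hS hA hP hAP h
  have hV := line_comm hS hA h
  have hAE : ⁅A, E⁆ = ⊥ := commutator_eq_bot_iff_commutes.2 fun a ha e he =>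
    (commute_of_bot hV (Subgroup.mem_sup_left ha) (hE.2 he)).eq
  obtain ⟨⟨hAK, hAKE⟩, -⟩ := line_key hS hall hA hE.1 hP hEA.symm hAE
    (fun a ha e he hne => by
      obtain ⟨M, hM, hMm⟩ := h.2.2.1 _ (mul_mem (Subgroup.mem_sup_left ha) (hE.2 he)) hne
      exact ⟨M, hM.1, hMm⟩) hAP hEP
  refine ⟨E, hE, hEA, hEP, hAK, hAKE, le_antisymm (sup_le le_sup_left hE.2)
    (sup_le le_sup_left ?_)⟩
  by_cases hEB : E = B
  · rw [hEB]; exact le_sup_right
  obtain ⟨e, he, he1⟩ := exists_ne_one hS hE.1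
  obtain ⟨a, ha, b, hb, hab⟩ := (mem_sup_of_bot h.1.2.2).1 (hE.2 he)
  obtain ⟨PB, hPB, hBPB⟩ := hall B h.1.1
  have hb1 : b ≠ 1 := by
    intro h0
    rw [h0, mul_one] at hab
    exact hEA (RootSet.eq_of_inter hS hA hP hAP hE.1 (hab ▸ ha) he he1)
  have hbmem : b ∈ A ⊔ E := by
    have : b = a⁻¹ * e := by rw [← hab]; simp
    rw [this]
    exact mul_mem (inv_mem (Subgroup.mem_sup_left ha)) (Subgroup.mem_sup_right he)
  have hpart := CommCase.partition hS hAK hA hP hAP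
  rw [hAKE] at hpart
  obtain ⟨C, hC, hbC⟩ := hpart.2.1 b hbmem hb1
  exact RootSet.eq_of_inter hS h.1.1 hPB hBPB hC.1 hb hbC hb1 ▸ hC.2

/-- The members of a line form one orbit, doubly transitive, of the members normalizing it. -/
theorem line_two_transitive (hS : IsRootSubgroupSet S) (hall : AllPartners S)
    {A B : Subgroup G} (hA : A ∈ S) (h : B ∈ linePartners S A) :
    ∀ C₁ ∈ membersIn S (A ⊔ B), ∀ C₂ ∈ membersIn S (A ⊔ B), ∀ D₁ ∈ membersIn S (A ⊔ B),
      ∀ D₂ ∈ membersIn S (A ⊔ B), C₁ ≠ C₂ → D₁ ≠ D₂ →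
        ∃ x ∈ ⨆ E ∈ normalizingMembers S (A ⊔ B), E, conjBy C₁ x = D₁ ∧ conjBy C₂ x = D₂ := by
  set V := A ⊔ B with hV
  set N := ⨆ E ∈ normalizingMembers S V, E with hN
  have hNV : N ≤ Subgroup.normalizer (V : Set G) := iSup₂_le fun E hE => hE.2
  have hT : ∀ x ∈ N, ∀ M ∈ membersIn S V, conjBy M x ∈ membersIn S V := fun x hx M hM => by
    have := membersIn_conj hS V x hM
    rwa [conjBy_eq_self_iff.2 (hNV hx)] at this
  -- for a generating pair: a subgroup of `N` fixing one member, transitive on the others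
  have basic : ∀ {A B : Subgroup G}, A ∈ S → B ∈ linePartners S A → A ⊔ B = V →
      ∃ E ∈ membersIn S V, E ≠ A ∧ A ⊔ E = V ∧ E ∈ linePartners S A ∧
        (∃ C ∈ membersIn S V, C ≠ A ∧ C ≠ E) ∧
        ∀ M ∈ membersIn S V, ∀ M' ∈ membersIn S V, M ≠ E → M' ≠ E →
          ∃ x ∈ N, conjBy M x = M' ∧ conjBy E x = E := by
    intro A B hA h hAB
    obtain ⟨P, hP, hAP⟩ := hall A hA
    obtain ⟨E, hE, hEA, hEP, hAK, hAKE, hAE⟩ := line_structure hS hall hA hP hAP h
    rw [hAB] at hE hAE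
    have hcomm : ⁅A, E⁆ = ⊥ := commutator_eq_bot_iff_commutes.2 fun a ha e he =>
      (commute_of_bot (line_comm hS hA h) (Subgroup.mem_sup_left ha) (hAB ▸ hE.2 he)).eq
    have hEline : E ∈ linePartners S A :=
      ⟨⟨hE.1, hEA, hcomm⟩, by rw [hAE, ← hAB]; exact h.2⟩
    have hKE : ∀ k ∈ ⁅E, P⁆, ∀ e ∈ E, k * e = e * k := fun k hk e he =>
      CommCase.central_left hEP hk he
    have hKN : ⁅E, P⁆ ≤ N := by
      have hK : ⁅E, P⁆ ∈ normalizingMembers S V := ⟨hEP.1, le_normalizer_of_conjBy_le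
        fun k hk => by
          rw [← hAE, conjBy_sup]
          exact sup_le ((CommCase.conjBy_le_sup hAK hk).trans
            (sup_le le_sup_left (hAKE.le.trans le_sup_right)))
            ((conjBy_eq_of_commutes (hKE k hk)).le.trans le_sup_right)⟩
      exact le_iSup₂ (f := fun (E : Subgroup G) (_ : E ∈ normalizingMembers S V) => E) _ hK
    have hmem : ∀ M ∈ membersIn S V, M ≠ E → ∃ k ∈ ⁅E, P⁆, conjBy A k = M := by
      intro M hM hME
      have h1 : M ∈ membersIn S (A ⊔ ⁅A, ⁅E, P⁆⁆) := by rw [hAKE, hAE]; exact hM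
      rw [CommCase.membersIn_eq hS hAK hA hP hAP] at h1
      rcases h1 with ⟨k, hk, hk'⟩ | h1
      · exact ⟨k, hk, hk'⟩
      · exact absurd (h1.trans hAKE) hME
    obtain ⟨k, hk, hk1⟩ := exists_ne_one hS hEP.1
    have hline := CommCase.line_conj hS hAK hA hP hAP hk hk1
    refine ⟨E, hE, hEA, hAE, hEline,
      ⟨conjBy A k, hT k (hKN hk) A ⟨hA, hAB ▸ le_sup_left⟩, hline.1.2.1, fun he => ?_⟩, ?_⟩
    · have h1 := congrArg (fun U => conjBy U k⁻¹) he
      simp only [conjBy_conjBy, inv_mul_cancel, conjBy_one] at h1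
      rw [conjBy_eq_of_commutes (hKE k⁻¹ (inv_mem hk))] at h1
      exact hEA h1.symm
    · intro M hM M' hM' hME hM'E
      obtain ⟨k₁, hk₁, rfl⟩ := hmem M hM hME
      obtain ⟨k₂, hk₂, rfl⟩ := hmem M' hM' hM'E
      have hkk : k₂ * k₁⁻¹ ∈ ⁅E, P⁆ := mul_mem hk₂ (inv_mem hk₁)
      exact ⟨k₂ * k₁⁻¹, hKN hkk, by rw [conjBy_conjBy]; simp,
        conjBy_eq_of_commutes (hKE _ hkk)⟩
  obtain ⟨E, hE, hEA, hAE, hEline, ⟨C, hC, hCA, hCE⟩, htr⟩ := basic hA h hV.symm
  obtain ⟨E', hE', hE'E, -, -, -, htr'⟩ := basic hE.1 (linePartners_symm hA hEline)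
    (by rw [sup_comm, hAE])
  have hAm : A ∈ membersIn S V := ⟨hA, le_sup_left⟩
  -- every member can be moved onto `E`
  have hmove : ∀ M ∈ membersIn S V, ∃ x ∈ N, conjBy M x = E := by
    intro M hM
    by_cases hME : M = E
    · exact ⟨1, one_mem _, by rw [hME, conjBy_one]⟩
    obtain ⟨M₀, hM₀, hM₀E, hM₀E'⟩ : ∃ M₀ ∈ membersIn S V, M₀ ≠ E ∧ M₀ ≠ E' := by
      by_cases hAE' : A = E'
      · exact ⟨C, hC, hCE, hAE' ▸ hCA⟩
      · exact ⟨A, hAm, hEA.symm, hAE'⟩
    obtain ⟨x, hx, hxM, -⟩ := htr M hM M₀ hM₀ hME hM₀E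
    obtain ⟨y, hy, hyM, -⟩ := htr' M₀ hM₀ E hE hM₀E' hE'E.symm
    exact ⟨y * x, mul_mem hy hx, by rw [← conjBy_conjBy, hxM, hyM]⟩
  intro C₁ hC₁ C₂ hC₂ D₁ hD₁ D₂ hD₂ hC hD
  obtain ⟨x, hx, hxC⟩ := hmove C₁ hC₁
  obtain ⟨y, hy, hyD⟩ := hmove D₁ hD₁
  obtain ⟨z, hz, hzM, hzE⟩ := htr (conjBy C₂ x) (hT x hx C₂ hC₂) (conjBy D₂ y) (hT y hy D₂ hD₂)
    (fun he => hC (conjBy_inj.1 (hxC.trans he.symm)))
    (fun he => hD (conjBy_inj.1 (hyD.trans he.symm)))
  refine ⟨y⁻¹ * z * x, mul_mem (mul_mem (inv_mem hy) hz) hx, ?_, ?_⟩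
  · rw [← conjBy_conjBy, ← conjBy_conjBy, hxC, hzE, ← hyD, conjBy_conjBy, inv_mul_cancel,
      conjBy_one]
  · rw [← conjBy_conjBy, ← conjBy_conjBy, hzM, conjBy_conjBy, inv_mul_cancel, conjBy_one]

/-- For two different members of a line some member moves the first by the second. -/
theorem exists_mover (hS : IsRootSubgroupSet S) (hall : AllPartners S)
    {A B : Subgroup G} (hA : A ∈ S) (h : B ∈ linePartners S A) {C₁ C₂ : Subgroup G}
    (h₁ : C₁ ∈ membersIn S (A ⊔ B)) (h₂ : C₂ ∈ membersIn S (A ⊔ B)) (hne : C₁ ≠ C₂) :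
    ∃ D ∈ S, RootCommutatorCase S C₁ D ∧ ⁅C₁, D⁆ = C₂ := by
  obtain ⟨P, hP, hAP⟩ := hall A hA
  obtain ⟨E, hE, hEA, hEP, hAK, hAKE, -⟩ := line_structure hS hall hA hP hAP h
  obtain ⟨x, -, hxA, hxE⟩ := line_two_transitive hS hall hA h A ⟨hA, le_sup_left⟩ E hE C₁ h₁
    C₂ h₂ hEA.symm hne
  refine ⟨conjBy ⁅E, P⁆ x, hS.conj_mem _ hEP.1 x, ?_, ?_⟩
  · rw [← hxA]; exact commCase_conj hS hA hEP.1 hAK x
  · rw [← hxA, ← conjBy_commutator, hAKE, hxE]

/-- Two different members of a line generate it. -/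
theorem line_sup_eq (hS : IsRootSubgroupSet S) (hall : AllPartners S)
    {A B : Subgroup G} (hA : A ∈ S) (h : B ∈ linePartners S A) {C₁ C₂ : Subgroup G}
    (h₁ : C₁ ∈ membersIn S (A ⊔ B)) (h₂ : C₂ ∈ membersIn S (A ⊔ B)) (hne : C₁ ≠ C₂) :
    C₁ ⊔ C₂ = A ⊔ B := by
  obtain ⟨x, hx, hxA, hxB⟩ := line_two_transitive hS hall hA h A ⟨hA, le_sup_left⟩ B
    ⟨h.1.1, le_sup_right⟩ C₁ h₁ C₂ h₂ h.1.2.1.symm hne
  rw [← hxA, ← hxB, ← conjBy_sup]
  exact conjBy_eq_self_iff.2 ((iSup₂_le fun E hE => hE.2 :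
    (⨆ E ∈ normalizingMembers S (A ⊔ B), E) ≤ _) hx)

end CfsgLib.RootSubgroups.Cls
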