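import Cfsg.Agent.RootSubgroups.ClassesPlane
import Cfsg.Agent.RootSubgroups.ClassesLine

/-!
# Centralizing members and partners determine each other
-/

set_option autoImplicit false

namespace CfsgLib.RootSubgroups.Cls

open scoped commutatorElement

open Cfsg CfsgLib.RootSubgroups

variable {G : Type*} [Group G] {S : Set (Subgroup G)}

theorem mem_centralizingMembers {A D : Subgroup G} :
    D ∈ centralizingMembers S A ↔ D ∈ S ∧ ⁅D, A⁆ = ⊥ := by
  rw [Subgroup.commutator_eq_bot_iff_le_centralizer]; exact Iff.rfl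

theorem centralizing_conj (hS : IsRootSubgroupSet S) {A C : Subgroup G}
    (h : centralizingMembers S A ⊆ centralizingMembers S C) (g : G) :
    centralizingMembers S (conjBy A g) ⊆ centralizingMembers S (conjBy C g) := by
  intro D hD
  rw [mem_centralizingMembers] at hD ⊢
  refine ⟨hD.1, ?_⟩
  have h1 : conjBy D g⁻¹ ∈ centralizingMembers S A := by
    rw [mem_centralizingMembers]
    refine ⟨hS.conj_mem D hD.1 _, ?_⟩
    have := congrArg (fun U => conjBy U g⁻¹) hD.2
    simpa only [conjBy_commutator, conjBy_conjBy, inv_mul_cancel, conjBy_one, conjBy_bot]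
      using this
  have h2 := congrArg (fun U => conjBy U g) (mem_centralizingMembers.1 (h h1)).2
  simpa only [conjBy_commutator, conjBy_conjBy, mul_inv_cancel, conjBy_one, conjBy_bot] using h2

theorem rankOne_conj_fix (hS : IsRootSubgroupSet S) {A C : Subgroup G}
    (h : rankOnePartners S C ⊆ rankOnePartners S A) {g : G} (hg : conjBy C g = C) :
    rankOnePartners S C ⊆ rankOnePartners S (conjBy A g) := by
  intro Q hQ
  have hg' : conjBy C g⁻¹ = C := conjBy_eq_iff.2 (by rw [inv_inv, hg])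
  have h1 : conjBy Q g⁻¹ ∈ rankOnePartners S C :=
    ⟨hS.conj_mem _ hQ.1 _, hg' ▸ RankOne.conj hQ.2 g⁻¹⟩
  have h2 := RankOne.conj (h h1).2 g
  rw [conjBy_conjBy, mul_inv_cancel, conjBy_one] at h2
  exact ⟨hQ.1, h2⟩

theorem self_bot (hS : IsRootSubgroupSet S) {A : Subgroup G} (hA : A ∈ S) : ⁅A, A⁆ = ⊥ :=
  commutator_eq_bot_iff_commutes.2 fun _ hx _ hy => RootSet.comm_of_mem hS hA hx hy

theorem rankOne_of_centralizing (hS : IsRootSubgroupSet S) {A C : Subgroup G} (hA : A ∈ S)
    (h : centralizingMembers S A ⊆ centralizingMembers S C) :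
    ⁅A, C⁆ = ⊥ ∧ rankOnePartners S C ⊆ rankOnePartners S A := by
  have hAC : ⁅A, C⁆ = ⊥ :=
    (mem_centralizingMembers.1 (h (mem_centralizingMembers.2 ⟨hA, self_bot hS hA⟩))).2
  refine ⟨hAC, ?_⟩
  rintro Q ⟨hQ, hCQ⟩
  rcases hS.pair A hA Q hQ with h' | h' | h'
  · exact absurd (bot_comm (mem_centralizingMembers.1
      (h (mem_centralizingMembers.2 ⟨hQ, bot_comm h'⟩))).2) (RankOne.commutator_ne_bot hCQ)
  · exact ⟨hQ, h'⟩
  · exfalso
    have hKA : ⁅⁅A, Q⁆, A⁆ = ⊥ :=
      commutator_eq_bot_iff_commutes.2 fun _ hx _ hy => CommCase.central_left h' hx hy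
    have hKC := (mem_centralizingMembers.1 (h (mem_centralizingMembers.2 ⟨h'.1, hKA⟩))).2
    have h1 : ⁅⁅C, Q⁆, A⁆ = ⊥ := by
      refine Subgroup.commutator_commutator_eq_bot_of_rotate ?_ ?_
      · rw [Subgroup.commutator_comm Q A]; exact hKC
      · rw [hAC, Subgroup.commutator_bot_left]
    exact hS.ne_bot _ h'.1 (commutes_partner hS hQ hCQ hAC (bot_comm h1))

/-- A line through `A` whose movers centralize `C` contradicts the existence of a partner. -/
theorem false_of_line (hS : IsRootSubgroupSet S) (hall : AllPartners S) {A C L : Subgroup G}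
    (hA : A ∈ S) (hC : C ∈ S) (h : centralizingMembers S A ⊆ centralizingMembers S C)
    (hAL : RootCommutatorCase S A L) (hLC : ⁅L, C⁆ = ⊥) : False := by
  obtain ⟨P, hP, hAP⟩ := hall A hA
  have hline := CommCase.line_commutator hS hAL hA hP hAP
  have hline' := linePartners_symm hAL.1 hline
  have hsub := (rankOne_of_centralizing hS hA h).2
  have hfix : ∀ l ∈ L, conjBy C l = C := fun l hl =>
    conjBy_eq_of_commutes (commutator_eq_bot_iff_commutes.1 hLC l hl)
  have hM : ∀ E ∈ membersIn S (A ⊔ ⁅A, L⁆), rankOnePartners S C ⊆ rankOnePartners S E := by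
    intro E hE
    rw [CommCase.membersIn_eq hS hAL hA hP hAP] at hE
    rcases hE with ⟨l, hl, rfl⟩ | rfl
    · exact rankOne_conj_fix hS hsub (hfix l hl)
    · obtain ⟨D, hD, hMD, hMDA⟩ := exists_mover hS hall hA hline' ⟨hAL.1, le_sup_right⟩
        ⟨hA, le_sup_left⟩ hline.1.2.1.symm
      have hDA : ⁅D, A⁆ = ⊥ := commutator_eq_bot_iff_commutes.2 fun d hd a ha =>
        (CommCase.central_right hMD (hMDA.symm ▸ ha) hd).symm
      have hDC := (mem_centralizingMembers.1 (h (mem_centralizingMembers.2 ⟨hD, hDA⟩))).2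
      obtain ⟨d, hd, hd1⟩ := exists_ne_one hS hD
      obtain ⟨PM, hPM, hMPM⟩ := hall _ hAL.1
      have hmem : conjBy ⁅A, L⁆ d ∈ membersIn S (A ⊔ ⁅A, L⁆) :=
        ⟨hS.conj_mem _ hAL.1 d, (CommCase.conjBy_le_sup hMD hd).trans
          (by rw [hMDA, sup_comm])⟩
      rw [CommCase.membersIn_eq hS hAL hA hP hAP] at hmem
      rcases hmem with ⟨l, hl, hle⟩ | hle
      · have hM' : ⁅A, L⁆ = conjBy A (d⁻¹ * l) := by
          rw [← conjBy_conjBy, show conjBy A l = conjBy ⁅A, L⁆ d from hle, conjBy_conjBy,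
            inv_mul_cancel, conjBy_one]
        rw [hM']
        refine rankOne_conj_fix hS hsub ?_
        rw [← conjBy_conjBy, hfix l hl,
          conjBy_eq_of_commutes (commutator_eq_bot_iff_commutes.1 hDC _ (inv_mem hd))]
      · exact absurd hle (CommCase.line_conj hS hMD hAL.1 hPM hMPM hd hd1).1.2.1
  obtain ⟨Q, hQ, hCQ⟩ := hall C hC
  obtain ⟨E, hE, -, hEQ, -⟩ :=
    line_structure hS hall hA hQ (hsub ⟨hQ, hCQ⟩).2 hline'
  exact not_commCase_of_rankOne hS hE.1 hQ (hM E hE ⟨hQ, hCQ⟩).2 hEQ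

theorem centralizing_eq (hS : IsRootSubgroupSet S) (hall : AllPartners S) {A C : Subgroup G}
    (hA : A ∈ S) (hC : C ∈ S) (h : centralizingMembers S A ⊆ centralizingMembers S C) :
    centralizingMembers S A = centralizingMembers S C := by
  refine Set.Subset.antisymm h fun X hX => ?_
  obtain ⟨hXS, hXC⟩ := mem_centralizingMembers.1 hX
  rcases hS.pair A hA X hXS with h' | h' | h'
  · exact mem_centralizingMembers.2 ⟨hXS, bot_comm h'⟩
  · exfalso
    obtain ⟨hAC, hsubA⟩ := rankOne_of_centralizing hS hA h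
    obtain ⟨n, hn, hnX⟩ := RankOne.right_mem_unipotent h'
    have hCn : conjBy C n = C := conjBy_eq_of_commutes fun c hc => by
      have := commute_of_bot (bot_comm (bot_sup (bot_comm hAC) (bot_comm hXC))) hn hc
      exact this.eq
    have hX' : centralizingMembers S X ⊆ centralizingMembers S C := by
      rw [hnX, ← hCn]; exact centralizing_conj hS h n
    obtain ⟨-, hsubX⟩ := rankOne_of_centralizing hS hXS hX'
    obtain ⟨Q, hQ, hCQ⟩ := hall C hC
    have hAQ := (hsubA ⟨hQ, hCQ⟩).2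
    have hXQ := (hsubX ⟨hQ, hCQ⟩).2
    obtain ⟨q, hq, hq1⟩ := RankOne.exists_left (RankOnePair_symm hCQ)
    obtain ⟨a, ha, ha1, haq⟩ := exists_swap (RankOnePair_symm hAQ) hq hq1
    obtain ⟨c, hc, -, hcq⟩ := exists_swap (RankOnePair_symm hCQ) hq hq1
    obtain ⟨x, hx, hx1, hxq⟩ := exists_swap (RankOnePair_symm hXQ) hq hq1
    -- haq : conjBy Q a = conjBy A q
    have h1 : ⁅conjBy Q (x⁻¹ * c), Q⁆ = ⊥ := by
      have := congrArg (fun U => conjBy U (x⁻¹ * q)) (bot_comm hXC)
      simp only [conjBy_commutator, conjBy_bot] at this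
      rwa [← conjBy_conjBy C, ← conjBy_conjBy X, ← hcq, ← hxq, conjBy_conjBy, conjBy_conjBy,
        inv_mul_cancel, conjBy_one] at this
    have h2 : centralizingMembers S Q ⊆ centralizingMembers S (conjBy Q (a⁻¹ * c)) := by
      have := centralizing_conj hS h (a⁻¹ * q)
      rwa [← conjBy_conjBy A, ← conjBy_conjBy C, ← haq, ← hcq, conjBy_conjBy, conjBy_conjBy,
        inv_mul_cancel, conjBy_one] at this
    have h3 := (mem_centralizingMembers.1
      (h2 (mem_centralizingMembers.2 ⟨hS.conj_mem Q hQ _, h1⟩))).2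
    have h4 : ⁅conjBy Q x⁻¹, conjBy Q a⁻¹⁆ = ⊥ := by
      have := congrArg (fun U => conjBy U c⁻¹) h3
      simp only [conjBy_commutator, conjBy_bot, conjBy_conjBy] at this
      rwa [(commute_of_bot hXC (inv_mem hx) hc).eq, (commute_of_bot hAC (inv_mem ha) hc).eq,
        inv_mul_cancel_left, inv_mul_cancel_left] at this
    obtain ⟨q₁, hq₁, -, hq₁x⟩ := exists_swap hXQ (inv_mem hx) (by simpa using hx1)
    obtain ⟨q₂, hq₂, -, hq₂a⟩ := exists_swap hAQ (inv_mem ha) (by simpa using ha1)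
    rw [← hq₁x, ← hq₂a] at h4
    have h5 : ⁅A, conjBy X (q₂⁻¹ * q₁)⁆ = ⊥ := by
      have := congrArg (fun U => conjBy U q₂⁻¹) h4
      simp only [conjBy_commutator, conjBy_bot, conjBy_conjBy, inv_mul_cancel, conjBy_one] at this
      exact bot_comm this
    by_cases hr : q₂⁻¹ * q₁ = 1
    · rw [hr, conjBy_one] at h5
      exact RankOne.commutator_ne_bot h' h5
    · have hu := RankOne.conjBy_mem_unipotent (A := X) (B := Q) RankOne.left_mem_unipotent
        (Subgroup.mem_sup_right (mul_mem (inv_mem hq₂) hq₁))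
      have hne : conjBy X (q₂⁻¹ * q₁) ≠ X := fun he =>
        hr (RankOne.eq_one_of_normalizes (RankOnePair_symm hXQ) (mul_mem (inv_mem hq₂) hq₁) he)
      have hXr : ⁅conjBy X (q₂⁻¹ * q₁), C⁆ = ⊥ := (mem_centralizingMembers.1
        (h (mem_centralizingMembers.2 ⟨hS.conj_mem X hXS _, bot_comm h5⟩))).2
      have h6 := bot_sup (bot_comm hXr) (bot_comm hXC)
      rw [RankOne.sup_eq_of_mem hXQ hu RankOne.left_mem_unipotent hne] at h6
      exact RankOne.commutator_ne_bot hCQ (bot_mono h6 le_sup_right)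
  · exact (false_of_line hS hall hA hC h h' hXC).elim

theorem rankOne_eq (hS : IsRootSubgroupSet S) (hall : AllPartners S) {A C : Subgroup G}
    (hA : A ∈ S) (hC : C ∈ S) (h : rankOnePartners S A ⊆ rankOnePartners S C) :
    ⁅A, C⁆ = ⊥ ∧ rankOnePartners S A = rankOnePartners S C := by
  -- a member `Y` in the commutator case with `A` yields a partner `D` of `A` fixing `Y`
  have key : ∀ {Y : Subgroup G}, Y ∈ S → RootCommutatorCase S Y A →
      ∃ D ∈ rankOnePartners S A, ⁅D, Y⁆ = ⊥ ∧ ⁅D, ⁅Y, A⁆⁆ = Y := by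
    intro Y hY hYA
    obtain ⟨P, hP, hYP⟩ := hall Y hY
    have hline := CommCase.line_commutator hS hYA hY hP hYP
    obtain ⟨D, hD, hKD, hKDY⟩ := exists_mover hS hall hYA.1 hline ⟨hYA.1, le_sup_left⟩
      ⟨hY, le_sup_right⟩ hline.1.2.1.symm
    have heq : ⁅D, ⁅Y, A⁆⁆ = Y := by rw [Subgroup.commutator_comm]; exact hKDY
    have hp : Plane S Y A D := ⟨hY, hA, hD, hYA, CommCase.symm hKD, heq⟩
    exact ⟨D, ⟨hD, hp.rankOne hS⟩, commutator_eq_bot_iff_commutes.2
      (fun d hd y hy => (CommCase.central_right hKD (hKDY.symm ▸ hy) hd).symm), heq⟩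
  have hAC : ⁅A, C⁆ = ⊥ := by
    rcases hS.pair A hA C hC with h' | h' | h'
    · exact h'
    · exact absurd rfl (h ⟨hC, h'⟩).2.ne
    · exfalso
      obtain ⟨D, hD, hDC, -⟩ := key hC (CommCase.symm h')
      exact RankOne.commutator_ne_bot (h hD).2 (bot_comm hDC)
  have hsub : centralizingMembers S C ⊆ centralizingMembers S A := by
    intro Y hY
    obtain ⟨hYS, hYC⟩ := mem_centralizingMembers.1 hY
    rcases hS.pair A hA Y hYS with h' | h' | h'
    · exact mem_centralizingMembers.2 ⟨hYS, bot_comm h'⟩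
    · exact absurd (bot_comm hYC) (RankOne.commutator_ne_bot (h ⟨hYS, h'⟩).2)
    · exfalso
      obtain ⟨D, hD, -, hDK⟩ := key hYS (CommCase.symm h')
      have hCK : ⁅C, ⁅Y, A⁆⁆ = ⊥ := bot_commutator (bot_comm hYC) (bot_comm hAC)
      have h1 : ⁅⁅C, D⁆, ⁅Y, A⁆⁆ = ⊥ := by
        refine Subgroup.commutator_commutator_eq_bot_of_rotate ?_ ?_
        · rw [hDK]; exact hYC
        · rw [bot_comm hCK, Subgroup.commutator_bot_left]
      have h2 := commutes_partner hS hD.1 (h hD).2 (bot_comm hCK) (bot_comm h1)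
      exact hS.ne_bot Y hYS (hDK.symm.trans (bot_comm h2))
  refine ⟨hAC, Set.Subset.antisymm h ?_⟩
  exact (rankOne_of_centralizing hS hA (centralizing_eq hS hall hC hA hsub).symm.subset).2

end CfsgLib.RootSubgroups.Cls
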