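import Cfsg.Agent.RootSubgroups.ClassesLine

/-!
# A rank one pair with a commuting third member is special

`A, C` commute and both form rank one pairs with `B`; `q ∈ B` has partners `a ∈ A`, `c ∈ C`.
With `z = a⁻¹ c` the member `B^z` commutes with `B`, and `r ↦ r⁻¹ z r z⁻¹` is a homomorphism
from `B` moving `A` along a family of pairwise commuting members.
-/

set_option autoImplicit false

namespace CfsgLib.RootSubgroups.Cls

open scoped commutatorElement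

open Cfsg CfsgLib.RootSubgroups

variable {G : Type*} [Group G] {S : Set (Subgroup G)}

theorem bot_conj {A B : Subgroup G} (h : ⁅A, B⁆ = ⊥) (g : G) :
    ⁅conjBy A g, conjBy B g⁆ = ⊥ := by
  rw [← conjBy_commutator, h, conjBy_bot]

theorem conj_mem_conjBy {A : Subgroup G} {g x : G} (hx : x ∈ A) : g * x * g⁻¹ ∈ conjBy A g :=
  mem_conjBy.2 (by simpa [mul_assoc] using hx)

/-- A rank one pair with abelian unipotent subgroups in which the partner map commutes with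
inversion satisfies the braid relation. -/
theorem braid_of_inv (hS : IsRootSubgroupSet S) {A B : Subgroup G} (hA : A ∈ S) (hB : B ∈ S)
    (h : IsRankOnePair A B) {a q : G} (ha : a ∈ A) (hq : q ∈ B)
    (haq : conjBy A q = conjBy B a) (hinv : conjBy A q⁻¹ = conjBy B a⁻¹) :
    q * a * q⁻¹ = a * q⁻¹ * a⁻¹ := by
  set m := a⁻¹ * q * a⁻¹ with hm
  set m' := q * a⁻¹ * q with hm'
  set k := m'⁻¹ * m with hk
  have hmA : conjBy A m = B := by
    rw [hm, ← conjBy_conjBy, conjBy_self_of_mem (inv_mem ha), ← conjBy_conjBy, haq, conjBy_conjBy,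
      inv_mul_cancel, conjBy_one]
  have hmB : conjBy B m = A := by
    rw [hm, ← conjBy_conjBy, ← hinv, ← conjBy_conjBy, conjBy_conjBy A q q⁻¹, mul_inv_cancel,
      conjBy_one, conjBy_self_of_mem (inv_mem ha)]
  have hm'A : conjBy A m' = B := by
    rw [hm', ← conjBy_conjBy, haq, conjBy_conjBy, mul_assoc, inv_mul_cancel, mul_one,
      conjBy_self_of_mem hq]
  have hm'B : conjBy B m' = A := by
    rw [hm', ← conjBy_conjBy, conjBy_self_of_mem hq, ← conjBy_conjBy, ← hinv, conjBy_conjBy,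
      mul_inv_cancel, conjBy_one]
  have hkA : conjBy A k = A := by
    rw [hk, ← conjBy_conjBy, hmA, conjBy_eq_iff, inv_inv, hm'A]
  have hkB : conjBy B k = B := by
    rw [hk, ← conjBy_conjBy, hmB, conjBy_eq_iff, inv_inv, hm'B]
  have hp0 : a⁻¹ * (q * a * q⁻¹) * a ∈ B := by
    have h1 : q * a * q⁻¹ ∈ conjBy A q := conj_mem_conjBy ha
    rw [haq] at h1
    exact mem_conjBy.1 h1
  have hka : k * a = a * k := by
    have e1 : m * a * m⁻¹ = a⁻¹ * (q * a * q⁻¹) * a := by simp [hm, mul_assoc]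
    have e2 : m' * a * m'⁻¹ = a⁻¹ * (q * a * q⁻¹) * a := by
      have e3 : m' * a * m'⁻¹ = q * (a⁻¹ * (q * a * q⁻¹) * a) * q⁻¹ := by simp [hm', mul_assoc]
      rw [e3, RootSet.comm_of_mem hS hB hq hp0, mul_inv_cancel_right]
    have e4 : m'⁻¹ * (m * a * m⁻¹) * m' = a := by rw [e1, ← e2]; simp [mul_assoc]
    calc k * a = m'⁻¹ * (m * a * m⁻¹) * m' * k := by simp [hk, mul_assoc]
      _ = a * k := by rw [e4]
  have hkq : k * q = q * k := by
    have h1 : k * q * k⁻¹ ∈ B := hkB ▸ conj_mem_conjBy hq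
    have h2 : conjBy A (k * q * k⁻¹) = conjBy A q := by
      rw [← conjBy_conjBy, show conjBy A k⁻¹ = A from conjBy_eq_iff.2 (by rw [inv_inv, hkA]),
        ← conjBy_conjBy, haq, conjBy_conjBy, hka, ← conjBy_conjBy, hkB]
    have h3 : q⁻¹ * (k * q * k⁻¹) = 1 :=
      RankOne.eq_one_of_normalizes (RankOnePair_symm h) (mul_mem (inv_mem hq) h1) (by
        rw [← conjBy_conjBy, h2, conjBy_conjBy, inv_mul_cancel, conjBy_one])
    calc k * q = k * q * k⁻¹ * k := by simp [mul_assoc]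
      _ = q * k := by rw [← inv_mul_eq_one.1 h3]
  have hxk : k * a⁻¹ = a⁻¹ * k := (show Commute k a from hka).inv_right.eq
  have hg : (a⁻¹ * (q * k)) * a⁻¹ * (a⁻¹ * (q * k))⁻¹ = q * k := by
    rw [mul_inv_eq_iff_eq_mul]
    calc a⁻¹ * (q * k) * a⁻¹ = a⁻¹ * q * (k * a⁻¹) := by simp [mul_assoc]
      _ = m * k := by rw [hxk]; simp [hm, mul_assoc]
      _ = m' * (k * k) := by simp [hk, mul_assoc]
      _ = q * a⁻¹ * (q * k) * k := by simp [hm', mul_assoc]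
      _ = q * a⁻¹ * (k * (q * k)) := by rw [← mul_assoc k, hkq]; simp [mul_assoc]
      _ = q * (k * a⁻¹) * (q * k) := by rw [hxk]; simp [mul_assoc]
      _ = _ := by simp [mul_assoc]
  have hqk : q * k ∈ B := by
    have h1 : conjBy A (a⁻¹ * (q * k)) = B := by
      rw [← conjBy_conjBy, ← conjBy_conjBy, hkA, haq, conjBy_conjBy, inv_mul_cancel, conjBy_one]
    have h2 := conj_mem_conjBy (g := a⁻¹ * (q * k)) (inv_mem ha)
    rwa [hg, h1] at h2
  have hk1 : k = 1 := RankOne.eq_one_of_normalizes (RankOnePair_symm h)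
    (by simpa using mul_mem (inv_mem hq) hqk) hkA
  have hmm : q * a⁻¹ * q = a⁻¹ * q * a⁻¹ := inv_mul_eq_one.1 (hk ▸ hk1)
  have h1 : q * a⁻¹ * q⁻¹ = a * q * a⁻¹ := by
    calc q * a⁻¹ * q⁻¹ = a * (a⁻¹ * q * a⁻¹) * q⁻¹ := by simp [mul_assoc]
      _ = _ := by rw [← hmm]; simp [mul_assoc]
  simpa [mul_assoc] using congrArg (fun t => t⁻¹) h1

/-- Two commuting members `A, C`, both partners of `B`, with `q ∈ B` and its partners `a`, `c`. -/
structure Quad (S : Set (Subgroup G)) (A C B : Subgroup G) (q a c : G) : Prop where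
  hA : A ∈ S
  hC : C ∈ S
  hB : B ∈ S
  hAB : IsRankOnePair A B
  hCB : IsRankOnePair C B
  hne : A ≠ C
  hAC : ⁅A, C⁆ = ⊥
  hq : q ∈ B
  hq1 : q ≠ 1
  ha : a ∈ A
  hc : c ∈ C
  haq : conjBy A q = conjBy B a
  hcq : conjBy C q = conjBy B c

namespace Quad

/-- The homomorphism `r ↦ r⁻¹ z r z⁻¹`. -/
def shift (z r : G) : G := r⁻¹ * (z * r * z⁻¹)

variable {A C B : Subgroup G} {q a c : G}

theorem a_ne_one (h : Quad S A C B q a c) : a ≠ 1 := fun h0 => h.hq1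
  (RankOne.eq_one_of_normalizes (RankOnePair_symm h.hAB) h.hq (by
    have h1 := h.haq
    rw [h0, conjBy_one, conjBy_eq_iff, conjBy_self_of_mem (inv_mem h.hq)] at h1
    exact absurd h1 h.hAB.ne))

theorem symm (h : Quad S A C B q a c) : Quad S C A B q c a :=
  ⟨h.hC, h.hA, h.hB, h.hCB, h.hAB, h.hne.symm, bot_comm h.hAC, h.hq, h.hq1, h.hc, h.ha, h.hcq,
    h.haq⟩

theorem comm_left (hS : IsRootSubgroupSet S) (h : Quad S A C B q a c) {x : G} (hx : x ∈ A) :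
    Commute (a⁻¹ * c) x :=
  (show Commute a⁻¹ x from RootSet.comm_of_mem hS h.hA (inv_mem h.ha) hx).mul_left
    (commute_of_bot h.hAC hx h.hc).symm

theorem fix_left (hS : IsRootSubgroupSet S) (h : Quad S A C B q a c) :
    conjBy A (a⁻¹ * c) = A :=
  conjBy_eq_of_commutes fun _ hx => (comm_left hS h hx).eq

theorem fix_left' (hS : IsRootSubgroupSet S) (h : Quad S A C B q a c) :
    conjBy A (a⁻¹ * c)⁻¹ = A :=
  conjBy_eq_iff.2 (by rw [inv_inv, fix_left hS h])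

theorem fix_right' (hS : IsRootSubgroupSet S) (h : Quad S A C B q a c) :
    conjBy C (a⁻¹ * c)⁻¹ = C :=
  conjBy_eq_of_commutes fun _ hx =>
    (((commute_of_bot h.hAC (inv_mem h.ha) hx).mul_left
      (show Commute c _ from RootSet.comm_of_mem hS h.hC h.hc hx)).inv_left).eq

theorem conjBy_partner_ne (h : Quad S A C B q a c) {α γ : G} (hα : α ∈ A) (hγ : γ ∈ C)
    (hα1 : α ≠ 1) : conjBy B α ≠ conjBy B γ := by
  intro he
  by_cases hγ1 : γ = 1
  · rw [hγ1, conjBy_one] at he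
    exact hα1 (RankOne.eq_one_of_normalizes h.hAB hα he)
  obtain ⟨q₁, hq₁, -, h1⟩ := exists_swap h.hAB hα hα1
  obtain ⟨q₂, hq₂, -, h2⟩ := exists_swap h.hCB hγ hγ1
  have hC : C = conjBy A (q₂⁻¹ * q₁) := by
    rw [← conjBy_conjBy, h1, he, ← h2, conjBy_conjBy, inv_mul_cancel, conjBy_one]
  refine RankOne.commutator_ne_bot (RankOne.pair_of_mem h.hAB RankOne.left_mem_unipotent ?_ h.hne)
    h.hAC
  rw [hC]
  exact RankOne.conjBy_mem_unipotent RankOne.left_mem_unipotent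
    (Subgroup.mem_sup_right (mul_mem (inv_mem hq₂) hq₁))

theorem bot_conj_partner (h : Quad S A C B q a c) : ⁅B, conjBy B (a⁻¹ * c)⁆ = ⊥ := by
  have h1 := bot_conj (bot_conj h.hAC q) a⁻¹
  rwa [h.haq, h.hcq, conjBy_conjBy, conjBy_conjBy, inv_mul_cancel, conjBy_one] at h1

theorem conj_partner_ne (hS : IsRootSubgroupSet S) (h : Quad S A C B q a c) :
    conjBy B (a⁻¹ * c) ≠ B := by
  intro he
  have h1 := congrArg (fun U => conjBy U a) he
  simp only [conjBy_conjBy, mul_inv_cancel_left] at h1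
  exact conjBy_partner_ne h h.ha h.hc (a_ne_one h) h1.symm

theorem partner_inv (hS : IsRootSubgroupSet S) (h : Quad S A C B q a c) :
    conjBy A q⁻¹ = conjBy B a⁻¹ := by
  set z := a⁻¹ * c with hz
  obtain ⟨a', ha', ha'1, ha'q⟩ :=
    exists_swap (RankOnePair_symm h.hAB) (inv_mem h.hq) (by simpa using h.hq1)
  obtain ⟨c', hc', -, hc'q⟩ :=
    exists_swap (RankOnePair_symm h.hCB) (inv_mem h.hq) (by simpa using h.hq1)
  rw [← ha'q]
  by_contra hne
  have hcomm : Commute q (z * q * z⁻¹) :=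
    commute_of_bot (bot_conj_partner h) h.hq (conj_mem_conjBy h.hq)
  have h1 : conjBy A (z * q * z⁻¹) = conjBy C q := by
    rw [← conjBy_conjBy, fix_left' hS h, ← conjBy_conjBy, h.haq, conjBy_conjBy, h.hcq,
      show z * a = c by rw [(comm_left hS h h.ha).eq, mul_inv_cancel_left]]
  have h2 : conjBy A q⁻¹ = conjBy B (z * c') := by
    have h3 : conjBy C (z * q * z⁻¹)⁻¹ = conjBy A q⁻¹ := by
      have h4 := congrArg (fun U => conjBy U ((z * q * z⁻¹)⁻¹ * q⁻¹)) h1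
      simp only [conjBy_conjBy] at h4
      rw [inv_mul_cancel_right, mul_assoc (z * q * z⁻¹)⁻¹ q⁻¹, (hcomm.inv_left).eq,
        inv_mul_cancel_left] at h4
      exact h4.symm
    rw [← h3, show (z * q * z⁻¹)⁻¹ = z * q⁻¹ * z⁻¹ by simp [mul_assoc], ← conjBy_conjBy,
      fix_right' hS h, ← conjBy_conjBy, ← hc'q, conjBy_conjBy]
  have hα : a * a' ∈ A := mul_mem h.ha ha'
  have hγ : c * c' ∈ C := mul_mem h.hc hc'
  have hα1 : a * a' ≠ 1 := fun h0 => hne (by rw [(mul_eq_one_iff_eq_inv'.1 h0)])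
  refine conjBy_partner_ne h hα hγ hα1 ?_
  rw [← conjBy_conjBy, ha'q, h2, conjBy_conjBy, hz, ← mul_assoc, mul_inv_cancel_left]

theorem special (hS : IsRootSubgroupSet S) (h : Quad S A C B q a c) :
    q * a * q⁻¹ = a * q⁻¹ * a⁻¹ :=
  braid_of_inv hS h.hA h.hB h.hAB h.ha h.hq h.haq (partner_inv hS h)

theorem dual (hS : IsRootSubgroupSet S) (h : Quad S A C B q a c) :
    Quad S B (conjBy B (a⁻¹ * c)) A a q (a⁻¹ * c * q * (a⁻¹ * c)⁻¹) := by
  refine ⟨h.hB, hS.conj_mem B h.hB _, h.hA, RankOnePair_symm h.hAB, ?_,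
    (conj_partner_ne hS h).symm, bot_conj_partner h, h.ha, a_ne_one h, h.hq,
    conj_mem_conjBy h.hq, h.haq.symm, ?_⟩
  · have := RankOne.conj (RankOnePair_symm h.hAB) (a⁻¹ * c)
    rwa [fix_left hS h] at this
  · rw [← conjBy_conjBy A, fix_left' hS h, ← conjBy_conjBy A (a⁻¹ * c) q, h.haq, conjBy_conjBy,
      conjBy_conjBy, (comm_left hS h h.ha).eq]

theorem shift_mul (hS : IsRootSubgroupSet S) (h : Quad S A C B q a c) {r r' : G} (hr : r ∈ B)
    (hr' : r' ∈ B) :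
    shift (a⁻¹ * c) (r * r') = shift (a⁻¹ * c) r * shift (a⁻¹ * c) r' := by
  have h1 : r'⁻¹ * (a⁻¹ * c * r * (a⁻¹ * c)⁻¹) = (a⁻¹ * c * r * (a⁻¹ * c)⁻¹) * r'⁻¹ :=
    (commute_of_bot (bot_conj_partner h) (inv_mem hr') (conj_mem_conjBy hr)).eq
  have h2 : r⁻¹ * r'⁻¹ = r'⁻¹ * r⁻¹ := RootSet.comm_of_mem hS h.hB (inv_mem hr) (inv_mem hr')
  calc shift (a⁻¹ * c) (r * r')
      = (r'⁻¹ * r⁻¹) * (a⁻¹ * c * r * (a⁻¹ * c)⁻¹) * (a⁻¹ * c * r' * (a⁻¹ * c)⁻¹) := by
        simp [shift, mul_assoc]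
    _ = r⁻¹ * (r'⁻¹ * (a⁻¹ * c * r * (a⁻¹ * c)⁻¹)) * (a⁻¹ * c * r' * (a⁻¹ * c)⁻¹) := by
        rw [← h2]; simp [mul_assoc]
    _ = _ := by rw [h1]; simp [shift, mul_assoc]

theorem pencil_bot (hS : IsRootSubgroupSet S) (h : Quad S A C B q a c) {r : G} (hr : r ∈ B) :
    ⁅conjBy A (shift (a⁻¹ * c) r), A⁆ = ⊥ := by
  by_cases hr1 : r = 1
  · rw [hr1, show shift (a⁻¹ * c) 1 = 1 by simp [shift], conjBy_one]
    exact commutator_eq_bot_iff_commutes.2 fun x hx y hy => RootSet.comm_of_mem hS h.hA hx hy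
  obtain ⟨α, hα, -, hαr⟩ := exists_swap (RankOnePair_symm h.hAB) hr hr1
  have e1 : conjBy A (shift (a⁻¹ * c) r) = conjBy (conjBy B (a⁻¹ * c)) (r⁻¹ * α) := by
    rw [shift, ← conjBy_conjBy A, ← conjBy_conjBy A (a⁻¹ * c * r), fix_left' hS h,
      ← conjBy_conjBy A, ← hαr]
    simp only [conjBy_conjBy]
    rw [(comm_left hS h hα).eq, ← mul_assoc]
  have e2 : A = conjBy B (r⁻¹ * α) := by
    rw [← conjBy_conjBy, hαr, conjBy_conjBy, inv_mul_cancel, conjBy_one]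
  rw [e1]
  conv_lhs => arg 2; rw [e2]
  exact bot_conj (bot_comm (bot_conj_partner h)) _

theorem pencil_ne (hS : IsRootSubgroupSet S) (h : Quad S A C B q a c) {r : G} (hr : r ∈ B)
    (hr1 : r ≠ 1) : conjBy A (shift (a⁻¹ * c) r) ≠ A := by
  intro he
  obtain ⟨α, hα, -, hαr⟩ := exists_swap (RankOnePair_symm h.hAB) hr hr1
  apply conj_partner_ne hS h
  rw [shift, ← conjBy_conjBy A, ← conjBy_conjBy A (a⁻¹ * c * r), fix_left' hS h,
    ← conjBy_conjBy A, ← hαr, conjBy_eq_iff, inv_inv, conjBy_conjBy,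
    (comm_left hS h hα).eq, ← hαr] at he
  rw [← conjBy_conjBy] at he
  exact conjBy_inj.1 he

theorem shift_partner (hS : IsRootSubgroupSet S) (h : Quad S A C B q a c) :
    shift (a⁻¹ * c) q * a * (shift (a⁻¹ * c) q)⁻¹ = c := by
  set z := a⁻¹ * c with hz
  have hza : z * a = a * z := (comm_left hS h h.ha).eq
  have h1 : z⁻¹ * a * z = a := by rw [mul_assoc, ← hza, inv_mul_cancel_left]
  have h2 : z * a = c := by rw [hza, mul_inv_cancel_left]
  have h3 : a⁻¹ * z⁻¹ = c⁻¹ := by rw [← mul_inv_rev, h2]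
  calc shift z q * a * (shift z q)⁻¹ = q⁻¹ * z * (q * (z⁻¹ * a * z) * q⁻¹) * z⁻¹ * q := by
        simp [shift, mul_assoc]
    _ = q⁻¹ * z * (a * q⁻¹ * a⁻¹) * z⁻¹ * q := by rw [h1, special hS h]
    _ = q⁻¹ * ((z * a) * q⁻¹ * (a⁻¹ * z⁻¹)) * q := by simp [mul_assoc]
    _ = q⁻¹ * (q * c * q⁻¹) * q := by rw [h2, h3, special hS h.symm]
    _ = c := by simp [mul_assoc]

theorem bot_conj_sq (hS : IsRootSubgroupSet S) (h : Quad S A C B q a c) :
    ⁅B, conjBy B ((a⁻¹ * c) * (a⁻¹ * c))⁆ = ⊥ := by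
  have h1 := pencil_bot hS (dual hS h) (mul_mem h.ha h.ha)
  have h2 : q⁻¹ * (a⁻¹ * c * q * (a⁻¹ * c)⁻¹) = shift (a⁻¹ * c) q := rfl
  rw [h2] at h1
  have h3 : shift (shift (a⁻¹ * c) q) (a * a) = (a⁻¹ * c) * (a⁻¹ * c) := by
    show (a * a)⁻¹ * (shift (a⁻¹ * c) q * (a * a) * (shift (a⁻¹ * c) q)⁻¹) = _
    have e : shift (a⁻¹ * c) q * (a * a) * (shift (a⁻¹ * c) q)⁻¹ = c * c := by
      conv_rhs => rw [← shift_partner hS h]
      simp [mul_assoc]
    have hac : c * a⁻¹ = a⁻¹ * c := (commute_of_bot h.hAC (inv_mem h.ha) h.hc).symm.eq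
    rw [e]
    calc (a * a)⁻¹ * (c * c) = a⁻¹ * (a⁻¹ * c) * c := by simp [mul_assoc]
      _ = a⁻¹ * (c * a⁻¹) * c := by rw [hac]
      _ = _ := by simp [mul_assoc]
  rw [h3] at h1
  exact bot_comm h1

theorem shift_conj_commute (hS : IsRootSubgroupSet S) (h : Quad S A C B q a c) {x r : G}
    (hx : x ∈ B) (hr : r ∈ B) :
    Commute (shift (a⁻¹ * c) x) ((a⁻¹ * c) * shift (a⁻¹ * c) r * (a⁻¹ * c)⁻¹) := by
  set z := a⁻¹ * c with hz
  have hBB : ⁅B, B⁆ = ⊥ :=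
    commutator_eq_bot_iff_commutes.2 fun x hx y hy => RootSet.comm_of_mem hS h.hB hx hy
  have e : z * shift z r * z⁻¹ = (z * r⁻¹ * z⁻¹) * (z * z * r * (z * z)⁻¹) := by
    simp [shift, mul_assoc]
  have hD : ⁅B, conjBy B z⁆ = ⊥ := bot_conj_partner h
  have hD2 : ⁅conjBy B z, conjBy B (z * z)⁆ = ⊥ := by
    rw [← conjBy_conjBy B z z]; exact bot_conj hD z
  rw [e, shift]
  refine Commute.mul_left ?_ ?_
  · exact (commute_of_bot hD (inv_mem hx) (conj_mem_conjBy (inv_mem hr))).mul_right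
      (commute_of_bot (bot_conj_sq hS h) (inv_mem hx) (conj_mem_conjBy hr))
  · exact (commute_of_bot (bot_conj hBB z) (conj_mem_conjBy hx)
      (conj_mem_conjBy (inv_mem hr))).mul_right
      (commute_of_bot hD2 (conj_mem_conjBy hx) (conj_mem_conjBy hr))

theorem mem_of_conj_mem (hS : IsRootSubgroupSet S) (h : Quad S A C B q a c) {U : Subgroup G}
    (hU : ∀ r ∈ B, r ≠ 1 → conjBy A (shift (a⁻¹ * c) r) ≤ U) (hz : a⁻¹ * c ∈ U) : a ∈ U := by
  have hc : c ∈ U := by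
    have := hU q h.hq h.hq1 (conj_mem_conjBy h.ha)
    rwa [shift_partner hS h] at this
  have hac : c * (a⁻¹ * c)⁻¹ = a := by
    rw [mul_inv_rev, inv_inv, ← mul_assoc, mul_inv_cancel, one_mul]
  rw [← hac]
  exact mul_mem hc (inv_mem hz)

theorem shift_conj_mem (hS : IsRootSubgroupSet S) (h : Quad S A C B q a c) {U : Subgroup G}
    (hU : ∀ r ∈ B, r ≠ 1 → conjBy A (shift (a⁻¹ * c) r) ≤ U) {r : G} (hr : r ∈ B) (hr1 : r ≠ 1)
    (hrq : r * q ≠ 1) :
    shift (a⁻¹ * c) r * (a⁻¹ * c) * (shift (a⁻¹ * c) r)⁻¹ ∈ U := by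
  have h1 := hU _ (mul_mem hr h.hq) hrq (conj_mem_conjBy h.ha)
  have h2 := hU r hr hr1 (conj_mem_conjBy h.ha)
  have e : shift (a⁻¹ * c) (r * q) * a * (shift (a⁻¹ * c) (r * q))⁻¹ =
      shift (a⁻¹ * c) r * c * (shift (a⁻¹ * c) r)⁻¹ := by
    calc shift (a⁻¹ * c) (r * q) * a * (shift (a⁻¹ * c) (r * q))⁻¹
        = shift (a⁻¹ * c) r * (shift (a⁻¹ * c) q * a * (shift (a⁻¹ * c) q)⁻¹) *
            (shift (a⁻¹ * c) r)⁻¹ := by rw [shift_mul hS h hr h.hq]; simp [mul_assoc]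
      _ = _ := by rw [shift_partner hS h]
  rw [e] at h1
  simpa [mul_assoc] using mul_mem (inv_mem h2) h1

theorem mem_of_order (hS : IsRootSubgroupSet S) (h : Quad S A C B q a c) {U : Subgroup G}
    (hU : ∀ r ∈ B, r ≠ 1 → conjBy A (shift (a⁻¹ * c) r) ≤ U) {r : G} (hr : r ∈ B) (hr1 : r ≠ 1)
    (hrr : r * r ≠ 1) (hrq : r * q ≠ 1) (hrrq : r * r * q ≠ 1) : a ∈ U := by
  set z := a⁻¹ * c with hz
  set t := shift z r with ht
  have w1 : t * z * t⁻¹ ∈ U := shift_conj_mem hS h hU hr hr1 hrq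
  have w2 : t * t * z * (t * t)⁻¹ ∈ U := by
    have := shift_conj_mem hS h hU (mul_mem hr hr) hrr hrrq
    rwa [shift_mul hS h hr hr] at this
  set η := t * z * t⁻¹ * z⁻¹ with hη
  have hcomm : Commute t η := by
    have h1 : Commute t (z * t⁻¹ * z⁻¹) := by
      have := (shift_conj_commute hS h hr hr).inv_right
      rw [← hz, ← ht, show (z * t * z⁻¹)⁻¹ = z * t⁻¹ * z⁻¹ by simp [mul_assoc]] at this
      exact this
    simpa [hη, mul_assoc] using (Commute.refl t).mul_right h1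
  have e1 : t * z * t⁻¹ = η * z := by simp [hη, mul_assoc]
  have e2 : t * t * z * (t * t)⁻¹ = η * η * z := by
    calc t * t * z * (t * t)⁻¹ = t * (t * z * t⁻¹) * t⁻¹ := by simp [mul_assoc]
      _ = (t * η) * z * t⁻¹ := by rw [e1]; simp [mul_assoc]
      _ = η * (t * z * t⁻¹) := by rw [hcomm.eq]; simp [mul_assoc]
      _ = _ := by rw [e1, ← mul_assoc]
  refine mem_of_conj_mem hS h hU ?_
  have := mul_mem (mul_mem w1 (inv_mem w2)) w1
  rw [e1, e2] at this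
  simpa [mul_assoc] using this

theorem mem_of_exponent_two (hS : IsRootSubgroupSet S) (h : Quad S A C B q a c) {U : Subgroup G}
    (hU : ∀ r ∈ B, r ≠ 1 → conjBy A (shift (a⁻¹ * c) r) ≤ U) {r : G} (hr : r ∈ B) (hr1 : r ≠ 1)
    (hrq : r * q ≠ 1) (hr2 : r * r = 1) (ha2 : a * a = 1) : a ∈ U := by
  set z := a⁻¹ * c with hz
  set t := shift z r with ht
  have hc2 : c * c = 1 := by
    rw [← shift_partner hS h]
    simp only [mul_assoc, inv_mul_cancel_left]
    rw [← mul_assoc a a, ha2, one_mul, mul_inv_cancel]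
  have hz2 : z⁻¹ = z := by
    rw [hz, mul_inv_rev, inv_inv, inv_eq_of_mul_eq_one_right hc2, inv_eq_of_mul_eq_one_right ha2]
    exact (commute_of_bot h.hAC h.ha h.hc).symm.eq
  have hr' : r⁻¹ = r := inv_eq_of_mul_eq_one_right hr2
  have ht2 : t * t = 1 := by
    rw [ht, ← shift_mul hS h hr hr, hr2]; simp [shift]
  have e : z * t * z⁻¹ = t := by
    calc z * t * z⁻¹ = t⁻¹ := by
          simp only [ht, shift, mul_inv_rev, inv_inv, hz2, hr', mul_assoc]
          rw [show z * z = 1 by nth_rewrite 1 [← hz2]; exact inv_mul_cancel z]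
          simp [hr', hz2]
      _ = t := inv_eq_of_mul_eq_one_right ht2
  have w1 : t * z * t⁻¹ ∈ U := shift_conj_mem hS h hU hr hr1 hrq
  refine mem_of_conj_mem hS h hU ?_
  have : t * z * t⁻¹ = z := by
    calc t * z * t⁻¹ = (z * t * z⁻¹) * z * t⁻¹ := by rw [e]
      _ = z := by simp [mul_assoc]
  rwa [this] at w1

end Quad

end CfsgLib.RootSubgroups.Cls
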