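import Cfsg.Agent.RootSubgroups.ClassesQuad
import Cfsg.Agent.RootSubgroups.ClassesGen

/-!
# Rank one pairs in a class with commuting members are special
-/

set_option autoImplicit false

namespace CfsgLib.RootSubgroups.Cls

open scoped commutatorElement

open Cfsg CfsgLib.RootSubgroups

variable {G : Type*} [Group G] {S : Set (Subgroup G)}

/-- Some non-identity element of `A` lies in any subgroup containing the commuting partners. -/
theorem exists_mem_commuting (hS : IsRootSubgroupSet S) {A C Q U : Subgroup G} (hA : A ∈ S)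
    (hC : C ∈ S) (hQ : Q ∈ S) (hAQ : IsRankOnePair A Q) (hCQ : IsRankOnePair C Q) (hne : A ≠ C)
    (hAC : ⁅A, C⁆ = ⊥) (hU : ∀ D ∈ commutingPartners S A, D ≤ U)
    (hA2 : (∀ x ∈ Q, x * x = 1) → ∀ x ∈ A, x * x = 1)
    (hcard : (∀ x ∈ Q, x * x = 1) ∨ (∀ x ∈ Q, x * x * x = 1) → 3 < ENat.card Q) :
    ∃ a ∈ A, a ≠ 1 ∧ a ∈ U := by
  have hchoose : ∃ q ∈ Q, q ≠ 1 ∧ ((∃ r ∈ Q, r ≠ 1 ∧ r * r ≠ 1 ∧ r * q ≠ 1 ∧ r * r * q ≠ 1) ∨
      ((∀ x ∈ Q, x * x = 1) ∧ ∃ r ∈ Q, r ≠ 1 ∧ r * q ≠ 1)) := by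
    by_cases hbig : ∃ q ∈ Q, q * q ≠ 1 ∧ q * q * q ≠ 1
    · obtain ⟨q, hq, h2, h3⟩ := hbig
      have h1 : q ≠ 1 := fun h0 => h2 (by rw [h0, one_mul])
      exact ⟨q, hq, h1, Or.inl ⟨q, hq, h1, h2, h2, h3⟩⟩
    push Not at hbig
    have hexp : (∀ x ∈ Q, x * x = 1) ∨ (∀ x ∈ Q, x * x * x = 1) := by
      by_contra hcon
      push Not at hcon
      obtain ⟨⟨x, hx, hx2⟩, y, hy, hy3⟩ := hcon
      have hx3 := hbig x hx hx2
      have hy2 : y * y = 1 := by
        by_contra h0; exact hy3 (hbig y hy h0)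
      have hxy : Commute x y := RootSet.comm_of_mem hS hQ hx hy
      by_cases h2 : x * y * (x * y) = 1
      · exact hx2 (by rwa [hxy.symm.mul_mul_mul_comm, hy2, mul_one] at h2)
      · have h3 := hbig (x * y) (mul_mem hx hy) h2
        rw [hxy.symm.mul_mul_mul_comm, hy2, mul_one, ← mul_assoc, hx3, one_mul] at h3
        exact hy3 (by rw [h3]; simp)
    have hpick : ∀ T : Finset G, T.card ≤ 3 → ∃ r ∈ Q, r ∉ T := by
      intro T hT
      by_contra hcon
      push Not at hcon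
      have hle : ENat.card ↥Q ≤ (T.card : ℕ∞) := by
        have h1 := ENat.card_le_card_of_injective (f := fun x : ↥Q => (⟨x.1, hcon x.1 x.2⟩ : ↥T))
          fun x y hxy => Subtype.ext (congrArg (fun t : ↥T => (t : G)) hxy)
        refine h1.trans (le_of_eq ?_)
        rw [ENat.card_eq_coe_fintype_card (α := ↥T), Fintype.card_coe]
      exact absurd (lt_of_lt_of_le (hcard hexp) (hle.trans (Nat.cast_le.2 hT))) (lt_irrefl _)
    classical
    obtain ⟨q, hq, hq1⟩ := RankOne.exists_left (RankOnePair_symm hAQ)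
    obtain ⟨r, hr, hrT⟩ := hpick {1, q, q⁻¹} (by
      refine le_trans (Finset.card_insert_le _ _) ?_
      have := Finset.card_insert_le q ({q⁻¹} : Finset G)
      rw [Finset.card_singleton] at this
      omega)
    simp only [Finset.mem_insert, Finset.mem_singleton, not_or] at hrT
    obtain ⟨hr1, hrq, hrq'⟩ := hrT
    have hrq1 : r * q ≠ 1 := fun h0 => hrq' (mul_eq_one_iff_eq_inv'.1 h0 |> fun h => by
      rw [h]; simp)
    refine ⟨q, hq, hq1, ?_⟩
    rcases hexp with h2 | h3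
    · exact Or.inr ⟨h2, r, hr, hr1, hrq1⟩
    · refine Or.inl ⟨r, hr, hr1, fun h0 => hr1 ?_, hrq1, fun h0 => hrq ?_⟩
      · simpa [h0] using h3 r hr
      · calc r = r * (r * r * q) := by rw [h0, mul_one]
          _ = q := by rw [← mul_assoc, ← mul_assoc, h3 r hr, one_mul]
  obtain ⟨q, hq, hq1, hcase⟩ := hchoose
  obtain ⟨a, ha, ha1, haq⟩ := exists_swap (RankOnePair_symm hAQ) hq hq1
  obtain ⟨c, hc, -, hcq⟩ := exists_swap (RankOnePair_symm hCQ) hq hq1
  have h : Quad S A C Q q a c :=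
    ⟨hA, hC, hQ, hAQ, hCQ, hne, hAC, hq, hq1, ha, hc, haq.symm, hcq.symm⟩
  have hU' : ∀ r ∈ Q, r ≠ 1 → conjBy A (Quad.shift (a⁻¹ * c) r) ≤ U := fun r hr hr1 =>
    hU _ ⟨hS.conj_mem A hA _, Quad.pencil_ne hS h hr hr1, bot_comm (Quad.pencil_bot hS h hr)⟩
  refine ⟨a, ha, ha1, ?_⟩
  rcases hcase with ⟨r, hr, h1, h2, h3, h4⟩ | ⟨he, r, hr, h1, h2⟩
  · exact Quad.mem_of_order hS h hU' hr h1 h2 h3 h4
  · exact Quad.mem_of_exponent_two hS h hU' hr h1 h2 (he r hr) (hA2 he a ha)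

theorem upper_card_le {k : Type*} [Field k] {A₀ B₀ : Subgroup G} (h : IsPSL2PairOver k A₀ B₀) :
    ENat.card k ≤ ENat.card A₀ := by
  obtain ⟨φ, -, hker, hA, -⟩ := h
  let u : k → Matrix.SpecialLinearGroup (Fin 2) k := fun t =>
    ⟨!![1, t; 0, 1], by simp [Matrix.det_fin_two_of]⟩
  let l : Matrix.SpecialLinearGroup (Fin 2) k := ⟨!![1, 0; 1, 1], by simp [Matrix.det_fin_two_of]⟩
  have hu : ∀ t, φ (u t) ∈ A₀ := by
    intro t
    rw [← hA]
    exact ⟨u t, Subgroup.subset_closure ⟨by simp [u], by simp [u], by simp [u]⟩, rfl⟩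
  have humul : ∀ s t, u s * u t = u (s + t) := fun s t => Subtype.ext (by
    show (!![1, s; 0, 1] : Matrix (Fin 2) (Fin 2) k) * !![1, t; 0, 1] = !![1, s + t; 0, 1]
    simp [Matrix.mul_fin_two, add_comm])
  refine ENat.card_le_card_of_injective (f := fun t => (⟨φ (u t), hu t⟩ : ↥A₀)) fun s t hst => ?_
  have h1 : φ (u s) = φ (u t) := Subtype.mk.inj hst
  have h2 : u (s - t) ∈ φ.ker := by
    rw [MonoidHom.mem_ker]
    have h3 : φ (u (s - t) * u t) = φ (u t) := by rw [humul, sub_add_cancel, h1]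
    rwa [map_mul, mul_eq_right] at h3
  have h4 := congrArg (fun M : Matrix.SpecialLinearGroup (Fin 2) k =>
    (M : Matrix (Fin 2) (Fin 2) k) 0 0) (Subgroup.mem_center_iff.1 (hker h2) l)
  simp only [Matrix.SpecialLinearGroup.coe_mul] at h4
  simp [u, l, Matrix.mul_apply] at h4
  exact sub_eq_zero.1 h4

theorem special_of_degenerate (hS : IsRootSubgroupClass S) (hd : IsDegenerateRootSet S)
    (hcomm : ∃ A ∈ S, ∃ C ∈ S, A ≠ C ∧ ⁅A, C⁆ = ⊥)
    (hcard : ∀ A ∈ S, ∀ B ∈ rankOnePartners S A,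
      (∀ X ∈ S, ∀ x ∈ X, 0 < orderOf x ∧ orderOf x ≤ 3) → 3 < ENat.card B)
    {A B : Subgroup G} (hA : A ∈ S) (hB : B ∈ rankOnePartners S A) :
    IsSpecialRankOnePair A B := by
  have hcases : ∀ X ∈ S, ∀ Y ∈ S, ⁅X, Y⁆ = ⊥ ∨ IsRankOnePair X Y := fun X hX Y hY =>
    (hS.1.pair X hX Y hY).imp_right fun h => h.resolve_right (hd X hX Y hY)
  obtain ⟨C₀, hC₀⟩ : ∃ C, C ∈ commutingPartners S A := by
    obtain ⟨A₁, hA₁, C₁, hC₁, hne, hc⟩ := hcomm
    obtain ⟨g, rfl⟩ := hS.2.2 A₁ hA₁ A hA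
    exact ⟨_, commutingPartners_conj hS.1 (A := A₁) (B := C₁) ⟨hC₁, hne.symm, hc⟩ g⟩
  have good : ∀ {A B : Subgroup G}, A ∈ S → B ∈ S → IsRankOnePair A B →
      (∃ C ∈ commutingPartners S A, IsRankOnePair C B) → IsSpecialRankOnePair A B := by
    rintro A B hA hB hAB ⟨C, hC, hCB⟩
    refine ⟨hAB, fun a ha ha1 b hb hb1 hab => ?_⟩
    obtain ⟨c, hc, -, hcq⟩ :=
      exists_swap (RankOnePair_symm hCB) (inv_mem hb) (by simpa using hb1)
    have h : Quad S A C B b⁻¹ a⁻¹ c := ⟨hA, hC.1, hB, hAB, hCB, hC.2.1.symm, hC.2.2,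
      inv_mem hb, by simpa using hb1, inv_mem ha, hc, hab, hcq.symm⟩
    simpa [mul_assoc] using congrArg (fun t => t⁻¹) (Quad.special hS.1 h)
  by_cases hgood : ∃ C ∈ commutingPartners S A, IsRankOnePair C B
  · exact good hA hB.1 hB.2 hgood
  exfalso
  push Not at hgood
  -- some commuting partner of `A` shares a rank one partner with it
  obtain ⟨C, hC, Q, hQ, hAQ, hCQ⟩ : ∃ C ∈ commutingPartners S A, ∃ Q ∈ S,
      IsRankOnePair A Q ∧ IsRankOnePair C Q := by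
    by_contra hcon
    push Not at hcon
    have hreach := connected_of_class hS.1 hS.2 hA hB.1 hB.2 C₀ hC₀.1 A hA
    have : ∀ X, Relation.ReflTransGen (FAdj S) C₀ X → X ∈ commutingPartners S A := by
      intro X hX
      induction hX with
      | refl => exact hC₀
      | tail _ hadj ih =>
        rename_i Y Z _
        rcases hcases A hA Z hadj.2.1 with h | h
        · refine ⟨hadj.2.1, fun he => ?_, h⟩
          subst he
          exact RankOne.commutator_ne_bot hadj.2.2 (bot_comm ih.2.2)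
        · exact absurd hadj.2.2 (hcon Y ih Z hadj.2.1 h)
    exact (this A hreach).2.1 rfl
  set U := ⨆ D ∈ commutingPartners S A, D
  have hexp : ∀ n : ℕ, (∀ x ∈ Q, x ^ n = 1) → ∀ X ∈ S, ∀ x ∈ X, x ^ n = 1 := by
    intro n h X hX x hx
    obtain ⟨g, rfl⟩ := hS.2.2 Q hQ X hX
    have h1 := h _ (mem_conjBy.1 hx)
    have h2 : g⁻¹ * x * g = g⁻¹ * x * g⁻¹⁻¹ := by rw [inv_inv]
    rw [h2, conj_pow, inv_inv] at h1
    simpa [mul_assoc] using congrArg (fun t => g * t * g⁻¹) h1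
  obtain ⟨a, ha, ha1, haU⟩ := exists_mem_commuting hS.1 hA hC.1 hQ hAQ hCQ hC.2.1.symm hC.2.2
    (U := U) (fun D hD => le_iSup₂ (f := fun (D : Subgroup G) (_ : D ∈ commutingPartners S A) => D)
      D hD)
    (fun h x hx => by
      simpa [pow_two] using hexp 2 (fun x hx => by simpa [pow_two] using h x hx) A hA x hx)
    (fun h => hcard A hA Q ⟨hQ, hAQ⟩ fun X hX x hx => by
      rcases h with h | h
      · have h1 := hexp 2 (fun x hx => by simpa [pow_two] using h x hx) X hX x hx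
        exact ⟨orderOf_pos_iff.2 (isOfFinOrder_iff_pow_eq_one.2 ⟨2, two_pos, h1⟩),
          (Nat.le_of_dvd two_pos (orderOf_dvd_of_pow_eq_one h1)).trans (by norm_num)⟩
      · have h1 := hexp 3 (fun x hx => by simpa [pow_succ] using h x hx) X hX x hx
        exact ⟨orderOf_pos_iff.2 (isOfFinOrder_iff_pow_eq_one.2 ⟨3, three_pos, h1⟩),
          Nat.le_of_dvd three_pos (orderOf_dvd_of_pow_eq_one h1)⟩)
  have hUB : U ≤ Subgroup.centralizer (B : Set G) := iSup₂_le fun D hD =>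
    Subgroup.commutator_eq_bot_iff_le_centralizer.1
      ((hcases D hD.1 B hB.1).resolve_right (hgood D hD))
  exact ha1 (RankOne.eq_one_of_commutes hB.2 ha fun b hb =>
    (Subgroup.mem_centralizer_iff.1 (hUB haU) b hb).symm)

end CfsgLib.RootSubgroups.Cls
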