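import Cfsg.Agent.RootSubgroups.ClassesBasic

/-!
# Two commuting members both in the commutator case with a third
-/

set_option autoImplicit false

namespace CfsgLib.RootSubgroups.Cls

open scoped commutatorElement

open Cfsg CfsgLib.RootSubgroups

variable {G : Type*} [Group G] {S : Set (Subgroup G)}

theorem le_normalizer_of_commutator_le {W L : Subgroup G} (h : ⁅W, L⁆ ≤ L) :
    W ≤ Subgroup.normalizer (L : Set G) := by
  refine le_normalizer_of_conjBy_le fun w hw x hx => ?_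
  have h1 := mem_conjBy.1 hx
  have h2 := mul_mem (h (Subgroup.commutator_mem_commutator hw h1)) h1
  simpa [commutatorElement_def, mul_assoc] using h2

theorem commutator_sup_left_le {U V W L : Subgroup G} (hU : U ≤ Subgroup.normalizer (L : Set G))
    (hV : V ≤ Subgroup.normalizer (L : Set G)) (h1 : ⁅U, W⁆ ≤ L) (h2 : ⁅V, W⁆ ≤ L) :
    ⁅U ⊔ V, W⁆ ≤ L := by
  rw [Subgroup.commutator_le]
  intro x hx w hw
  suffices h : x ∈ Subgroup.normalizer (L : Set G) ∧ ∀ w ∈ W, ⁅x, w⁆ ∈ L from h.2 w hw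
  rw [Subgroup.sup_eq_closure] at hx
  induction hx using Subgroup.closure_induction with
  | mem y hy =>
    rcases hy with hy | hy
    · exact ⟨hU hy, fun w hw => h1 (Subgroup.commutator_mem_commutator hy hw)⟩
    · exact ⟨hV hy, fun w hw => h2 (Subgroup.commutator_mem_commutator hy hw)⟩
  | one => exact ⟨one_mem _, fun w _ => by simp [commutatorElement_def]⟩
  | mul y z _ _ ihy ihz =>
    refine ⟨mul_mem ihy.1 ihz.1, fun w hw => ?_⟩
    have e : ⁅y * z, w⁆ = y * ⁅z, w⁆ * y⁻¹ * ⁅y, w⁆ := by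
      simp [commutatorElement_def, mul_assoc]
    rw [e]
    exact mul_mem ((Subgroup.mem_normalizer_iff.1 ihy.1 _).1 (ihz.2 w hw)) (ihy.2 w hw)
  | inv y _ ih =>
    refine ⟨inv_mem ih.1, fun w hw => ?_⟩
    have e : ⁅y⁻¹, w⁆ = y⁻¹ * ⁅y, w⁆⁻¹ * y⁻¹⁻¹ := by simp [commutatorElement_def, mul_assoc]
    rw [e]
    exact (Subgroup.mem_normalizer_iff.1 (inv_mem ih.1) _).1 (inv_mem (ih.2 w hw))

theorem commutator_sup_right_le {U V W L : Subgroup G} (hU : U ≤ Subgroup.normalizer (L : Set G))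
    (hV : V ≤ Subgroup.normalizer (L : Set G)) (h1 : ⁅W, U⁆ ≤ L) (h2 : ⁅W, V⁆ ≤ L) :
    ⁅W, U ⊔ V⁆ ≤ L := by
  rw [Subgroup.commutator_comm] at h1 h2 ⊢
  exact commutator_sup_left_le hU hV h1 h2

theorem le_normalizer_of_bot {U L : Subgroup G} (h : ⁅U, L⁆ = ⊥) :
    U ≤ Subgroup.normalizer (L : Set G) :=
  le_normalizer_of_commutator_le (h.le.trans bot_le)

/-- The data of the lemma on a path `A, B, C` of commutator partners with `A`, `C` commuting. -/
structure Triple (S : Set (Subgroup G)) (A B C : Subgroup G) : Prop where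
  hA : A ∈ S
  hB : B ∈ S
  hC : C ∈ S
  left : RootCommutatorCase S A B
  right : RootCommutatorCase S B C
  bot : ⁅A, C⁆ = ⊥

namespace Triple

variable {A B C : Subgroup G} {b : G}

theorem symm (ht : Triple S A B C) : Triple S C B A :=
  ⟨ht.hC, ht.hB, ht.hA, CommCase.symm ht.right, CommCase.symm ht.left, bot_comm ht.bot⟩

theorem right_bot (ht : Triple S A B C) : ⁅⁅B, C⁆, B⁆ = ⊥ ∧ ⁅⁅B, C⁆, C⁆ = ⊥ :=
  ⟨commutator_eq_bot_iff_commutes.2 fun _ hc _ hx => CommCase.central_left ht.right hc hx,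
    commutator_eq_bot_iff_commutes.2 fun _ hc _ hx => CommCase.central_right ht.right hc hx⟩

theorem pair_cases (hS : IsRootSubgroupSet S) (ht : Triple S A B C) (hb : b ∈ B) (hb1 : b ≠ 1) :
    ⁅A, ⁅B, C⁆⁆ = ⊥ ∨ RootCommutatorCase S A ⁅B, C⁆ := by
  rcases hS.pair A ht.hA _ ht.right.1 with h | h | h
  · exact Or.inl h
  · exfalso
    refine RootSet.commCase_not_commutes hS ht.right (inv_mem hb) (by simpa using hb1)
      fun c hc => ?_
    by_contra hne
    set e := c⁻¹ * (b⁻¹ * c * b) with he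
    have heE : e ∈ ⁅B, C⁆ := by
      rw [Subgroup.commutator_comm]
      have := Subgroup.commutator_mem_commutator (inv_mem hc) (inv_mem hb)
        (H₁ := C) (H₂ := B)
      simpa [he, commutatorElement_def, mul_assoc] using this
    have he1 : e ≠ 1 := fun h0 => hne (by
      have h1 : b⁻¹ * c * b = c := by simpa [he, inv_mul_eq_one, eq_comm] using h0
      calc b⁻¹ * c = b⁻¹ * c * b * b⁻¹ := by simp [mul_assoc]
        _ = c * b⁻¹ := by rw [h1])
    have hc1 : c ≠ 1 := fun h0 => hne (by simp [h0])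
    refine RootSet.translate_not_root hS ht.right.1 ht.hA (RankOnePair_symm h)
      (RankOne.commutes_sup
        (fun x hx => ((commute_of_bot ht.right_bot.2 hx hc).symm : Commute c x).eq)
        (fun x hx => ((commute_of_bot ht.bot hx hc).symm : Commute c x).eq))
      hc1 e heE he1 ⟨?_, conjBy C b⁻¹, hS.conj_mem C ht.hC _, ?_⟩
    · intro h0
      apply hc1
      simpa [he, mul_assoc] using congrArg (fun t => b * t * b⁻¹) h0
    · rw [mem_conjBy]
      simpa [he, mul_assoc] using hc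
  · exact Or.inr h

theorem H_bot (hS : IsRootSubgroupSet S) (ht : Triple S A B C) (hb : b ∈ B) (hb1 : b ≠ 1) :
    ⁅⁅A, ⁅B, C⁆⁆, A⁆ = ⊥ ∧ ⁅⁅A, ⁅B, C⁆⁆, ⁅B, C⁆⁆ = ⊥ ∧ ⁅⁅A, ⁅B, C⁆⁆, C⁆ = ⊥ := by
  refine ⟨?_, ?_, bot_comm (bot_commutator (bot_comm ht.bot) (bot_comm ht.right_bot.2))⟩ <;>
  rcases pair_cases hS ht hb hb1 with h | h
  · rw [h, Subgroup.commutator_bot_left]
  · exact commutator_eq_bot_iff_commutes.2 fun _ hc _ hx => CommCase.central_left h hc hx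
  · rw [h, Subgroup.commutator_bot_left]
  · exact commutator_eq_bot_iff_commutes.2 fun _ hc _ hx => CommCase.central_right h hc hx

theorem conj_le (ht : Triple S A B C) (hb : b ∈ B) : conjBy C b⁻¹ ≤ C ⊔ ⁅B, C⁆ := by
  rw [Subgroup.commutator_comm]
  exact CommCase.conjBy_le_sup (CommCase.symm ht.right) (inv_mem hb)

theorem commutator_le_sup (ht : Triple S A B C) (hb : b ∈ B) (hb1 : b ≠ 1) :
    ⁅B, C⁆ ≤ C ⊔ conjBy C b⁻¹ := by
  intro e he
  obtain ⟨c, hc, hce⟩ := CommCase.exists_comm_eq ht.right (inv_mem hb) (by simpa using hb1) he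
  rw [← hce]
  refine mul_mem (Subgroup.mem_sup_right (mem_conjBy.2 ?_)) (Subgroup.mem_sup_left (inv_mem hc))
  simpa [mul_assoc] using hc

theorem conj_commutes (hS : IsRootSubgroupSet S) (ht : Triple S A B C) (hb : b ∈ B) :
    ⁅A, conjBy A b⁻¹⁆ = ⊥ :=
  commutator_eq_bot_iff_commutes.2
    (RootSet.commCase_conj_commutes hS ht.hA (CommCase.symm ht.left) (inv_mem hb))

theorem commute_sup (hS : IsRootSubgroupSet S) (ht : Triple S A B C) (hb : b ∈ B) :
    ⁅A ⊔ conjBy C b⁻¹, conjBy A b⁻¹ ⊔ C⁆ = ⊥ := by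
  refine bot_comm (bot_sup (bot_comm (bot_sup (conj_commutes hS ht hb) ht.bot))
    (bot_comm (bot_sup ?_ (bot_comm (conj_commutes hS ht.symm hb)))))
  rw [← conjBy_commutator, bot_comm ht.bot, conjBy_bot]

theorem comm_conj_eq (ht : Triple S A B C) {a e c : G} (ha : a ∈ A) (hc : c ∈ C) :
    ⁅a, e * c⁆ = ⁅a, e⁆ := by
  have h : c * a⁻¹ = a⁻¹ * c := (commute_of_bot ht.bot (inv_mem ha) hc).symm.eq
  calc ⁅a, e * c⁆ = a * e * (c * a⁻¹) * (c⁻¹ * e⁻¹) := by
        simp [commutatorElement_def, mul_assoc]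
    _ = _ := by rw [h]; simp [commutatorElement_def, mul_assoc]

theorem H_le (ht : Triple S A B C) (hb : b ∈ B) (hb1 : b ≠ 1) :
    ⁅A, ⁅B, C⁆⁆ ≤ A ⊔ conjBy C b⁻¹ := by
  rw [Subgroup.commutator_le]
  intro a ha e he
  obtain ⟨c, hc, hce⟩ := CommCase.exists_comm_eq ht.right (inv_mem hb) (by simpa using hb1) he
  have h' : b⁻¹ * c * b = e * c := by rw [← hce]; simp [mul_assoc]
  rw [← comm_conj_eq ht ha hc, ← h']
  have hm : b⁻¹ * c * b ∈ A ⊔ conjBy C b⁻¹ :=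
    Subgroup.mem_sup_right (mem_conjBy.2 (by simpa [mul_assoc] using hc))
  exact mul_mem (mul_mem (mul_mem (Subgroup.mem_sup_left ha) hm)
    (inv_mem (Subgroup.mem_sup_left ha))) (inv_mem hm)

theorem H_sup_bot (hS : IsRootSubgroupSet S) (ht : Triple S A B C) (hb : b ∈ B) (hb1 : b ≠ 1) :
    ⁅⁅A, ⁅B, C⁆⁆, A ⊔ conjBy C b⁻¹⁆ = ⊥ := by
  obtain ⟨h1, h2, h3⟩ := H_bot hS ht hb hb1
  exact bot_sup h1 (bot_mono (bot_sup h3 h2) (conj_le ht hb))

theorem sup_derived (hS : IsRootSubgroupSet S) (ht : Triple S A B C) (hb : b ∈ B) (hb1 : b ≠ 1) :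
    ⁅A ⊔ conjBy C b⁻¹, A ⊔ conjBy C b⁻¹⁆ ≤ ⁅A, ⁅B, C⁆⁆ := by
  have hn := sup_le_iff.1 (le_normalizer_of_bot (bot_comm (H_sup_bot hS ht hb hb1)))
  have hkey : ⁅A, conjBy C b⁻¹⁆ ≤ ⁅A, ⁅B, C⁆⁆ := by
    rw [Subgroup.commutator_le]
    intro a ha x hx
    have hc := mem_conjBy.1 hx
    simp only [inv_inv] at hc
    have he : b⁻¹ * (b * x * b⁻¹) * b * (b * x * b⁻¹)⁻¹ ∈ ⁅B, C⁆ := by
      simpa [commutatorElement_def] using
        Subgroup.commutator_mem_commutator (inv_mem hb) hc (H₁ := B) (H₂ := C)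
    have hxe : x = b⁻¹ * (b * x * b⁻¹) * b * (b * x * b⁻¹)⁻¹ * (b * x * b⁻¹) := by
      simp [mul_assoc]
    rw [hxe, comm_conj_eq ht ha hc]
    exact Subgroup.commutator_mem_commutator ha he
  have hAA : ⁅A, A⁆ = ⊥ :=
    commutator_eq_bot_iff_commutes.2 fun x hx y hy => RootSet.comm_of_mem hS ht.hA hx hy
  have hCC : ⁅conjBy C b⁻¹, conjBy C b⁻¹⁆ = ⊥ :=
    commutator_eq_bot_iff_commutes.2 fun x hx y hy =>
      RootSet.comm_of_mem hS (hS.conj_mem C ht.hC _) hx hy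
  exact commutator_sup_left_le hn.1 hn.2
    (commutator_sup_right_le hn.1 hn.2 (hAA.le.trans bot_le) hkey)
    (commutator_sup_right_le hn.1 hn.2 (by rw [Subgroup.commutator_comm]; exact hkey)
      (hCC.le.trans bot_le))

theorem bot_iff (ht : Triple S A B C) : ⁅A, ⁅B, C⁆⁆ = ⊥ ↔ ⁅C, ⁅B, A⁆⁆ = ⊥ := by
  have key : ∀ {A B C : Subgroup G}, Triple S A B C → ⁅A, ⁅B, C⁆⁆ = ⊥ → ⁅C, ⁅B, A⁆⁆ = ⊥ := by
    intro A B C ht h
    rw [Subgroup.commutator_comm B A, Subgroup.commutator_comm]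
    refine Subgroup.commutator_commutator_eq_bot_of_rotate (bot_comm h) ?_
    rw [bot_comm ht.bot, Subgroup.commutator_bot_left]
  exact ⟨key ht, key ht.symm⟩

theorem class_two (hS : IsRootSubgroupSet S) (ht : Triple S A B C) (hb : b ∈ B) (hb1 : b ≠ 1)
    (hne : ⁅A, ⁅B, C⁆⁆ ≠ ⊥) : ¬ IsMulCommutative ↥(A ⊔ conjBy C b⁻¹) ∧
      ⁅⁅A ⊔ conjBy C b⁻¹, A ⊔ conjBy C b⁻¹⁆, A ⊔ conjBy C b⁻¹⁆ = ⊥ := by
  refine ⟨fun hc => hne ?_, ?_⟩
  · rw [commutator_eq_bot_iff_commutes]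
    intro a ha e he
    obtain ⟨c, hcC, hce⟩ :=
      CommCase.exists_comm_eq ht.right (inv_mem hb) (by simpa using hb1) he
    have h1 : Commute a (b⁻¹ * c * b) := congrArg Subtype.val (hc.is_comm.comm
      (⟨a, Subgroup.mem_sup_left ha⟩ : ↥(A ⊔ conjBy C b⁻¹))
      ⟨_, Subgroup.mem_sup_right (mem_conjBy.2 (by simpa [mul_assoc] using hcC))⟩)
    have h2 : Commute a c⁻¹ := commute_of_bot ht.bot ha (inv_mem hcC)
    rw [← hce]
    simpa [mul_assoc] using (h1.mul_right h2).eq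
  · exact eq_bot_iff.2 ((Subgroup.commutator_mono (sup_derived hS ht hb hb1) le_rfl).trans
      (H_sup_bot hS ht hb hb1).le)

theorem abelian (hS : IsRootSubgroupSet S) (ht : Triple S A B C) (hb : b ∈ B) (hb1 : b ≠ 1)
    (h : ⁅A, ⁅B, C⁆⁆ = ⊥) : IsMulCommutative ↥(A ⊔ conjBy C b⁻¹) := by
  have h1 := eq_bot_iff.2 ((sup_derived hS ht hb hb1).trans h.le)
  exact ⟨⟨fun x y => Subtype.ext (commutator_eq_bot_iff_commutes.1 h1 x x.2 y y.2)⟩⟩

theorem core_normal (hS : IsRootSubgroupSet S) (ht : Triple S A B C) (hb : b ∈ B) (hb1 : b ≠ 1) :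
    A ⊔ B ⊔ C ≤ Subgroup.normalizer
      (((A ⊔ conjBy C b⁻¹) ⊔ (conjBy A b⁻¹ ⊔ C) : Subgroup G) : Set G) := by
  set N := (A ⊔ conjBy C b⁻¹) ⊔ (conjBy A b⁻¹ ⊔ C) with hN
  have hA : A ≤ N := le_sup_left.trans le_sup_left
  have hC : C ≤ N := le_sup_right.trans le_sup_right
  have hA' : conjBy A b⁻¹ ≤ N := le_sup_left.trans le_sup_right
  have hC' : conjBy C b⁻¹ ≤ N := le_sup_right.trans le_sup_left
  have hF : ⁅A, B⁆ ≤ N := by
    rw [Subgroup.commutator_comm]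
    exact (commutator_le_sup ht.symm hb hb1).trans (sup_le hA hA')
  have hE : ⁅B, C⁆ ≤ N := (commutator_le_sup ht hb hb1).trans (sup_le hC hC')
  refine sup_le (sup_le (hA.trans Subgroup.le_normalizer) ?_) (hC.trans Subgroup.le_normalizer)
  refine le_normalizer_of_conjBy_le fun β hβ => ?_
  have h1 : ∀ x ∈ B, conjBy A x ≤ N := fun x hx =>
    (CommCase.conjBy_le_sup ht.left hx).trans (sup_le hA hF)
  have h2 : ∀ x ∈ B, conjBy C x ≤ N := fun x hx =>
    (CommCase.conjBy_le_sup (CommCase.symm ht.right) hx).trans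
      (sup_le hC (by rw [Subgroup.commutator_comm]; exact hE))
  rw [hN, conjBy_sup, conjBy_sup, conjBy_sup, conjBy_conjBy, conjBy_conjBy]
  have hβb : β * b⁻¹ ∈ B := mul_mem hβ (inv_mem hb)
  exact sup_le (sup_le (h1 β hβ) (h2 _ hβb)) (sup_le (h1 _ hβb) (h2 β hβ))

theorem nilpotent (hS : IsRootSubgroupSet S) (ht : Triple S A B C) (hb : b ∈ B) (hb1 : b ≠ 1) :
    Group.IsNilpotent ↥(A ⊔ B ⊔ C) := by
  set E := ⁅B, C⁆ with hEdef
  set F := ⁅B, A⁆ with hFdef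
  set H := ⁅A, E⁆ with hHdef
  set H' := ⁅C, F⁆ with hH'def
  set X := A ⊔ conjBy C b⁻¹ with hX
  set Y := C ⊔ conjBy A b⁻¹ with hY
  have hXY : ⁅X, Y⁆ = ⊥ := by
    rw [hY, sup_comm]; exact commute_sup hS ht hb
  have hHX : H ≤ X := H_le ht hb hb1
  have hH'Y : H' ≤ Y := H_le ht.symm hb hb1
  have hHX0 : ⁅H, X⁆ = ⊥ := H_sup_bot hS ht hb hb1
  have hH'Y0 : ⁅H', Y⁆ = ⊥ := H_sup_bot hS ht.symm hb hb1
  set Z := H ⊔ H' with hZ
  -- `Z` is central in `X ⊔ Y`
  have hZX : ⁅X, Z⁆ = ⊥ := bot_sup (bot_comm hHX0) (bot_mono hXY hH'Y)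
  have hZY : ⁅Y, Z⁆ = ⊥ := bot_sup (bot_mono (bot_comm hXY) hHX) (bot_comm hH'Y0)
  have hZN : ⁅X ⊔ Y, Z⁆ = ⊥ := bot_comm (bot_sup (bot_comm hZX) (bot_comm hZY))
  have hNN : ⁅X ⊔ Y, X ⊔ Y⁆ ≤ Z := by
    have hXn := le_normalizer_of_bot hZX
    have hYn := le_normalizer_of_bot hZY
    exact commutator_sup_left_le hXn hYn
      (commutator_sup_right_le hXn hYn ((sup_derived hS ht hb hb1).trans le_sup_left)
        (hXY.le.trans bot_le))
      (commutator_sup_right_le hXn hYn ((bot_comm hXY).le.trans bot_le)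
        ((sup_derived hS ht.symm hb hb1).trans le_sup_right))
  have hEN : E ≤ X ⊔ Y := (commutator_le_sup ht hb hb1).trans
    (sup_le (le_sup_left.trans le_sup_right) (le_sup_right.trans le_sup_left))
  have hFN : F ≤ X ⊔ Y := (commutator_le_sup ht.symm hb hb1).trans
    (sup_le (le_sup_left.trans le_sup_left) (le_sup_right.trans le_sup_right))
  have hAN : A ≤ X ⊔ Y := le_sup_left.trans le_sup_left
  have hCN : C ≤ X ⊔ Y := le_sup_left.trans le_sup_right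
  have hBE : ⁅B, E⁆ = ⊥ := bot_comm ht.right_bot.1
  have hBF : ⁅B, F⁆ = ⊥ := bot_comm ht.symm.right_bot.1
  set Q := ⁅F, E⁆ with hQdef
  have hQZ : Q ≤ Z := (Subgroup.commutator_mono hFN hEN).trans hNN
  have hQB : ⁅B, Q⁆ = ⊥ := bot_commutator hBF hBE
  have hQN : ⁅X ⊔ Y, Q⁆ = ⊥ := bot_mono hZN hQZ
  -- `B` acts trivially on `Z` modulo `Q`
  have hgen : ∀ {A C : Subgroup G}, A ≤ X ⊔ Y → ⁅B, A⁆ ≤ X ⊔ Y → ⁅B, ⁅B, C⁆⁆ = ⊥ →
      ⁅A, ⁅B, C⁆⁆ ≤ Z → ⁅⁅B, A⁆, ⁅B, C⁆⁆ ≤ Q → ∀ β ∈ B, ∀ z ∈ ⁅A, ⁅B, C⁆⁆, ⁅β, z⁆ ∈ Q := by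
    intro A C hA hF hBC hH hQ β hβ
    let K : Subgroup G :=
      { carrier := {z | z ∈ Z ∧ ⁅β, z⁆ ∈ Q}
        one_mem' := ⟨one_mem _, by simp [commutatorElement_def]⟩
        mul_mem' := by
          rintro x y ⟨hx, hx'⟩ ⟨hy, hy'⟩
          refine ⟨mul_mem hx hy, ?_⟩
          have e : ⁅β, x * y⁆ = ⁅β, x⁆ * (x * ⁅β, y⁆ * x⁻¹) := by
            simp [commutatorElement_def, mul_assoc]
          rw [e]
          refine mul_mem hx' ?_
          have hxN : x ∈ X ⊔ Y := (sup_le (hHX.trans le_sup_left) (hH'Y.trans le_sup_right)) hx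
          rw [(commute_of_bot hQN hxN hy').eq, mul_assoc, mul_inv_cancel, mul_one]
          exact hy'
        inv_mem' := by
          rintro x ⟨hx, hx'⟩
          refine ⟨inv_mem hx, ?_⟩
          have e : ⁅β, x⁻¹⁆ = x⁻¹ * ⁅β, x⁆⁻¹ * x := by simp [commutatorElement_def, mul_assoc]
          have hxN : x ∈ X ⊔ Y := (sup_le (hHX.trans le_sup_left) (hH'Y.trans le_sup_right)) hx
          rw [e, (commute_of_bot hQN (inv_mem hxN) (inv_mem hx')).eq, mul_assoc, inv_mul_cancel,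
            mul_one]
          exact inv_mem hx' }
    suffices h : ⁅A, ⁅B, C⁆⁆ ≤ K from fun z hz => (h hz).2
    rw [Subgroup.commutator_le]
    intro a ha e he
    refine ⟨hH (Subgroup.commutator_mem_commutator ha he), ?_⟩
    set f := β * a * β⁻¹ * a⁻¹ with hf
    have hfF : f ∈ ⁅B, A⁆ := Subgroup.commutator_mem_commutator hβ ha
    have hae := hH (Subgroup.commutator_mem_commutator ha he)
    have hfc : f * ⁅a, e⁆ = ⁅a, e⁆ * f := (commute_of_bot hZN (hF hfF) hae).eq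
    have hβe : β * e * β⁻¹ = e := by rw [(commute_of_bot hBC hβ he).eq]; simp
    have e1 : β * ⁅a, e⁆ * β⁻¹ = ⁅a, e⁆ * ⁅f, e⁆ := by
      calc β * ⁅a, e⁆ * β⁻¹
          = (β * a * β⁻¹) * (β * e * β⁻¹) * (β * a * β⁻¹)⁻¹ * (β * e * β⁻¹)⁻¹ := by
            simp [commutatorElement_def, mul_assoc]
        _ = f * ⁅a, e⁆ * f⁻¹ * ⁅f, e⁆ := by
            rw [hβe]; simp [hf, commutatorElement_def, mul_assoc]
        _ = _ := by rw [hfc]; simp [mul_assoc]
    have hfe : ⁅f, e⁆ ∈ Q := hQ (Subgroup.commutator_mem_commutator hfF he)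
    have e2 : ⁅β, ⁅a, e⁆⁆ = ⁅f, e⁆ := by
      rw [commutatorElement_def β ⁅a, e⁆, e1,
        (commute_of_bot hQN ((sup_le (hHX.trans le_sup_left) (hH'Y.trans le_sup_right)) hae)
          hfe).eq]
      exact mul_inv_cancel_right _ _
    rw [e2]; exact hfe
  have hBZ : ⁅B, Z⁆ ≤ Q := by
    refine commutator_sup_right_le ((hHX.trans le_sup_left).trans (le_normalizer_of_bot hQN))
      ((hH'Y.trans le_sup_right).trans (le_normalizer_of_bot hQN)) ?_ ?_
    · rw [Subgroup.commutator_le]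
      exact hgen hAN hFN hBE le_sup_left le_rfl
    · rw [Subgroup.commutator_le]
      exact hgen hCN hEN hBF le_sup_right (by rw [Subgroup.commutator_comm])
  -- the central series
  set R := A ⊔ B ⊔ C with hR
  set L := Z ⊔ E ⊔ F with hL
  have hRQ : ⁅Q, R⁆ = ⊥ := bot_sup (bot_sup (bot_comm (bot_comm (bot_mono (bot_comm hQN) hAN)))
    (bot_comm hQB)) (bot_comm (bot_comm (bot_mono (bot_comm hQN) hCN)))
  have hRQn : R ≤ Subgroup.normalizer (Q : Set G) := le_normalizer_of_bot (bot_comm hRQ)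
  have hRZ : ⁅R, Z⁆ ≤ Q := by
    have hA0 : ⁅A, Z⁆ ≤ Q := (bot_comm (bot_mono (bot_comm hZN) hAN)).le.trans bot_le
    have hC0 : ⁅C, Z⁆ ≤ Q := (bot_comm (bot_mono (bot_comm hZN) hCN)).le.trans bot_le
    have hAn : A ≤ Subgroup.normalizer (Q : Set G) := (le_sup_left.trans le_sup_left).trans hRQn
    have hBn : B ≤ Subgroup.normalizer (Q : Set G) := (le_sup_right.trans le_sup_left).trans hRQn
    have hCn : C ≤ Subgroup.normalizer (Q : Set G) := le_sup_right.trans hRQn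
    exact commutator_sup_left_le (sup_le hAn hBn) hCn
      (commutator_sup_left_le hAn hBn hA0 hBZ) hC0
  have hRZn : R ≤ Subgroup.normalizer (Z : Set G) :=
    le_normalizer_of_commutator_le (hRZ.trans hQZ)
  have hRL : ⁅L, R⁆ ≤ Z := by
    have hRle : ∀ {K : Subgroup G}, K ≤ X ⊔ Y → ⁅B, K⁆ ≤ Z → ⁅K, R⁆ ≤ Z := by
      intro K hK hBK
      have hsub : ∀ {U : Subgroup G}, U ≤ X ⊔ Y → ⁅K, U⁆ ≤ Z := fun hU =>
        (Subgroup.commutator_mono hK hU).trans hNN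
      exact commutator_sup_right_le (le_sup_left.trans hRZn) (le_sup_right.trans hRZn)
        (commutator_sup_right_le ((le_sup_left.trans le_sup_left).trans hRZn)
          ((le_sup_right.trans le_sup_left).trans hRZn) (hsub hAN)
          (by rw [Subgroup.commutator_comm]; exact hBK)) (hsub hCN)
    have hn : X ⊔ Y ≤ Subgroup.normalizer (Z : Set G) := le_normalizer_of_bot hZN
    have hZle : Z ≤ X ⊔ Y := sup_le (hHX.trans le_sup_left) (hH'Y.trans le_sup_right)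
    exact commutator_sup_left_le (sup_le (hZle.trans hn) (hEN.trans hn)) (hFN.trans hn)
      (commutator_sup_left_le (hZle.trans hn) (hEN.trans hn)
        (hRle hZle (hBZ.trans hQZ)) (hRle hEN (hBE.le.trans bot_le)))
      (hRle hFN (hBF.le.trans bot_le))
  have hRR : ⁅R, R⁆ ≤ L := by
    have hn : R ≤ Subgroup.normalizer (L : Set G) :=
      le_normalizer_of_commutator_le (by
        rw [Subgroup.commutator_comm]
        exact hRL.trans (le_sup_left.trans le_sup_left))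
    have hA := (le_sup_left.trans le_sup_left).trans hn
    have hB := (le_sup_right.trans le_sup_left).trans hn
    have hC := le_sup_right.trans hn
    have self : ∀ {U : Subgroup G}, U ∈ S → ⁅U, U⁆ ≤ L := fun hU =>
      (commutator_eq_bot_iff_commutes.2 fun x hx y hy =>
        RootSet.comm_of_mem hS hU hx hy).le.trans bot_le
    have hAB : ⁅B, A⁆ ≤ L := le_sup_right
    have hBC : ⁅B, C⁆ ≤ L := le_sup_right.trans le_sup_left
    have hAC : ⁅A, C⁆ ≤ L := ht.bot.le.trans bot_le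
    have row : ∀ {U : Subgroup G}, ⁅U, A⁆ ≤ L → ⁅U, B⁆ ≤ L → ⁅U, C⁆ ≤ L → ⁅U, R⁆ ≤ L :=
      fun h1 h2 h3 => commutator_sup_right_le (sup_le hA hB) hC
        (commutator_sup_right_le hA hB h1 h2) h3
    exact commutator_sup_left_le (sup_le hA hB) hC
      (commutator_sup_left_le hA hB
        (row (self ht.hA) (by rw [Subgroup.commutator_comm]; exact hAB) hAC)
        (row hAB (self ht.hB) hBC))
      (row (by rw [Subgroup.commutator_comm]; exact hAC)
        (by rw [Subgroup.commutator_comm]; exact hBC) (self ht.hC))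
  rw [Subgroup.isNilpotent_iff_lowerCentralSeries]
  refine ⟨4, eq_bot_iff.2 ?_⟩
  simp only [Subgroup.lowerCentralSeries_succ, Subgroup.lowerCentralSeries_zero]
  calc ⁅⁅⁅⁅R, R⁆, R⁆, R⁆, R⁆ ≤ ⁅⁅⁅L, R⁆, R⁆, R⁆ :=
        Subgroup.commutator_mono (Subgroup.commutator_mono (Subgroup.commutator_mono hRR le_rfl)
          le_rfl) le_rfl
    _ ≤ ⁅⁅Z, R⁆, R⁆ := Subgroup.commutator_mono (Subgroup.commutator_mono hRL le_rfl) le_rfl
    _ ≤ ⁅Q, R⁆ := Subgroup.commutator_mono (by rw [Subgroup.commutator_comm]; exact hRZ) le_rfl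
    _ = ⊥ := hRQ

end Triple

end CfsgLib.RootSubgroups.Cls
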