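import Cfsg.Agent.RootSubgroups.Components

/-!
# Members inside a rank one group
-/

set_option autoImplicit false

namespace CfsgLib.RootSubgroups

open Cfsg

variable {G : Type*} [Group G] {S : Set (Subgroup G)}

/-- An element of `C ⊔ D` centralizing `C` is an element of `C` times a central one. -/
theorem RankOne.centralizer_decompose {C D : Subgroup G} (h : IsRankOnePair C D)
    (habC : ∀ c ∈ C, ∀ c' ∈ C, c * c' = c' * c) {e : G} (he : e ∈ C ⊔ D)
    (hec : ∀ c ∈ C, e * c = c * e) :
    ∃ c ∈ C, c⁻¹ * e ∈ Subgroup.centralizer ((C ⊔ D : Subgroup G) : Set G) := by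
  have hCfix : conjBy C e = C := conjBy_eq_of_commutes hec
  have hmem := RankOne.conjBy_mem_unipotent (RankOne.right_mem_unipotent h) he
  rcases (RankOne.mem_unipotent_iff h).1 hmem with hDC | ⟨c, hc, hcD⟩
  · exact absurd (conjBy_inj.1 (hDC.trans hCfix.symm)).symm h.ne
  refine ⟨c, hc, ?_⟩
  have hzC : ∀ x ∈ C, c⁻¹ * e * x = x * (c⁻¹ * e) := by
    intro x hx
    rw [mul_assoc, hec x hx, ← mul_assoc, habC _ (inv_mem hc) x hx, mul_assoc]
  set z := c⁻¹ * e with hzdef
  have hDfix : conjBy D z = D := by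
    rw [hzdef, ← conjBy_conjBy, hcD, conjBy_conjBy, inv_mul_cancel, conjBy_one]
  have hCzfix : conjBy C z = C := conjBy_eq_of_commutes hzC
  refine RankOne.commutes_sup hzC fun d hd => ?_
  by_cases hd1 : d = 1
  · simp [hd1]
  obtain ⟨x, hx, hx1, hxd⟩ := h.cond_right d hd hd1
  -- `conjBy D x⁻¹ = conjBy C d⁻¹`; conjugate this by `z`
  have hzd : z * d * z⁻¹ ∈ D := hDfix ▸ mem_conjBy.2 (by simpa [mul_assoc] using hd)
  have hzdC : z * d * z⁻¹ ≠ 1 := by
    intro h0
    exact hd1 (by simpa [mul_assoc] using congrArg (fun t => z⁻¹ * t * z) h0)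
  have hconj : conjBy D x⁻¹ = conjBy C (z * d * z⁻¹)⁻¹ := by
    have h1 := congrArg (fun K => conjBy K z) hxd
    simp only [conjBy_conjBy] at h1
    have e1 : z * x⁻¹ = x⁻¹ * z := hzC x⁻¹ (inv_mem hx)
    have hzi : conjBy C z⁻¹ = C := conjBy_eq_iff.2 (by rw [inv_inv, hCzfix])
    rw [e1, ← conjBy_conjBy D, hDfix] at h1
    rw [h1, show (z * d * z⁻¹)⁻¹ = z * d⁻¹ * z⁻¹ by simp [mul_assoc],
      ← conjBy_conjBy C (z * d⁻¹) z⁻¹, hzi]
  obtain ⟨d0, -, huniq⟩ := RankOne.partner_unique h hx hx1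
  have h2 := (huniq d ⟨hd, hd1, hxd.symm⟩).trans (huniq _ ⟨hzd, hzdC, hconj.symm⟩).symm
  calc z * d = z * d * z⁻¹ * z := by simp [mul_assoc]
    _ = d * z := by rw [← h2]

namespace RootSet

/-- A member centralizing `C`, inside the rank one group `C ⊔ D`, is `C` or central. -/
theorem eq_or_central_of_commutes (hS : IsRootSubgroupSet S) {C D E : Subgroup G} (hC : C ∈ S)
    (hD : D ∈ S) (h : IsRankOnePair C D) (hE : E ∈ S) (hle : E ≤ C ⊔ D) (hc : ⁅E, C⁆ = ⊥) :
    E = C ∨ E ≤ Subgroup.centralizer ((C ⊔ D : Subgroup G) : Set G) := by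
  by_cases hEC : ∀ e ∈ E, e ∈ C → e = 1
  · right
    intro e he
    by_cases he1 : e = 1
    · rw [he1]; exact one_mem _
    obtain ⟨c, hcC, hz⟩ := RankOne.centralizer_decompose h (fun x hx y hy => comm_of_mem hS hC hx hy)
      (hle he) (commutator_eq_bot_iff_commutes.1 hc e he)
    by_cases hc1 : c = 1
    · simpa [hc1] using hz
    · exfalso
      have hzc : c⁻¹ * e * c = e := by
        rw [mul_assoc, commutator_eq_bot_iff_commutes.1 hc e he c hcC, inv_mul_cancel_left]
      have hEC' := eq_of_translate_mem hS hC hD h hE hz hcC hc1 (by rw [hzc]; exact he)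
        (by rw [hzc]; exact he1)
      exact he1 (hEC e he (hEC' ▸ he))
  · left
    push Not at hEC
    obtain ⟨e, he, heC, he1⟩ := hEC
    exact eq_of_inter hS hC hD h hE heC he he1

/-- A member contained in a rank one group is one of its unipotent subgroups or is central. -/
theorem mem_or_central_of_le (hS : IsRootSubgroupSet S) {C D E : Subgroup G} (hC : C ∈ S)
    (hD : D ∈ S) (h : IsRankOnePair C D) (hE : E ∈ S) (hle : E ≤ C ⊔ D) :
    E ∈ unipotentSubgroups C D ∨ E ≤ Subgroup.centralizer ((C ⊔ D : Subgroup G) : Set G) := by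
  rcases hS.pair E hE C hC with hc | hr | hcc
  · rcases eq_or_central_of_commutes hS hC hD h hE hle hc with he | he
    · subst he; exact Or.inl RankOne.left_mem_unipotent
    · exact Or.inr he
  · left
    obtain ⟨y, hy, hEy⟩ : E ∈ unipotentSubgroups C E :=
      RankOne.unipotent_symm hr ▸ RankOne.left_mem_unipotent
    exact ⟨y, (sup_le le_sup_left hle) hy, hEy⟩
  · exfalso
    have hFle : ⁅E, C⁆ ≤ C ⊔ D := by
      rw [Subgroup.commutator_le]
      intro x hx y hy
      exact mul_mem (mul_mem (mul_mem (hle hx) (Subgroup.mem_sup_left hy))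
        (inv_mem (hle hx))) (inv_mem (Subgroup.mem_sup_left hy))
    have hFC : ⁅⁅E, C⁆, C⁆ = ⊥ := commutator_eq_bot_iff_commutes.2 fun x hx y hy =>
      CommCase.central_right hcc hx hy
    rcases eq_or_central_of_commutes hS hC hD h hcc.1 hFle hFC with hF | hF
    · apply ne_bot_commCase hS hcc
      rw [commutator_eq_bot_iff_commutes]
      intro x hx y hy
      exact (CommCase.central_left hcc (hF.symm ▸ hy) hx).symm
    · have hfix : ∀ e ∈ E, conjBy C e = C := fun e he =>
        (eq_of_mem_unipotent_of_commutes h RankOne.left_mem_unipotent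
          (RankOne.conjBy_mem_unipotent RankOne.left_mem_unipotent (hle he))
          (commutator_eq_bot_iff_commutes.2 (commCase_conj_commutes hS hC hcc he))).symm
      apply ne_bot_commCase hS hcc
      rw [commutator_eq_bot_iff_commutes]
      intro x hx y hy
      have h1 : x * y * x⁻¹ * y⁻¹ ∈ C :=
        mul_mem ((hfix x hx) ▸ mem_conjBy.2 (by simpa [mul_assoc] using hy)) (inv_mem hy)
      have h2 := RankOne.centralizer_inf_eq_one h h1 (hF (CommCase.comm_mem hcc hx hy))
      calc x * y = x * y * x⁻¹ * y⁻¹ * (y * x) := by simp [mul_assoc]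
        _ = y * x := by rw [h2, one_mul]

end RootSet

end CfsgLib.RootSubgroups
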