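import Mathlib

/-!
# Two root subgroups in `SL₂` over a commutative algebra: basic definitions
-/

set_option autoImplicit false

namespace CfsgLib.RootSubgroups.Gen

open Matrix

variable {R S : Type*} [CommRing R] [CommRing S]

local notation "SL₂(" A ")" => Matrix.SpecialLinearGroup (Fin 2) A

/-- The matrix with rows `(1, r)`, `(0, 1)`. -/
def rUp (r : R) : SL₂(R) := ⟨!![1, r; 0, 1], by simp [Matrix.det_fin_two]⟩

/-- The matrix with rows `(1, 0)`, `(r, 1)`. -/
def rLow (r : R) : SL₂(R) := ⟨!![1, 0; r, 1], by simp [Matrix.det_fin_two]⟩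

@[simp] theorem coe_rUp (r : R) : (rUp r : Matrix (Fin 2) (Fin 2) R) = !![1, r; 0, 1] := rfl

@[simp] theorem coe_rLow (r : R) : (rLow r : Matrix (Fin 2) (Fin 2) R) = !![1, 0; r, 1] := rfl

theorem ext_entries {g h : SL₂(R)} (h00 : g.1 0 0 = h.1 0 0) (h01 : g.1 0 1 = h.1 0 1)
    (h10 : g.1 1 0 = h.1 1 0) (h11 : g.1 1 1 = h.1 1 1) : g = h := by
  refine Subtype.ext (Matrix.ext fun i j => ?_)
  fin_cases i <;> fin_cases j <;> assumption

theorem rUp_mul (r s : R) : rUp r * rUp s = rUp (r + s) := by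
  apply ext_entries <;> simp [Matrix.mul_apply, Fin.sum_univ_two, add_comm]

theorem rLow_mul (r s : R) : rLow r * rLow s = rLow (r + s) := by
  apply ext_entries <;> simp [Matrix.mul_apply, Fin.sum_univ_two]

theorem rUp_zero : rUp (0 : R) = 1 := by apply ext_entries <;> simp

theorem rLow_zero : rLow (0 : R) = 1 := by apply ext_entries <;> simp

theorem rUp_inv (r : R) : (rUp r)⁻¹ = rUp (-r) :=
  inv_eq_of_mul_eq_one_right (by rw [rUp_mul, add_neg_cancel, rUp_zero])

theorem rLow_inv (r : R) : (rLow r)⁻¹ = rLow (-r) :=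
  inv_eq_of_mul_eq_one_right (by rw [rLow_mul, add_neg_cancel, rLow_zero])

theorem rUp_pow (r : R) (n : ℕ) : rUp r ^ n = rUp ((n : R) * r) := by
  induction n with
  | zero => simp [rUp_zero]
  | succ m ih => rw [pow_succ, ih, rUp_mul]; push_cast; ring_nf

theorem map_rUp (f : R →+* S) (r : R) : SpecialLinearGroup.map f (rUp r) = rUp (f r) := by
  apply ext_entries <;> simp

theorem map_rLow (f : R →+* S) (r : R) : SpecialLinearGroup.map f (rLow r) = rLow (f r) := by
  apply ext_entries <;> simp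

theorem rUp_injective : Function.Injective (rUp : R → SL₂(R)) := fun r s h => by
  simpa using congrArg (fun g : SL₂(R) => g.1 0 1) h

theorem rLow_injective : Function.Injective (rLow : R → SL₂(R)) := fun r s h => by
  simpa using congrArg (fun g : SL₂(R) => g.1 1 0) h

section Gen

variable (k : Type*) [CommRing k] [Algebra k R]

/-- The subgroup generated by `rUp c` and `rLow (c T)`, `c` in the base ring. -/
def gen (T : R) : Subgroup SL₂(R) :=
  Subgroup.closure (Set.range (fun c : k => rUp (algebraMap k R c)) ∪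
    Set.range (fun c : k => rLow (algebraMap k R c * T)))

variable {k}

theorem rUp_mem_gen (T : R) (c : k) : rUp (algebraMap k R c) ∈ gen k T :=
  Subgroup.subset_closure (Or.inl ⟨c, rfl⟩)

theorem rLow_mem_gen (T : R) (c : k) : rLow (algebraMap k R c * T) ∈ gen k T :=
  Subgroup.subset_closure (Or.inr ⟨c, rfl⟩)

theorem rUp_one_mem (T : R) : rUp 1 ∈ gen k T := by simpa using rUp_mem_gen T (1 : k)

theorem rLow_self_mem (T : R) : rLow T ∈ gen k T := by simpa using rLow_mem_gen T (1 : k)

theorem map_gen {R' : Type*} [CommRing R'] [Algebra k R'] (f : R →ₐ[k] R') (T : R) :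
    (gen k T).map (SpecialLinearGroup.map f.toRingHom) = gen k (f T) := by
  rw [gen, MonoidHom.map_closure, Set.image_union, ← Set.range_comp, ← Set.range_comp]
  unfold gen
  congr 2
  · congr 1
    funext c
    rw [Function.comp_apply, map_rUp]
    exact congrArg rUp (f.commutes c)
  · congr 1
    funext c
    rw [Function.comp_apply, map_rLow, map_mul]
    exact congrArg rLow (congrArg (· * f T) (f.commutes c))

/-- The upper parameters of a subgroup. -/
def upSet (L : Subgroup SL₂(R)) : AddSubgroup R where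
  carrier := {r | rUp r ∈ L}
  zero_mem' := by
    show rUp (0 : R) ∈ L
    rw [rUp_zero]; exact one_mem L
  add_mem' := fun {r s} (hr : rUp r ∈ L) (hs : rUp s ∈ L) => by
    show rUp (r + s) ∈ L
    rw [← rUp_mul]; exact mul_mem hr hs
  neg_mem' := fun {r} (hr : rUp r ∈ L) => by
    show rUp (-r) ∈ L
    rw [← rUp_inv]; exact inv_mem hr

/-- The lower parameters of a subgroup. -/
def lowSet (L : Subgroup SL₂(R)) : AddSubgroup R where
  carrier := {r | rLow r ∈ L}
  zero_mem' := by
    show rLow (0 : R) ∈ L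
    rw [rLow_zero]; exact one_mem L
  add_mem' := fun {r s} (hr : rLow r ∈ L) (hs : rLow s ∈ L) => by
    show rLow (r + s) ∈ L
    rw [← rLow_mul]; exact mul_mem hr hs
  neg_mem' := fun {r} (hr : rLow r ∈ L) => by
    show rLow (-r) ∈ L
    rw [← rLow_inv]; exact inv_mem hr

theorem mem_upSet {L : Subgroup SL₂(R)} {r : R} : r ∈ upSet L ↔ rUp r ∈ L := Iff.rfl

theorem mem_lowSet {L : Subgroup SL₂(R)} {r : R} : r ∈ lowSet L ↔ rLow r ∈ L := Iff.rfl

/-- Conjugation of `rUp` by an upper triangular matrix. -/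
theorem conj_rUp_triangular (g : SL₂(R)) (hg : g.1 1 0 = 0) (r : R) :
    g⁻¹ * rUp r * g = rUp (g.1 1 1 * g.1 1 1 * r) := by
  have hdet := g.2
  rw [Matrix.det_fin_two, hg, mul_zero, sub_zero] at hdet
  rw [mul_assoc, inv_mul_eq_iff_eq_mul]
  apply ext_entries <;>
    simp [Matrix.mul_apply, Fin.sum_univ_two, hg] <;>
    linear_combination (- g.1 1 1 * r) * hdet

/-- With all upper parameters and an invertible lower one the group is everything of the form
`rUp r`, `rLow r`. -/
theorem rLow_mem_of_upSet {L : Subgroup SL₂(R)} {T : R} (hT : IsUnit T) (hL : rLow T ∈ L)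
    (hup : ∀ r, rUp r ∈ L) (r : R) : rLow r ∈ L := by
  obtain ⟨u, rfl⟩ := hT
  have hw : rUp (-(↑u⁻¹ : R)) * rLow (u : R) * rUp (-(↑u⁻¹ : R)) ∈ L :=
    mul_mem (mul_mem (hup _) hL) (hup _)
  set w := rUp (-(↑u⁻¹ : R)) * rLow (u : R) * rUp (-(↑u⁻¹ : R)) with hwdef
  have e : rLow r = w * rUp (-(r * (↑u⁻¹ : R) * (↑u⁻¹ : R))) * w⁻¹ := by
    rw [eq_mul_inv_iff_mul_eq, hwdef]
    have h1 : (↑u⁻¹ : R) * (u : R) = 1 := u.inv_mul
    apply ext_entries <;>
      simp [Matrix.mul_apply, Fin.sum_univ_two] <;>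
      grind
  rw [e]
  exact mul_mem (mul_mem hw (hup _)) (inv_mem hw)

end Gen

end CfsgLib.RootSubgroups.Gen
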