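import Cfsg.Agent.RootSubgroups.GenBasic
import Cfsg.Agent.Dickson.Realize

/-!
# Two root subgroups over a finite field

From Dickson's theorem: for `|k| > 3`, `k` of odd characteristic, the elements `rUp c` and
`rLow (c T)`, `c ∈ k`, generate `SL₂(k(T))`.
-/

set_option autoImplicit false

namespace CfsgLib.RootSubgroups.Gen

open Matrix MulAction CfsgLib.Dickson
open scoped MatrixGroups

variable {k F : Type*} [Field k] [Field F]

/-- The action of `SL₂(F)` on the projective line over the algebraic closure. -/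
noncomputable def toPGLClosure : Matrix.SpecialLinearGroup (Fin 2) F →* PGL(2, AlgebraicClosure F) :=
  (pglMap (algebraMap F (AlgebraicClosure F))).comp (SpecialLinearGroup.toPGL (n := Fin 2))

theorem toPGLClosure_apply (g : Matrix.SpecialLinearGroup (Fin 2) F) :
    toPGLClosure g = ProjGenLinGroup.mk (GeneralLinearGroup.map (algebraMap F (AlgebraicClosure F))
      (SpecialLinearGroup.toGL g)) := rfl

/-- If an element is conjugate into `PGL₂` of a subfield then its squared trace lies there. -/
theorem trace_sq_mem {K : Type*} [Field K] {Lf : Subfield K} {g : GL (Fin 2) K}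
    (hdet : (g : Matrix (Fin 2) (Fin 2) K).det = 1) {c : GL (Fin 2) K}
    (h : ProjGenLinGroup.mk c * ProjGenLinGroup.mk g * (ProjGenLinGroup.mk c)⁻¹ ∈
      (pglMap Lf.subtype).range) :
    ((g : Matrix (Fin 2) (Fin 2) K).trace) ^ 2 ∈ Lf := by
  obtain ⟨x, hx⟩ := h
  obtain ⟨M, rfl⟩ := ProjGenLinGroup.mk_surjective x
  rw [pglMap_mk, ← map_inv, ← map_mul, ← map_mul, ProjGenLinGroup.mk_eq_mk_iff] at hx
  obtain ⟨u, hu⟩ := hx
  set M' : GL (Fin 2) K := GeneralLinearGroup.map Lf.subtype M with hM'
  have htr : (M' : Matrix (Fin 2) (Fin 2) K).trace * (u : K) =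
      (g : Matrix (Fin 2) (Fin 2) K).trace := by
    have h1 := congrArg (fun X : GL (Fin 2) K => (X : Matrix (Fin 2) (Fin 2) K).trace) hu
    simp only [Units.val_mul] at h1
    rw [Matrix.trace_mul_cycle, Units.inv_mul, Matrix.one_mul] at h1
    rw [← h1]
    simp [Matrix.trace_fin_two, Matrix.mul_apply, Fin.sum_univ_two]
    ring
  have hdt : (M' : Matrix (Fin 2) (Fin 2) K).det * (u : K) ^ 2 = 1 := by
    have h1 := congrArg (fun X : GL (Fin 2) K => (X : Matrix (Fin 2) (Fin 2) K).det) hu
    simp only [Units.val_mul, Matrix.det_mul, hdet] at h1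
    rw [mul_one, ← Matrix.det_mul (c : Matrix (Fin 2) (Fin 2) K), Units.mul_inv, Matrix.det_one] at h1
    rw [← h1]
    simp [Matrix.det_fin_two]

  have htrm : (M' : Matrix (Fin 2) (Fin 2) K).trace ∈ Lf := by
    rw [Matrix.trace_fin_two]; exact add_mem (SetLike.coe_mem _) (SetLike.coe_mem _)
  have hdtm : (M' : Matrix (Fin 2) (Fin 2) K).det ∈ Lf := by
    rw [Matrix.det_fin_two]
    exact sub_mem (mul_mem (SetLike.coe_mem _) (SetLike.coe_mem _))
      (mul_mem (SetLike.coe_mem _) (SetLike.coe_mem _))
  have hu2 : (u : K) ^ 2 = ((M' : Matrix (Fin 2) (Fin 2) K).det)⁻¹ :=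
    eq_inv_of_mul_eq_one_right hdt
  rw [← htr, mul_pow, hu2]
  exact mul_mem (pow_mem htrm 2) (inv_mem hdtm)

theorem prime_dvd_sixty {p : ℕ} (hp : p.Prime) (hp2 : p ≠ 2) (h : p ∣ 60) : p = 3 ∨ p = 5 := by
  have hle : p ≤ 60 := Nat.le_of_dvd (by norm_num) h
  interval_cases p <;> first | omega | (norm_num at hp) | (norm_num at h)

/-- The finite field case. -/
theorem upSet_eq_top_of_finite_field [Finite F] [Algebra k F] (hk : 3 < Nat.card k)
    (h2 : (2 : k) ≠ 0) {T : F} (hT : T ≠ 0) (htop : Algebra.adjoin k ({T} : Set F) = ⊤) (r : F) :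
    r ∈ upSet (gen k T) := by
  classical
  have : Fintype F := Fintype.ofFinite F
  have : Finite k := Finite.of_injective _ (algebraMap k F).injective
  set p := ringChar F with hpdef
  have hp : Fact p.Prime := ⟨CharP.char_is_prime F p⟩
  have hchar : CharP (AlgebraicClosure F) p :=
    charP_of_injective_algebraMap (algebraMap F (AlgebraicClosure F)).injective p
  have hkp : CharP k p :=
    (RingHom.charP_iff (algebraMap k F) (algebraMap k F).injective p).2 inferInstance
  have hp2 : p ≠ 2 := by
    intro h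
    apply h2
    rw [h] at hkp
    exact_mod_cast (CharP.cast_eq_zero k 2)
  have hpF : ∀ x : F, (p : F) * x = 0 := fun x => by rw [CharP.cast_eq_zero, zero_mul]
  set L := gen k T with hL
  set ι := algebraMap F (AlgebraicClosure F) with hι
  set H := L.map (toPGLClosure (F := F)) with hH
  let upK : Subgroup (Matrix.SpecialLinearGroup (Fin 2) F) :=
    { carrier := Set.range fun c : k => rUp (algebraMap k F c)
      one_mem' := ⟨0, by simp [rUp_zero]⟩
      mul_mem' := by rintro _ _ ⟨a, rfl⟩ ⟨b, rfl⟩; exact ⟨a + b, by simp [rUp_mul]⟩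
      inv_mem' := by rintro _ ⟨a, rfl⟩; exact ⟨-a, by simp [rUp_inv]⟩ }
  have hinj : ∀ c : F, toPGLClosure (rUp c) = 1 → c = 0 := by
    intro c hc
    rw [toPGLClosure_apply, mk_eq_one_iff] at hc
    simpa using hc.1
  let ψ : ↥upK →* ↥H :=
    { toFun := fun x => ⟨toPGLClosure x.1, ⟨x.1, by
        obtain ⟨c, hc⟩ := x.2
        exact hc ▸ rUp_mem_gen T c, rfl⟩⟩
      map_one' := Subtype.ext (map_one _)
      map_mul' := fun x y => Subtype.ext (map_mul _ _ _) }
  have hψ : Function.Injective ψ := by
    rw [injective_iff_map_eq_one]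
    rintro ⟨x, c, rfl⟩ hx
    refine Subtype.ext ?_
    show rUp (algebraMap k F c) = 1
    rw [hinj _ (congrArg Subtype.val hx), rUp_zero]
  have hcard : Nat.card k ∣ Nat.card ↥H := by
    have h1 := Subgroup.card_dvd_of_injective ψ hψ
    rwa [show Nat.card ↥upK = Nat.card k from (Nat.card_congr (Equiv.ofInjective _
      (fun a b hab => (algebraMap k F).injective (rUp_injective hab)))).symm] at h1
  obtain ⟨e, he, he'⟩ : ∃ e : ℕ, Nat.card k = p ^ e ∧ 0 < e := by
    have : Fintype k := Fintype.ofFinite k
    obtain ⟨e, -, he⟩ := FiniteField.card k p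
    exact ⟨e, by rw [Nat.card_eq_fintype_card, he], e.pos⟩
  have hpH : p ∣ Nat.card ↥H := (dvd_trans (he ▸ dvd_pow_self p he'.ne') hcard)
  have : Finite ↥H := by
    have : Finite (Matrix.SpecialLinearGroup (Fin 2) F) := inferInstance
    exact (((L : Set (Matrix.SpecialLinearGroup (Fin 2) F))).toFinite.image (toPGLClosure (F := F))).to_subtype
  rcases classify_pgl (p := p) H with ⟨x, hx⟩ | ⟨n, -, hpn, ⟨i⟩⟩ | ⟨hp12, ⟨i⟩⟩ | ⟨hp24, ⟨i⟩⟩ |
    ⟨hp60, ⟨i⟩⟩ | ⟨Lf, c, hfin, hLf⟩
  · exfalso
    have h1 := hx ⟨_, rUp 1, rUp_one_mem T, rfl⟩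
    have h2' := hx ⟨_, rLow T, rLow_self_mem T, rfl⟩
    change toPGLClosure (rUp (1 : F)) • x = x at h1
    change toPGLClosure (rLow T) • x = x at h2'
    rw [toPGLClosure_apply, mk_smul] at h1 h2'
    induction x using OnePoint.rec with
    | infty =>
      rw [OnePoint.smul_infty_eq_self_iff] at h2'
      exact hT (ι.injective (by simpa using h2'))
    | coe y =>
      rw [OnePoint.smul_some_eq_ite] at h1
      simp at h1
  · rw [Nat.card_congr i.toEquiv, DihedralGroup.nat_card] at hpH
    exact absurd ((Nat.Prime.dvd_mul hp.out).1 hpH)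
      (by rintro (h | h); exacts [hp2 ((Nat.prime_dvd_prime_iff_eq hp.out Nat.prime_two).1 h), hpn h])
  · rw [Nat.card_congr i.toEquiv, nat_card_alternatingGroup, Nat.card_fin] at hpH
    exact absurd hpH hp12
  · rw [Nat.card_congr i.toEquiv, Nat.card_perm, Nat.card_fin] at hpH
    exact absurd hpH hp24
  · rw [Nat.card_congr i.toEquiv, nat_card_alternatingGroup, Nat.card_fin] at hpH hcard
    rcases hp60 with h | h
    · exact absurd hpH h
    · rw [he, h] at hk
      rw [he, h] at hcard
      have h9 : 9 ∣ 60 := by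
        refine dvd_trans ?_ hcard
        obtain ⟨d, rfl⟩ : ∃ d, e = d + 2 := ⟨e - 2, by
          rcases e with _ | _ | d <;> simp at hk ⊢⟩
        exact ⟨3 ^ d, by ring⟩
      norm_num at h9
  · -- conjugate into a subfield: then the subfield is large
    obtain ⟨cc, rfl⟩ := ProjGenLinGroup.mk_surjective c
    set Cj := (MulAut.conj (ProjGenLinGroup.mk cc : PGL(2, AlgebraicClosure F))).toMonoidHom
    have hrange : H.map Cj ≤ (pglMap Lf.subtype).range ∧
        ((pglMap Lf.subtype).comp (SpecialLinearGroup.toPGL (n := Fin 2))).range ≤ H.map Cj := by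
      rcases hLf with h | ⟨-, h⟩
      · exact ⟨h.le, h ▸ (MonoidHom.range_comp _ _).le.trans (Subgroup.map_le_range _ _)⟩
      · exact ⟨h ▸ (MonoidHom.range_comp _ _).le.trans (Subgroup.map_le_range _ _), h.ge⟩
    have htr : ∀ a b : k, (ι (2 + algebraMap k F a * (algebraMap k F b * T))) ^ 2 ∈ Lf := by
      intro a b
      have hmem : toPGLClosure (rUp (algebraMap k F a) * rLow (algebraMap k F b * T)) ∈ H :=
        ⟨_, mul_mem (rUp_mem_gen T a) (rLow_mem_gen T b), rfl⟩
      rw [toPGLClosure_apply] at hmem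
      have hdet1 : ((GeneralLinearGroup.map ι (SpecialLinearGroup.toGL
          (rUp (algebraMap k F a) * rLow (algebraMap k F b * T)))) :
            Matrix (Fin 2) (Fin 2) (AlgebraicClosure F)).det = 1 := by
        simp [Matrix.det_fin_two, Matrix.mul_apply, Fin.sum_univ_two]
      simp [map_ofNat]
      have h1 := trace_sq_mem hdet1 (c := cc) (hrange.1 ⟨_, hmem, rfl⟩)
      convert h1 using 2
      simp [Matrix.trace_fin_two, Matrix.mul_apply, Fin.sum_univ_two]
      ring
    have h2F : (2 : AlgebraicClosure F) ≠ 0 := by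
      intro h
      apply hp2
      exact ((CharP.cast_eq_zero_iff (AlgebraicClosure F) p 2).1 (by exact_mod_cast h) |>
        (Nat.prime_dvd_prime_iff_eq hp.out Nat.prime_two).1)
    -- every `c T` lies in the subfield
    have hcT : ∀ c : k, ι (algebraMap k F c * T) ∈ Lf := by
      intro c
      set z := ι (algebraMap k F c * T) with hz
      have hone := htr 1 c
      have htwo := htr 2 c
      simp only [map_one, one_mul, map_add, map_ofNat, map_mul] at hone htwo
      rw [hz, map_mul]
      set z := ι (algebraMap k F c) * ι T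
      have h2L : (2 : AlgebraicClosure F) ∈ Lf := by
        rw [← one_add_one_eq_two]; exact add_mem (one_mem _) (one_mem _)
      have hz2 : z ^ 2 ∈ Lf := by
        have h3 : z ^ 2 = (((2 : AlgebraicClosure F) + 2 * z) ^ 2 - 2 * ((2 + z) ^ 2) + 2 * 2) / 2 := by
          field_simp; ring
        rw [h3]
        exact div_mem (add_mem (sub_mem htwo (mul_mem h2L hone)) (mul_mem h2L h2L)) h2L
      have h4 : z = ((2 + z) ^ 2 - z ^ 2 - 2 * 2) / (2 * 2) := by field_simp; ring
      rw [h4]
      exact div_mem (sub_mem (sub_mem hone hz2) (mul_mem h2L h2L)) (mul_mem h2L h2L)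
    have hTL : ι T ∈ Lf := by simpa using hcT 1
    have hcL : ∀ c : k, ι (algebraMap k F c) ∈ Lf := fun c => by
      have h1 := div_mem (hcT c) hTL
      rwa [← map_div₀, mul_div_assoc, div_self hT, mul_one] at h1
    have hall : ∀ x : F, ι x ∈ Lf := by
      intro x
      have hx : x ∈ Algebra.adjoin k ({T} : Set F) := htop ▸ Algebra.mem_top
      induction hx using Algebra.adjoin_induction with
      | mem y hy => rw [Set.mem_singleton_iff.1 hy]; exact hTL
      | algebraMap c => exact hcL c
      | add y z _ _ hy hz => rw [map_add]; exact add_mem hy hz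
      | mul y z _ _ hy hz => rw [map_mul]; exact mul_mem hy hz
    -- hence the image is the whole image of `SL₂(F)`
    have hfull : (toPGLClosure (F := F)).range ≤ H := by
      have hHle : H ≤ (toPGLClosure (F := F)).range := Subgroup.map_le_range _ _
      have : Finite (toPGLClosure (F := F)).range := Finite.of_surjective _
        (toPGLClosure (F := F)).rangeRestrict_surjective
      refine (Subgroup.eq_of_le_of_card_ge hHle ?_).ge
      have hle : (toPGLClosure (F := F)).range ≤
          ((pglMap Lf.subtype).comp (SpecialLinearGroup.toPGL (n := Fin 2))).range := by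
        rintro _ ⟨g, rfl⟩
        refine ⟨SpecialLinearGroup.map ((ι).codRestrict Lf hall) g, ?_⟩
        rw [MonoidHom.comp_apply, toPGLClosure_apply]
        show ProjGenLinGroup.mk (GeneralLinearGroup.map Lf.subtype (SpecialLinearGroup.toGL
          (SpecialLinearGroup.map (ι.codRestrict Lf hall) g))) = _
        congr 1
        ext a b
        fin_cases a <;> fin_cases b <;> rfl
      calc Nat.card ↥(toPGLClosure (F := F)).range
          ≤ Nat.card ↥(H.map Cj) := by
            have : Finite ↥(H.map Cj) := Finite.of_equiv _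
              (H.equivMapOfInjective Cj (MulAut.conj _).injective).toEquiv
            exact Nat.card_le_card_of_injective
              (Subgroup.inclusion (hle.trans hrange.2)) (Subgroup.inclusion_injective _)
        _ = Nat.card ↥H := (Nat.card_congr
            (H.equivMapOfInjective Cj (MulAut.conj _).injective).toEquiv).symm
    obtain ⟨g, hg, hgr⟩ := hfull ⟨rUp r, rfl⟩
    have hz : toPGLClosure (g⁻¹ * rUp r) = 1 := by
      rw [map_mul, map_inv, hgr, inv_mul_cancel]
    rw [toPGLClosure_apply, mk_eq_one_iff] at hz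
    obtain ⟨h01, h10, h00⟩ := hz
    set s := g⁻¹ * rUp r with hs
    have e01 : s.1 0 1 = 0 := ι.injective (by simpa using h01)
    have e10 : s.1 1 0 = 0 := ι.injective (by simpa using h10)
    have e00 : s.1 0 0 = s.1 1 1 := by simpa using h00
    have hdet := s.2
    rw [Matrix.det_fin_two, e01, e10, mul_zero, sub_zero, ← e00] at hdet
    have hsc : s = 1 ∨ s = -1 := by
      rcases mul_self_eq_one_iff.1 hdet with h | h
      · left; apply ext_entries <;> simp [e01, e10, h, ← e00]
      · right; apply ext_entries <;> simp [e01, e10, h, ← e00]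
    have hgs : g = rUp r * s⁻¹ := by simp [hs, mul_assoc]
    rw [mem_upSet]
    have hg' : g ^ (p + 1) ∈ L := pow_mem hg _
    rcases hsc with h | h
    · rw [h, inv_one, mul_one] at hgs; exact hgs ▸ hg
    · rw [h] at hgs
      have heven : Even (p + 1) := (hp.out.odd_of_ne_two hp2).add_one
      rw [hgs, show rUp r * (-1 : Matrix.SpecialLinearGroup (Fin 2) F)⁻¹ = -(rUp r) by simp,
        Even.neg_pow heven, rUp_pow, Nat.cast_add, Nat.cast_one, add_mul, hpF, zero_add,
        one_mul] at hg'
      exact hg'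

end CfsgLib.RootSubgroups.Gen
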