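import Cfsg.Agent.RootSubgroups.GenWords

/-!
# Two root subgroups over an infinite field

The parameters of regular functionals form a non-empty open set, and the squares of the values of
their orthogonal polynomials span the algebra.
-/

set_option autoImplicit false

namespace CfsgLib.RootSubgroups.Gen

open Matrix Polynomial

variable {k : Type*} [Field k]

/-- The functional with values `v` on the remainders modulo `F`. -/
noncomputable def funct (F : k[X]) {m : ℕ} (v : Fin m → k) : k[X] →ₗ[k] k :=
  (∑ l : Fin m, v l • lcoeff k l).comp (modByMonicHom F)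

theorem funct_apply (F : k[X]) {m : ℕ} (v : Fin m → k) (p : k[X]) :
    funct F v p = ∑ l : Fin m, v l * (p %ₘ F).coeff l := by
  simp [funct]

theorem funct_mul_self {F : k[X]} (hF : F.Monic) {m : ℕ} (v : Fin m → k) (p : k[X]) :
    funct F v (F * p) = 0 := by
  rw [funct_apply, Finset.sum_eq_zero]
  intro l _
  rw [(modByMonic_eq_zero_iff_dvd hF).2 (dvd_mul_right F p), coeff_zero, mul_zero]

/-- The generic moments. -/
noncomputable def genMoment (F : k[X]) (m i : ℕ) : MvPolynomial (Fin m) k :=
  ∑ l : Fin m, MvPolynomial.C (((X : k[X]) ^ i %ₘ F).coeff l) * MvPolynomial.X l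

theorem eval_genMoment (F : k[X]) {m : ℕ} (v : Fin m → k) (i : ℕ) :
    MvPolynomial.eval v (genMoment F m i) = moments (funct F v) i := by
  simp [genMoment, moments, funct_apply, mul_comm]

theorem eval_det_hankel (F : k[X]) {m : ℕ} (v : Fin m → k) (s j : ℕ) :
    MvPolynomial.eval v (hankel (genMoment F m) s j).det =
      (hankel (moments (funct F v)) s j).det := by
  rw [RingHom.map_det]
  congr 1
  ext i l
  exact eval_genMoment F v _

/-- An antidiagonal point. -/
theorem exists_det_ne_zero {F : k[X]} {n : ℕ} (hF : F.Monic) (hn : F.natDegree = n + 1)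
    {s j : ℕ} (hsj : j + s ≤ n + 1) :
    ∃ v : Fin (n + 1) → k, (hankel (moments (funct F v)) s j).det ≠ 0 := by
  rcases Nat.eq_zero_or_pos j with rfl | hj
  · exact ⟨0, by simp⟩
  classical
  refine ⟨fun l => if (l : ℕ) = j - 1 + s then 1 else 0, fun hd => ?_⟩
  obtain ⟨x, hx0, hx⟩ := Matrix.exists_mulVec_eq_zero_iff.2 hd
  have hmom : ∀ i, i ≤ n →
      moments (funct F (fun l : Fin (n + 1) => if (l : ℕ) = j - 1 + s then 1 else 0)) i =
        if i = j - 1 + s then 1 else 0 := by
    intro i hi
    rw [moments, funct_apply, (modByMonic_eq_self_iff hF).2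
      (by rw [degree_X_pow, degree_eq_natDegree hF.ne_zero, hn]; exact_mod_cast Nat.lt_succ_of_le hi)]
    rw [Finset.sum_eq_single ⟨i, Nat.lt_succ_of_le hi⟩]
    · simp
    · intro b _ hb
      rw [coeff_X_pow, if_neg (fun h => hb (Fin.ext h)), mul_zero]
    · simp
  refine hx0 (funext ?_)
  have key : ∀ d, ∀ l : Fin j, j - 1 - l.1 = d → x l = 0 := by
    intro d
    induction d using Nat.strong_induction_on with
    | _ d ih =>
      intro l hl
      have h := congrFun hx ⟨j - 1 - l.1, by omega⟩
      simp only [Matrix.mulVec, dotProduct, hankel, Pi.zero_apply] at h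
      rw [Finset.sum_eq_single l] at h
      · rw [hmom _ (by have := l.2; omega), if_pos (by have := l.2; omega), one_mul] at h
        exact h
      · intro b _ hb
        rcases lt_or_gt_of_ne (fun h => hb (Fin.ext h)) with hlt | hgt
        · rw [hmom _ (by have := l.2; omega), if_neg (by have := l.2; omega), zero_mul]
        · rw [ih (j - 1 - b.1) (by have := b.2; omega) b rfl, mul_zero]
      · simp
  exact fun l => key _ l rfl

section Generic

variable {R : Type*} [CommRing R] [Algebra k R] [FiniteDimensional k R]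

theorem monic_minpoly (T : R) : (minpoly k T).Monic :=
  minpoly.monic (IsIntegral.of_finite k T)

theorem exists_rep (T : R) (htop : Algebra.adjoin k ({T} : Set R) = ⊤) (r : R) :
    ∃ p : k[X], (∀ l, (minpoly k T).natDegree ≤ l → p.coeff l = 0) ∧ aeval T p = r := by
  have hr : r ∈ (aeval T : k[X] →ₐ[k] R).range := by
    rw [← Algebra.adjoin_singleton_eq_range_aeval, htop]; trivial
  obtain ⟨p, rfl⟩ := hr
  rcases eq_or_ne (minpoly k T) 1 with h1 | h1
  · refine ⟨0, fun l _ => coeff_zero l, ?_⟩
    have : aeval T (minpoly k T) = 0 := minpoly.aeval k T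
    rw [h1, map_one] at this
    show aeval T 0 = aeval T p
    rw [map_zero, ← mul_one (aeval T p), this, mul_zero]
  refine ⟨p %ₘ minpoly k T, fun l hl => coeff_eq_zero_of_natDegree_lt
    (lt_of_lt_of_le (natDegree_modByMonic_lt p (monic_minpoly T) h1) hl), ?_⟩
  show aeval T (p %ₘ minpoly k T) = aeval T p
  conv_rhs => rw [← modByMonic_add_div p (minpoly k T)]
  simp

theorem rep_unique (T : R) {p : k[X]} (hp : ∀ l, (minpoly k T).natDegree ≤ l → p.coeff l = 0)
    (h : aeval T p = 0) : p = 0 := by
  by_contra hne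
  have h1 := minpoly.degree_le_of_ne_zero k T hne h
  rw [degree_eq_natDegree (monic_minpoly T).ne_zero, degree_eq_natDegree hne, Nat.cast_le] at h1
  exact leadingCoeff_ne_zero.2 hne (hp _ h1)

theorem rep_inj (T : R) {p q : k[X]} (hp : ∀ l, (minpoly k T).natDegree ≤ l → p.coeff l = 0)
    (hq : ∀ l, (minpoly k T).natDegree ≤ l → q.coeff l = 0) (h : aeval T p = aeval T q) : p = q :=
  sub_eq_zero.1 (rep_unique T (fun l hl => by rw [coeff_sub, hp l hl, hq l hl, sub_zero])
    (by rw [map_sub, h, sub_self]))

/-- The constant coefficient of the reduced representative. -/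
noncomputable def constTerm (T : R) (htop : Algebra.adjoin k ({T} : Set R) = ⊤) : R →ₗ[k] k where
  toFun r := (exists_rep T htop r).choose.coeff 0
  map_add' r s := by
    rw [← coeff_add]
    refine congrArg (fun p : k[X] => p.coeff 0) (rep_inj T (exists_rep T htop _).choose_spec.1
      (fun l hl => by
        rw [coeff_add, (exists_rep T htop r).choose_spec.1 l hl,
          (exists_rep T htop s).choose_spec.1 l hl, add_zero]) ?_)
    rw [map_add, (exists_rep T htop r).choose_spec.2, (exists_rep T htop s).choose_spec.2,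
      (exists_rep T htop _).choose_spec.2]
  map_smul' c r := by
    rw [RingHom.id_apply, ← coeff_smul]
    refine congrArg (fun p : k[X] => p.coeff 0) (rep_inj T (exists_rep T htop _).choose_spec.1
      (fun l hl => by rw [coeff_smul, (exists_rep T htop r).choose_spec.1 l hl, smul_zero]) ?_)
    rw [map_smul, (exists_rep T htop r).choose_spec.2, (exists_rep T htop _).choose_spec.2]

theorem constTerm_aeval (T : R) (htop : Algebra.adjoin k ({T} : Set R) = ⊤) {p : k[X]}
    (hp : ∀ l, (minpoly k T).natDegree ≤ l → p.coeff l = 0) :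
    constTerm T htop (aeval T p) = p.coeff 0 :=
  congrArg (fun q : k[X] => q.coeff 0) (rep_inj T (exists_rep T htop _).choose_spec.1 hp
    (exists_rep T htop _).choose_spec.2)

theorem constTerm_one (T : R) (htop : Algebra.adjoin k ({T} : Set R) = ⊤) [Nontrivial R] :
    constTerm T htop (1 : R) = 1 := by
  have := constTerm_aeval T htop (p := 1) fun l hl => by
    rw [coeff_one, if_neg]
    have := minpoly.natDegree_pos (IsIntegral.of_finite k T)
    omega
  simpa using this

/-- The constant term is a non-degenerate functional. -/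
theorem constTerm_nondeg (T : R) (htop : Algebra.adjoin k ({T} : Set R) = ⊤) (hT : IsUnit T)
    {z : R} (h : ∀ i, i < (minpoly k T).natDegree → constTerm T htop (z * T ^ i) = 0) : z = 0 := by
  have hall : ∀ r, constTerm T htop (z * r) = 0 := by
    intro r
    obtain ⟨p, hp, rfl⟩ := exists_rep T htop r
    rw [sum_coeff hp, map_sum, Finset.mul_sum, map_sum]
    refine Finset.sum_eq_zero fun l _ => ?_
    rw [map_mul (aeval T), aeval_C, aeval_X_pow, ← Algebra.smul_def, mul_smul_comm, map_smul, h l l.2,
      smul_zero]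
  obtain ⟨u, rfl⟩ := hT
  -- descend along `z ↦ z T⁻¹`
  suffices H : ∀ m, ∀ z : R, (∀ r, constTerm (u : R) htop (z * r) = 0) → ∀ p : k[X],
      (∀ l, (minpoly k (u : R)).natDegree ≤ l → p.coeff l = 0) → aeval (u : R) p = z →
      p.natDegree ≤ m → p = 0 by
    obtain ⟨p, hp, hpz⟩ := exists_rep (u : R) htop z
    rw [← hpz, H _ z hall p hp hpz le_rfl, map_zero]
  intro m
  induction m with
  | zero =>
    intro z hz p hp hpz hdeg
    have h0 := hz 1
    rw [mul_one, ← hpz, constTerm_aeval _ htop hp] at h0
    rw [eq_C_of_natDegree_le_zero hdeg, h0, map_zero]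
  | succ m ih =>
    intro z hz p hp hpz hdeg
    have h0 := hz 1
    rw [mul_one, ← hpz, constTerm_aeval _ htop hp] at h0
    obtain ⟨q, rfl⟩ := X_dvd_iff.2 h0
    rw [ih (z * (↑u⁻¹ : R)) (fun r => by rw [mul_assoc]; exact hz _) q (fun l hl => by
      rw [← coeff_X_mul]; exact hp _ (by omega)) ?_ ?_, mul_zero]
    · rw [← hpz, map_mul, aeval_X, mul_comm (u : R), Units.mul_inv_cancel_right]
    · rcases eq_or_ne q 0 with rfl | hq
      · simp
      · rw [natDegree_X_mul hq] at hdeg; omega

/-- All but finitely many translates of an element are units. -/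
theorem finite_nonunit (r : R) : {c : k | ¬ IsUnit (r + algebraMap k R c)}.Finite := by
  refine (Polynomial.rootSet_finite (minpoly k (-r)) k).subset fun c hc => ?_
  rw [mem_rootSet, coe_aeval_eq_eval]
  refine ⟨(monic_minpoly (-r)).ne_zero, ?_⟩
  by_contra hne
  apply hc
  obtain ⟨q, hq⟩ : (X - C c) ∣ minpoly k (-r) - C ((minpoly k (-r)).eval c) :=
    X_sub_C_dvd_sub_C_eval
  have h := congrArg (aeval (-r)) hq
  rw [map_sub, minpoly.aeval, zero_sub, aeval_C, map_mul, map_sub, aeval_X, aeval_C] at h
  have hu : IsUnit ((algebraMap k R) ((minpoly k (-r)).eval c)) :=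
    (isUnit_iff_ne_zero.2 hne).map _
  rw [show (algebraMap k R) ((minpoly k (-r)).eval c) = (r + algebraMap k R c) * aeval (-r) q from
    by rw [← neg_inj, h]; ring] at hu
  exact isUnit_of_mul_isUnit_left hu

theorem exists_point (T : R) (hT : IsUnit T) (htop : Algebra.adjoin k ({T} : Set R) = ⊤)
    [Nontrivial R] {y : R} (hy : IsUnit y)
    (hy0 : constTerm T htop y + (minpoly k T).coeff 0 ≠ 0) :
    ∃ v : Fin ((minpoly k T).natDegree + 1) → k,
      (hankel (moments (funct (X * minpoly k T) v)) 0 (minpoly k T).natDegree).det ≠ 0 ∧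
      ∃ P, Orth (funct (X * minpoly k T) v) 0 (minpoly k T).natDegree P ∧ aeval T P = y := by
  obtain ⟨u, rfl⟩ := hy
  set f := minpoly k T with hf
  set n := f.natDegree with hn
  have hmon : (X * f).Monic := monic_X.mul (monic_minpoly T)
  have hdeg : (X * f).natDegree = n + 1 := natDegree_X_mul (monic_minpoly T).ne_zero
  obtain ⟨Y, hY, hYy⟩ := exists_rep T htop (u : R)
  have hy0' : Y.coeff 0 + f.coeff 0 ≠ 0 := by
    rwa [← hYy, constTerm_aeval T htop hY] at hy0
  set μ : k := -(Y.coeff 0 + f.coeff 0)⁻¹ with hμ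
  let φ : k[X] →ₗ[k] k :=
    ((constTerm T htop).comp (LinearMap.mulLeft k (↑u⁻¹ : R))).comp (aeval T).toLinearMap +
      μ • lcoeff k 0
  have hφ : ∀ p, φ p = constTerm T htop ((↑u⁻¹ : R) * aeval T p) + μ * p.coeff 0 := fun p => rfl
  let v : Fin (n + 1) → k := fun l => φ (X ^ (l : ℕ))
  have heq : ∀ p, funct (X * f) v p = φ p := by
    intro p
    conv_rhs => rw [← modByMonic_add_div p (X * f)]
    rw [map_add, funct_apply, show φ (X * f * (p /ₘ (X * f))) = 0 from by
      rw [hφ, map_mul (aeval T), map_mul (aeval T), hf, minpoly.aeval, mul_zero, zero_mul, mul_zero, map_zero, zero_add,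
        mul_assoc, coeff_X_mul_zero, mul_zero], add_zero]
    conv_rhs => rw [sum_coeff (j := n + 1) (p := p %ₘ (X * f)) (fun l hl => by
      refine coeff_eq_zero_of_natDegree_lt (lt_of_lt_of_le (natDegree_modByMonic_lt p hmon ?_) (hdeg.le.trans hl))
      intro h1
      rw [h1, natDegree_one] at hdeg
      omega)]
    rw [map_sum]
    refine Finset.sum_congr rfl fun l _ => ?_
    rw [← smul_eq_C_mul, map_smul, smul_eq_mul, mul_comm]
  have hfn : f.coeff n = 1 := (monic_minpoly T).coeff_natDegree
  have hxi : ∀ (p : k[X]) (i : ℕ), φ (p * X ^ i) =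
      constTerm T htop ((↑u⁻¹ : R) * aeval T p * T ^ i) + μ * (if i = 0 then p.coeff 0 else 0) := by
    intro p i
    rw [hφ, map_mul (aeval T), aeval_X_pow, mul_assoc]
    rcases Nat.eq_zero_or_pos i with rfl | hi
    · simp
    · rw [if_neg hi.ne', coeff_mul_X_pow', if_neg (by omega)]
  have hTi : ∀ i, i < n → constTerm T htop (T ^ i) = if i = 0 then 1 else 0 := by
    intro i hi
    have := constTerm_aeval T htop (p := X ^ i) fun l hl => by
      rw [coeff_X_pow, if_neg]
      change n ≤ l at hl
      omega
    rw [aeval_X_pow, coeff_X_pow] at this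
    rw [this]
    exact if_congr eq_comm rfl rfl
  have hdet : (hankel (moments (funct (X * f) v)) 0 n).det ≠ 0 := by
    intro hd
    obtain ⟨x, hx0, hx⟩ := Matrix.exists_mulVec_eq_zero_iff.2 hd
    refine hx0 ?_
    set p := ∑ l : Fin n, C (x l) * X ^ (l : ℕ) with hp
    have hpc : ∀ l : Fin n, p.coeff l = x l := by
      intro l
      rw [hp, Polynomial.finsetSum_coeff, Finset.sum_eq_single l]
      · simp
      · intro b _ hb
        rw [coeff_C_mul_X_pow, if_neg]
        exact fun h => hb (Fin.ext h.symm)
      · simp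
    have hpl : ∀ l, n ≤ l → p.coeff l = 0 := by
      intro l hl
      rw [hp, Polynomial.finsetSum_coeff, Finset.sum_eq_zero]
      intro b _
      rw [coeff_C_mul_X_pow, if_neg]
      have := b.2; omega
    have hz : (↑u⁻¹ : R) * aeval T p + algebraMap k R (μ * p.coeff 0) = 0 := by
      refine constTerm_nondeg T htop hT fun i hi => ?_
      have h1 := congrFun hx ⟨i, hi⟩
      rw [hankel_mulVec, heq, add_zero, ← hp, hxi] at h1
      rw [add_mul, map_add, ← Algebra.smul_def, map_smul, hTi i hi, smul_eq_mul]
      simpa using h1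
    have hpT : aeval T p = aeval T (C (-(μ * p.coeff 0)) * Y) := by
      rw [map_mul, aeval_C, hYy, map_neg]
      calc aeval T p = ((↑u⁻¹ : R) * aeval T p) * (u : R) := by
            rw [mul_comm (↑u⁻¹ : R), mul_assoc, Units.inv_mul, mul_one]
        _ = _ := by rw [eq_neg_of_add_eq_zero_left hz]
    have hpY := rep_inj T hpl (fun l hl => by rw [coeff_C_mul, hY l hl, mul_zero]) hpT
    have hp0 : p.coeff 0 = 0 := by
      have h1 := congrArg (fun q : k[X] => q.coeff 0) hpY
      rw [coeff_C_mul, hμ] at h1
      field_simp at h1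
      have h2 : f.coeff 0 * p.coeff 0 = 0 := by linear_combination h1
      refine (mul_eq_zero.1 h2).resolve_left fun h0 => ?_
      obtain ⟨t, rfl⟩ := hT
      have hX : (X : k[X]) ∣ f := X_dvd_iff.2 h0
      obtain ⟨q, hq⟩ := hX
      have hq0 : aeval (t : R) q = 0 := by
        have := minpoly.aeval k (t : R)
        rw [← hf, hq, map_mul, aeval_X] at this
        exact t.mul_right_eq_zero.1 this
      have hne : q ≠ 0 := by
        rintro rfl
        rw [mul_zero] at hq
        exact (monic_minpoly (t : R)).ne_zero hq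
      have hlt := minpoly.degree_le_of_ne_zero k (t : R) hne hq0
      rw [← hf, hq, degree_mul, degree_X, degree_eq_natDegree hne] at hlt
      exact absurd (by exact_mod_cast hlt : 1 + q.natDegree ≤ q.natDegree) (by omega)
    have hp00 : p = 0 := by rw [hpY, hp0, mul_zero, neg_zero, map_zero, zero_mul]
    funext l
    rw [← hpc l, hp00, coeff_zero, Pi.zero_apply]
  refine ⟨v, hdet, f + Y, ⟨?_, fun l hl => ?_, fun i hi => ?_⟩, ?_⟩
  · rw [coeff_add, hY n le_rfl, add_zero, hfn]
  · rw [coeff_add, hY l hl.le, add_zero, coeff_eq_zero_of_natDegree_lt (hn ▸ hl)]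
  · rw [heq, add_zero, hxi, map_add, hf, minpoly.aeval, zero_add, hYy, Units.inv_mul, one_mul,
      hTi i hi, coeff_add, ← hf]
    rcases Nat.eq_zero_or_pos i with rfl | h0
    · rw [if_pos rfl, if_pos rfl, hμ]
      have : f.coeff 0 + Y.coeff 0 ≠ 0 := by rwa [add_comm]
      rw [add_comm (Y.coeff 0)]
      field_simp
      ring
    · rw [if_neg h0.ne', if_neg h0.ne', mul_zero, add_zero]
  · rw [map_add, hf, minpoly.aeval, zero_add, hYy]

/-- Over an infinite field the group contains every `rUp r`. -/
theorem upSet_eq_top_of_infinite [Infinite k] (h2 : (2 : k) ≠ 0) (T : R) (hT : IsUnit T)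
    (htop : Algebra.adjoin k ({T} : Set R) = ⊤) (r : R) : r ∈ upSet (gen k T) := by
  classical
  rcases subsingleton_or_nontrivial R with hR | hR
  · rw [Subsingleton.elim r 0]; exact zero_mem _
  set f := minpoly k T with hf
  set n := f.natDegree with hn
  set F := X * f with hF
  have hmon : F.Monic := monic_X.mul (monic_minpoly T)
  have hdeg : F.natDegree = n + 1 := natDegree_X_mul (monic_minpoly T).ne_zero
  let W : Submodule k R :=
    { carrier := {x | ∀ c : k, algebraMap k R c * x ∈ upSet (gen k T)}
      zero_mem' := fun c => by rw [mul_zero]; exact zero_mem _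
      add_mem' := fun {x y} hx hy c => by rw [mul_add]; exact add_mem (hx c) (hy c)
      smul_mem' := fun d x hx c => by
        rw [Algebra.smul_def, ← mul_assoc, ← map_mul]; exact hx _ }
  suffices W = ⊤ by
    have h : r ∈ W := this ▸ Submodule.mem_top
    simpa using h 1
  by_contra hW
  obtain ⟨ψ, hψ0, hψ⟩ := Submodule.exists_le_ker_of_lt_top W (lt_top_iff_ne_top.2 hW)
  -- the polynomial conditions
  let H := hankel (genMoment F (n + 1)) 0 n
  let w : Fin n → MvPolynomial (Fin (n + 1)) k :=
    H.adjugate *ᵥ fun i => genMoment F (n + 1) (i.1 + n)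
  let qT : MvPolynomial (Fin (n + 1)) k :=
    ∑ i : Fin (n + 1), ∑ l : Fin (n + 1),
      (Fin.snoc (fun a => - w a) H.det : Fin (n + 1) → MvPolynomial (Fin (n + 1)) k) i *
      (Fin.snoc (fun a => - w a) H.det : Fin (n + 1) → MvPolynomial (Fin (n + 1)) k) l *
        MvPolynomial.C (ψ (T ^ (i.1 + l.1)))
  have hqT : ∀ v, (hankel (moments (funct F v)) 0 n).det ≠ 0 → ∀ P,
      Orth (funct F v) 0 n P → MvPolynomial.eval v qT =
        (hankel (moments (funct F v)) 0 n).det * (hankel (moments (funct F v)) 0 n).det *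
          ψ (aeval T P * aeval T P) := by
    intro v hd P hP
    set D := (hankel (moments (funct F v)) 0 n).det with hD
    have hH : (MvPolynomial.eval v).mapMatrix H = hankel (moments (funct F v)) 0 n := by
      ext i l
      exact eval_genMoment F v _
    set M := hankel (moments (funct F v)) 0 n with hM
    have hMP : M *ᵥ (fun a : Fin n => P.coeff a) = -fun a : Fin n => moments (funct F v) (a.1 + n) := by
      funext a
      rw [hM, hankel_mulVec, Pi.neg_apply, moments, eq_neg_iff_add_eq_zero, ← map_add,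
        add_zero, add_comm (a.1) n, pow_add]
      have e : (∑ l : Fin n, C (P.coeff l) * X ^ (l : ℕ)) + X ^ n = P := by
        conv_rhs => rw [sum_coeff (j := n + 1) (p := P) (fun l hl => hP.2.1 l hl)]
        rw [Fin.sum_univ_castSucc]
        simp [hP.1]
      rw [← add_mul, e]
      exact hP.2.2 a a.2
    have hw : ∀ a : Fin n, - MvPolynomial.eval v (w a) = D * P.coeff a := by
      intro a
      have h1 : MvPolynomial.eval v (w a) =
          (M.adjugate *ᵥ fun i : Fin n => moments (funct F v) (i.1 + n)) a := by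
        show MvPolynomial.eval v ((H.adjugate *ᵥ fun i => genMoment F (n + 1) (i.1 + n)) a) = _
        have e : (MvPolynomial.eval v ∘ fun i : Fin n => genMoment F (n + 1) (i.1 + n)) =
            fun i : Fin n => moments (funct F v) (i.1 + n) := funext fun i => eval_genMoment F v _
        rw [RingHom.map_mulVec, e, ← hH, ← RingHom.map_adjugate]
        rfl
      rw [h1]
      have h3 := congrArg (M.adjugate *ᵥ ·) hMP
      simp only [Matrix.mulVec_mulVec, Matrix.adjugate_mul, Matrix.smul_mulVec,
        Matrix.one_mulVec, Matrix.mulVec_neg] at h3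
      have := congrFun h3 a
      simp only [Pi.smul_apply, smul_eq_mul, Pi.neg_apply] at this
      rw [← this]
    have hc : ∀ i : Fin (n + 1), MvPolynomial.eval v
        ((Fin.snoc (fun a => - w a) H.det : Fin (n + 1) → MvPolynomial (Fin (n + 1)) k) i) =
        D * P.coeff i := by
      intro i
      refine Fin.lastCases ?_ (fun a => ?_) i
      · rw [Fin.snoc_last, RingHom.map_det, hH, Fin.val_last, hP.1, mul_one]
      · rw [Fin.snoc_castSucc, map_neg, hw, Fin.val_castSucc]
    have hsq : ψ (aeval T P * aeval T P) = ∑ i : Fin (n + 1), ∑ l : Fin (n + 1),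
        P.coeff i * P.coeff l * ψ (T ^ (i.1 + l.1)) := by
      conv_lhs => rw [sum_coeff (j := n + 1) (p := P) (fun l hl => hP.2.1 l hl)]
      simp only [map_sum, map_mul, aeval_C, aeval_X_pow, Finset.sum_mul, Finset.mul_sum]
      refine (Finset.sum_congr rfl fun i _ => Finset.sum_congr rfl fun l _ => ?_)
      rw [show algebraMap k R (P.coeff l) * T ^ l.1 * (algebraMap k R (P.coeff i) * T ^ i.1) =
        (P.coeff i * P.coeff l) • T ^ (i.1 + l.1) from by
          rw [Algebra.smul_def, map_mul, pow_add]; ring, map_smul, smul_eq_mul]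
    simp only [qT, map_sum, map_mul, MvPolynomial.eval_C, hc, hsq, Finset.mul_sum]
    refine Finset.sum_congr rfl fun i _ => Finset.sum_congr rfl fun l _ => ?_
    ring
  let ΔA := ∏ j ∈ Finset.range (n + 2), (hankel (genMoment F (n + 1)) 0 j).det
  let ΔB := ∏ j ∈ Finset.range (n + 1), (hankel (genMoment F (n + 1)) 1 j).det
  have hnz : ∀ {s j}, j + s ≤ n + 1 → (hankel (genMoment F (n + 1)) s j).det ≠ 0 := by
    intro s j hsj h0
    obtain ⟨v, hv⟩ := exists_det_ne_zero hmon hdeg hsj
    rw [← eval_det_hankel, h0, map_zero] at hv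
    exact hv rfl
  -- some admissible `y` has `ψ (y²) ≠ 0`
  obtain ⟨y, hy, hy0, hψy⟩ : ∃ y : R, IsUnit y ∧ constTerm T htop y + f.coeff 0 ≠ 0 ∧
      ψ (y * y) ≠ 0 := by
    by_contra hno
    push Not at hno
    apply hψ0
    refine LinearMap.ext fun x => ?_
    have hinf : {c : k | IsUnit (x + algebraMap k R c) ∧
        constTerm T htop (x + algebraMap k R c) + f.coeff 0 ≠ 0}.Infinite := by
      refine ((Set.Finite.union (finite_nonunit x)
        (Set.finite_singleton (-(constTerm T htop x + f.coeff 0)))).infinite_compl).mono ?_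
      intro c hc
      simp only [Set.mem_compl_iff, Set.mem_union, Set.mem_setOf_eq, Set.mem_singleton_iff,
        not_or, not_not] at hc
      refine ⟨hc.1, fun h0 => hc.2 ?_⟩
      rw [map_add, Algebra.algebraMap_eq_smul_one, map_smul, constTerm_one, smul_eq_mul,
        mul_one] at h0
      linear_combination h0
    have hq : (C (ψ 1) * X ^ 2 + C (2 * ψ x) * X + C (ψ (x * x)) : k[X]) = 0 := by
      refine Polynomial.eq_zero_of_infinite_isRoot _ (hinf.mono fun c hc => ?_)
      have h1 := hno _ hc.1 hc.2
      rw [show (x + algebraMap k R c) * (x + algebraMap k R c) =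
        x * x + (2 * c) • x + (c * c) • (1 : R) from by
          simp only [Algebra.smul_def, map_mul, map_ofNat]; ring, map_add, map_add, map_smul,
        map_smul, smul_eq_mul, smul_eq_mul] at h1
      simp only [Set.mem_setOf_eq, IsRoot.def, eval_add, eval_mul, eval_C, eval_pow, eval_X]
      linear_combination h1
    have h1 := congrArg (fun p : k[X] => p.coeff 1) hq
    simp only [coeff_add, coeff_C_mul, coeff_X_pow, coeff_X_one, coeff_C, coeff_zero] at h1
    norm_num at h1
    exact (h1.resolve_left h2).trans (LinearMap.zero_apply x).symm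
  obtain ⟨v₀, hv₀, P₀, hP₀, hPy⟩ := exists_point T hT htop hy hy0
  have hq0 : qT ≠ 0 := by
    intro h0
    have h1 := hqT v₀ hv₀ P₀ hP₀
    rw [h0, map_zero, hPy] at h1
    exact mul_ne_zero (mul_ne_zero hv₀ hv₀) hψy h1.symm
  have hprod : ΔA * ΔB * qT ≠ 0 := by
    refine mul_ne_zero (mul_ne_zero (Finset.prod_ne_zero_iff.2 fun j hj => hnz ?_)
      (Finset.prod_ne_zero_iff.2 fun j hj => hnz ?_)) hq0
    · rw [Finset.mem_range] at hj; omega
    · rw [Finset.mem_range] at hj; omega
  obtain ⟨v, hv⟩ : ∃ v, MvPolynomial.eval v (ΔA * ΔB * qT) ≠ 0 := by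
    by_contra hno
    push Not at hno
    exact hprod (MvPolynomial.funext fun v => by rw [hno v, map_zero])
  simp only [map_mul, mul_ne_zero_iff, ΔA, ΔB, map_prod, Finset.prod_ne_zero_iff,
    eval_det_hankel, Finset.mem_range] at hv
  obtain ⟨⟨hA, hB⟩, hq⟩ := hv
  have hr : Regular (funct F v) n :=
    ⟨fun j hj => hA j (by omega), fun j hj => hB j (by omega)⟩
  obtain ⟨P, hP⟩ := exists_orth (hr.1 n (by omega))
  have horth : Orth (funct F v) 1 n f := by
    refine ⟨(monic_minpoly T).coeff_natDegree, fun l hl => coeff_eq_zero_of_natDegree_lt hl,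
      fun i _ => ?_⟩
    rw [show f * X ^ (i + 1) = F * X ^ i by rw [hF]; ring]
    exact funct_mul_self hmon v _
  have hmem : aeval T P * aeval T P ∈ W := fun c =>
    smul_sq_mem hr horth (minpoly.aeval k T) hP c
  rw [hqT v (hr.1 n (by omega)) P hP, show ψ (aeval T P * aeval T P) = 0 from hψ hmem,
    mul_zero] at hq
  exact hq rfl

end Generic

end CfsgLib.RootSubgroups.Gen
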