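import Cfsg.Agent.RootSubgroups.GenInfinite
import Cfsg.Agent.RootSubgroups.GenField
import Cfsg.Agent.Classical.Linear.Simple
import Cfsg.Agent.RootSubgroups.SL2

/-!
# Two root subgroups of `SL₂` over a commutative algebra

For a field `k` of characteristic not two with more than three elements and an invertible element
`T` generating the finite dimensional algebra `R`, the elements `rUp c`, `rLow (c T)` generate all
`rUp r`, `rLow r`, `r ∈ R`.
-/

set_option autoImplicit false

namespace CfsgLib.RootSubgroups.Gen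

open Matrix

variable {k : Type*} [Field k]

theorem exists_sq_ne_one (hk : Nat.card k ≠ 3) (h2 : (2 : k) ≠ 0) : ∃ c : k, c ≠ 0 ∧ c * c ≠ 1 := by
  classical
  by_contra h
  push Not at h
  have hall : ∀ c : k, c = 0 ∨ c = 1 ∨ c = -1 := by
    intro c
    rcases eq_or_ne c 0 with h0 | h0
    · exact Or.inl h0
    · exact Or.inr (mul_self_eq_one_iff.1 (h c h0))
  apply hk
  have h1 : (1 : k) ≠ -1 := fun e => h2 (by linear_combination e)
  let f : Fin 3 → k := ![0, 1, -1]
  have hf : Function.Bijective f := by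
    constructor
    · intro i j hij
      fin_cases i <;> fin_cases j <;> simp [f] at hij ⊢ <;> first
        | exact h1 hij | exact h1 hij.symm | (exact h1 (by linear_combination hij))
    · intro c
      rcases hall c with rfl | rfl | rfl
      · exact ⟨0, rfl⟩
      · exact ⟨1, rfl⟩
      · exact ⟨2, rfl⟩
  rw [← Nat.card_eq_of_bijective f hf, Nat.card_fin]

theorem exists_idem_pow {R : Type*} [CommRing R] [Finite R] (a : R) :
    ∃ N, 0 < N ∧ IsIdempotentElem (a ^ N) := by
  obtain ⟨i, j, hij, hlt⟩ : ∃ i j, a ^ i = a ^ j ∧ i < j := by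
    obtain ⟨i, j, hne, he⟩ := Finite.exists_ne_map_eq_of_infinite (fun n : ℕ => a ^ n)
    rcases lt_or_gt_of_ne hne with h | h
    · exact ⟨i, j, he, h⟩
    · exact ⟨j, i, he.symm, h⟩
  obtain ⟨d, rfl⟩ : ∃ d, j = i + d := ⟨j - i, by omega⟩
  have hper : ∀ m, i ≤ m → ∀ t, a ^ (m + d * t) = a ^ m := by
    intro m hm t
    obtain ⟨l, rfl⟩ : ∃ l, m = i + l := ⟨m - i, by omega⟩
    induction t with
    | zero => simp
    | succ t ih =>
      calc a ^ (i + l + d * (t + 1)) = a ^ (i + d) * a ^ (l + d * t) := by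
            rw [← pow_add]; ring_nf
        _ = a ^ (i + l + d * t) := by rw [← hij, ← pow_add]; ring_nf
        _ = _ := ih
  have hd : 0 < d := by omega
  refine ⟨d * (i + 1), Nat.mul_pos hd (Nat.succ_pos i), ?_⟩
  rw [IsIdempotentElem, ← pow_add]
  exact hper _ (le_trans (Nat.le_succ i) (Nat.le_mul_of_pos_left _ hd)) _

section Step

variable {R : Type*} [CommRing R] [Algebra k R]

local notation "SL₂(" A ")" => Matrix.SpecialLinearGroup (Fin 2) A

theorem mk_eq_iff {I : Ideal R} {g h : SL₂(R)} :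
    SpecialLinearGroup.map (Ideal.Quotient.mk I) g = SpecialLinearGroup.map (Ideal.Quotient.mk I) h ↔
      ∀ i j, g.1 i j - h.1 i j ∈ I := by
  constructor
  · intro e i j
    rw [← Ideal.Quotient.eq]
    exact congrArg (fun x : SL₂(R ⧸ I) => x.1 i j) e
  · intro e
    refine Subtype.ext (Matrix.ext fun i j => ?_)
    exact Ideal.Quotient.eq.2 (e i j)

theorem isUnit_two (h2 : (2 : k) ≠ 0) : IsUnit (2 : R) := by
  have := (isUnit_iff_ne_zero.2 h2).map (algebraMap k R)
  rwa [map_ofNat] at this

/-- Hypotheses of the inductive step. -/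
structure Step (T : R) (I : Ideal R) : Prop where
  two : IsUnit (2 : R)
  minimal : IsAtom I
  unit : IsUnit T
  lift : ∀ r : R, ∃ g ∈ gen k T, SpecialLinearGroup.map (Ideal.Quotient.mk I) g =
    rUp (Ideal.Quotient.mk I r)

namespace Step

variable {T : R} {I : Ideal R}

theorem lift_low (h : Step (k := k) T I) (r : R) : ∃ g ∈ gen k T,
    SpecialLinearGroup.map (Ideal.Quotient.mk I) g = rLow (Ideal.Quotient.mk I r) := by
  have h1 : rLow (Ideal.Quotient.mk I r) ∈ (gen k T).map
      (SpecialLinearGroup.map (Ideal.Quotient.mk I)) := by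
    refine rLow_mem_of_upSet (h.unit.map (Ideal.Quotient.mk I))
      (Subgroup.mem_map.2 ⟨_, rLow_self_mem T, map_rLow _ T⟩) (fun s => ?_) _
    obtain ⟨s, rfl⟩ := Ideal.Quotient.mk_surjective s
    obtain ⟨g, hg, he⟩ := h.lift s
    exact ⟨g, hg, he⟩
  obtain ⟨g, hg, he⟩ := h1
  exact ⟨g, hg, he⟩

theorem lift_word (h : Step (k := k) T I) (x y z : R) : ∃ g ∈ gen k T,
    SpecialLinearGroup.map (Ideal.Quotient.mk I) g =
      SpecialLinearGroup.map (Ideal.Quotient.mk I) (rUp x * rLow y * rUp z) := by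
  obtain ⟨a, ha, ea⟩ := h.lift x
  obtain ⟨b, hb, eb⟩ := h.lift_low y
  obtain ⟨c, hc, ec⟩ := h.lift z
  exact ⟨a * b * c, mul_mem (mul_mem ha hb) hc, by
    simp only [map_mul, ea, eb, ec, map_rUp, map_rLow]⟩

/-- Congruence to `1` with all elements scalar leads to a contradiction. -/
theorem exists_nonscalar (h : Step (k := k) T I)
    (htop : Algebra.adjoin k ({T} : Set R) = ⊤) {p : ℕ} (hp : (p : R) = 0) (hpodd : Odd p) :
    ∃ g ∈ gen k T, SpecialLinearGroup.map (Ideal.Quotient.mk I) g = 1 ∧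
      ¬ (g.1 0 1 = 0 ∧ g.1 1 0 = 0 ∧ g.1 0 0 = g.1 1 1) := by
  by_contra hno
  push Not at hno
  obtain ⟨u2, hu2⟩ := h.two
  have two_cancel : ∀ x : R, 2 * x = 0 → x = 0 := fun x hx => by
    rw [← hu2] at hx
    exact u2.mul_right_eq_zero.1 hx
  have hker : ∀ g ∈ gen k T, SpecialLinearGroup.map (Ideal.Quotient.mk I) g = 1 →
      g.1 0 1 = 0 ∧ g.1 1 0 = 0 ∧ g.1 0 0 = g.1 1 1 := hno
  have huniq : ∀ r ∈ upSet (gen k T), r ∈ I → r = 0 := by
    intro r hr hrI
    have := (hker _ hr (by
      rw [map_rUp, Ideal.Quotient.eq_zero_iff_mem.2 hrI, rUp_zero])).1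
    simpa using this
  -- lifts of upper elements
  have hup : ∀ s : R, ∃ r ∈ upSet (gen k T), r - s ∈ I := by
    intro s
    obtain ⟨g, hg, he⟩ := h.lift s
    obtain ⟨h01, h10, h00⟩ := hker (g * rUp 1 * g⁻¹ * (rUp 1)⁻¹)
      (mul_mem (mul_mem (mul_mem hg (rUp_one_mem T)) (inv_mem hg)) (inv_mem (rUp_one_mem T))) (by
        simp only [map_mul, map_inv, he, map_rUp, rUp_mul, rUp_inv]
        rw [← rUp_zero]; congr 1; simp)
    have hdet := g.2
    rw [Matrix.det_fin_two] at hdet
    rw [rUp_inv] at h01 h10 h00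
    simp [Matrix.mul_apply, Fin.sum_univ_two, Matrix.adjugate_fin_two] at h01 h10 h00
    have hcc : g.1 1 0 * g.1 1 0 = 0 := by linear_combination -h10
    have hac : g.1 0 0 * g.1 1 0 = 0 := two_cancel _ (by linear_combination -h00 - hcc)
    have haa : g.1 0 0 * g.1 0 0 = 1 := by linear_combination h01 - hac + hdet
    have hc : g.1 1 0 = 0 := by linear_combination (g.1 0 0) * hac - (g.1 1 0) * haa
    have hd : g.1 1 1 = g.1 0 0 := by
      linear_combination (g.1 0 0) * hdet - (g.1 1 1) * haa + (g.1 0 0 * g.1 0 1) * hc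
    obtain ⟨a, b, hg_eq⟩ : ∃ a b, g.1 = !![a, b; 0, a] := ⟨g.1 0 0, g.1 0 1, by
      ext i j; fin_cases i <;> fin_cases j <;> simp [hc, hd]⟩
    have hpow : ∀ m : ℕ, (g ^ m).1 = !![a ^ m, (m : R) * (a ^ m * a * b); 0, a ^ m] := by
      intro m
      have haa' : a * a = 1 := by simpa [hg_eq] using haa
      induction m with
      | zero => simp [Matrix.one_fin_two]
      | succ n ih =>
        rw [pow_succ, Matrix.SpecialLinearGroup.coe_mul, ih, hg_eq, Matrix.mul_fin_two]
        ext i j
        fin_cases i <;> fin_cases j <;> simp <;>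
          first | ring1 | linear_combination -((a ^ n) * b) * haa'
    have haa' : a * a = 1 := by simpa [hg_eq] using haa
    have hap : a ^ p = a := by
      obtain ⟨m, rfl⟩ := hpodd
      rw [pow_succ, pow_mul, sq, haa', one_pow, one_mul]
    have hsame : SpecialLinearGroup.map (Ideal.Quotient.mk I) g =
        SpecialLinearGroup.map (Ideal.Quotient.mk I) (rUp s) := by rw [he, map_rUp]
    rw [mk_eq_iff] at hsame
    have ea : a - 1 ∈ I := by simpa [hg_eq] using hsame 0 0
    have eb : b - s ∈ I := by simpa [hg_eq] using hsame 0 1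
    refine ⟨a * b, ?_, ?_⟩
    · have hmem : g * g ^ p ∈ gen k T := mul_mem hg (pow_mem hg p)
      rw [mem_upSet]
      convert hmem using 1
      apply ext_entries <;>
        simp [hg_eq, hpow, hp, hap, haa', Matrix.mul_apply, Fin.sum_univ_two, mul_comm b a]
    · have : a * b - s = (a - 1) * b + (b - s) := by ring
      rw [this]
      exact I.add_mem (I.mul_mem_right _ ea) eb
  -- elements congruent to lower ones fix the first basis vector
  have hlow : ∀ y ∈ gen k T, y.1 0 1 ∈ I → y.1 1 1 - 1 ∈ I →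
      y.1 0 1 = 0 ∧ y.1 1 1 * y.1 1 1 = 1 := by
    intro y hy hb hd
    have hb0 : Ideal.Quotient.mk I (y.1 0 1) = 0 := Ideal.Quotient.eq_zero_iff_mem.2 hb
    have hd1 : Ideal.Quotient.mk I (y.1 1 1) = 1 := by
      rw [← map_one (Ideal.Quotient.mk I), Ideal.Quotient.eq]; exact hd
    obtain ⟨h01, h10, h00⟩ := hker (y * rLow T * y⁻¹ * (rLow T)⁻¹)
      (mul_mem (mul_mem (mul_mem hy (rLow_self_mem T)) (inv_mem hy))
        (inv_mem (rLow_self_mem T))) (by
        have hmap : SpecialLinearGroup.map (Ideal.Quotient.mk I) y =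
            rLow (Ideal.Quotient.mk I (y.1 1 0)) := by
          have hdet := congrArg (Ideal.Quotient.mk I) y.2
          rw [Matrix.det_fin_two, map_sub, map_mul, map_mul, hb0, hd1, map_one] at hdet
          apply ext_entries <;> simp [hb0, hd1]
          simpa using hdet
        simp only [map_mul, map_inv, map_rLow, hmap, rLow_mul, rLow_inv]
        rw [← rLow_zero]; congr 1; simp)
    have hdet := y.2
    rw [Matrix.det_fin_two] at hdet
    rw [rLow_inv] at h01 h10 h00
    simp [Matrix.mul_apply, Fin.sum_univ_two, Matrix.adjugate_fin_two] at h01 h10 h00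
    obtain ⟨uT, huT⟩ := h.unit
    have hT0 : ∀ x : R, x * T = 0 → x = 0 := fun x hx => by
      rw [← huT] at hx; exact uT.mul_left_eq_zero.1 hx
    have hbb : y.1 0 1 * y.1 0 1 = 0 := hT0 _ (by linear_combination -h01)
    have hbd : y.1 0 1 * y.1 1 1 = 0 :=
      two_cancel _ (hT0 _ (by linear_combination h00 - (T * T) * hbb))
    have hdd : y.1 1 1 * y.1 1 1 = 1 := by
      have := hT0 (y.1 1 1 * y.1 1 1 - 1) (by linear_combination h10 - (T * T) * hbd + T * hdet)
      linear_combination this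
    exact ⟨by linear_combination (y.1 1 1) * hbd - (y.1 0 1) * hdd, hdd⟩
  obtain ⟨uT, huT⟩ := h.unit
  -- the first flip
  obtain ⟨σ, hσ, hσI⟩ := hup (-(↑uT⁻¹ : R))
  set α := 1 + σ * T with hα
  have hαI : α ∈ I := by
    have : α = (σ - -(↑uT⁻¹ : R)) * T := by
      rw [hα, sub_neg_eq_add, add_mul, ← huT, Units.inv_mul]; ring
    rw [this]; exact I.mul_mem_right _ hσI
  have hα0 : α = 0 := by
    set w := rUp σ * rLow T * rUp σ
    have hw : w ∈ gen k T := mul_mem (mul_mem hσ (rLow_self_mem T)) hσ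
    have e01 : (w * rUp 1 * w⁻¹).1 0 1 = α * α := by
      simp [w, hα, Matrix.mul_apply, Fin.sum_univ_two, Matrix.adjugate_fin_two]; ring
    have e11 : (w * rUp 1 * w⁻¹).1 1 1 = 1 + α * T := by
      simp [w, hα, Matrix.mul_apply, Fin.sum_univ_two, Matrix.adjugate_fin_two]; ring
    have e00 : (w * rUp 1 * w⁻¹).1 0 0 = 1 - α * T := by
      simp [w, hα, Matrix.mul_apply, Fin.sum_univ_two, Matrix.adjugate_fin_two]; ring
    obtain ⟨hb, hd⟩ := hlow _ (mul_mem (mul_mem hw (rUp_one_mem T)) (inv_mem hw))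
      (by rw [e01]; exact I.mul_mem_right _ hαI)
      (by rw [e11, show 1 + α * T - 1 = α * T by ring]; exact I.mul_mem_right _ hαI)
    rw [e11] at hd
    rw [e01] at hb
    have h2' : 2 * (α * T) = 0 := by linear_combination hd - (T * T) * hb
    have := two_cancel _ h2'
    rw [← huT] at this
    exact uT.mul_left_eq_zero.1 this
  have hBA : ∀ r ∈ upSet (gen k T), -(T * T * r) ∈ lowSet (gen k T) := by
    intro r hr
    set w := rUp σ * rLow T * rUp σ
    have hw : w ∈ gen k T := mul_mem (mul_mem hσ (rLow_self_mem T)) hσ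
    have e : rLow (-(T * T * r)) = w * rUp r * w⁻¹ := by
      have hσT : σ * T = -1 := by linear_combination hα0
      rw [eq_mul_inv_iff_mul_eq]
      apply ext_entries <;> simp [w, Matrix.mul_apply, Fin.sum_univ_two] <;> grind
    rw [mem_lowSet, e]
    exact mul_mem (mul_mem hw hr) (inv_mem hw)
  -- the second flip
  have hneg : (-1 : R) ∈ lowSet (gen k T) := by
    obtain ⟨r, hr, hrI⟩ := hup ((↑uT⁻¹ : R) * ↑uT⁻¹)
    set t := -(T * T * r) with ht
    have htI : 1 + t ∈ I := by
      have : 1 + t = -(T * T) * (r - (↑uT⁻¹ : R) * ↑uT⁻¹) := by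
        have h1 : T * (↑uT⁻¹ : R) = 1 := by rw [← huT, Units.mul_inv]
        linear_combination ht - (T * (↑uT⁻¹ : R) + 1) * h1
      rw [this]; exact I.mul_mem_left _ hrI
    have htB : t ∈ lowSet (gen k T) := hBA r hr
    suffices 1 + t = 0 by rwa [show (-1 : R) = t by linear_combination -this]
    set m := rUp 1 * rLow t * rUp (1 : R)
    have hm : m ∈ gen k T := mul_mem (mul_mem (rUp_one_mem T) htB) (rUp_one_mem T)
    have e01 : (m * rUp 1 * m⁻¹).1 0 1 = (1 + t) * (1 + t) := by
      simp [m, Matrix.mul_apply, Fin.sum_univ_two, Matrix.adjugate_fin_two]; ring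
    have e11 : (m * rUp 1 * m⁻¹).1 1 1 = 1 + (1 + t) * t := by
      simp [m, Matrix.mul_apply, Fin.sum_univ_two, Matrix.adjugate_fin_two]; ring
    obtain ⟨hb, hd⟩ := hlow _ (mul_mem (mul_mem hm (rUp_one_mem T)) (inv_mem hm))
      (by rw [e01]; exact I.mul_mem_right _ htI)
      (by rw [e11, show 1 + (1 + t) * t - 1 = (1 + t) * t by ring]; exact I.mul_mem_right _ htI)
    rw [e11] at hd
    rw [e01] at hb
    have h2' : 2 * (1 + t) = 0 := by linear_combination -hd + (2 + t * t) * hb
    exact two_cancel _ h2'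
  have hflip : ∀ c : R, c ∈ upSet (gen k T) → ∀ d : R, c * d = 1 → -d ∈ lowSet (gen k T) →
      ∀ x ∈ lowSet (gen k T), -(c * c * x) ∈ upSet (gen k T) := by
    intro c hc d hcd hd x hx
    set m := rUp c * rLow (-d) * rUp c
    have hm : m ∈ gen k T := mul_mem (mul_mem hc hd) hc
    have e : rUp (-(c * c * x)) = m * rLow x * m⁻¹ := by
      rw [eq_mul_inv_iff_mul_eq]
      apply ext_entries <;> simp [m, Matrix.mul_apply, Fin.sum_univ_two] <;> grind
    rw [mem_upSet, e]
    exact mul_mem (mul_mem hm hx) (inv_mem hm)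
  have hone : (1 : R) ∈ upSet (gen k T) := rUp_one_mem T
  have hAB : ∀ x ∈ lowSet (gen k T), -x ∈ upSet (gen k T) := fun x hx => by
    simpa using hflip 1 hone 1 (one_mul 1) hneg x hx
  have hT2 : ∀ r ∈ upSet (gen k T), T * T * r ∈ upSet (gen k T) := fun r hr => by
    simpa using hAB _ (hBA r hr)
  have hTmem : T ∈ upSet (gen k T) := by
    simpa using neg_mem (hAB _ (rLow_self_mem T))
  have hBA' : ∀ r ∈ upSet (gen k T), -r ∈ lowSet (gen k T) := by
    intro r hr
    set m := rUp 1 * rLow (-1 : R) * rUp 1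
    have hm : m ∈ gen k T := mul_mem (mul_mem hone hneg) hone
    have e : rLow (-r) = m * rUp r * m⁻¹ := by
      rw [eq_mul_inv_iff_mul_eq]
      apply ext_entries <;> simp [m, Matrix.mul_apply, Fin.sum_univ_two] <;> grind
    rw [mem_lowSet, e]
    exact mul_mem (mul_mem hm hr) (inv_mem hm)
  have hsq : ∀ c : k, ∀ r ∈ upSet (gen k T),
      algebraMap k R (c * c) * r ∈ upSet (gen k T) := by
    intro c r hr
    rcases eq_or_ne c 0 with rfl | hc
    · simp [zero_mem]
    have hd : -(algebraMap k R c⁻¹) ∈ lowSet (gen k T) :=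
      hBA' _ (rUp_mem_gen T c⁻¹)
    have := hflip (algebraMap k R c) (rUp_mem_gen T c) (algebraMap k R c⁻¹)
      (by rw [← map_mul, mul_inv_cancel₀ hc, map_one]) hd (-r) (hBA' r hr)
    simpa using this
  have hlin : ∀ c : k, ∀ r ∈ upSet (gen k T), algebraMap k R c * r ∈ upSet (gen k T) := by
    intro c r hr
    have h2k : (2 : k) ≠ 0 ∨ Subsingleton R := by
      by_cases h2k : (2 : k) = 0
      · refine Or.inr (subsingleton_of_zero_eq_one ?_)
        have : (2 : R) = 0 := by rw [← map_ofNat (algebraMap k R) 2, h2k, map_zero]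
        exact (two_cancel 1 (by rw [this, zero_mul])).symm
      · exact Or.inl h2k
    rcases h2k with h2k | hsub
    · have h4 : c = (c / 4 + 1) * (c / 4 + 1) - (c / 4 - 1) * (c / 4 - 1) := by
        have : (4 : k) ≠ 0 := by
          rw [show (4 : k) = 2 * 2 by norm_num]; exact mul_ne_zero h2k h2k
        field_simp; ring
      rw [h4, map_sub, sub_mul]
      exact sub_mem (hsq _ r hr) (hsq _ r hr)
    · rw [Subsingleton.elim (algebraMap k R c * r) 0]; exact zero_mem _
  have hpow : ∀ n : ℕ, T ^ n ∈ upSet (gen k T) ∧ T ^ (n + 1) ∈ upSet (gen k T) := by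
    intro n
    induction n with
    | zero => exact ⟨by simpa using hone, by simpa using hTmem⟩
    | succ n ih => exact ⟨ih.2, by
        have := hT2 _ ih.1
        rwa [← pow_two, ← pow_add, add_comm 2 n] at this⟩
  have hall : ∀ r, r ∈ upSet (gen k T) := by
    intro r
    obtain ⟨f, rfl⟩ : ∃ f : Polynomial k, Polynomial.aeval T f = r := by
      have hr : r ∈ (Polynomial.aeval T : Polynomial k →ₐ[k] R).range := by
        rw [← Algebra.adjoin_singleton_eq_range_aeval, htop]; trivial
      exact hr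
    induction f using Polynomial.induction_on' with
    | add a b ha hb => rw [map_add]; exact add_mem ha hb
    | monomial n a => rw [Polynomial.aeval_monomial]; exact hlin a _ (hpow n).1
  exact h.minimal.1 ((Submodule.eq_bot_iff I).2 fun x hx => huniq x (hall x) hx)

theorem finish (h : Step (k := k) T I)
    (hK : ∀ g : SL₂(R), SpecialLinearGroup.map (Ideal.Quotient.mk I) g = 1 → g ∈ gen k T) (r : R) :
    r ∈ upSet (gen k T) := by
  obtain ⟨g, hg, he⟩ := h.lift r
  have h1 : g⁻¹ * rUp r ∈ gen k T := hK _ (by rw [map_mul, map_inv, he, map_rUp, inv_mul_cancel])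
  have := mul_mem hg h1
  rwa [mul_inv_cancel_left] at this

end Step

end Step

/-- The two families generate every `rUp r`, `r ∈ k[T]`. -/
theorem upSet_eq_top_aux (h2 : (2 : k) ≠ 0) (hk : Nat.card k ≠ 3) [Finite k] :
    ∀ n : ℕ, ∀ (R : Type*) [CommRing R] [Algebra k R] [Finite R], Nat.card R = n →
      ∀ T : R, IsUnit T → Algebra.adjoin k ({T} : Set R) = ⊤ → ∀ r, r ∈ upSet (gen k T) := by
  classical
  have hk3 : 3 < Nat.card k := by
    have : Fintype k := Fintype.ofFinite k
    have h1 : 2 ≤ Nat.card k := Finite.one_lt_card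
    rcases lt_or_ge 3 (Nat.card k) with h | h
    · exact h
    · exfalso
      have h2' : Nat.card k = 2 := by omega
      apply h2
      have := FiniteField.cast_card_eq_zero k
      rw [← Nat.card_eq_fintype_card, h2'] at this
      exact_mod_cast this
  intro n
  induction n using Nat.strong_induction_on with
  | _ n ih =>
  intro R _ _ _ hn T hT htop
  subst hn
  have hquot : ∀ J : Ideal R, J ≠ ⊥ → ∀ r : R, ∃ g ∈ gen k T,
      SpecialLinearGroup.map (Ideal.Quotient.mk J) g = rUp (Ideal.Quotient.mk J r) := by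
    intro J hJ r
    have : Finite (R ⧸ J) := Finite.of_surjective _ Ideal.Quotient.mk_surjective
    have hlt : Nat.card (R ⧸ J) < Nat.card R := by
      refine lt_of_le_of_ne (Nat.card_le_card_of_surjective _ Ideal.Quotient.mk_surjective) fun he => hJ ?_
      have hbij := (Nat.bijective_iff_surjective_and_card (Ideal.Quotient.mk J)).2
        ⟨Ideal.Quotient.mk_surjective, he.symm⟩
      rw [← Ideal.mk_ker (I := J)]
      exact (RingHom.injective_iff_ker_eq_bot _).1 hbij.1
    have htop' : Algebra.adjoin k ({Ideal.Quotient.mkₐ k J T} : Set (R ⧸ J)) = ⊤ := by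
      rw [← Set.image_singleton, ← AlgHom.map_adjoin, htop, Algebra.map_top, AlgHom.range_eq_top]
      exact Ideal.Quotient.mk_surjective
    have h1 := ih _ hlt (R ⧸ J) rfl (Ideal.Quotient.mk J T) (hT.map _) htop' (Ideal.Quotient.mk J r)
    rw [mem_upSet, show Ideal.Quotient.mk J T = Ideal.Quotient.mkₐ k J T from rfl, ← map_gen] at h1
    exact h1
  intro r
  rcases subsingleton_or_nontrivial R with hs | hs
  · rw [Subsingleton.elim r 0]; exact zero_mem _
  by_cases hfield : IsField R
  · let := hfield.toField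
    exact upSet_eq_top_of_finite_field hk3 h2 hT.ne_zero htop r
  obtain ⟨I, hI⟩ : ∃ I : Ideal R, IsAtom I ∧
      (¬ IsReduced R → I ≤ nilradical R) := by
    by_cases hred : IsReduced R
    · obtain ⟨I, hI, -⟩ := (eq_bot_or_exists_atom_le (⊤ : Ideal R)).resolve_left top_ne_bot
      exact ⟨I, hI, fun h => absurd hred h⟩
    · have hne : nilradical R ≠ ⊥ := by rwa [Ne, nilradical_eq_bot_iff]
      obtain ⟨I, hI, hle⟩ := (eq_bot_or_exists_atom_le (nilradical R)).resolve_left hne
      exact ⟨I, hI, fun _ => hle⟩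
  have hstep : Step (k := k) T I := ⟨isUnit_two h2, hI.1, hT, hquot I hI.1.1⟩
  obtain ⟨p, hpc⟩ := CharP.exists k
  have hp : Nat.Prime p := CharP.char_is_prime k p
  have hp0 : (p : R) = 0 := by rw [← map_natCast (algebraMap k R) p, CharP.cast_eq_zero, map_zero]
  have hpodd : Odd p := hp.odd_of_ne_two fun h => h2 (by
    subst h; exact_mod_cast CharP.cast_eq_zero k 2)
  obtain ⟨g₀, hg₀, hg₀1, hg₀ns⟩ := hstep.exists_nonscalar htop hp0 hpodd
  refine hstep.finish ?_ r
  by_cases hsq : ∀ a ∈ I, ∀ b ∈ I, a * b = 0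
  · -- square-zero ideal
    have hI1 := mk_eq_iff.1 (hg₀1.trans (map_one _).symm)
    have e01 : g₀.1 0 1 ∈ I := by simpa using hI1 0 1
    have e10 : g₀.1 1 0 ∈ I := by simpa using hI1 1 0
    have e00 : g₀.1 0 0 - 1 ∈ I := by simpa using hI1 0 0
    have e11 : g₀.1 1 1 - 1 ∈ I := by simpa using hI1 1 1
    let J : AddSubgroup R := upSet (gen k T) ⊓ I.toAddSubgroup
    have hconj : ∀ y ∈ gen k T, ∀ x ∈ I, rUp x ∈ gen k T → y.1 1 0 ∈ I →
        rUp (y.1 0 0 * y.1 0 0 * x) ∈ gen k T := by
      intro y hy x hx hxm hc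
      have hcx : y.1 1 0 * x = 0 := hsq _ hc _ hx
      have e : rUp (y.1 0 0 * y.1 0 0 * x) = y * rUp x * y⁻¹ := by
        rw [eq_mul_inv_iff_mul_eq]
        have hdet := y.2
        rw [Matrix.det_fin_two] at hdet
        apply ext_entries <;> simp [Matrix.mul_apply, Fin.sum_univ_two] <;> grind
      rw [e]
      exact mul_mem (mul_mem hy hxm) (inv_mem hy)
    have hJ : ∀ a : R, ∀ x ∈ J, a * a * x ∈ J := by
      intro a x hx
      obtain ⟨hxm, hxI⟩ := AddSubgroup.mem_inf.1 hx
      refine AddSubgroup.mem_inf.2 ⟨?_, I.mul_mem_left _ hxI⟩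
      by_cases hax : a * x = 0
      · rw [mul_assoc, hax, mul_zero]; exact zero_mem _
      -- replace `a` by a unit
      obtain ⟨N, hN, hidem⟩ := exists_idem_pow a
      have hkey : ∀ y ∈ I, a * y = 0 → y = 0 := by
        intro y hy hay
        by_contra hy0
        have hle : Ideal.span {y} = I :=
          (hI.1.le_iff.1 ((Ideal.span_singleton_le_iff_mem I).2 hy)).resolve_left
            (by simpa using hy0)
        obtain ⟨t, rfl⟩ := Ideal.mem_span_singleton'.1 (hle.ge hxI)
        exact hax (by rw [mul_left_comm, hay, mul_zero])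
      have hinjN : ∀ m, ∀ y ∈ I, a ^ m * y = 0 → y = 0 := by
        intro m
        induction m with
        | zero => intro y _ h; simpa using h
        | succ m ihm =>
          intro y hy h
          exact hkey y hy (ihm _ (I.mul_mem_left _ hy) (by rw [← mul_assoc, ← pow_succ]; exact h))
      set e := a ^ N with he
      have hex : e * x = x := by
        have := hinjN N (e * x - x) (I.sub_mem (I.mul_mem_left _ hxI) hxI) (by
          rw [mul_sub, ← mul_assoc, ← he, hidem.eq, sub_self])
        exact sub_eq_zero.1 this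
      obtain ⟨M, rfl⟩ : ∃ M, N = M + 1 := ⟨N - 1, by omega⟩
      have hee : a ^ (M + 1) * a ^ (M + 1) = a ^ (M + 1) := hidem
      have hae : a * a ^ M = a ^ (M + 1) := (pow_succ' a M).symm
      let u : Rˣ :=
        { val := a * e + (1 - e)
          inv := a ^ M * e + (1 - e)
          val_inv := by
            rw [he]
            linear_combination (a ^ (M + 1) * a ^ (M + 1)) * hae +
              (a ^ (M + 1) + 2 - a - a ^ M) * hee
          inv_val := by
            rw [he]
            linear_combination (a ^ (M + 1) * a ^ (M + 1)) * hae +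
              (a ^ (M + 1) + 2 - a - a ^ M) * hee }
      have hux : (u : R) * x = a * x := by
        show (a * e + (1 - e)) * x = a * x
        linear_combination (a - 1) * hex
      obtain ⟨y₁, hy₁, ey₁⟩ := hstep.lift_word (u : R) (-(↑u⁻¹ : R)) (u : R)
      obtain ⟨y₂, hy₂, ey₂⟩ := hstep.lift_word (-1 : R) 1 (-1)
      have hmem := mul_mem hy₁ hy₂
      have hmap := mk_eq_iff.1 (show SpecialLinearGroup.map (Ideal.Quotient.mk I) (y₁ * y₂) =
          SpecialLinearGroup.map (Ideal.Quotient.mk I)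
            (rUp (u : R) * rLow (-(↑u⁻¹ : R)) * rUp (u : R) * (rUp (-1) * rLow 1 * rUp (-1))) by
        simp only [map_mul] at ey₁ ey₂ ⊢; rw [ey₁, ey₂])
      have hu1 : (u : R) * (↑u⁻¹ : R) = 1 := u.mul_inv
      have hd00 : (rUp (u : R) * rLow (-(↑u⁻¹ : R)) * rUp (u : R) *
          (rUp (-1) * rLow 1 * rUp (-1))).1 0 0 = (u : R) := by
        simp [Matrix.mul_apply, Fin.sum_univ_two]
      have hd10 : (rUp (u : R) * rLow (-(↑u⁻¹ : R)) * rUp (u : R) *
          (rUp (-1) * rLow 1 * rUp (-1))).1 1 0 = 0 := by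
        simp [Matrix.mul_apply, Fin.sum_univ_two]
      have h10 : (y₁ * y₂).1 1 0 ∈ I := by
        have := hmap 1 0
        rwa [hd10, sub_zero] at this
      have h00 : ((y₁ * y₂).1 0 0 - (u : R)) * x = 0 := by
        have := hmap 0 0
        rw [hd00] at this
        exact hsq _ this _ hxI
      have hres := hconj _ hmem x hxI hxm h10
      rwa [show (y₁ * y₂).1 0 0 * (y₁ * y₂).1 0 0 * x = a * a * x by
        linear_combination ((y₁ * y₂).1 0 0 + (u : R)) * h00 + ((u : R) + a) * hux] at hres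
    -- a non-zero member
    have hJne : ∃ x ∈ J, x ≠ 0 := by
      -- conjugates of `g₀` by lifts of `rUp t`
      have hcj : ∀ g : (Matrix.SpecialLinearGroup (Fin 2) R), g ∈ gen k T → (∀ i j, g.1 i j - (1 : (Matrix.SpecialLinearGroup (Fin 2) R)).1 i j ∈ I) →
          ∃ g' ∈ gen k T, (∀ i j, g'.1 i j - (1 : (Matrix.SpecialLinearGroup (Fin 2) R)).1 i j ∈ I) ∧
            g'.1 0 0 = 1 + g.1 1 0 ∧ g'.1 0 1 = g.1 1 1 - g.1 0 0 - g.1 1 0 ∧
            g'.1 1 0 = 0 := by
        intro g hg hgI
        have hup1 := rUp_one_mem (k := k) T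
        refine ⟨rUp 1 * g * (rUp 1)⁻¹ * g⁻¹, mul_mem (mul_mem (mul_mem hup1 hg) (inv_mem hup1))
          (inv_mem hg), ?_⟩
        have f00 : g.1 0 0 - 1 ∈ I := by simpa using hgI 0 0
        have f01 : g.1 0 1 ∈ I := by simpa using hgI 0 1
        have f10 : g.1 1 0 ∈ I := by simpa using hgI 1 0
        have f11 : g.1 1 1 - 1 ∈ I := by simpa using hgI 1 1
        have hdet := g.2
        rw [Matrix.det_fin_two] at hdet
        have p1 := hsq _ f10 _ f10
        have p2 := hsq _ f10 _ f11
        have p3 := hsq _ f10 _ f00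
        have p4 := hsq _ f10 _ f01
        have p5 := hsq _ f00 _ f00
        have p6 := hsq _ f11 _ f00
        have q00 : (rUp 1 * g * (rUp 1)⁻¹ * g⁻¹).1 0 0 = 1 + g.1 1 0 := by
          simp [Matrix.mul_apply, Matrix.vecMul, dotProduct, Fin.sum_univ_two, Matrix.adjugate_fin_two, rUp_inv]
          linear_combination hdet + p3 + p1
        have q01 : (rUp 1 * g * (rUp 1)⁻¹ * g⁻¹).1 0 1 = g.1 1 1 - g.1 0 0 - g.1 1 0 := by
          simp [Matrix.mul_apply, Matrix.vecMul, dotProduct, Fin.sum_univ_two, Matrix.adjugate_fin_two, rUp_inv]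
          grind
        have q10 : (rUp 1 * g * (rUp 1)⁻¹ * g⁻¹).1 1 0 = 0 := by
          simp [Matrix.mul_apply, Matrix.vecMul, dotProduct, Fin.sum_univ_two, Matrix.adjugate_fin_two, rUp_inv]
          linear_combination p1
        refine ⟨?_, q00, q01, q10⟩
        rw [← mk_eq_iff, map_one]
        simp only [map_mul, map_inv, mk_eq_iff.2 hgI, map_one]
        simp
      obtain ⟨g', hg', hg'I, hg'00, hg'01, hg'10⟩ := hcj g₀ hg₀ hI1
      obtain ⟨g'', hg'', hg''I, hg''00, hg''01, hg''10⟩ := hcj g' hg' hg'I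
      have hg'' : rUp (g'.1 1 1 - g'.1 0 0) ∈ gen k T := by
        convert hg'' using 1
        have f00 : g''.1 0 0 = 1 := by rw [hg''00, hg'10, add_zero]
        have hdet := g''.2
        rw [Matrix.det_fin_two, f00, hg''10, mul_zero, sub_zero, one_mul] at hdet
        apply ext_entries <;> simp [f00, hg''10, hdet, hg''01, hg'10]
      have hd' : g'.1 1 1 - g'.1 0 0 = -(2 * g₀.1 1 0) := by
        have hdet := g'.2
        rw [Matrix.det_fin_two, hg'10, mul_zero, sub_zero] at hdet
        have q1 := hsq _ e10 _ e10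
        have q2 := hsq _ e10 _ (show g'.1 1 1 - 1 ∈ I by simpa using hg'I 1 1)
        rw [hg'00] at hdet ⊢
        linear_combination hdet - q2
      by_cases hc : g₀.1 1 0 = 0
      · have hdet := g₀.2
        rw [Matrix.det_fin_two, hc, mul_zero, sub_zero] at hdet
        by_cases ha : g₀.1 0 0 = g₀.1 1 1
        · have ha1 : g₀.1 0 0 = 1 := by
            have q := hsq _ e00 _ e00
            rw [← ha] at hdet
            obtain ⟨u2, hu2⟩ := isUnit_two (R := R) h2
            have h2' : (2 : R) * (g₀.1 0 0 - 1) = 0 := by linear_combination hdet - q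
            rw [← hu2] at h2'
            exact sub_eq_zero.1 (u2.mul_right_eq_zero.1 h2')
          refine ⟨g₀.1 0 1, AddSubgroup.mem_inf.2 ⟨?_, e01⟩, fun h0 => hg₀ns ⟨h0, hc, ha⟩⟩
          rw [mem_upSet]
          convert hg₀ using 1
          apply ext_entries <;> simp [hc, ha1, ← ha]
        · refine ⟨g₀.1 1 1 - g₀.1 0 0, AddSubgroup.mem_inf.2 ⟨?_, ?_⟩, fun h0 => ha (sub_eq_zero.1 h0).symm⟩
          · rw [mem_upSet]
            convert hg' using 1
            have f00 : g'.1 0 0 = 1 := by rw [hg'00, hc, add_zero]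
            have hdet' := g'.2
            rw [Matrix.det_fin_two, f00, hg'10, mul_zero, sub_zero, one_mul] at hdet'
            apply ext_entries <;> simp [f00, hg'10, hdet', hg'01, hc]
          · have := I.sub_mem e11 e00
            rwa [sub_sub_sub_cancel_right] at this
      · rw [hd'] at hg''
        refine ⟨-(2 * g₀.1 1 0), AddSubgroup.mem_inf.2 ⟨hg'', I.neg_mem (I.mul_mem_left _ e10)⟩, ?_⟩
        intro h0
        obtain ⟨u2, hu2⟩ := isUnit_two (R := R) h2
        rw [← hu2, neg_eq_zero] at h0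
        exact hc (u2.mul_right_eq_zero.1 h0)
    obtain ⟨x, hxJ, hx0⟩ := hJne
    have hJmul : ∀ b : R, ∀ y ∈ J, b * y ∈ J := by
      intro b y hy
      obtain ⟨u4, hu4⟩ : IsUnit ((2 : R) * 2) := (isUnit_two h2).mul (isUnit_two h2)
      set a := b * (↑u4⁻¹ : R)
      have hab : b * y = (a + 1) * (a + 1) * y - (a - 1) * (a - 1) * y := by
        have : a * (2 * 2) = b := by rw [← hu4, Units.inv_mul_cancel_right]
        linear_combination (-y) * this
      rw [hab]
      exact sub_mem (hJ _ y hy) (hJ _ y hy)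
    have hIJ : ∀ y ∈ I, rUp y ∈ gen k T := by
      intro y hy
      have hle : Ideal.span {x} = I :=
        (hI.1.le_iff.1 ((Ideal.span_singleton_le_iff_mem I).2 (AddSubgroup.mem_inf.1 hxJ).2)).resolve_left
          (by simpa using hx0)
      obtain ⟨t, rfl⟩ := Ideal.mem_span_singleton'.1 (hle.ge hy)
      exact (AddSubgroup.mem_inf.1 (hJmul t x hxJ)).1
    -- the lower part and the diagonal part
    obtain ⟨y₀, hy₀, ey₀⟩ := hstep.lift_word (1 : R) (-1) 1
    obtain ⟨y₁, hy₁, ey₁⟩ := hstep.lift_low 1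
    have hmap₀ := mk_eq_iff.1 ey₀
    rw [← map_rLow] at ey₁
    have hmap₁ := mk_eq_iff.1 ey₁
    have hlow : ∀ y ∈ I, rLow y ∈ gen k T := by
      intro y hy
      have a0 : y₀.1 0 0 * y = 0 := hsq _ (by simpa [Matrix.mul_apply, Fin.sum_univ_two] using hmap₀ 0 0) _ hy
      have c0 : (y₀.1 1 0 + 1) * y = 0 :=
        hsq _ (by simpa [Matrix.mul_apply, Fin.sum_univ_two] using hmap₀ 1 0) _ hy
      have e : rLow y = y₀ * rUp (-y) * y₀⁻¹ := by
        rw [eq_mul_inv_iff_mul_eq]
        have hdet := y₀.2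
        rw [Matrix.det_fin_two] at hdet
        apply ext_entries <;> simp [Matrix.mul_apply, Fin.sum_univ_two] <;> grind
      rw [e]
      exact mul_mem (mul_mem hy₀ (hIJ _ (I.neg_mem hy))) (inv_mem hy₀)
    intro g hg
    have hgI := mk_eq_iff.1 (hg.trans (map_one _).symm)
    have f00 : g.1 0 0 - 1 ∈ I := by simpa using hgI 0 0
    have f01 : g.1 0 1 ∈ I := by simpa using hgI 0 1
    have f10 : g.1 1 0 ∈ I := by simpa using hgI 1 0
    have f11 : g.1 1 1 - 1 ∈ I := by simpa using hgI 1 1
    set i := g.1 0 0 - 1 with hi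
    have a1 : (y₁.1 0 0 - 1) * i = 0 := hsq _ (by simpa using hmap₁ 0 0) _ f00
    have c1 : (y₁.1 1 0 - 1) * i = 0 := hsq _ (by simpa using hmap₁ 1 0) _ f00
    have hdet := g.2
    rw [Matrix.det_fin_two] at hdet
    have q1 := hsq _ f01 _ f10
    have q2 := hsq _ f00 _ f11
    have q3 := hsq _ f00 _ f00
    have q4 := hsq _ f00 _ f01
    have q5 := hsq _ f00 _ f10
    have e : g = y₁ * rUp (-i) * y₁⁻¹ * rUp (g.1 0 1 + i) * rLow (g.1 1 0 - i) := by
      have hd := y₁.2
      rw [Matrix.det_fin_two] at hd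
      have hy : (y₁ * rUp (-i) * y₁⁻¹).1 = !![1 + i, -i; i, 1 - i] := by
        ext a b
        fin_cases a <;> fin_cases b <;>
          simp [Matrix.mul_apply, Fin.sum_univ_two, Matrix.adjugate_fin_two] <;> grind
      apply ext_entries <;>
        simp only [Matrix.SpecialLinearGroup.coe_mul, hy, coe_rUp, coe_rLow] <;>
        simp [Matrix.mul_apply, Fin.sum_univ_two] <;> grind
    rw [e]
    refine mul_mem (mul_mem (mul_mem (mul_mem hy₁ (hIJ _ (I.neg_mem f00))) (inv_mem hy₁)) (hIJ _ ?_))
      (hlow _ ?_)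
    · exact I.add_mem f01 f00
    · exact I.sub_mem f10 f00
  · -- an idempotent ideal
    push Not at hsq
    obtain ⟨a, ha, b, hb, hab⟩ := hsq
    obtain ⟨e, heI, hee, he⟩ : ∃ e ∈ I, e * e = e ∧ ∀ y ∈ I, y * e = y := by
      have hb0 : b ≠ 0 := fun h => hab (by rw [h, mul_zero])
      have hle : Ideal.span {a * b} = I :=
        (hI.1.le_iff.1 ((Ideal.span_singleton_le_iff_mem I).2 (I.mul_mem_left a hb))).resolve_left
          (by simpa using hab)
      obtain ⟨t, ht⟩ := Ideal.mem_span_singleton'.1 (hle.ge hb)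
      have hbspan : Ideal.span {b} = I :=
        (hI.1.le_iff.1 ((Ideal.span_singleton_le_iff_mem I).2 hb)).resolve_left (by simpa using hb0)
      have hall : ∀ y ∈ I, y * (t * a) = y := by
        intro y hy
        obtain ⟨s, rfl⟩ := Ideal.mem_span_singleton'.1 (hbspan.ge hy)
        linear_combination s * ht
      exact ⟨t * a, I.mul_mem_left t ha, hall _ (I.mul_mem_left t ha), hall⟩
    let A : Ideal R :=
      { carrier := {x | x * e = 0}
        zero_mem' := zero_mul e
        add_mem' := fun {x y} (hx : x * e = 0) (hy : y * e = 0) => by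
          show (x + y) * e = 0
          rw [add_mul, hx, hy, add_zero]
        smul_mem' := fun c x (hx : x * e = 0) => by
          show c • x * e = 0
          rw [smul_eq_mul, mul_assoc, hx, mul_zero] }
    have hAI : ∀ y ∈ I, y ∈ A → y = 0 := fun y hy (hyA : y * e = 0) => (he y hy).symm.trans hyA
    have hene : e ≠ 0 := fun h => by
      apply hI.1.1
      rw [Submodule.eq_bot_iff]
      intro y hy
      rw [← he y hy, h, mul_zero]
    have hA1 : (1 : R) ∉ A := fun h => by
      have h' : (1 : R) * e = 0 := h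
      exact hene (by rwa [one_mul] at h')
    have hAmax : A.IsMaximal := by
      rw [Ideal.isMaximal_iff]
      refine ⟨hA1, fun J x hAJ hxA hxJ => ?_⟩
      have hxe : x * e ≠ 0 := hxA
      have hle : Ideal.span {x * e} = I :=
        (hI.1.le_iff.1 ((Ideal.span_singleton_le_iff_mem I).2 (I.mul_mem_left x heI))).resolve_left
          (by simpa using hxe)
      obtain ⟨t, ht⟩ := Ideal.mem_span_singleton'.1 (hle.ge heI)
      have h1 : 1 - t * x ∈ A := by
        show (1 - t * x) * e = 0
        linear_combination -ht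
      have := J.add_mem (hAJ h1) (J.mul_mem_left t hxJ)
      simpa using this
    have hAne : A ≠ ⊥ := by
      intro h
      apply hfield
      have hmax : (⊥ : Ideal R).IsMaximal := h ▸ hAmax
      exact Ideal.Quotient.maximal_ideal_iff_isField_quotient _ |>.1 hmax |>
        (RingEquiv.quotientBot R).symm.toMulEquiv.isField
    have hπ : Function.Surjective
        ((SpecialLinearGroup.map (n := Fin 2) (Ideal.Quotient.mk A)).comp (gen k T).subtype) := by
      let := Ideal.Quotient.field A
      have hu : ∀ s : R ⧸ A, rUp s ∈ (gen k T).map (SpecialLinearGroup.map (Ideal.Quotient.mk A)) := by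
        intro s
        obtain ⟨s, rfl⟩ := Ideal.Quotient.mk_surjective s
        obtain ⟨g, hg, hge⟩ := hquot A hAne s
        exact ⟨g, hg, hge⟩
      have hl : ∀ s : R ⧸ A, rLow s ∈ (gen k T).map (SpecialLinearGroup.map (Ideal.Quotient.mk A)) :=
        rLow_mem_of_upSet (hT.map (Ideal.Quotient.mk A)) (Subgroup.mem_map.2 ⟨_, rLow_self_mem T, map_rLow _ T⟩) hu
      intro g
      have hg : g ∈ (gen k T).map (SpecialLinearGroup.map (Ideal.Quotient.mk A)) := by
        have htop2 : g ∈ Cfsg.lowerUnipotentSL2 (R ⧸ A) ⊔ Cfsg.upperUnipotentSL2 (R ⧸ A) := by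
          rw [SLTwo.sup_eq_top]; trivial
        refine sup_le (?_ : Cfsg.lowerUnipotentSL2 (R ⧸ A) ≤ _) ?_ htop2
        · intro z hz
          obtain ⟨t, rfl⟩ := SLTwo.mem_lower.1 hz
          exact hl t
        · intro z hz
          obtain ⟨t, rfl⟩ := SLTwo.mem_upper.1 hz
          exact hu t
      obtain ⟨x, hx, hxe⟩ := hg
      exact ⟨⟨x, hx⟩, hxe⟩
    let := Ideal.Quotient.field A
    let V : Subgroup ↥(gen k T) :=
      ((SpecialLinearGroup.map (Ideal.Quotient.mk I)).comp (gen k T).subtype).ker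
    let N := V.map ((SpecialLinearGroup.map (n := Fin 2) (Ideal.Quotient.mk A)).comp (gen k T).subtype)
    have hNn : N.Normal := Subgroup.Normal.map inferInstance _ hπ
    have hNtop : N = ⊤ := by
      refine (CfsgLib.Classical.Linear.normal_le_center_or_eq_top ?_ N).resolve_left fun hc => ?_
      · refine CfsgLib.Classical.Linear.commutator_sl_fin_eq_top 2 fun _ => ?_
        obtain ⟨c, hc0, hc1⟩ := exists_sq_ne_one hk h2
        refine ⟨algebraMap k (R ⧸ A) c, (map_ne_zero _).2 hc0, fun h1 => hc1 ?_⟩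
        rw [← map_pow, ← map_one (algebraMap k (R ⧸ A))] at h1
        rw [← sq]; exact (algebraMap k (R ⧸ A)).injective h1
      · apply hg₀ns
        have hmem : SpecialLinearGroup.map (Ideal.Quotient.mk A) g₀ ∈
            Subgroup.center (Matrix.SpecialLinearGroup (Fin 2) (R ⧸ A)) :=
          hc ⟨⟨g₀, hg₀⟩, hg₀1, rfl⟩
        obtain ⟨c, -, hc'⟩ := Matrix.SpecialLinearGroup.mem_center_iff.1 hmem
        have hI1 := mk_eq_iff.1 (hg₀1.trans (map_one _).symm)
        have h01 : g₀.1 0 1 ∈ A := Ideal.Quotient.eq_zero_iff_mem.1 (by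
          have := congrFun (congrFun hc' 0) 1; simpa using this.symm)
        have h10 : g₀.1 1 0 ∈ A := Ideal.Quotient.eq_zero_iff_mem.1 (by
          have := congrFun (congrFun hc' 1) 0; simpa using this.symm)
        have h00 : g₀.1 0 0 - g₀.1 1 1 ∈ A := by
          rw [← Ideal.Quotient.eq]
          have u0 := congrFun (congrFun hc' 0) 0
          have u1 := congrFun (congrFun hc' 1) 1
          simp at u0 u1
          exact u0.symm.trans u1
        refine ⟨hAI _ (by simpa using hI1 0 1) h01, hAI _ (by simpa using hI1 1 0) h10,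
          sub_eq_zero.1 (hAI _ ?_ h00)⟩
        have := I.sub_mem (hI1 0 0) (hI1 1 1)
        simpa using this
    intro g hg
    obtain ⟨⟨v, hv⟩, hvI, hvA⟩ :=
      (hNtop ▸ Subgroup.mem_top (SpecialLinearGroup.map (Ideal.Quotient.mk A) g) :
        SpecialLinearGroup.map (Ideal.Quotient.mk A) g ∈ N)
    have hvI' : SpecialLinearGroup.map (Ideal.Quotient.mk I) v = 1 := hvI
    have hvA' : SpecialLinearGroup.map (Ideal.Quotient.mk A) v =
        SpecialLinearGroup.map (Ideal.Quotient.mk A) g := hvA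
    have h1 := mk_eq_iff.1 (hvI'.trans hg.symm)
    have h2' := mk_eq_iff.1 hvA'
    have : v = g := Subtype.ext (Matrix.ext fun i j => sub_eq_zero.1 (hAI _ (h1 i j) (h2' i j)))
    exact this ▸ hv

/-- The subgroup generated by `rUp c` and `rLow (c T)` contains all `rUp r` and `rLow r`. -/
theorem gen_contains {R : Type*} [CommRing R] [Algebra k R] [FiniteDimensional k R]
    (h2 : (2 : k) ≠ 0) (hk : Nat.card k ≠ 3) {T : R} (hT : IsUnit T)
    (htop : Algebra.adjoin k ({T} : Set R) = ⊤) (r : R) :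
    rUp r ∈ gen k T ∧ rLow r ∈ gen k T := by
  have h : ∀ s, s ∈ upSet (gen k T) := by
    rcases finite_or_infinite k with hf | hinf
    · have : Finite R := Module.finite_of_finite k
      exact upSet_eq_top_aux h2 hk _ R rfl T hT htop
    · exact upSet_eq_top_of_infinite h2 T hT htop
  exact ⟨h r, rLow_mem_of_upSet hT (rLow_self_mem T) h r⟩

end CfsgLib.RootSubgroups.Gen
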