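import Cfsg.Agent.RootSubgroups.GenBasic

/-!
# Continued fraction words in two root subgroups of `SL₂`

Over an infinite field `k`, the group generated by `rUp c` and `rLow (c T)` contains all `rUp r`,
`r ∈ k[T]`. The proof uses the alternating recursion of orthogonal polynomials.
-/

set_option autoImplicit false

namespace CfsgLib.RootSubgroups.Gen

open Matrix Polynomial

/-- A Hankel matrix of moments. -/
def hankel {S : Type*} (m : ℕ → S) (s j : ℕ) : Matrix (Fin j) (Fin j) S :=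
  fun i l => m (i.1 + l.1 + s)

variable {k : Type*} [Field k]

/-- Monic of degree `j` and orthogonal, with shift `s`, to all lower degrees. -/
def Orth (φ : k[X] →ₗ[k] k) (s j : ℕ) (P : k[X]) : Prop :=
  P.coeff j = 1 ∧ (∀ l, j < l → P.coeff l = 0) ∧ ∀ i, i < j → φ (P * X ^ (i + s)) = 0

/-- The moments of a functional. -/
noncomputable def moments (φ : k[X] →ₗ[k] k) (i : ℕ) : k := φ (X ^ i)

theorem sum_coeff {j : ℕ} {p : k[X]} (hp : ∀ l, j ≤ l → p.coeff l = 0) :
    p = ∑ l : Fin j, C (p.coeff l) * X ^ (l : ℕ) := by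
  ext i
  rw [Polynomial.finsetSum_coeff]
  simp only [Polynomial.coeff_C_mul_X_pow]
  by_cases hi : i < j
  · rw [Finset.sum_eq_single ⟨i, hi⟩]
    · simp
    · intro b _ hb
      rw [if_neg]
      exact fun h => hb (Fin.ext h.symm)
    · simp
  · rw [hp i (not_lt.1 hi), Finset.sum_eq_zero]
    intro b _
    rw [if_neg]
    intro h
    exact hi (h ▸ b.2)

theorem hankel_mulVec (φ : k[X] →ₗ[k] k) (s j : ℕ) (x : Fin j → k) (i : Fin j) :
    (hankel (moments φ) s j *ᵥ x) i = φ ((∑ l : Fin j, C (x l) * X ^ (l : ℕ)) * X ^ (i.1 + s)) := by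
  simp only [Matrix.mulVec, dotProduct]
  rw [Finset.sum_mul, map_sum]
  refine Finset.sum_congr rfl fun l _ => ?_
  rw [mul_assoc, ← pow_add, ← Polynomial.smul_eq_C_mul, map_smul, smul_eq_mul, mul_comm (x l)]
  show moments φ (i.1 + l.1 + s) * x l = _
  rw [moments, show (l : ℕ) + (i.1 + s) = i.1 + l.1 + s by omega]

theorem eq_zero_of_orth {φ : k[X] →ₗ[k] k} {s j : ℕ} (hd : (hankel (moments φ) s j).det ≠ 0)
    {p : k[X]} (hp : ∀ l, j ≤ l → p.coeff l = 0) (h : ∀ i, i < j → φ (p * X ^ (i + s)) = 0) :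
    p = 0 := by
  have hx : (fun l : Fin j => p.coeff l) = 0 := by
    refine Matrix.eq_zero_of_mulVec_eq_zero hd ?_
    funext i
    rw [hankel_mulVec, ← sum_coeff hp]
    exact h i i.2
  rw [sum_coeff hp]
  refine Finset.sum_eq_zero fun l _ => ?_
  rw [show p.coeff (l : ℕ) = 0 from congrFun hx l, map_zero, zero_mul]

theorem Orth.unique {φ : k[X] →ₗ[k] k} {s j : ℕ} (hd : (hankel (moments φ) s j).det ≠ 0)
    {P Q : k[X]} (hP : Orth φ s j P) (hQ : Orth φ s j Q) : P = Q := by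
  rw [← sub_eq_zero]
  refine eq_zero_of_orth hd (fun l hl => ?_) fun i hi => ?_
  · rcases hl.eq_or_lt with rfl | hl
    · rw [coeff_sub, hP.1, hQ.1, sub_self]
    · rw [coeff_sub, hP.2.1 l hl, hQ.2.1 l hl, sub_self]
  · rw [sub_mul, map_sub, hP.2.2 i hi, hQ.2.2 i hi, sub_self]

theorem exists_orth {φ : k[X] →ₗ[k] k} {s j : ℕ} (hd : (hankel (moments φ) s j).det ≠ 0) :
    ∃ P, Orth φ s j P := by
  have hu : IsUnit (hankel (moments φ) s j) :=
    (Matrix.isUnit_iff_isUnit_det _).2 (isUnit_iff_ne_zero.2 hd)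
  obtain ⟨x, hx⟩ := Matrix.mulVec_surjective_iff_isUnit.2 hu
    (fun i : Fin j => - φ (X ^ j * X ^ (i.1 + s)))
  refine ⟨X ^ j + ∑ l : Fin j, C (x l) * X ^ (l : ℕ), ?_, fun m hm => ?_, fun i hi => ?_⟩
  · rw [coeff_add, coeff_X_pow, if_pos rfl, Polynomial.finsetSum_coeff, Finset.sum_eq_zero,
      add_zero]
    intro l _
    rw [coeff_C_mul_X_pow, if_neg]
    exact (l.2.ne').symm ∘ Eq.symm
  · rw [coeff_add, coeff_X_pow, if_neg hm.ne', Polynomial.finsetSum_coeff, Finset.sum_eq_zero,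
      zero_add]
    intro l _
    rw [coeff_C_mul_X_pow, if_neg]
    exact (l.2.trans hm).ne'
  · have h1 := congrFun hx ⟨i, hi⟩
    rw [hankel_mulVec] at h1
    rw [add_mul, map_add, h1, add_neg_cancel]

/-- All the Hankel determinants needed for the recursion are non-zero. -/
def Regular (φ : k[X] →ₗ[k] k) (n : ℕ) : Prop :=
  (∀ j, j ≤ n + 1 → (hankel (moments φ) 0 j).det ≠ 0) ∧
    ∀ j, j ≤ n → (hankel (moments φ) 1 j).det ≠ 0

/-- One step `P (j+1) = X Q j + u P j`. -/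
theorem step_P {φ : k[X] →ₗ[k] k} {n j : ℕ} (hr : Regular φ n) (hj : j ≤ n) {P P' Q : k[X]}
    (hP : Orth φ 0 j P) (hP' : Orth φ 0 (j + 1) P') (hQ : Orth φ 1 j Q) :
    ∃ u : k, P' = X * Q + C u * P := by
  refine ⟨(P' - X * Q).coeff j, ?_⟩
  rw [← sub_eq_zero, ← sub_sub]
  refine eq_zero_of_orth (hr.1 j (hj.trans (Nat.le_succ n))) (fun l hl => ?_) fun i hi => ?_
  · rcases hl.eq_or_lt with rfl | hl
    · rw [coeff_sub, coeff_C_mul, hP.1, mul_one, sub_self]
    · rw [coeff_sub, coeff_C_mul, hP.2.1 l hl, mul_zero, sub_zero, coeff_sub]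
      obtain ⟨m, rfl⟩ : ∃ m, l = m + 1 := ⟨l - 1, by omega⟩
      rw [coeff_X_mul]
      rcases (Nat.lt_succ_iff.1 hl).eq_or_lt with rfl | hm
      · rw [hP'.1, hQ.1, sub_self]
      · rw [hP'.2.1 (m + 1) (by omega), hQ.2.1 m hm, sub_self]
  · have e : X * Q * X ^ (i + 0) = Q * X ^ (i + 1) := by ring
    rw [sub_mul, sub_mul, map_sub, map_sub, hP'.2.2 i (by omega), e, hQ.2.2 i hi, sub_self,
      mul_assoc, ← smul_eq_C_mul, map_smul, hP.2.2 i hi, smul_zero, sub_zero]

/-- One step `Q (j+1) = P (j+1) + v Q j`. -/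
theorem step_Q {φ : k[X] →ₗ[k] k} {n j : ℕ} (hr : Regular φ n) (hj : j + 1 ≤ n) {P' Q Q' : k[X]}
    (hP' : Orth φ 0 (j + 1) P') (hQ : Orth φ 1 j Q) (hQ' : Orth φ 1 (j + 1) Q') :
    ∃ v : k, v ≠ 0 ∧ Q' = P' + C v * Q := by
  have hform : Q' = P' + C ((Q' - P').coeff j) * Q := by
    rw [← sub_eq_zero, ← sub_sub]
    refine eq_zero_of_orth (hr.2 j (by omega)) (fun l hl => ?_) fun i hi => ?_
    · rcases hl.eq_or_lt with rfl | hl
      · rw [coeff_sub, coeff_C_mul, hQ.1, mul_one, sub_self]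
      · rw [coeff_sub, coeff_C_mul, hQ.2.1 l hl, mul_zero, sub_zero, coeff_sub]
        rcases (Nat.succ_le_iff.2 hl).eq_or_lt with rfl | hm
        · rw [hQ'.1, hP'.1, sub_self]
        · rw [hQ'.2.1 l (by omega), hP'.2.1 l (by omega), sub_self]
    · rw [sub_mul, sub_mul, map_sub, map_sub, hQ'.2.2 i (by omega),
        show φ (P' * X ^ (i + 1)) = 0 from hP'.2.2 (i + 1) (by omega), sub_self,
        mul_assoc, ← smul_eq_C_mul, map_smul, hQ.2.2 i hi, smul_zero, sub_zero]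
  refine ⟨_, fun hv => ?_, hform⟩
  rw [hv, map_zero, zero_mul, add_zero] at hform
  -- otherwise `Q' = P'` is orthogonal to too many monomials
  have h0 : Q' = 0 := by
    refine eq_zero_of_orth (hr.1 (j + 2) (by omega)) (fun l hl => hQ'.2.1 l (by omega))
      fun i hi => ?_
    rcases Nat.eq_zero_or_pos i with rfl | hi0
    · rw [hform]; exact hP'.2.2 0 (by omega)
    · obtain ⟨m, rfl⟩ : ∃ m, i = m + 1 := ⟨i - 1, by omega⟩
      exact hQ'.2.2 m (by omega)
  have := hQ'.1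
  rw [h0, coeff_zero] at this
  exact zero_ne_one this

theorem eval_zero_ne {φ : k[X] →ₗ[k] k} {n j : ℕ} (hr : Regular φ n) (hj : j ≤ n) {P : k[X]}
    (hP : Orth φ 0 j P) : P.eval 0 ≠ 0 := by
  intro h
  rw [← coeff_zero_eq_eval_zero] at h
  obtain ⟨S, rfl⟩ : X ∣ P := X_dvd_iff.2 h
  rcases Nat.eq_zero_or_pos j with rfl | hj0
  · have := hP.1
    rw [h] at this
    exact zero_ne_one this
  · have hS : S = 0 := by
      refine eq_zero_of_orth (hr.2 j hj) (fun l hl => ?_) fun i hi => ?_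
      · rw [← coeff_X_mul]; exact hP.2.1 (l + 1) (by omega)
      · have e : S * X ^ (i + 1) = X * S * X ^ (i + 0) := by ring
        rw [e]; exact hP.2.2 i hi
    have := hP.1
    rw [hS, mul_zero, coeff_zero] at this
    exact zero_ne_one this

theorem orth_zero (φ : k[X] →ₗ[k] k) (s : ℕ) {P : k[X]} (hP : Orth φ s 0 P) : P = 1 := by
  ext l
  rcases Nat.eq_zero_or_pos l with rfl | hl
  · rw [hP.1, coeff_one_zero]
  · rw [hP.2.1 l hl, coeff_one, if_neg hl.ne']

variable {R : Type*} [CommRing R] [Algebra k R]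

/-- The words: for each `j ≤ n` a group element with bottom row `(γ T Q j (T), P j (T) / P j (0))`. -/
theorem exists_word {φ : k[X] →ₗ[k] k} {n : ℕ} (hr : Regular φ n) (T : R) :
    ∀ j, j ≤ n → ∃ P Q : k[X], Orth φ 0 j P ∧ Orth φ 1 j Q ∧
      ∃ g ∈ gen k T, ∃ γ : k, γ ≠ 0 ∧ g.1 1 0 = algebraMap k R γ * (T * aeval T Q) ∧
        g.1 1 1 = algebraMap k R (P.eval 0)⁻¹ * aeval T P := by
  intro j
  induction j with
  | zero =>
    intro hn
    obtain ⟨P, hP⟩ := exists_orth (hr.1 0 (Nat.zero_le _))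
    obtain ⟨Q, hQ⟩ := exists_orth (hr.2 0 hn)
    refine ⟨P, Q, hP, hQ, rLow T, rLow_self_mem T, 1, one_ne_zero, ?_, ?_⟩
    · simp [orth_zero φ 1 hQ]
    · simp [orth_zero φ 0 hP]
  | succ j ih =>
    intro hn
    obtain ⟨P, Q, hP, hQ, g, hg, γ, hγ, h10, h11⟩ := ih (by omega)
    obtain ⟨P', hP'⟩ := exists_orth (hr.1 (j + 1) (by omega))
    obtain ⟨Q', hQ'⟩ := exists_orth (hr.2 (j + 1) hn)
    obtain ⟨u, hu⟩ := step_P hr (by omega) hP hP' hQ
    obtain ⟨v, hv, hv'⟩ := step_Q hr hn hP' hQ hQ'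
    have hδ' := eval_zero_ne hr hn hP'
    have hδ := eval_zero_ne hr (by omega : j ≤ n) hP
    have hδδ : P'.eval 0 = u * P.eval 0 := by rw [hu]; simp
    set b := (γ * P'.eval 0)⁻¹ with hb
    set a := γ / v * P'.eval 0 with ha
    refine ⟨P', Q', hP', hQ', g * rUp (algebraMap k R b) * rLow (algebraMap k R a * T),
      mul_mem (mul_mem hg (rUp_mem_gen T b)) (rLow_mem_gen T a), γ / v, div_ne_zero hγ hv, ?_, ?_⟩
    all_goals
      clear_value a b
      have hd : g.1 1 0 * algebraMap k R b + g.1 1 1 =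
          algebraMap k R (P'.eval 0)⁻¹ * aeval T P' := by
        have s1 : γ * b = (P'.eval 0)⁻¹ := by rw [hb]; field_simp
        have hu0 : u ≠ 0 := fun h0 => hδ' (by rw [hδδ, h0, zero_mul])
        have s2 : (P.eval 0)⁻¹ = (P'.eval 0)⁻¹ * u := by rw [hδδ]; field_simp
        have e : aeval T P' = T * aeval T Q + algebraMap k R u * aeval T P := by rw [hu]; simp
        rw [e, h10, h11, s2, map_mul, mul_comm _ (algebraMap k R b), ← mul_assoc, ← map_mul,
          mul_comm b γ, s1]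
        ring
    · have e : aeval T Q' = aeval T P' + algebraMap k R v * aeval T Q := by rw [hv']; simp
      have h1 : (g * rUp (algebraMap k R b) * rLow (algebraMap k R a * T)).1 1 0 =
          g.1 1 0 + (g.1 1 0 * algebraMap k R b + g.1 1 1) * (algebraMap k R a * T) := by
        simp [Matrix.mul_apply, Fin.sum_univ_two]
      have s3 : (P'.eval 0)⁻¹ * a = γ / v := by rw [ha]; field_simp
      have s4 : γ = γ / v * v := by field_simp
      rw [h1, hd, h10, e,
        show algebraMap k R (P'.eval 0)⁻¹ * aeval T P' * (algebraMap k R a * T) =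
          algebraMap k R ((P'.eval 0)⁻¹ * a) * (T * aeval T P') by rw [map_mul]; ring, s3]
      conv_lhs => arg 1; rw [s4, map_mul]
      ring
    · rw [← hd]
      simp [Matrix.mul_apply, Fin.sum_univ_two]

/-- The conclusion of the recursion. -/
theorem smul_sq_mem {φ : k[X] →ₗ[k] k} {n : ℕ} (hr : Regular φ n) {T : R} {f : k[X]}
    (hf : Orth φ 1 n f) (hfT : aeval T f = 0) {P : k[X]} (hP : Orth φ 0 n P) (c : k) :
    algebraMap k R c * (aeval T P * aeval T P) ∈ upSet (gen k T) := by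
  obtain ⟨P₁, Q, hP₁, hQ, g, hg, γ, -, h10, h11⟩ := exists_word hr T n le_rfl
  rw [hP₁.unique (hr.1 n (Nat.le_succ n)) hP] at h11
  rw [hQ.unique (hr.2 n le_rfl) hf, hfT, mul_zero, mul_zero] at h10
  have hδ := eval_zero_ne hr le_rfl hP
  have key := conj_rUp_triangular g h10 (algebraMap k R (c * (P.eval 0 * P.eval 0)))
  rw [h11] at key
  have hmem : g⁻¹ * rUp (algebraMap k R (c * (P.eval 0 * P.eval 0))) * g ∈ gen k T :=
    mul_mem (mul_mem (inv_mem hg) (rUp_mem_gen T _)) hg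
  rw [key] at hmem
  rw [mem_upSet]
  convert hmem using 2
  have s : (P.eval 0)⁻¹ * (P.eval 0)⁻¹ * (c * (P.eval 0 * P.eval 0)) = c := by field_simp
  conv_lhs => rw [← s]
  simp only [map_mul]
  ring

end CfsgLib.RootSubgroups.Gen
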