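import Cfsg.Agent.RootSubgroups.Unipotent

/-!
# Quadratic families in a linear group

A quadratic element is handled through its endomorphism `x = σ - 1`; `IsFam G x` says that the
whole family `1 + c x` lies in `G`.
-/

set_option autoImplicit false

namespace CfsgLib.RootSubgroups.QP

open Cfsg

variable {k : Type*} [Field k] {M : Type*} [AddCommGroup M] [Module k M]

local notation "GL'" => LinearMap.GeneralLinearGroup k M
local notation "End'" => Module.End k M

/-- The unit `1 + x` of a square-zero endomorphism. -/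
def oneAdd (x : Module.End k M) (h : x * x = 0) : LinearMap.GeneralLinearGroup k M where
  val := 1 + x
  inv := 1 - x
  val_inv := by simp [mul_sub, add_mul, h]
  inv_val := by simp [sub_mul, mul_add, h]

@[simp] theorem coe_oneAdd (x : End') (h : x * x = 0) : ((oneAdd x h : GL') : End') = 1 + x := rfl

theorem smul_sq_zero {x : End'} (h : x * x = 0) (c : k) : (c • x) * (c • x) = 0 := by
  rw [smul_mul_smul_comm, h, smul_zero]

theorem coe_inv_of_sq {g : GL'} {x : End'} (h : x * x = 0) (hg : (g : End') = 1 + x) :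
    ((g⁻¹ : GL') : End') = 1 - x := by
  rw [show g = oneAdd x h from Units.ext hg]
  rfl

/-- The family `1 + c x` lies in `G`. -/
def IsFam (G : Subgroup (LinearMap.GeneralLinearGroup k M)) (x : Module.End k M) : Prop :=
  x * x = 0 ∧ ∀ c : k, ∃ g ∈ G, (g : Module.End k M) = 1 + c • x

variable {G : Subgroup (LinearMap.GeneralLinearGroup k M)}

theorem IsFam.oneAdd_mem {x : End'} (h : IsFam G x) (c : k) :
    oneAdd (c • x) (smul_sq_zero h.1 c) ∈ G := by
  obtain ⟨g, hg, he⟩ := h.2 c
  rwa [show oneAdd (c • x) (smul_sq_zero h.1 c) = g from Units.ext he.symm]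

theorem IsFam.one_mem' {x : End'} (h : IsFam G x) : oneAdd x h.1 ∈ G := by
  obtain ⟨g, hg, he⟩ := h.2 1
  rwa [show oneAdd x h.1 = g from Units.ext (by rw [coe_oneAdd, he, one_smul])]

theorem IsFam.zero : IsFam G (0 : End') :=
  ⟨mul_zero 0, fun c => ⟨1, one_mem G, by simp⟩⟩

theorem IsFam.smul {x : End'} (h : IsFam G x) (c : k) : IsFam G (c • x) :=
  ⟨smul_sq_zero h.1 c, fun e => by
    obtain ⟨g, hg, he⟩ := h.2 (e * c)
    exact ⟨g, hg, by rw [he, mul_smul]⟩⟩

theorem IsFam.neg {x : End'} (h : IsFam G x) : IsFam G (-x) := by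
  simpa using h.smul (-1)

theorem IsFam.add {x y : End'} (hx : IsFam G x) (hy : IsFam G y) (hxy : x * y = 0)
    (hyx : y * x = 0) : IsFam G (x + y) := by
  refine ⟨by simp [mul_add, add_mul, hx.1, hy.1, hxy, hyx], fun c => ?_⟩
  obtain ⟨g, hg, hge⟩ := hx.2 c
  obtain ⟨h, hh, hhe⟩ := hy.2 c
  refine ⟨g * h, mul_mem hg hh, ?_⟩
  rw [Units.val_mul, hge, hhe, mul_add, mul_one, add_mul, one_mul, smul_mul_smul_comm, hxy,
    smul_zero, add_zero, smul_add, add_assoc]

theorem IsFam.conj {x : End'} (h : IsFam G x) {g : GL'} (hg : g ∈ G) :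
    IsFam G ((g : End') * x * ((g⁻¹ : GL') : End')) := by
  refine ⟨?_, fun c => ?_⟩
  · calc (g : End') * x * ((g⁻¹ : GL') : End') * ((g : End') * x * ((g⁻¹ : GL') : End'))
        = (g : End') * x * (((g⁻¹ : GL') : End') * (g : End')) * x * ((g⁻¹ : GL') : End') := by
          simp only [mul_assoc]
      _ = 0 := by rw [Units.inv_mul, mul_one, mul_assoc (g : End') x x, h.1, mul_zero, zero_mul]
  · obtain ⟨t, ht, hte⟩ := h.2 c
    refine ⟨g * t * g⁻¹, mul_mem (mul_mem hg ht) (inv_mem hg), ?_⟩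
    rw [Units.val_mul, Units.val_mul, hte, mul_add, mul_one, add_mul, Units.mul_inv, mul_smul_comm,
      smul_mul_assoc]

/-- The rank of an endomorphism. -/
noncomputable def rk (x : Module.End k M) : ℕ := Module.finrank k (LinearMap.range x)

theorem mem_quadraticElements {σ : GL'} :
    σ ∈ quadraticElements G ↔ IsFam G ((σ : End') - 1) ∧ (σ : End') - 1 ≠ 0 := by
  constructor
  · rintro ⟨-, ⟨hsq, hne⟩, hfam⟩
    refine ⟨⟨hsq, fun c => ⟨oneAdd (c • ((σ : End') - 1)) (smul_sq_zero hsq c), ?_, rfl⟩⟩, hne⟩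
    exact hfam ⟨c, rfl⟩
  · rintro ⟨h, hne⟩
    refine ⟨?_, ⟨h.1, hne⟩, ?_⟩
    · obtain ⟨g, hg, he⟩ := h.2 1
      rwa [show σ = g from Units.ext (by rw [he, one_smul]; exact (add_sub_cancel 1 (σ : End')).symm)]
    · rintro τ ⟨c, hc⟩
      obtain ⟨g, hg, he⟩ := h.2 c
      rwa [show τ = g from Units.ext (hc.trans he.symm)]

theorem IsFam.quadratic {x : End'} (h : IsFam G x) (hne : x ≠ 0) :
    oneAdd x h.1 ∈ quadraticElements G :=
  mem_quadraticElements.2 ⟨by simpa using h, by simpa using hne⟩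

/-- Non-zero of minimal rank among the families in `G`. -/
structure IsMin (G : Subgroup (LinearMap.GeneralLinearGroup k M)) (x : Module.End k M) : Prop where
  fam : IsFam G x
  ne : x ≠ 0
  le : ∀ y, IsFam G y → y ≠ 0 → rk x ≤ rk y

theorem mem_minimal {σ : GL'} :
    σ ∈ minimalQuadraticElements G ↔ IsMin G ((σ : End') - 1) := by
  constructor
  · rintro ⟨hq, hmin⟩
    obtain ⟨h, hne⟩ := mem_quadraticElements.1 hq
    refine ⟨h, hne, fun y hy hy0 => ?_⟩
    have h' := hmin _ (hy.quadratic hy0)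
    simp only [commutatorRank] at h'
    rw [coe_oneAdd, show (1 : End') + y - 1 = y from add_sub_cancel_left 1 y] at h'
    exact h' 
  · intro h
    refine ⟨mem_quadraticElements.2 ⟨h.fam, h.ne⟩, fun τ hτ => ?_⟩
    obtain ⟨h', hne'⟩ := mem_quadraticElements.1 hτ
    exact h.le _ h' hne'

variable [FiniteDimensional k M]

theorem IsMin.rk_eq {x y : End'} (hx : IsMin G x) (hy : IsMin G y) : rk x = rk y :=
  le_antisymm (hx.le y hy.fam hy.ne) (hy.le x hx.fam hx.ne)

theorem rk_add_ker (x : End') :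
    rk x + Module.finrank k (LinearMap.ker x) = Module.finrank k M :=
  LinearMap.finrank_range_add_finrank_ker x

theorem rk_pos {x : End'} (hx : x ≠ 0) : 0 < rk x := by
  rw [rk, Nat.pos_iff_ne_zero, Ne, Submodule.finrank_eq_zero, LinearMap.range_eq_bot]
  exact hx

/-- A non-zero family with the kernel and image of a minimal one has exactly the same ones. -/
theorem IsMin.eq_spaces {x y : End'} (hx : IsMin G x) (hy : IsFam G y) (hy0 : y ≠ 0)
    (hk : LinearMap.ker x ≤ LinearMap.ker y) (hr : LinearMap.range y ≤ LinearMap.range x) :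
    IsMin G y ∧ LinearMap.ker y = LinearMap.ker x ∧ LinearMap.range y = LinearMap.range x := by
  have h1 : rk y ≤ rk x := Submodule.finrank_mono hr
  have h2 := hx.le y hy hy0
  have he : rk y = rk x := le_antisymm h1 h2
  refine ⟨⟨hy, hy0, fun w hw hw0 => he ▸ hx.le w hw hw0⟩, ?_, Submodule.eq_of_le_of_finrank_eq hr he⟩
  refine (Submodule.eq_of_le_of_finrank_eq hk ?_).symm
  have := rk_add_ker x
  have := rk_add_ker y
  omega

theorem range_le_ker {x : End'} (h : x * x = 0) : LinearMap.range x ≤ LinearMap.ker x := by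
  rintro _ ⟨m, rfl⟩
  exact congrArg (fun f : End' => f m) h

theorem mul_eq_zero_of_le {x y : End'} (h : LinearMap.range y ≤ LinearMap.ker x) : x * y = 0 := by
  ext m
  exact h ⟨m, rfl⟩

theorem le_of_mul_eq_zero {x y : End'} (h : x * y = 0) : LinearMap.range y ≤ LinearMap.ker x := by
  rintro _ ⟨m, rfl⟩
  exact congrArg (fun f : End' => f m) h

theorem range_mul_le (x y : End') : LinearMap.range (x * y) ≤ LinearMap.range x :=
  LinearMap.range_comp_le_range y x

theorem ker_le_ker_mul (x y : End') : LinearMap.ker y ≤ LinearMap.ker (x * y) :=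
  LinearMap.ker_le_ker_comp y x

/-- The family space of the pair (kernel, image) of `a`. -/
def espace (G : Subgroup (LinearMap.GeneralLinearGroup k M)) (a : Module.End k M)
    (ha : a * a = 0) : Submodule k (Module.End k M) where
  carrier := {x | IsFam G x ∧ LinearMap.ker a ≤ LinearMap.ker x ∧
    LinearMap.range x ≤ LinearMap.range a}
  zero_mem' := ⟨IsFam.zero, by rw [LinearMap.ker_zero]; exact le_top,
    by rw [LinearMap.range_zero]; exact bot_le⟩
  add_mem' := by
    rintro x y ⟨hx, hxk, hxr⟩ ⟨hy, hyk, hyr⟩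
    have h0 : LinearMap.range a ≤ LinearMap.ker a := range_le_ker ha
    refine ⟨hx.add hy (mul_eq_zero_of_le (hyr.trans (h0.trans hxk)))
      (mul_eq_zero_of_le (hxr.trans (h0.trans hyk))), fun m hm => ?_, ?_⟩
    · have h1 : x m = 0 := hxk hm
      have h2 : y m = 0 := hyk hm
      simp [LinearMap.mem_ker, h1, h2]
    · rintro _ ⟨m, rfl⟩
      exact (LinearMap.range a).add_mem (hxr ⟨m, rfl⟩) (hyr ⟨m, rfl⟩)
  smul_mem' := by
    rintro c x ⟨hx, hxk, hxr⟩
    refine ⟨hx.smul c, fun m hm => ?_, ?_⟩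
    · have h1 : x m = 0 := hxk hm
      simp [LinearMap.mem_ker, h1]
    · rintro _ ⟨m, rfl⟩
      exact (LinearMap.range a).smul_mem c (hxr ⟨m, rfl⟩)

theorem self_mem_espace {a : End'} (h : IsFam G a) : a ∈ espace G a h.1 := ⟨h, le_rfl, le_rfl⟩

theorem espace_mul_zero {a x y : End'} {ha : a * a = 0} (hx : x ∈ espace G a ha)
    (hy : y ∈ espace G a ha) : x * y = 0 :=
  mul_eq_zero_of_le (hy.2.2.trans ((range_le_ker ha).trans hx.2.1))

theorem IsMin.of_mem {a x : End'} (ha : IsMin G a) (hx : x ∈ espace G a ha.fam.1) (hx0 : x ≠ 0) :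
    IsMin G x ∧ LinearMap.ker x = LinearMap.ker a ∧ LinearMap.range x = LinearMap.range a :=
  ha.eq_spaces hx.1 hx0 hx.2.1 hx.2.2

theorem IsMin.conj {x : End'} (h : IsMin G x) {g : GL'} (hg : g ∈ G) :
    IsMin G ((g : End') * x * ((g⁻¹ : GL') : End')) := by
  have hrk : rk ((g : End') * x * ((g⁻¹ : GL') : End')) = rk x := by
    have hsurj : LinearMap.range ((g⁻¹ : GL') : End') = ⊤ :=
      LinearMap.range_eq_top.2 fun m => ⟨(g : End') m, by
        rw [← Module.End.mul_apply, Units.inv_mul]; rfl⟩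
    have hinj : Function.Injective (g : End') := fun m n h => by
      have h' := congrArg (((g⁻¹ : GL') : End') : M → M) h
      rw [← Module.End.mul_apply, ← Module.End.mul_apply, Units.inv_mul] at h'
      exact h'
    show Module.finrank k (LinearMap.range (((g : End') ∘ₗ x) ∘ₗ ((g⁻¹ : GL') : End'))) = _
    rw [LinearMap.range_comp_of_range_eq_top _ hsurj, LinearMap.range_comp]
    exact (LinearEquiv.finrank_eq (Submodule.equivMapOfInjective _ hinj _)).symm
  refine ⟨h.fam.conj hg, fun h0 => ?_, fun y hy hy0 => hrk ▸ h.le y hy hy0⟩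
  have := rk_pos h.ne
  rw [← hrk, h0, rk, LinearMap.range_zero, finrank_bot] at this
  exact lt_irrefl 0 this

/-- Membership in `E(σ)`. -/
theorem mem_sameAction {σ : GL'} (hσ : σ ∈ minimalQuadraticElements G) {g : GL'} :
    g ∈ sameActionSubgroup G σ ↔
      (g : End') - 1 ∈ espace G ((σ : End') - 1) (mem_minimal.1 hσ).fam.1 := by
  set a := (σ : End') - 1 with ha
  have hm : IsMin G a := mem_minimal.1 hσ
  constructor
  · intro hg
    induction hg using Subgroup.closure_induction with
    | mem x hx =>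
      obtain ⟨hx, hk, hr⟩ := hx
      exact ⟨(mem_minimal.1 hx).fam, hk.ge, hr.le⟩
    | one => simp
    | mul x y _ _ ihx ihy =>
      have e : ((x * y : GL') : End') - 1 = ((x : End') - 1) + ((y : End') - 1) := by
        rw [Unip.mul_sub_one, espace_mul_zero ihx ihy, zero_add]
      rw [e]
      exact Submodule.add_mem _ ihx ihy
    | inv x _ ih =>
      have e : ((x⁻¹ : GL') : End') - 1 = -((x : End') - 1) := by
        rw [coe_inv_of_sq ih.1.1 (g := x) (add_sub_cancel 1 (x : End')).symm]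
        abel
      rw [e]
      exact Submodule.neg_mem _ ih
  · intro hg
    by_cases h0 : (g : End') - 1 = 0
    · rw [show g = 1 from Units.ext (sub_eq_zero.1 h0)]
      exact one_mem _
    obtain ⟨h1, h2, h3⟩ := hm.of_mem hg h0
    exact Subgroup.subset_closure ⟨mem_minimal.2 h1, h2, h3⟩

theorem sameAction_le {σ : GL'} : sameActionSubgroup G σ ≤ G :=
  (Subgroup.closure_le _).2 fun _ hx => hx.1.1.1

end CfsgLib.RootSubgroups.QP
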