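import Cfsg.Agent.RootSubgroups.QPReduced

/-!
# The group is generated by the members and their centralizer
-/

set_option autoImplicit false

namespace CfsgLib.RootSubgroups.QP

open Cfsg

universe u v

variable {k : Type u} [Field k] {M : Type v} [AddCommGroup M] [Module k M] [FiniteDimensional k M]
variable {G : Subgroup (LinearMap.GeneralLinearGroup k M)}

local notation "GL'" => LinearMap.GeneralLinearGroup k M
local notation "End'" => Module.End k M

theorem conj_mem_roots_join {g : GL'} (hg : g ∈ G) {n : GL'}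
    (hn : n ∈ ⨆ A ∈ quadraticRootSubgroups G, A) :
    g * n * g⁻¹ ∈ ⨆ A ∈ quadraticRootSubgroups G, A := by
  have hle : (⨆ A ∈ quadraticRootSubgroups G, A) ≤
      (⨆ A ∈ quadraticRootSubgroups G, A).comap (MulAut.conj g).toMonoidHom := by
    refine iSup₂_le fun A hA x hx => ?_
    exact le_iSup₂ (f := fun (B : Subgroup GL') (_ : B ∈ quadraticRootSubgroups G) => B)
      (conjBy A g) (conjBy_mem_roots hA hg) ⟨x, hx, rfl⟩
  exact hle hn

theorem mem_centralizer_of_sandwiched (h2 : (2 : k) ≠ 0) (hk : Nat.card k ≠ 3)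
    (hirr : IsIrreducibleFor G) {x : End'} (hx : IsFam G x) (hs : Sandwiched G x) {g : GL'}
    (hg : (g : End') = 1 + x) :
    g ∈ Subgroup.centralizer ((⨆ A ∈ quadraticRootSubgroups G, A : Subgroup GL') : Set GL') := by
  have hle : (⨆ A ∈ quadraticRootSubgroups G, A) ≤ Subgroup.centralizer {g} := by
    refine iSup₂_le fun A hA => ?_
    obtain ⟨σ, hσ, rfl⟩ := hA
    refine (Subgroup.closure_le _).2 fun t ht => Subgroup.mem_centralizer_iff.2 fun g' hg' => ?_
    rw [Set.mem_singleton_iff.1 hg']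
    have hc := commute_of_sandwiched h2 hk hirr hx hs (mem_minimal.1 ht.1)
    refine Units.ext ?_
    rw [Units.val_mul, Units.val_mul, hg]
    have e := hc.eq
    simp only [sub_mul, mul_sub, one_mul, mul_one] at e
    simp only [add_mul, mul_add, one_mul, mul_one]
    rw [← sub_eq_zero] at e ⊢
    rw [← neg_eq_zero, ← e]
    abel
  refine Subgroup.mem_centralizer_iff.2 fun t ht => ?_
  exact (Subgroup.mem_centralizer_iff.1 (hle ht) g rfl).symm

theorem fam_mem_product (h2 : (2 : k) ≠ 0) (hk : Nat.card k ≠ 3) (hirr : IsIrreducibleFor G) :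
    ∀ (n : ℕ) (x : End'), rk x ≤ n → IsFam G x →
      IsFam ((⨆ A ∈ quadraticRootSubgroups G, A) ⊔
        (G ⊓ Subgroup.centralizer
          ((⨆ A ∈ quadraticRootSubgroups G, A : Subgroup GL') : Set GL'))) x := by
  intro n
  induction n using Nat.strong_induction_on with
  | _ n ih =>
  intro x hn hx
  by_cases hs : Sandwiched G x
  · refine ⟨hx.1, fun c => ?_⟩
    obtain ⟨g, hg, he⟩ := hx.2 c
    exact ⟨g, Subgroup.mem_sup_right ⟨hg, mem_centralizer_of_sandwiched h2 hk hirr (hx.smul c)
      (fun a ha => by rw [smul_mul_assoc, mul_smul_comm, hs a ha, smul_zero]) he⟩, he⟩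
  · simp only [Sandwiched, not_forall] at hs
    obtain ⟨a, ha, hne⟩ := hs
    obtain ⟨x₁, x₂, rfl, -, h2', h12, h21, hne1, hrk, hN⟩ := split_fam h2 hk ha hx hne
    have hx1 := hN (⨆ A ∈ quadraticRootSubgroups G, A) (fun g hg m hm => conj_mem_roots_join hg hm)
      (le_iSup₂ (f := fun (B : Subgroup GL') (_ : B ∈ quadraticRootSubgroups G) => B) _
        (member_mem_roots ha))
    have hpos := rk_pos hne1
    exact (hx1.mono le_sup_left).add (ih (rk x₂) (by omega) x₂ le_rfl h2') h12 h21

theorem product_eq (h2 : (2 : k) ≠ 0) (hk : Nat.card k ≠ 3) (hG : IsQuadraticPair G) :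
    (⨆ A ∈ quadraticRootSubgroups G, A) ⊔
      (G ⊓ Subgroup.centralizer
        ((⨆ A ∈ quadraticRootSubgroups G, A : Subgroup GL') : Set GL')) = G := by
  refine le_antisymm (sup_le join_roots_le inf_le_left) ?_
  conv_lhs => rw [← hG.2]
  refine (Subgroup.closure_le _).2 fun σ hσ => ?_
  obtain ⟨hx, -⟩ := mem_quadraticElements.1 hσ
  obtain ⟨g, hg, he⟩ := (fam_mem_product h2 hk hG.1 _ _ le_rfl hx).2 1
  rwa [show σ = g from Units.ext (by rw [he, one_smul, add_sub_cancel])]

end CfsgLib.RootSubgroups.QP
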