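import Cfsg.Agent.RootSubgroups.QPTwo

/-!
# The commutator of a non-opposite, non-commuting pair of members
-/

set_option autoImplicit false

namespace CfsgLib.RootSubgroups.QP

open Cfsg

universe u v

theorem commutator_sup_le {H : Type*} [Group H] {A B D : Subgroup H}
    (hD : ∀ d ∈ D, ∀ x ∈ A ⊔ B, d * x = x * d) (hA : ∀ a ∈ A, ∀ a' ∈ A, a * a' = a' * a)
    (hB : ∀ b ∈ B, ∀ b' ∈ B, b * b' = b' * b)
    (hAB : ∀ a ∈ A, ∀ b ∈ B, a * b * a⁻¹ * b⁻¹ ∈ D) : ⁅A ⊔ B, A ⊔ B⁆ ≤ D := by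
  have flip : ∀ g h : H, g * h * g⁻¹ * h⁻¹ ∈ D → h * g * h⁻¹ * g⁻¹ ∈ D := fun g h hgh => by
    rw [show h * g * h⁻¹ * g⁻¹ = (g * h * g⁻¹ * h⁻¹)⁻¹ by group]
    exact inv_mem hgh
  have right : ∀ g, (∀ h ∈ (A : Set H) ∪ B, g * h * g⁻¹ * h⁻¹ ∈ D) →
      ∀ h ∈ A ⊔ B, g * h * g⁻¹ * h⁻¹ ∈ D := by
    intro g hg h hh
    rw [Subgroup.sup_eq_closure] at hh
    induction hh using Subgroup.closure_induction with
    | mem x hx => exact hg x hx
    | one => simp
    | mul x y hx hy ihx ihy =>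
      rw [← Subgroup.sup_eq_closure] at hx hy
      rw [show g * (x * y) * g⁻¹ * (x * y)⁻¹ =
        (g * x * g⁻¹ * x⁻¹) * (x * (g * y * g⁻¹ * y⁻¹)) * x⁻¹ by group, ← hD _ ihy x hx]
      refine (?_ : _ ∈ D)
      rw [show g * x * g⁻¹ * x⁻¹ * (g * y * g⁻¹ * y⁻¹ * x) * x⁻¹ =
        g * x * g⁻¹ * x⁻¹ * (g * y * g⁻¹ * y⁻¹) by group]
      exact mul_mem ihx ihy
    | inv x hx ih =>
      rw [← Subgroup.sup_eq_closure] at hx
      have h1 := hD _ (inv_mem ih) x hx
      rw [show g * x⁻¹ * g⁻¹ * x⁻¹⁻¹ = x⁻¹ * ((g * x * g⁻¹ * x⁻¹)⁻¹ * x) by group, h1,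
        inv_mul_cancel_left]
      exact inv_mem ih
  refine Subgroup.commutator_le.2 fun g hg h hh => ?_
  rw [commutatorElement_def]
  refine flip h g (right h (fun z hz => flip z h (right z (fun w hw => ?_) h hh)) g hg)
  rcases hz with hz | hz <;> rcases hw with hw | hw
  · rw [hA z hz w hw]; group; exact one_mem D
  · exact hAB z hz w hw
  · exact flip w z (hAB w hw z hz)
  · rw [hB z hz w hw]; group; exact one_mem D

variable {k : Type u} [Field k] {M : Type v} [AddCommGroup M] [Module k M] [FiniteDimensional k M]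
variable {G : Subgroup (LinearMap.GeneralLinearGroup k M)}

local notation "GL'" => LinearMap.GeneralLinearGroup k M
local notation "End'" => Module.End k M

theorem coe_commutator {g h : GL'} {x y : End'} (hx : x * x = 0) (hy : y * y = 0)
    (hg : (g : End') = 1 + x) (hh : (h : End') = 1 + y) (h1 : x * (y * x) = 0)
    (h1' : y * (x * y) = 0) :
    ((g * h * g⁻¹ * h⁻¹ : GL') : End') = 1 + (x * y - y * x) := by
  rw [Units.val_mul, Units.val_mul, Units.val_mul, coe_inv_of_sq hx hg, coe_inv_of_sq hy hh, hg, hh]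
  have a1 : ∀ t, x * (x * t) = 0 := fun t => by rw [← mul_assoc, hx, zero_mul]
  simp only [add_mul, mul_add, sub_mul, mul_sub, one_mul, mul_one, mul_assoc, hx, hy, h1, h1',
    a1, mul_zero, sub_zero, add_zero]
  abel

/-- The conclusions about a pair in the class two case. -/
theorem class_two (h2 : (2 : k) ≠ 0) (hk : Nat.card k ≠ 3) (hirr : IsIrreducibleFor G)
    {σ τ : GL'} (hσ : σ ∈ minimalQuadraticElements G) (hτ : τ ∈ minimalQuadraticElements G)
    (h : ¬ Opp ((σ : End') - 1) ((τ : End') - 1))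
    (hc : ⁅sameActionSubgroup G σ, sameActionSubgroup G τ⁆ ≠ ⊥) :
    let E := sameActionSubgroup G σ
    let F := sameActionSubgroup G τ
    ⁅E, F⁆ ∈ quadraticRootSubgroups G ∧
    (∀ e ∈ E, e ≠ 1 → Subgroup.closure ((fun f : GL' => e * f * e⁻¹ * f⁻¹) '' (F : Set GL')) = ⁅E, F⁆) ∧
    (∀ f ∈ F, f ≠ 1 → Subgroup.closure ((fun e : GL' => e * f * e⁻¹ * f⁻¹) '' (E : Set GL')) = ⁅E, F⁆) ∧
    (∀ c ∈ ⁅E, F⁆, ∀ x ∈ E ⊔ F, c * x = x * c) ∧
    ⁅E ⊔ F, E ⊔ F⁆ ≠ ⊥ ∧ ⁅⁅E ⊔ F, E ⊔ F⁆, E ⊔ F⁆ = ⊥ ∧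
    ((E ⊔ F : Subgroup GL') : Set GL') ⊆ quadraticUnipotentCore G ⁅E, F⁆ := by
  intro E F
  have ha := mem_minimal.1 hσ
  have hb := mem_minimal.1 hτ
  obtain ⟨a, hadef⟩ : ∃ a, a = (σ : End') - 1 := ⟨_, rfl⟩
  obtain ⟨b, hbdef⟩ : ∃ b, b = (τ : End') - 1 := ⟨_, rfl⟩
  rw [← hadef] at ha h
  rw [← hbdef] at hb h
  have hmemE : ∀ {g : GL'}, g ∈ E → (g : End') - 1 ∈ espace G a ha.fam.1 := fun {g} hg => by
    have := (mem_sameAction hσ).1 hg
    simp only [← hadef] at this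
    exact this
  have hmemF : ∀ {g : GL'}, g ∈ F → (g : End') - 1 ∈ espace G b hb.fam.1 := fun {g} hg => by
    have := (mem_sameAction hτ).1 hg
    simp only [← hbdef] at this
    exact this
  have hne : a * b - b * a ≠ 0 := by
    intro h0
    apply hc
    rw [commutator_eq_bot_iff_commutes]
    intro g hg f hf
    have he := commute_congr h2 hk ha hb (sub_eq_zero.1 h0) (hmemE hg) (hmemF hf)
    refine Units.ext ?_
    rw [Units.val_mul, Units.val_mul]
    simp only [sub_mul, mul_sub, one_mul, mul_one] at he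
    rw [← sub_eq_zero] at he ⊢
    rw [← he]
    abel
  obtain ⟨hd, -⟩ := delta_spaces h2 hk ha hb h hne
  obtain ⟨ρ, hρdef⟩ : ∃ ρ : GL', (ρ : End') - 1 = a * b - b * a :=
    ⟨oneAdd _ hd.fam.1, by rw [coe_oneAdd, add_sub_cancel_left]⟩
  have hρ : ρ ∈ minimalQuadraticElements G := mem_minimal.2 (hρdef ▸ hd)
  obtain ⟨D, hD⟩ : ∃ D, D = sameActionSubgroup G ρ := ⟨_, rfl⟩
  have hmemD : ∀ {g : GL'}, g ∈ D ↔ (g : End') - 1 ∈ espace G (a * b - b * a) hd.fam.1 := by
    intro g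
    rw [hD, mem_sameAction hρ]
    simp only [hρdef]
  have htri : ∀ {x y : End'}, x ∈ espace G a ha.fam.1 → y ∈ espace G b hb.fam.1 →
      x * (y * x) = 0 ∧ y * (x * y) = 0 := fun hx hy =>
    ⟨prod_triple_eq_zero h2 hk ha hb h hx hy hx,
      prod_triple_eq_zero h2 hk hb ha (fun ho => h ho.symm) hy hx hy⟩
  have hsq : ∀ {g : GL'} {z : End'} {hz : z * z = 0}, (g : End') - 1 ∈ espace G z hz →
      ((g : End') - 1) * ((g : End') - 1) = 0 ∧ (g : End') = 1 + ((g : End') - 1) := fun hg =>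
    ⟨hg.1.1, (add_sub_cancel 1 _).symm⟩
  have hcomm : ∀ g ∈ E, ∀ f ∈ F, ((g * f * g⁻¹ * f⁻¹ : GL') : End') - 1 =
      ((g : End') - 1) * ((f : End') - 1) - ((f : End') - 1) * ((g : End') - 1) := by
    intro g hg f hf
    obtain ⟨h1, h1'⟩ := htri (hmemE hg) (hmemF hf)
    rw [coe_commutator (hsq (hmemE hg)).1 (hsq (hmemF hf)).1 (hsq (hmemE hg)).2 (hsq (hmemF hf)).2
      h1 h1', add_sub_cancel_left]
  have hcD : ∀ g ∈ E, ∀ f ∈ F, g * f * g⁻¹ * f⁻¹ ∈ D := by
    intro g hg f hf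
    rw [hmemD, hcomm g hg f hf]
    obtain ⟨x, hxdef⟩ : ∃ x, x = (g : End') - 1 := ⟨_, rfl⟩
    obtain ⟨y, hydef⟩ : ∃ y, y = (f : End') - 1 := ⟨_, rfl⟩
    have hx := hxdef ▸ hmemE hg
    have hy := hydef ▸ hmemF hf
    rw [← hxdef, ← hydef]
    by_cases hx0 : x = 0
    · rw [hx0, zero_mul, mul_zero, sub_zero]; exact Submodule.zero_mem _
    by_cases hy0 : y = 0
    · rw [hy0, zero_mul, mul_zero, sub_zero]; exact Submodule.zero_mem _
    have hc := delta_congr h2 hk ha hb h hne hx hx0 hy hy0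
    exact ⟨hc.1.fam, hc.2.1.ge, hc.2.2.le⟩
  have hleft : ∀ g ∈ E, g ≠ 1 → ∀ t ∈ D, ∃ f ∈ F, g * f * g⁻¹ * f⁻¹ = t := by
    intro g hg hg1 t ht
    obtain ⟨y, hy, hye⟩ := exists_commutator h2 hk hirr ha hb h hd (hmemE hg)
      (fun h0 => hg1 (Units.ext (sub_eq_zero.1 h0))) (hmemD.1 ht)
    have hyF : oneAdd y hy.1.1 ∈ F := by
      refine (mem_sameAction hτ).2 ?_
      simp only [coe_oneAdd, add_sub_cancel_left, ← hbdef]
      exact hy
    refine ⟨_, hyF, Units.ext ?_⟩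
    have h1 := hcomm g hg _ hyF
    rw [coe_oneAdd, add_sub_cancel_left, hye] at h1
    exact sub_left_inj.1 h1
  have hright : ∀ f ∈ F, f ≠ 1 → ∀ t ∈ D, ∃ g ∈ E, g * f * g⁻¹ * f⁻¹ = t := by
    intro f hf hf1 t ht
    have hd' : IsMin G (b * a - a * b) := by
      rw [← neg_sub (a * b)]
      exact (hd.of_mem (Submodule.neg_mem _ (self_mem_espace hd.fam)) (neg_ne_zero.2 hd.ne)).1
    have ht' := hmemD.1 ht
    obtain ⟨x, hx, hxe⟩ := exists_commutator h2 hk hirr hb ha (fun ho => h ho.symm) hd' (hmemF hf)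
      (fun h0 => hf1 (Units.ext (sub_eq_zero.1 h0))) (ε := -((t : End') - 1))
      ⟨ht'.1.neg, by rw [LinearMap.ker_neg, ← neg_sub (a * b), LinearMap.ker_neg]; exact ht'.2.1,
        by rw [LinearMap.range_neg, ← neg_sub (a * b), LinearMap.range_neg]; exact ht'.2.2⟩
    have hxE : oneAdd x hx.1.1 ∈ E := by
      refine (mem_sameAction hσ).2 ?_
      simp only [coe_oneAdd, add_sub_cancel_left, ← hadef]
      exact hx
    refine ⟨_, hxE, Units.ext ?_⟩
    have h1 := hcomm _ hxE f hf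
    rw [coe_oneAdd, add_sub_cancel_left, ← neg_sub ((((f : End')) - 1) * x), hxe, neg_neg] at h1
    exact sub_left_inj.1 h1
  have hσE : σ ∈ E := Subgroup.subset_closure ⟨hσ, rfl, rfl⟩
  have hσ1 : σ ≠ 1 := fun h0 => ha.ne (by rw [hadef, h0, Units.val_one, sub_self])
  have hEF : ⁅E, F⁆ = D := by
    refine le_antisymm (Subgroup.commutator_le.2 fun g hg f hf => hcD g hg f hf) fun t ht => ?_
    obtain ⟨f, hf, rfl⟩ := hleft σ hσE hσ1 t ht
    exact Subgroup.commutator_mem_commutator hσE hf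
  have hclose : ∀ (S : Set GL'), S ⊆ D → (D : Set GL') ⊆ S → Subgroup.closure S = ⁅E, F⁆ := by
    intro S h1 h1'
    rw [hEF]
    exact le_antisymm ((Subgroup.closure_le D).2 h1) fun t ht => Subgroup.subset_closure (h1' ht)
  obtain ⟨t1, t2⟩ := not_opp_triple h2 hk ha hb h
  have hd0 : a * (a * b - b * a) = 0 ∧ (a * b - b * a) * a = 0 ∧
      b * (a * b - b * a) = 0 ∧ (a * b - b * a) * b = 0 := by
    refine ⟨?_, ?_, ?_, ?_⟩ <;>
      simp only [mul_sub, sub_mul, mul_assoc, ha.fam.1, hb.fam.1, t1, t2, mul_zero, sub_zero,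
        sub_self] <;>
      simp only [← mul_assoc, ha.fam.1, hb.fam.1, zero_mul, sub_self]
  obtain ⟨d1, d2, d3, d4⟩ := hd0
  have hann : ∀ {x : End'}, x ∈ espace G a ha.fam.1 ∨ x ∈ espace G b hb.fam.1 →
      x * (a * b - b * a) = 0 ∧ (a * b - b * a) * x = 0 := by
    rintro x (hx | hx)
    · exact ⟨(mul_espace_zero ha.fam.1 hx).2 d1, (mul_espace_zero ha.fam.1 hx).1 d2⟩
    · exact ⟨(mul_espace_zero hb.fam.1 hx).2 d3, (mul_espace_zero hb.fam.1 hx).1 d4⟩
  have hcent : ∀ c ∈ D, ∀ x ∈ E ⊔ F, c * x = x * c := by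
    intro c hcD x hx
    have hle : E ⊔ F ≤ Subgroup.centralizer {c} := by
      have key : ∀ g : GL', ((g : End') - 1) * (a * b - b * a) = 0 →
          (a * b - b * a) * ((g : End') - 1) = 0 → g ∈ Subgroup.centralizer {c} := by
        intro g h1 h3
        rw [Subgroup.mem_centralizer_iff]
        intro c' hc'
        rw [Set.mem_singleton_iff.1 hc']
        have e1 := (mul_espace_zero hd.fam.1 (hmemD.1 hcD)).1 h1
        have e3 := (mul_espace_zero hd.fam.1 (hmemD.1 hcD)).2 h3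
        refine Units.ext ?_
        rw [Units.val_mul, Units.val_mul]
        simp only [sub_mul, mul_sub, one_mul, mul_one] at e1 e3
        rw [← sub_eq_zero]
        rw [← sub_self (0 : End')]
        conv_rhs => arg 1; rw [← e3]
        conv_rhs => arg 2; rw [← e1]
        abel
      refine sup_le (fun g hg => ?_) fun g hg => ?_
      · exact key g (hann (Or.inl (hmemE hg))).1 (hann (Or.inl (hmemE hg))).2
      · exact key g (hann (Or.inr (hmemF hg))).1 (hann (Or.inr (hmemF hg))).2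
    exact (Subgroup.mem_centralizer_iff.1 (hle hx) c rfl)
  have hder : ⁅E ⊔ F, E ⊔ F⁆ = D := by
    refine le_antisymm (commutator_sup_le hcent (fun g hg g' hg' => sameAction_commutative hσ hg hg')
      (fun g hg g' hg' => sameAction_commutative hτ hg hg') hcD) ?_
    rw [← hEF]
    exact Subgroup.commutator_mono le_sup_left le_sup_right
  refine ⟨?_, ?_, ?_, ?_, ?_, ?_, ?_⟩
  · rw [hEF, hD]; exact ⟨ρ, hρ, rfl⟩
  · intro g hg hg1
    refine hclose _ ?_ fun t ht => hleft g hg hg1 t ht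
    rintro _ ⟨f, hf, rfl⟩
    exact hcD g hg f hf
  · intro f hf hf1
    refine hclose _ ?_ fun t ht => hright f hf hf1 t ht
    rintro _ ⟨g, hg, rfl⟩
    exact hcD g hg f hf
  · rw [hEF]; exact hcent
  · rw [hder, ← hEF]; exact hc
  · rw [hder, commutator_eq_bot_iff_commutes]; exact hcent
  · rw [hEF]
    intro g hg
    have hgG : g ∈ G := (sup_le sameAction_le sameAction_le : E ⊔ F ≤ G) hg
    have hgN : g ∈ Subgroup.normalizer (D : Set GL') := by
      refine Subgroup.mem_normalizer_iff.2 fun t => ?_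
      constructor
      · intro ht
        rwa [← hcent t ht g hg, mul_inv_cancel_right]
      · intro ht
        have h1 := hcent _ ht g hg
        rw [inv_mul_cancel_right] at h1
        rw [mul_left_cancel h1]
        exact ht
    refine ⟨hgG, hgN, ?_⟩
    rw [hD, fixedSubmodule_sameAction hρ, commutatorSubmodule_sameAction hρ, hρdef]
    clear hgN hgG
    obtain ⟨d, hdd⟩ : ∃ d, d = a * b - b * a := ⟨_, rfl⟩
    rw [← hdd] at hann ⊢
    have gen : ∀ s : GL', s ∈ E ∨ s ∈ F →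
        (∀ m, (s : End') m - m ∈ LinearMap.ker d) ∧
        (∀ m ∈ LinearMap.ker d, (s : End') m - m ∈ LinearMap.range d) ∧
        (∀ m ∈ LinearMap.range d, (s : End') m = m) := by
      intro s hs
      have hx := hs.imp hmemE hmemF
      refine ⟨fun m => LinearMap.congr_fun (hann hx).2 m, fun m hm => ?_, ?_⟩
      · rw [hdd] at hm ⊢
        rcases hx with hx | hx
        · exact apply_mem_range_delta h2 hk ha hb h hne hx hm
        · have hne' : b * a - a * b ≠ 0 := sub_ne_zero.2 (sub_ne_zero.1 hne).symm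
          have := apply_mem_range_delta h2 hk hb ha (fun ho => h ho.symm) hne' hx
            (m := m) (by rw [← neg_sub, LinearMap.neg_apply, LinearMap.mem_ker.1 hm, neg_zero])
          rwa [← neg_sub, LinearMap.range_neg] at this
      · rintro _ ⟨m, rfl⟩
        exact sub_eq_zero.1 (LinearMap.congr_fun (hann hx).1 m)
    rw [Subgroup.sup_eq_closure] at hg
    induction hg using Subgroup.closure_induction'' with
    | mem x hx => exact gen x hx
    | inv_mem x hx => exact gen x⁻¹ (hx.imp inv_mem inv_mem)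
    | one => simp
    | mul x y _ _ ihx ihy =>
      obtain ⟨x1, x2, x3⟩ := ihx
      obtain ⟨y1, y2, y3⟩ := ihy
      refine ⟨fun m => ?_, fun m hm => ?_, fun m hm => ?_⟩
      · rw [show ((x * y : GL') : End') m - m =
          ((x : End') ((y : End') m) - (y : End') m) + ((y : End') m - m) by
            rw [Units.val_mul, Module.End.mul_apply]; abel]
        exact Submodule.add_mem _ (x1 _) (y1 _)
      · rw [show ((x * y : GL') : End') m - m =
          ((x : End') ((y : End') m) - (y : End') m) + ((y : End') m - m) by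
            rw [Units.val_mul, Module.End.mul_apply]; abel]
        refine Submodule.add_mem _ (x2 _ ?_) (y2 m hm)
        rw [show (y : End') m = ((y : End') m - m) + m by abel]
        exact Submodule.add_mem _ (y1 m) hm
      · rw [Units.val_mul, Module.End.mul_apply, y3 m hm, x3 m hm]

/-- Opposite members do not generate a group of class two. -/
theorem not_class_two_of_opp (h2 : (2 : k) ≠ 0) (hk : Nat.card k ≠ 3) {σ τ : GL'}
    (hσ : σ ∈ minimalQuadraticElements G) (hτ : τ ∈ minimalQuadraticElements G)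
    (ho : Opp ((σ : End') - 1) ((τ : End') - 1)) :
    ⁅⁅sameActionSubgroup G σ ⊔ sameActionSubgroup G τ, sameActionSubgroup G σ ⊔ sameActionSubgroup G τ⁆,
      sameActionSubgroup G σ ⊔ sameActionSubgroup G τ⁆ ≠ ⊥ := by
  intro hn
  have ha := mem_minimal.1 hσ
  have hb := mem_minimal.1 hτ
  obtain ⟨e, y, hp⟩ := ho.partner h2 hk ha hb
  obtain ⟨a, hadef⟩ : ∃ a, a = (σ : End') - 1 := ⟨_, rfl⟩
  rw [← hadef] at ha hp
  obtain ⟨w, hw⟩ : ∃ w, w = pflip a y ha.fam.1 hp.min.fam.1 := ⟨_, rfl⟩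
  obtain ⟨w1, w2⟩ := coe_pflip ha.fam.1 hp.min.fam.1 hp.aya hp.eq
  rw [← hw] at w1 w2
  have hg : oneAdd a ha.fam.1 = σ := Units.ext (by rw [coe_oneAdd, hadef, add_sub_cancel])
  have hgE : σ ∈ sameActionSubgroup G σ ⊔ sameActionSubgroup G τ :=
    Subgroup.mem_sup_left (Subgroup.subset_closure ⟨hσ, rfl, rfl⟩)
  have hwE : w ∈ sameActionSubgroup G σ ⊔ sameActionSubgroup G τ := by
    rw [hw, pflip, hg]
    exact mul_mem (mul_mem hgE (inv_mem (Subgroup.mem_sup_right
      (mem_sameAction_of_fam hτ (hp.mem_espace hb))))) hgE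
  obtain ⟨c, hc⟩ : ∃ c, c = w * σ * w⁻¹ * σ⁻¹ := ⟨_, rfl⟩
  have hcm : c * σ = σ * c := by
    refine commutator_eq_bot_iff_commutes.1 hn c ?_ σ hgE
    rw [hc, ← commutatorElement_def]
    exact Subgroup.commutator_mem_commutator hwE hgE
  have h1 : w * σ * w⁻¹ * σ = σ * (w * σ * w⁻¹) := by
    rw [show w * σ * w⁻¹ = c * σ by rw [hc]; group, hcm, mul_assoc, hcm]
  have hc1 := hp.left_corner ha.fam.1 (le_refl (LinearMap.ker a)) le_rfl
  have e2 : (w : End') * a * ((w⁻¹ : GL') : End') = -y := by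
    have e1 : (w : End') * a = -(y * a) := by
      rw [w1, sub_mul, add_mul, sub_mul, one_mul, hc1.1, ha.fam.1, sub_self, add_zero, zero_sub]
    rw [e1, w2, neg_mul, mul_add, mul_sub, mul_sub, mul_one, mul_assoc y a e, hc1.2, sub_self,
      mul_assoc y a a, ha.fam.1, mul_zero, zero_sub, neg_zero, zero_add, mul_assoc, hp.yay]
  have e3 : ((w * σ * w⁻¹ : GL') : End') = 1 - y := by
    rw [← sub_add_cancel ((w * σ * w⁻¹ : GL') : End') 1, coe_conj_sub_one, ← hadef, e2]
    abel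
  have h3 := congrArg (fun t : GL' => (t : End')) h1
  simp only [Units.val_mul] at h3 e3
  rw [e3, show (σ : End') = 1 + a by rw [hadef]; abel] at h3
  simp only [sub_mul, mul_sub, add_mul, mul_add, one_mul, mul_one] at h3
  apply ha.ne
  have h4 : y * a = a * y := by
    rw [← sub_eq_zero] at h3 ⊢
    rw [← neg_eq_zero, ← h3]
    abel
  rw [← hp.aya, h4, ← mul_assoc, ha.fam.1, zero_mul]

end CfsgLib.RootSubgroups.QP
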