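import Cfsg.Agent.RootSubgroups.SpecialNormal
import Cfsg.Agent.RootSubgroups.Components

/-!
# The quasisimplicity criterion
-/

set_option autoImplicit false

namespace CfsgLib.RootSubgroups

open Cfsg
open scoped commutatorElement

variable {G : Type*} [Group G]

/-- In a rank one pair with commutative `B`, commutators `[a, c]` are not central. -/
theorem RankOne.eq_one_of_comm_central {A B : Subgroup G} (h : IsRankOnePair A B)
    (hB : ∀ x ∈ B, ∀ y ∈ B, x * y = y * x) {a c : G} (ha : a ∈ A) (ha1 : a ≠ 1) (hc : c ∈ B)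
    (hz : ⁅a, c⁆ ∈ Subgroup.centralizer ((A ⊔ B : Subgroup G) : Set G)) : c = 1 := by
  have hne : B ≠ conjBy B a := fun h0 => ha1 (RankOne.eq_one_of_normalizes h ha h0.symm)
  have hu := RankOne.conjBy_mem_unipotent (RankOne.right_mem_unipotent h)
    (Subgroup.mem_sup_left (T := B) ha)
  refine RankOne.eq_one_of_commutes
    (RankOne.pair_of_mem h (RankOne.right_mem_unipotent h) hu hne) hc fun x hx => ?_
  have hzc : ⁅a, c⁆ * c ∈ conjBy B a := by
    rw [commutatorElement_def, inv_mul_cancel_right]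
    exact mem_conjBy.2 (by simpa [mul_assoc] using hc)
  have h2 : (⁅a, c⁆ * c) * x = x * (⁅a, c⁆ * c) := by
    have e1 := hB _ (mem_conjBy.1 hzc) _ (mem_conjBy.1 hx)
    simpa [mul_assoc] using congrArg (fun t => a * t * a⁻¹) e1
  have h3 : x * ⁅a, c⁆ = ⁅a, c⁆ * x :=
    Subgroup.mem_centralizer_iff.1 hz x (RankOne.le_sup_of_mem hu hx)
  rw [← mul_assoc, h3, mul_assoc, mul_assoc] at h2
  exact mul_left_cancel h2

/-- Hypotheses of the quasisimplicity criterion. -/
structure Criterion (S : Set (Subgroup G)) : Prop where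
  root : IsRootSubgroupSet S
  cls : ∀ A ∈ S, ∀ B ∈ S, ∃ g : G, B = conjBy A g
  partner : ∀ A ∈ S, ∃ B ∈ S, IsRankOnePair A B
  conn : IsConnectedFamily (FAdj S) S
  sep : ∀ A ∈ S, ∀ C ∈ S, A ≠ C → centralizingMembers S A ≠ centralizingMembers S C
  big : IsDegenerateRootSet S → ∀ A ∈ S, 3 < ENat.card A
  special : ∀ A ∈ S, ∀ B ∈ S, IsRankOnePair A B → IsSpecialRankOnePair A B

namespace Criterion

variable {S : Set (Subgroup G)}

theorem abSpecial (h : Criterion S) {A B : Subgroup G} (hA : A ∈ S) (hB : B ∈ S)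
    (hAB : IsRankOnePair A B) : AbSpecial A B :=
  AbSpecial.of_commutative (h.special A hA B hB hAB) (h.root.commutative A hA)
    (h.root.commutative B hB)

theorem le_supplement (h : Criterion S) {A : Subgroup G} (hA : A ∈ S) :
    commutator G ⊔ A = ⊤ := by
  rw [eq_top_iff, ← h.root.generates]
  refine iSup₂_le fun C hC => ?_
  obtain ⟨g, rfl⟩ := h.cls A hA C hC
  intro x hx
  have e : x = ⁅g, g⁻¹ * x * g⁆ * (g⁻¹ * x * g) := by simp [commutatorElement_def, mul_assoc]
  rw [e]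
  exact mul_mem (Subgroup.mem_sup_left (Subgroup.commutator_mem_commutator
    (Subgroup.mem_top _) (Subgroup.mem_top _))) (Subgroup.mem_sup_right (mem_conjBy.1 hx))

theorem eq_top_of_member_le (h : Criterion S) {N : Subgroup G} (hN : N.Normal) {A : Subgroup G}
    (hA : A ∈ S) (hle : A ≤ N) : N = ⊤ := by
  rw [eq_top_iff, ← h.root.generates]
  refine iSup₂_le fun C hC => ?_
  obtain ⟨g, rfl⟩ := h.cls A hA C hC
  intro x hx
  simpa [mul_assoc] using hN.conj_mem _ (hle (mem_conjBy.1 hx)) g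

theorem exists_noncommuting_witness (h : Criterion S) {A C : Subgroup G} (hA : A ∈ S)
    (hC : C ∈ S) (hne : A ≠ C) :
    ∃ D ∈ S, (⁅D, A⁆ = ⊥ ∧ ⁅D, C⁆ ≠ ⊥) ∨ (⁅D, C⁆ = ⊥ ∧ ⁅D, A⁆ ≠ ⊥) := by
  by_contra hc
  push Not at hc
  apply h.sep A hA C hC hne
  ext D
  constructor
  · rintro ⟨hD, hle⟩
    exact ⟨hD, Subgroup.commutator_eq_bot_iff_le_centralizer.1
      ((hc D hD).1 (Subgroup.commutator_eq_bot_iff_le_centralizer.2 hle))⟩
  · rintro ⟨hD, hle⟩
    exact ⟨hD, Subgroup.commutator_eq_bot_iff_le_centralizer.1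
      ((hc D hD).2 (Subgroup.commutator_eq_bot_iff_le_centralizer.2 hle))⟩

/-- A normal subgroup containing some `[a, c]` for a rank one pair contains the derived group
of that pair. -/
theorem collapse (h : Criterion S) {N : Subgroup G} {P Q : Subgroup G}
    (hP : P ∈ S) (hQ : Q ∈ S) (hPQ : IsRankOnePair P Q)
    (hN : ∀ x ∈ P ⊔ Q, ∀ n ∈ N, x * n * x⁻¹ ∈ N) {p q : G} (hp : p ∈ P) (hp1 : p ≠ 1)
    (hq : q ∈ Q) (hq1 : q ≠ 1) (hpq : ⁅p, q⁆ ∈ N) : ⁅P ⊔ Q, P ⊔ Q⁆ ≤ N := by
  have hn : ∀ x ∈ P ⊔ Q, ∀ n ∈ N ⊓ (P ⊔ Q), x * n * x⁻¹ ∈ N ⊓ (P ⊔ Q) := fun x hx n hn =>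
    Subgroup.mem_inf.2 ⟨hN x hx n hn.1, mul_mem (mul_mem hx (Subgroup.mem_inf.1 hn).2) (inv_mem hx)⟩
  rcases RankOne.normal_dichotomy hPQ inf_le_right hn with hs | hc
  · exact (commutator_le_of_supplement hn hs (h.abSpecial hP hQ hPQ).commA).trans inf_le_left
  · exfalso
    exact hq1 (RankOne.eq_one_of_comm_central hPQ (h.abSpecial hP hQ hPQ).commB hp hp1 hq
      (hc (Subgroup.mem_inf.2 ⟨hpq, derived_le _ (Subgroup.commutator_mem_commutator
        (Subgroup.mem_sup_left hp) (Subgroup.mem_sup_right hq))⟩)))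

/-- Normal subgroups are central or contain the derived group. -/
theorem normal_dichotomy (h : Criterion S) {N : Subgroup G} (hN : N.Normal) :
    N ≤ Subgroup.center G ∨ commutator G ≤ N := by
  have hN' : ∀ (P Q : Subgroup G), ∀ x ∈ P ⊔ Q, ∀ n ∈ N, x * n * x⁻¹ ∈ N :=
    fun _ _ x _ n hn => hN.conj_mem n hn x
  -- modulo `N` the members of a collapsed pair agree
  let f : G →* G ⧸ N := QuotientGroup.mk' N
  have hf : ∀ x, f x = 1 ↔ x ∈ N := fun x => QuotientGroup.eq_one_iff x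
  have hmapeq : ∀ P Q : Subgroup G, IsRankOnePair P Q → ⁅P ⊔ Q, P ⊔ Q⁆ ≤ N →
      ∀ q ∈ Q, ∃ p ∈ P, f p = f q := by
    intro P Q hPQ hle q hq
    obtain ⟨x, hx, hxQ⟩ := RankOne.right_mem_unipotent hPQ
    have hp := mem_conjBy.1 (hxQ.le hq)
    refine ⟨_, hp, ?_⟩
    have h1 : ⁅x⁻¹, q⁆ ∈ N :=
      hle (Subgroup.commutator_mem_commutator (inv_mem hx) (Subgroup.mem_sup_right hq))
    rw [← hf, commutatorElement_def, inv_inv, map_mul, map_inv, mul_inv_eq_one] at h1
    exact h1
  have hpairtop : ∀ P ∈ S, ∀ Q ∈ S, IsRankOnePair P Q → ⁅P ⊔ Q, P ⊔ Q⁆ ≤ N →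
      commutator G ≤ N := by
    intro P hP Q hQ hPQ hle
    by_cases hdeg : IsDegenerateRootSet S
    · -- every member meets `N`
      obtain ⟨h1, -, hbig⟩ := AbSpecial.derived_pair (h.abSpecial hP hQ hPQ) (h.big hdeg P hP)
      obtain ⟨p, hp, hp1⟩ := RankOne.exists_left h1.rk
      have hmeet : ∀ R ∈ S, ∃ r ∈ R, r ∈ N ∧ r ≠ 1 := by
        intro R hR
        obtain ⟨g, rfl⟩ := h.cls P hP R hR
        refine ⟨g * p * g⁻¹, mem_conjBy.2 (by simpa [mul_assoc] using hp.1),
          hN.conj_mem p (hle hp.2) g, fun h0 => hp1 ?_⟩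
        simpa [mul_assoc] using congrArg (fun t => g⁻¹ * t * g) h0
      have hall : ∀ R ∈ S, ∀ R' ∈ S, IsRankOnePair R R' → ⁅R ⊔ R', R ⊔ R'⁆ ≤ N := by
        intro R hR R' hR' hRR'
        obtain ⟨r, hr, hrN, hr1⟩ := hmeet R hR
        obtain ⟨r', hr', hr'1⟩ := RankOne.exists_left (RankOnePair_symm hRR')
        refine h.collapse hR hR' hRR' (hN' R R') hr hr1 hr' hr'1 ?_
        rw [commutatorElement_def, mul_assoc r r', mul_assoc r]
        exact mul_mem hrN (hN.conj_mem _ (inv_mem hrN) r')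
      have himg : ∀ R ∈ S, ∀ x ∈ R, ∃ p ∈ P, f p = f x := by
        intro R hR
        have hr := h.conn P hP R hR
        clear hR
        induction hr with
        | refl => exact fun x hx => ⟨x, hx, rfl⟩
        | tail _ hadj ih =>
          intro x hx
          obtain ⟨y, hy, hyx⟩ := hmapeq _ _ hadj.2.2 (hall _ hadj.1 _ hadj.2.1 hadj.2.2) x hx
          obtain ⟨z, hz, hzy⟩ := ih y hy
          exact ⟨z, hz, hzy.trans hyx⟩
      have hsup : N ⊔ P = ⊤ := by
        rw [eq_top_iff, ← h.root.generates]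
        refine iSup₂_le fun R hR x hx => ?_
        obtain ⟨p', hp', hpx⟩ := himg R hR x hx
        have : f (x * p'⁻¹) = 1 := by rw [map_mul, map_inv, hpx, mul_inv_cancel]
        simpa using mul_mem (Subgroup.mem_sup_left (T := P) ((hf _).1 this))
          (Subgroup.mem_sup_right (S := N) hp')
      rw [commutator_def]
      exact commutator_le_of_supplement (fun x _ n hn => hN.conj_mem n hn x) hsup
        (h.abSpecial hP hQ hPQ).commA
    · -- some member lies in `N`
      rw [IsDegenerateRootSet] at hdeg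
      push Not at hdeg
      obtain ⟨A₁, hA₁, C₁, hC₁, hcc⟩ := hdeg
      obtain ⟨g, hg⟩ := h.cls A₁ hA₁ P hP
      set C := conjBy C₁ g with hC
      have hCS : C ∈ S := h.root.conj_mem _ hC₁ g
      have hF : ⁅P, C⁆ ∈ S := by
        rw [hg, hC, show ⁅conjBy A₁ g, conjBy C₁ g⁆ = conjBy ⁅A₁, C₁⁆ g from
          (Subgroup.map_commutator _ _ _).symm]
        exact h.root.conj_mem _ hcc.1 g
      have hPC : RootCommutatorCase S P C := CommCase.of_mem h.root hP hCS hF
      have htop : ∀ R ∈ S, R ≤ N → commutator G ≤ N := fun R hR hRN =>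
        (h.eq_top_of_member_le hN hR hRN).symm ▸ le_top
      have hcomm : ∀ c ∈ ⁅P, C⁆, ∀ q ∈ Q, ⁅c, q⁆ ∈ N := by
        intro c hc q hq
        obtain ⟨p, hp, hpq⟩ := hmapeq P Q hPQ hle q hq
        rw [← hf, map_commutatorElement, ← hpq, ← map_commutatorElement, commutatorElement_def,
          CommCase.central_left hPC hc hp]
        simp
      rcases h.root.pair _ hF Q hQ with hcq | hr | hcq
      · obtain ⟨c, hc, hc1⟩ : ∃ c ∈ ⁅P, C⁆, c ≠ 1 := by
          by_contra hc
          push Not at hc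
          exact h.root.ne_bot _ hF (by rw [Subgroup.eq_bot_iff_forall]; exact hc)
        exact absurd (commutator_eq_bot_iff_commutes.1 hcq c hc)
          (CommCase.not_commutes_partner h.root hPC hP hQ hPQ hc hc1)
      · -- the pair `⁅P, C⁆, Q` collapses
        obtain ⟨c, hc, hc1⟩ := RankOne.exists_left hr
        obtain ⟨q, hq, hq1⟩ := RankOne.exists_left (RankOnePair_symm hr)
        have hle' := h.collapse hF hQ hr (hN' _ Q) hc hc1 hq hq1 (hcomm c hc q hq)
        refine htop _ hF ?_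
        rw [Subgroup.commutator_le]
        intro p hp c' hc'
        -- `f p` is the image of an element of `⁅P, C⁆`, hence commutes with `f c'`
        obtain ⟨x, hx, hxQ⟩ := RankOne.right_mem_unipotent hPQ
        have hq' : x * p * x⁻¹ ∈ Q := hxQ.ge (mem_conjBy.2 (by simpa [mul_assoc] using hp))
        have hfp : f p = f (x * p * x⁻¹) := by
          have h1 : ⁅x, p⁆ ∈ N :=
            hle (Subgroup.commutator_mem_commutator hx (Subgroup.mem_sup_left hp))
          rw [← hf, commutatorElement_def, map_mul, map_inv, mul_inv_eq_one] at h1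
          exact h1.symm
        obtain ⟨d, hd, hdq⟩ := hmapeq _ _ hr hle' _ hq'
        rw [← hf, map_commutatorElement, hfp, ← hdq, ← map_commutatorElement,
          commutatorElement_def, CommCase.central_right hPC hd hc']
        simp
      · refine htop _ hcq.1 ?_
        rw [Subgroup.commutator_le]
        exact hcomm
  by_cases hfix : ∀ A ∈ S, ∀ n ∈ N, conjBy A n = A
  · by_cases hcen : ∀ A ∈ S, ∀ a ∈ A, ∀ n ∈ N, n * a = a * n
    · left
      intro n hn
      have htop : Subgroup.centralizer ({n} : Set G) = ⊤ := by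
        rw [eq_top_iff, ← h.root.generates]
        exact iSup₂_le fun A hA a ha =>
          Subgroup.mem_centralizer_singleton_iff.2 (hcen A hA a ha n hn).symm
      exact Subgroup.mem_center_iff.2 fun g =>
        Subgroup.mem_centralizer_singleton_iff.1 (htop ▸ Subgroup.mem_top g)
    · right
      push Not at hcen
      obtain ⟨A, hA, a, ha, n, hn, hna⟩ := hcen
      obtain ⟨B, hB, hAB⟩ := h.partner A hA
      have hA' : n * a * n⁻¹ * a⁻¹ ∈ A :=
        mul_mem ((hfix A hA n hn).le (mem_conjBy.2 (by simpa [mul_assoc] using ha))) (inv_mem ha)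
      have hN'' : n * a * n⁻¹ * a⁻¹ ∈ N := by
        simpa [mul_assoc] using mul_mem hn (hN.conj_mem _ (inv_mem hn) a)
      have hne : n * a * n⁻¹ * a⁻¹ ≠ 1 := by
        intro h0
        exact hna (by
          calc n * a = n * a * n⁻¹ * a⁻¹ * (a * n) := by simp [mul_assoc]
            _ = a * n := by rw [h0, one_mul])
      obtain ⟨b, hb, hb1⟩ := RankOne.exists_left (RankOnePair_symm hAB)
      refine hpairtop A hA B hB hAB (h.collapse hA hB hAB (hN' A B) hA' hne hb hb1 ?_)
      rw [commutatorElement_def, mul_assoc _ b, mul_assoc (n * a * n⁻¹ * a⁻¹)]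
      exact mul_mem hN'' (hN.conj_mem _ (inv_mem hN'') b)
  · right
    push Not at hfix
    obtain ⟨A, hA, n, hn, hne⟩ := hfix
    have hC : conjBy A n ∈ S := h.root.conj_mem A hA n
    -- commutators with the conjugate are commutators with `A` modulo `N`
    have hmod : ∀ d a : G, ⁅d, a⁆ ∈ N ↔ ⁅d, n * a * n⁻¹⁆ ∈ N := by
      intro d a
      rw [← hf, ← hf, map_commutatorElement, map_commutatorElement, map_mul, map_mul, map_inv,
        (hf n).2 hn]
      simp
    rcases h.root.pair A hA _ hC with hc | hr | hcc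
    · obtain ⟨D, hD, hDcase⟩ := h.exists_noncommuting_witness hA hC (Ne.symm hne)
      have key : ∀ R ∈ S, ⁅D, R⁆ ≠ ⊥ → (∀ d ∈ D, ∀ r ∈ R, ⁅d, r⁆ ∈ N) → commutator G ≤ N := by
        intro R hR hDR hcomm
        rcases h.root.pair D hD R hR with h0 | h0 | h0
        · exact absurd h0 hDR
        · obtain ⟨d, hd, hd1⟩ := RankOne.exists_left h0
          obtain ⟨r, hr, hr1⟩ := RankOne.exists_left (RankOnePair_symm h0)
          exact hpairtop D hD R hR h0
            (h.collapse hD hR h0 (hN' D R) hd hd1 hr hr1 (hcomm d hd r hr))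
        · exact (h.eq_top_of_member_le hN h0.1 (Subgroup.commutator_le.2 hcomm)).symm ▸ le_top
      rcases hDcase with ⟨h1, h2⟩ | ⟨h1, h2⟩
      · refine key _ hC h2 fun d hd r hr => ?_
        have h3 := commutator_eq_bot_iff_commutes.1 h1 d hd _ (mem_conjBy.1 hr)
        have h4 := (hmod d (n⁻¹ * r * n)).1 (by
          rw [commutatorElement_def, h3]; simp [mul_assoc])
        simpa [mul_assoc] using h4
      · refine key _ hA h2 fun d hd r hr => ?_
        rw [hmod]
        have h3 := commutator_eq_bot_iff_commutes.1 h1 d hd (n * r * n⁻¹)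
          (mem_conjBy.2 (by simpa [mul_assoc] using hr))
        rw [commutatorElement_def, h3]
        simp [mul_assoc]
    · obtain ⟨a, ha, ha1⟩ := RankOne.exists_left hr
      refine hpairtop A hA _ hC hr (h.collapse hA hC hr (hN' A _) ha ha1
        (q := n * a * n⁻¹) (mem_conjBy.2 (by simpa [mul_assoc] using ha)) ?_ ?_)
      · intro h0
        exact ha1 (by simpa [mul_assoc] using congrArg (fun t => n⁻¹ * t * n) h0)
      · rw [← hmod]; simp
    · refine (h.eq_top_of_member_le hN hcc.1 ?_).symm ▸ le_top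
      rw [Subgroup.commutator_le]
      intro a ha x hx
      have h3 := RootSet.comm_of_mem h.root hA ha (mem_conjBy.1 hx)
      have h4 := (hmod a (n⁻¹ * x * n)).1 (by rw [commutatorElement_def, h3]; simp [mul_assoc])
      simpa [mul_assoc] using h4

theorem inf_derived_ne_bot (h : Criterion S) {A : Subgroup G} (hA : A ∈ S) :
    A ⊓ commutator G ≠ ⊥ := by
  intro hbot
  by_cases hdeg : IsDegenerateRootSet S
  · obtain ⟨B, hB, hAB⟩ := h.partner A hA
    obtain ⟨h1, -, -⟩ := AbSpecial.derived_pair (h.abSpecial hA hB hAB) (h.big hdeg A hA)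
    obtain ⟨a, ha, ha1⟩ := RankOne.exists_left h1.rk
    exact ha1 (Subgroup.mem_bot.1 (hbot ▸ Subgroup.mem_inf.2 ⟨ha.1,
      Subgroup.commutator_mono le_top le_top ha.2⟩))
  · rw [IsDegenerateRootSet] at hdeg
    push Not at hdeg
    obtain ⟨P, -, Q, -, hcc⟩ := hdeg
    have := h.eq_top_of_member_le (N := commutator G) inferInstance hcc.1
      (Subgroup.commutator_mono le_top le_top)
    rw [this, inf_top_eq] at hbot
    exact h.root.ne_bot A hA hbot

theorem derived_quasisimple (h : Criterion S) {A₀ : Subgroup G} (hA₀ : A₀ ∈ S) :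
    IsQuasisimple ↥(commutator G) := by
  have hnc : ∀ A ∈ S, ¬ ∀ a ∈ A ⊓ commutator G, a ∈ Subgroup.center G := by
    intro A hA hc
    obtain ⟨B, hB, hAB⟩ := h.partner A hA
    apply h.inf_derived_ne_bot hA
    rw [Subgroup.eq_bot_iff_forall]
    intro a ha
    exact RankOne.eq_one_of_commutes hAB ha.1 fun b _ =>
      ((Subgroup.mem_center_iff.1 (hc a ha)) b).symm
  have hne : commutator G ≠ ⊥ := fun h0 =>
    h.inf_derived_ne_bot hA₀ (by rw [h0, inf_bot_eq])
  by_cases hdeg : IsDegenerateRootSet S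
  · have hX : ∀ A ∈ S, ∀ B ∈ S, IsRankOnePair A B → ⁅A ⊔ B, A ⊔ B⁆ ≤ commutator G :=
      fun _ _ _ _ _ => Subgroup.commutator_mono le_top le_top
    have hnc' : ∀ A ∈ S, ∀ B ∈ S, IsRankOnePair A B →
        ¬ ⁅A ⊔ B, A ⊔ B⁆ ≤ Subgroup.center G := by
      intro A hA B hB hAB hc
      obtain ⟨h1, -, -⟩ := AbSpecial.derived_pair (h.abSpecial hA hB hAB) (h.big hdeg A hA)
      obtain ⟨a, ha, ha1⟩ := RankOne.exists_left h1.rk
      exact ha1 (RankOne.eq_one_of_commutes hAB ha.1 fun b _ =>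
        ((Subgroup.mem_center_iff.1 (hc ha.2)) b).symm)
    refine isQuasisimple_of_dichotomy ?_ hne fun M hM hMn => ?_
    · refine le_antisymm (derived_le _) ((h.normal_dichotomy (N := ⁅commutator G, commutator G⁆)
        inferInstance).resolve_left fun hc => ?_)
      obtain ⟨B, hB, hAB⟩ := h.partner A₀ hA₀
      refine hnc' A₀ hA₀ B hB hAB ?_
      rw [← AbSpecial.derived_perfect (h.abSpecial hA₀ hB hAB) (h.big hdeg A₀ hA₀)]
      exact (Subgroup.commutator_mono (hX _ hA₀ _ hB hAB) (hX _ hA₀ _ hB hAB)).trans hc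
    by_cases hfix : ∀ A ∈ S, ∀ m ∈ M, conjBy A m = A
    · left
      let F : Subgroup G := ⨅ A ∈ S, Subgroup.normalizer ((A : Subgroup G) : Set G)
      have hF : ∀ g, g ∈ F ↔ ∀ A ∈ S, conjBy A g = A := fun g => by
        simp only [F, Subgroup.mem_iInf, conjBy_eq_self_iff]
      have hFn : F.Normal := by
        refine ⟨fun g hg x => (hF _).2 fun A hA => ?_⟩
        have h1 := congrArg (fun C => conjBy C x) ((hF g).1 hg _ (h.root.conj_mem A hA x⁻¹))
        simpa [conjBy_conjBy, conjBy_one, mul_assoc] using h1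
      rcases h.normal_dichotomy hFn with hc | hder
      · intro m hm
        exact Subgroup.center_le_centralizer _ (hc ((hF m).2 fun A hA => hfix A hA m hm))
      · exfalso
        obtain ⟨B, hB, hAB⟩ := h.partner A₀ hA₀
        obtain ⟨b, hb, hb1⟩ := RankOne.exists_left (RankOnePair_symm hAB)
        have hbt : b ∈ commutator G ⊔ A₀ := (h.le_supplement hA₀).symm ▸ Subgroup.mem_top b
        obtain ⟨g, hg, a, ha, rfl⟩ :=
          exists_eq_mul_of_sup (fun a _ n hn =>
            (inferInstance : (commutator G).Normal).conj_mem n hn a) hbt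
        refine hb1 (RankOne.eq_one_of_normalizes (RankOnePair_symm hAB) hb ?_)
        rw [← conjBy_conjBy, conjBy_self_of_mem ha]
        exact (hF g).1 (hder hg) A₀ hA₀
    right
    push Not at hfix
    obtain ⟨A, hA, m, hm, hne'⟩ := hfix
    -- some pair has its derived group inside `M`
    have hpair : ∀ P ∈ S, ∀ Q ∈ S, IsRankOnePair P Q → ∀ p ∈ P, p ≠ 1 → ∀ q ∈ Q, q ≠ 1 →
        ⁅p, q⁆ ∈ M → ⁅P ⊔ Q, P ⊔ Q⁆ ≤ M := by
      intro P hP Q hQ hPQ p hp hp1 q hq hq1 hpq
      have hX' := hX P hP Q hQ hPQ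
      have hn : ∀ x ∈ ⁅P ⊔ Q, P ⊔ Q⁆, ∀ z ∈ M ⊓ ⁅P ⊔ Q, P ⊔ Q⁆,
          x * z * x⁻¹ ∈ M ⊓ ⁅P ⊔ Q, P ⊔ Q⁆ := fun x hx z hz =>
        Subgroup.mem_inf.2 ⟨hMn x (hX' hx) z hz.1,
          mul_mem (mul_mem hx (Subgroup.mem_inf.1 hz).2) (inv_mem hx)⟩
      rcases AbSpecial.derived_dichotomy (h.abSpecial hP hQ hPQ) (h.big hdeg P hP) inf_le_right hn
        with hc | he
      · exact absurd (RankOne.eq_one_of_comm_central hPQ (h.abSpecial hP hQ hPQ).commB hp hp1 hq
          (hc (Subgroup.mem_inf.2 ⟨hpq, Subgroup.commutator_mem_commutator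
            (Subgroup.mem_sup_left hp) (Subgroup.mem_sup_right hq)⟩))) hq1
      · exact he.ge.trans inf_le_left
    have hCS : conjBy A m ∈ S := h.root.conj_mem A hA m
    -- congruence modulo `M` inside the derived group
    have hmod : ∀ d ∈ commutator G, ∀ a ∈ commutator G, ⁅d, a⁆ ∈ M ↔ ⁅d, m * a * m⁻¹⁆ ∈ M := by
      intro d hd a ha
      let K := commutator G
      let N : Subgroup ↥K := M.subgroupOf K
      haveI : N.Normal := ⟨fun z hz g => Subgroup.mem_subgroupOf.2 (by
        simpa using hMn _ g.2 _ (Subgroup.mem_subgroupOf.1 hz))⟩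
      have hm1 : QuotientGroup.mk' N ⟨m, hM hm⟩ = 1 :=
        (QuotientGroup.eq_one_iff _).2 (Subgroup.mem_subgroupOf.2 hm)
      have hco : ∀ x y : ↥K, ((⁅x, y⁆ : ↥K) : G) = ⁅(x : G), (y : G)⁆ := fun x y =>
        map_commutatorElement K.subtype x y
      have e1 : (⁅d, a⁆ ∈ M) ↔ QuotientGroup.mk' N ⁅(⟨d, hd⟩ : ↥K), ⟨a, ha⟩⁆ = 1 := by
        rw [QuotientGroup.mk'_apply, QuotientGroup.eq_one_iff, Subgroup.mem_subgroupOf, hco]
      have e2 : (⁅d, m * a * m⁻¹⁆ ∈ M) ↔ QuotientGroup.mk' N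
          ⁅(⟨d, hd⟩ : ↥K), ⟨m, hM hm⟩ * ⟨a, ha⟩ * ⟨m, hM hm⟩⁻¹⁆ = 1 := by
        rw [QuotientGroup.mk'_apply, QuotientGroup.eq_one_iff, Subgroup.mem_subgroupOf, hco]
        simp
      rw [e1, e2, map_commutatorElement, map_commutatorElement, map_mul, map_mul, map_inv, hm1]
      simp
    have hel : ∀ P ∈ S, ∃ p ∈ P ⊓ commutator G, p ≠ 1 := by
      intro P hP
      by_contra hc
      push Not at hc
      exact h.inf_derived_ne_bot hP (by rw [Subgroup.eq_bot_iff_forall]; exact hc)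
    have hin : ∀ a ∈ commutator G, m⁻¹ * a * m ∈ commutator G := fun a ha =>
      mul_mem (mul_mem (inv_mem (hM hm)) ha) (hM hm)
    obtain ⟨P, hP, Q, hQ, hPQ, hle⟩ : ∃ P ∈ S, ∃ Q ∈ S, IsRankOnePair P Q ∧
        ⁅P ⊔ Q, P ⊔ Q⁆ ≤ M := by
      rcases h.root.pair A hA _ hCS with hc | hr | hcc
      · obtain ⟨D, hD, hDcase⟩ := h.exists_noncommuting_witness hA hCS (Ne.symm hne')
        obtain ⟨d, hd, hd1⟩ := hel D hD
        rcases hDcase with ⟨h1, h2⟩ | ⟨h1, h2⟩
        · have hDC := ((h.root.pair D hD _ hCS).resolve_left h2).resolve_right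
            (hdeg D hD _ hCS)
          obtain ⟨c, hc', hc1⟩ := hel _ hCS
          refine ⟨D, hD, _, hCS, hDC, hpair D hD _ hCS hDC d hd.1 hd1 c hc'.1 hc1 ?_⟩
          have h3 := commutator_eq_bot_iff_commutes.1 h1 d hd.1 _ (mem_conjBy.1 hc'.1)
          have h4 := (hmod d hd.2 _ (hin c hc'.2)).1 (by
            rw [commutatorElement_def, h3]; simp [mul_assoc])
          simpa [mul_assoc] using h4
        · have hDA := ((h.root.pair D hD A hA).resolve_left h2).resolve_right (hdeg D hD A hA)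
          obtain ⟨a, ha, ha1⟩ := hel A hA
          refine ⟨D, hD, A, hA, hDA, hpair D hD A hA hDA d hd.1 hd1 a ha.1 ha1 ?_⟩
          rw [hmod d hd.2 a ha.2]
          have h3 := commutator_eq_bot_iff_commutes.1 h1 d hd.1 (m * a * m⁻¹)
            (mem_conjBy.2 (by simpa [mul_assoc] using ha.1))
          rw [commutatorElement_def, h3]
          simp [mul_assoc]
      · obtain ⟨a, ha, ha1⟩ := hel A hA
        refine ⟨A, hA, _, hCS, hr, hpair A hA _ hCS hr a ha.1 ha1 (m * a * m⁻¹)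
          (mem_conjBy.2 (by simpa [mul_assoc] using ha.1)) (fun h0 => ha1 (by
            simpa [mul_assoc] using congrArg (fun t => m⁻¹ * t * m) h0)) ?_⟩
        rw [← hmod a ha.2 a ha.2]
        simp
      · exact absurd hcc (hdeg A hA _ hCS)
    -- spread along the connected graph
    have hall : ∀ R ∈ S, ∃ r ∈ R, r ∈ M ∧ r ∈ commutator G ∧ r ≠ 1 := by
      obtain ⟨h1, -, -⟩ := AbSpecial.derived_pair (h.abSpecial hP hQ hPQ) (h.big hdeg P hP)
      obtain ⟨p, hp, hp1⟩ := RankOne.exists_left h1.rk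
      intro R hR
      have hr := h.conn P hP R hR
      clear hR
      induction hr with
      | refl => exact ⟨p, hp.1, hle hp.2, hM (hle hp.2), hp1⟩
      | tail _ hadj ih =>
        obtain ⟨r, hr, hrM, hrG, hr1⟩ := ih
        obtain ⟨h2, -, -⟩ :=
          AbSpecial.derived_pair (h.abSpecial hadj.1 hadj.2.1 hadj.2.2) (h.big hdeg _ hadj.1)
        obtain ⟨s, hs, hs1⟩ := RankOne.exists_left (RankOne.symm h2.rk)
        have hsG := hX _ hadj.1 _ hadj.2.1 hadj.2.2 hs.2
        have hle' := hpair _ hadj.1 _ hadj.2.1 hadj.2.2 r hr hr1 s hs.1 hs1 (by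
          rw [commutatorElement_def, mul_assoc r, mul_assoc r]
          exact mul_mem hrM (hMn s hsG _ (inv_mem hrM)))
        exact ⟨s, hs.1, hle' hs.2, hsG, hs1⟩
    have hevery : ∀ R ∈ S, ∀ R' ∈ S, IsRankOnePair R R' → ⁅R ⊔ R', R ⊔ R'⁆ ≤ M := by
      intro R hR R' hR' hRR'
      obtain ⟨r, hr, hrM, hrG, hr1⟩ := hall R hR
      obtain ⟨r', hr', hr'G⟩ : ∃ r' ∈ R' ⊓ commutator G, r' ≠ 1 := hel R' hR'
      refine hpair R hR R' hR' hRR' r hr hr1 r' hr'.1 hr'G ?_
      rw [commutatorElement_def, mul_assoc r, mul_assoc r]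
      exact mul_mem hrM (hMn r' hr'.2 _ (inv_mem hrM))
    let N₁ : Subgroup G := Subgroup.normalClosure
      ((⁅P ⊔ Q, P ⊔ Q⁆ : Subgroup G) : Set G)
    have hN₁M : N₁ ≤ M := by
      have hgen : Group.conjugatesOfSet ((⁅P ⊔ Q, P ⊔ Q⁆ : Subgroup G) : Set G) ⊆ (M : Set G) := by
        intro z hz
        obtain ⟨y, hy, hyz⟩ := Group.mem_conjugatesOfSet_iff.1 hz
        obtain ⟨g, rfl⟩ := isConj_iff.1 hyz
        have hmem : g * y * g⁻¹ ∈ conjBy ⁅P ⊔ Q, P ⊔ Q⁆ g :=
          mem_conjBy.2 (by simpa [mul_assoc] using hy)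
        rw [show conjBy ⁅P ⊔ Q, P ⊔ Q⁆ g = ⁅conjBy (P ⊔ Q) g, conjBy (P ⊔ Q) g⁆ from
          Subgroup.map_commutator _ _ _, conjBy_sup] at hmem
        exact hevery _ (h.root.conj_mem P hP g) _ (h.root.conj_mem Q hQ g)
          (RankOne.conj hPQ g) hmem
      exact (Subgroup.closure_le _).2 hgen
    refine le_antisymm hM (((h.normal_dichotomy (N := N₁) inferInstance).resolve_left
      fun hc => hnc' P hP Q hQ hPQ ?_).trans hN₁M)
    exact fun x hx => hc (Subgroup.subset_normalClosure hx)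
  · -- perfect case
    rw [IsDegenerateRootSet] at hdeg
    push Not at hdeg
    obtain ⟨P, -, Q, -, hcc⟩ := hdeg
    have htop := h.eq_top_of_member_le (N := commutator G) inferInstance hcc.1
      (Subgroup.commutator_mono le_top le_top)
    refine isQuasisimple_of_dichotomy ?_ hne fun M hM hMn => ?_
    · rw [htop, ← commutator_def, htop]
    · have hMnormal : M.Normal := ⟨fun m hm g => hMn g (htop ▸ Subgroup.mem_top g) m hm⟩
      exact (h.normal_dichotomy hMnormal).imp
        (fun hc => hc.trans (Subgroup.center_le_centralizer _)) (fun hder => le_antisymm hM hder)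

end Criterion

end CfsgLib.RootSubgroups
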