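import Cfsg.Agent.RootSubgroups.QPTwins
import Cfsg.Agent.RootSubgroups.Quasisimple
import Cfsg.Agent.Balance.ExtendedLayer

/-!
# The classes of `Σ` and their quasisimple groups
-/

set_option autoImplicit false

namespace CfsgLib.RootSubgroups.QP

open Cfsg

universe u v

variable {k : Type u} [Field k] {M : Type v} [AddCommGroup M] [Module k M] [FiniteDimensional k M]
variable {G : Subgroup (LinearMap.GeneralLinearGroup k M)}

local notation "GL'" => LinearMap.GeneralLinearGroup k M
local notation "End'" => Module.End k M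

/-- The component of a member. -/
def comp (G : Subgroup (LinearMap.GeneralLinearGroup k M))
    (A : Subgroup (LinearMap.GeneralLinearGroup k M)) :
    Set (Subgroup (LinearMap.GeneralLinearGroup k M)) :=
  componentOf (FAdj (quadraticRootSubgroups G)) (quadraticRootSubgroups G) A

/-- The group generated by a component. -/
def compGroup (G : Subgroup (LinearMap.GeneralLinearGroup k M))
    (A : Subgroup (LinearMap.GeneralLinearGroup k M)) :
    Subgroup (LinearMap.GeneralLinearGroup k M) :=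
  ⨆ C ∈ comp G A, C

theorem le_compGroup {A C : Subgroup GL'} (hC : C ∈ comp G A) : C ≤ compGroup G A :=
  le_iSup₂ (f := fun (D : Subgroup GL') (_ : D ∈ comp G A) => D) C hC

theorem self_mem_comp {A : Subgroup GL'} (hA : A ∈ quadraticRootSubgroups G) : A ∈ comp G A :=
  ⟨hA, .refl⟩

theorem comp_eq {A C : Subgroup GL'} (hC : C ∈ comp G A) : comp G C = comp G A :=
  (componentOf_eq hC.2).symm

theorem compGroup_le {A : Subgroup GL'} : compGroup G A ≤ G :=
  iSup₂_le fun _ hC => le_of_mem_roots hC.1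

theorem exists_partner_mem {A : Subgroup GL'} (h2 : (2 : k) ≠ 0) (hk : Nat.card k ≠ 3)
    (hirr : IsIrreducibleFor G) (hA : A ∈ quadraticRootSubgroups G) :
    ∃ P ∈ comp G A, IsRankOnePair A P := by
  obtain ⟨g, hg, h⟩ := exists_rankOne_partner h2 hk hirr hA
  exact ⟨_, ⟨conjBy_mem_roots hA hg, .single ⟨hA, conjBy_mem_roots hA hg, h⟩⟩, h⟩

theorem commutator_comps (h2 : (2 : k) ≠ 0) (hk : Nat.card k ≠ 3) (hirr : IsIrreducibleFor G)
    {A B : Subgroup GL'} (h : comp G A ≠ comp G B) : ⁅compGroup G A, compGroup G B⁆ = ⊥ := by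
  refine Subgroup.commutator_eq_bot_iff_le_centralizer.2 (iSup₂_le fun C hC => ?_)
  rw [Subgroup.le_centralizer_iff]
  refine iSup₂_le fun D hD => ?_
  rw [Subgroup.le_centralizer_iff, ← Subgroup.commutator_eq_bot_iff_le_centralizer]
  refine commutator_of_not_reach h2 hk hirr hC.1 hD.1 fun hr => h ?_
  rw [← comp_eq hC, ← comp_eq hD]
  exact componentOf_eq hr

/-- A member inside the group of a component belongs to the component. -/
theorem mem_comp_of_le (h2 : (2 : k) ≠ 0) (hk : Nat.card k ≠ 3) (hirr : IsIrreducibleFor G)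
    {A C : Subgroup GL'} (hC : C ∈ quadraticRootSubgroups G) (hle : C ≤ compGroup G A) :
    C ∈ comp G A := by
  by_contra hn
  obtain ⟨R, hR, hCR⟩ := exists_partner_mem h2 hk hirr hC
  have hne : comp G A ≠ comp G C := fun he => hn (he ▸ self_mem_comp hC)
  refine RankOne.commutator_ne_bot hCR (le_bot_iff.1 ?_)
  rw [← commutator_comps h2 hk hirr hne]
  exact Subgroup.commutator_mono hle (le_compGroup hR)

theorem reach_conj_roots {A B : Subgroup GL'}
    (h : Relation.ReflTransGen (FAdj (quadraticRootSubgroups G)) A B) {g : GL'} (hg : g ∈ G) :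
    Relation.ReflTransGen (FAdj (quadraticRootSubgroups G)) (conjBy A g) (conjBy B g) := by
  induction h with
  | refl => exact .refl
  | tail _ hadj ih =>
    exact ih.tail ⟨conjBy_mem_roots hadj.1 hg, conjBy_mem_roots hadj.2.1 hg,
      RankOne.conj hadj.2.2 g⟩

/-- The group of a component fixes the component. -/
theorem conjBy_mem_comp {A B : Subgroup GL'}
    (hB : B ∈ comp G A) {g : GL'} (hg : g ∈ compGroup G A) : conjBy B g ∈ comp G A := by
  let R := FAdj (quadraticRootSubgroups G)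
  let K : Subgroup GL' :=
    { carrier := {g | g ∈ G ∧ Relation.ReflTransGen R A (conjBy A g)}
      one_mem' := ⟨one_mem G, by rw [conjBy_one]⟩
      mul_mem' := by
        rintro x y ⟨hx, hxr⟩ ⟨hy, hyr⟩
        refine ⟨mul_mem hx hy, hxr.trans ?_⟩
        have := reach_conj_roots hyr hx
        rwa [conjBy_conjBy] at this
      inv_mem' := by
        rintro x ⟨hx, hxr⟩
        refine ⟨inv_mem hx, ?_⟩
        have := reach_conj_roots hxr (inv_mem hx)
        rw [conjBy_conjBy, inv_mul_cancel, conjBy_one] at this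
        exact reach_symm this }
  have hK : compGroup G A ≤ K := iSup₂_le fun E hE e he => by
    refine ⟨le_of_mem_roots hE.1 he, hE.2.trans ?_⟩
    have h1 := reach_conj_roots hE.2 (le_of_mem_roots hE.1 he)
    rw [conjBy_self_of_mem he] at h1
    exact reach_symm h1
  obtain ⟨hgG, hgr⟩ := hK hg
  exact ⟨conjBy_mem_roots hB.1 hgG, hgr.trans (reach_conj_roots hB.2 hgG)⟩

theorem comp_pair (h2 : (2 : k) ≠ 0) (hk : Nat.card k ≠ 3) (hirr : IsIrreducibleFor G)
    {A : Subgroup GL'} :
    ∀ B ∈ comp G A, ∀ C ∈ comp G A, ⁅B, C⁆ = ⊥ ∨ IsRankOnePair B C ∨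
      RootCommutatorCase (comp G A) B C := by
  intro B hB C hC
  rcases roots_pair h2 hk hirr B hB.1 C hC.1 with h | h | h
  · exact Or.inl h
  · exact Or.inr (Or.inl h)
  · refine Or.inr (Or.inr ⟨mem_comp_of_le h2 hk hirr h.1 ?_, h.2.1, h.2.2.1, h.2.2.2⟩)
    refine Subgroup.commutator_le.2 fun b hb c hc => ?_
    have hb' := le_compGroup hB hb
    have hc' := le_compGroup hC hc
    exact mul_mem (mul_mem (mul_mem hb' hc') (inv_mem hb')) (inv_mem hc')

/-- The members of a component inside the group they generate. -/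
def compImage (G : Subgroup (LinearMap.GeneralLinearGroup k M))
    (A : Subgroup (LinearMap.GeneralLinearGroup k M)) : Set (Subgroup ↥(compGroup G A)) :=
  (fun B : Subgroup (LinearMap.GeneralLinearGroup k M) => B.subgroupOf (compGroup G A)) '' comp G A

theorem isRootSubgroupSet_comp (h2 : (2 : k) ≠ 0) (hk : Nat.card k ≠ 3) (hirr : IsIrreducibleFor G)
    {A : Subgroup GL'} : IsRootSubgroupSet (compImage G A) :=
  Within.isRootSubgroupSet rfl (fun B hB => commutative_of_mem_roots hB.1)
    (fun B hB => ne_bot_of_mem_roots hB.1) (fun B hB g hg => conjBy_mem_comp hB hg)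
    (comp_pair h2 hk hirr)

theorem isConjClass_comp {A : Subgroup GL'} (hA : A ∈ quadraticRootSubgroups G) :
    IsConjClassOfSubgroups (compImage G A) := by
  refine ⟨⟨_, A, self_mem_comp hA, rfl⟩, ?_⟩
  rintro _ ⟨B, hB, rfl⟩ _ ⟨C, hC, rfl⟩
  obtain ⟨g, hg, rfl⟩ := exists_conj_of_reach hB.1 ((reach_symm hB.2).trans hC.2)
  have hg' : g ∈ compGroup G A := by
    unfold compGroup
    rw [← comp_eq hB]
    exact hg
  exact ⟨⟨g, hg'⟩, (Within.conjBy_eq (le_compGroup hB) ⟨g, hg'⟩).symm⟩

theorem isRankOnePair_of_within {H : Type*} [Group H] {K A B : Subgroup H} (hA : A ≤ K)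
    (hB : B ≤ K) (h : IsRankOnePair (A.subgroupOf K) (B.subgroupOf K)) : IsRankOnePair A B := by
  have cond : ∀ {A B : Subgroup H}, A ≤ K → B ≤ K →
      RankOneCondition (A.subgroupOf K) (B.subgroupOf K) → RankOneCondition A B := by
    intro A B hA hB h a ha ha1
    obtain ⟨b, hb, hb1, hab⟩ := h ⟨a, hA ha⟩ ha (fun h0 => ha1 (congrArg Subtype.val h0))
    refine ⟨b, hb, fun h0 => hb1 (Subtype.ext h0), ?_⟩
    have hle : ∀ {A : Subgroup H} (g : ↥K), A ≤ K → conjBy A (g : H) ≤ K := by
      rintro A g hA _ ⟨x, hx, rfl⟩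
      exact mul_mem (mul_mem g.2 (hA hx)) (inv_mem g.2)
    rw [Within.conjBy_eq hA, Within.conjBy_eq hB] at hab
    have h1 := congrArg (fun C => C.map K.subtype) hab
    rwa [Within.map_eq (hle b⁻¹ hA), Within.map_eq (hle (⟨a, hA ha⟩ : ↥K)⁻¹ hB)] at h1
  refine ⟨fun he => h.ne (he ▸ rfl), ?_, ?_, cond hA hB h.cond_left, cond hB hA h.cond_right⟩
  · exact (Group.isNilpotent_congr (Subgroup.subgroupOfEquivOfLe hA)).1 h.nilpotent_left
  · exact (Group.isNilpotent_congr (Subgroup.subgroupOfEquivOfLe hB)).1 h.nilpotent_right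

theorem isSpecial_within {H : Type*} [Group H] {K A B : Subgroup H} (hA : A ≤ K) (hB : B ≤ K)
    (h : IsSpecialRankOnePair A B) :
    IsSpecialRankOnePair (A.subgroupOf K) (B.subgroupOf K) := by
  refine ⟨Within.isRankOnePair hA hB h.1, fun a ha ha1 b hb hb1 hab => ?_⟩
  have hle : ∀ {A : Subgroup H} (g : ↥K), A ≤ K → conjBy A (g : H) ≤ K := by
    rintro A g hA _ ⟨x, hx, rfl⟩
    exact mul_mem (mul_mem g.2 (hA hx)) (inv_mem g.2)
  rw [Within.conjBy_eq hA, Within.conjBy_eq hB] at hab
  have h1 := congrArg (fun C => C.map K.subtype) hab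
  rw [Within.map_eq (hle b⁻¹ hA), Within.map_eq (hle a⁻¹ hB)] at h1
  exact Subtype.ext (h.2 (a : H) ha (fun h0 => ha1 (Subtype.ext h0)) (b : H) hb
    (fun h0 => hb1 (Subtype.ext h0)) h1)

theorem special_of_rankOne (h2 : (2 : k) ≠ 0) (hk : Nat.card k ≠ 3) (hirr : IsIrreducibleFor G)
    {A B : Subgroup GL'} (hA : A ∈ quadraticRootSubgroups G) (hB : B ∈ quadraticRootSubgroups G)
    (h : IsRankOnePair A B) : IsSpecialRankOnePair A B := by
  obtain ⟨σ, hσ, rfl⟩ := hA
  obtain ⟨τ, hτ, rfl⟩ := hB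
  exact isSpecial_of_opp h2 hk hσ hτ (opp_of_rankOne h2 hk hirr hσ hτ h)

theorem three_lt_member (h2 : (2 : k) ≠ 0) (hk : Nat.card k ≠ 3) {A : Subgroup GL'}
    (hA : A ∈ quadraticRootSubgroups G) : 3 < ENat.card A := by
  obtain ⟨σ, hσ, rfl⟩ := hA
  have ha := mem_minimal.1 hσ
  refine (three_lt_card h2 hk).trans_le (ENat.card_le_card_of_injective
    (f := fun c : k => (⟨oneAdd (c • ((σ : End') - 1)) (smul_sq_zero ha.fam.1 c), by
      rw [mem_sameAction hσ, coe_oneAdd, add_sub_cancel_left]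
      exact Submodule.smul_mem _ c (self_mem_espace ha.fam)⟩ : ↥(sameActionSubgroup G σ))) ?_)
  intro c d hcd
  have h1 := congrArg (fun x : ↥(sameActionSubgroup G σ) => ((x : GL') : End')) hcd
  simp only [coe_oneAdd, add_right_inj] at h1
  exact smul_left_injective k ha.ne h1

theorem up_mem_commutator (h2 : (2 : k) ≠ 0) (hk : Nat.card k ≠ 3) (x : k) :
    Gen.rUp x ∈ commutator (Matrix.SpecialLinearGroup (Fin 2) k) := by
  obtain ⟨c, hc, hc1⟩ := Gen.exists_sq_ne_one hk h2
  obtain ⟨t, ht⟩ : ∃ t : Matrix.SpecialLinearGroup (Fin 2) k, t.1 = !![c, 0; 0, c⁻¹] :=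
    ⟨⟨!![c, 0; 0, c⁻¹], by rw [Matrix.det_fin_two_of, mul_inv_cancel₀ hc, mul_zero, sub_zero]⟩, rfl⟩
  have hd : c * c - 1 ≠ 0 := sub_ne_zero.2 hc1
  have e : t * Gen.rUp (x / (c * c - 1)) * t⁻¹ * (Gen.rUp (x / (c * c - 1)))⁻¹ = Gen.rUp x := by
    rw [mul_inv_eq_iff_eq_mul, mul_inv_eq_iff_eq_mul]
    refine Subtype.ext ?_
    simp only [Matrix.SpecialLinearGroup.coe_mul, Gen.coe_rUp, ht, Matrix.mul_fin_two]
    ext i j
    fin_cases i <;> fin_cases j <;> simp
    have key : x / (c * c - 1) + x = c * c * (x / (c * c - 1)) := by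
      linear_combination -(div_mul_cancel₀ x hd)
    rw [key]
    linear_combination -(c * (x / (c * c - 1))) * (mul_inv_cancel₀ hc)
  rw [← e, ← commutatorElement_def]
  exact Subgroup.commutator_mem_commutator (Subgroup.mem_top _) (Subgroup.mem_top _)

/-- A member lies in the derived group of any group containing it and a partner. -/
theorem le_derived (h2 : (2 : k) ≠ 0) (hk : Nat.card k ≠ 3) (hirr : IsIrreducibleFor G)
    {A B : Subgroup GL'} (hA : A ∈ quadraticRootSubgroups G) (hB : B ∈ quadraticRootSubgroups G)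
    (h : IsRankOnePair A B) : A ≤ ⁅A ⊔ B, A ⊔ B⁆ := by
  obtain ⟨σ, hσ, rfl⟩ := hA
  obtain ⟨τ, hτ, rfl⟩ := hB
  have ho := opp_of_rankOne h2 hk hirr hσ hτ h
  intro g hg
  by_cases hg1 : g = 1
  · rw [hg1]; exact one_mem _
  obtain ⟨e, y, hp, hxm, hxk, hxr⟩ := exists_partner_of_mem h2 hk hσ hτ ho hg hg1
  obtain ⟨a, hadef⟩ : ∃ a, a = (g : End') - 1 := ⟨_, rfl⟩
  rw [← hadef] at hp hxm hxk hxr
  have hee := hp.idem hxm.fam.1
  have hc1 := hp.left_corner hxm.fam.1 (le_refl (LinearMap.ker a)) le_rfl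
  have hc2 := hp.right_corner hxm.fam.1 hp.ker_eq.ge hp.range_eq.le
  let ρ : k →+ End' :=
    { toFun := fun c => c • e
      map_zero' := zero_smul k e
      map_add' := fun c d => add_smul c d e }
  have hρ : ∀ c, ρ c = c • e := fun _ => rfl
  have hm : MatUnits ρ a y :=
    { aa := hxm.fam.1
      yy := hp.min.fam.1
      aya := hp.aya
      yay := hp.yay
      one := by rw [hρ, one_smul, hp.eq]
      mul := fun r s => by rw [hρ, hρ, hρ, smul_mul_smul_comm, hee]
      comm_a := fun r => by rw [hρ, mul_smul_comm, smul_mul_assoc, hc1.1, hc1.2]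
      comm_y := fun r => by rw [hρ, mul_smul_comm, smul_mul_assoc, hc2.1, hc2.2] }
  have hle : hm.rep.range ≤ sameActionSubgroup G σ ⊔ sameActionSubgroup G τ := by
    rw [MonoidHom.range_eq_map, ← SLTwo.sup_eq_top, Subgroup.map_sup, sup_comm]
    refine sup_le_sup ?_ ?_
    · rintro _ ⟨z, hz, rfl⟩
      obtain ⟨s, rfl⟩ := SLTwo.mem_upper.1 hz
      rw [mem_sameAction hσ]
      show ((hm.rep (Gen.rUp s) : GL') : End') - 1 ∈ _
      rw [hm.rep_rUp, add_sub_cancel_left, hρ, smul_mul_assoc, hc1.1, hadef]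
      exact Submodule.smul_mem _ s ((mem_sameAction hσ).1 hg)
    · rintro _ ⟨z, hz, rfl⟩
      obtain ⟨s, rfl⟩ := SLTwo.mem_lower.1 hz
      rw [mem_sameAction hτ]
      show ((hm.rep (Gen.rLow s) : GL') : End') - 1 ∈ _
      rw [hm.rep_rLow, add_sub_cancel_left, hρ, smul_mul_assoc, hc2.1]
      exact Submodule.smul_mem _ s (hp.mem_espace (mem_minimal.1 hτ))
  have hg' : g = hm.rep (Gen.rUp 1) := Units.ext (by
    rw [hm.rep_rUp, hρ, one_smul, hc1.1, hadef]; abel)
  rw [hg']
  refine Subgroup.commutator_mono hle hle ?_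
  rw [MonoidHom.range_eq_map, ← Subgroup.map_commutator]
  exact Subgroup.mem_map_of_mem _ (up_mem_commutator h2 hk 1)

theorem criterion_comp (h2 : (2 : k) ≠ 0) (hk : Nat.card k ≠ 3) (hirr : IsIrreducibleFor G)
    {A : Subgroup GL'} (hA : A ∈ quadraticRootSubgroups G) : Criterion (compImage G A) where
  root := isRootSubgroupSet_comp h2 hk hirr
  cls := (isConjClass_comp hA).2
  partner := by
    rintro _ ⟨B, hB, rfl⟩
    obtain ⟨P, hP, hBP⟩ := exists_partner_mem h2 hk hirr hB.1
    have hP' : P ∈ comp G A := comp_eq hB ▸ hP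
    exact ⟨_, ⟨P, hP', rfl⟩, Within.isRankOnePair (le_compGroup hB) (le_compGroup hP') hBP⟩
  conn := by
    rintro _ ⟨B, hB, rfl⟩ _ ⟨C, hC, rfl⟩
    have hr : Relation.ReflTransGen (FAdj (quadraticRootSubgroups G)) B C :=
      (reach_symm hB.2).trans hC.2
    clear hC
    induction hr with
    | refl => exact .refl
    | @tail X Y hX hadj ih =>
      have hX' : X ∈ comp G A := ⟨hadj.1, hB.2.trans hX⟩
      have hY' : Y ∈ comp G A := ⟨hadj.2.1, hX'.2.tail hadj⟩
      exact ih.tail ⟨⟨X, hX', rfl⟩, ⟨Y, hY', rfl⟩,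
        Within.isRankOnePair (le_compGroup hX') (le_compGroup hY') hadj.2.2⟩
  sep := by
    rintro _ ⟨B, hB, rfl⟩ _ ⟨C, hC, rfl⟩ hne he
    apply hne
    have hcomm : ∀ {X Y : Subgroup GL'}, X ∈ comp G A → Y ∈ comp G A →
        (X.subgroupOf (compGroup G A) ≤ Subgroup.centralizer
          ((Y.subgroupOf (compGroup G A) : Subgroup ↥(compGroup G A)) : Set ↥(compGroup G A)) ↔
          ⁅X, Y⁆ = ⊥) := by
      intro X Y hX hY
      rw [← Subgroup.commutator_eq_bot_iff_le_centralizer,
        ← (Subgroup.map_injective (compGroup G A).subtype_injective).eq_iff,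
        Subgroup.map_commutator, Within.map_eq (le_compGroup hX), Within.map_eq (le_compGroup hY),
        Subgroup.map_bot]
    obtain ⟨σ, hσ, rfl⟩ := hB.1
    obtain ⟨τ, hτ, rfl⟩ := hC.1
    have key : ∀ {σ τ : GL'}, σ ∈ minimalQuadraticElements G → τ ∈ minimalQuadraticElements G →
        sameActionSubgroup G σ ∈ comp G A → sameActionSubgroup G τ ∈ comp G A →
        centralizingMembers (compImage G A) ((sameActionSubgroup G σ).subgroupOf (compGroup G A)) =
          centralizingMembers (compImage G A) ((sameActionSubgroup G τ).subgroupOf (compGroup G A)) →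
        CommLE G ((σ : End') - 1) ((τ : End') - 1) := by
      intro σ τ hσ hτ hB hC he d hd hdσ
      have hdm := sameAction_oneAdd hd
      by_contra hdτ
      have hD : member G d hd.fam.1 ∈ comp G A := by
        refine ⟨member_mem_roots hd, hC.2.trans (reach_symm ?_)⟩
        rw [sameAction_eq_member hτ]
        exact reach_of_not_commute h2 hk hirr hd (mem_minimal.1 hτ) hdτ
      have h1 : ⁅member G d hd.fam.1, sameActionSubgroup G σ⁆ = ⊥ := by
        refine commute_of_commute h2 hk hdm.1 hσ (Or.inl ⟨_, (self_mem_sameAction hdm.1).1,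
          (self_mem_sameAction hdm.1).2, σ, (self_mem_sameAction hσ).1,
          (self_mem_sameAction hσ).2, Units.ext ?_⟩)
        have e := hdσ.eq
        rw [Units.val_mul, Units.val_mul, coe_oneAdd]
        simp only [sub_mul, mul_sub, one_mul, mul_one] at e
        simp only [add_mul, mul_add, one_mul, mul_one]
        rw [← sub_eq_zero] at e ⊢
        rw [← e]; abel
      have h3 : (member G d hd.fam.1).subgroupOf (compGroup G A) ∈
          centralizingMembers (compImage G A)
            ((sameActionSubgroup G τ).subgroupOf (compGroup G A)) :=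
        he ▸ ⟨⟨_, hD, rfl⟩, (hcomm hD hB).2 h1⟩
      have h4 := commutator_eq_bot_iff_commutes.1 ((hcomm hD hC).1 h3.2) _
        (self_mem_sameAction hdm.1).1 τ (self_mem_sameAction hτ).1
      apply hdτ
      have e := congrArg Units.val h4
      rw [Units.val_mul, Units.val_mul, coe_oneAdd] at e
      show d * ((τ : End') - 1) = ((τ : End') - 1) * d
      simp only [sub_mul, mul_sub, one_mul, mul_one]
      simp only [add_mul, mul_add, one_mul, mul_one] at e
      rw [← sub_eq_zero] at e ⊢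
      rw [← e]; abel
    obtain ⟨e1, e2⟩ := twin_eq h2 hk hirr (mem_minimal.1 hσ) (mem_minimal.1 hτ)
      (key hσ hτ hB hC he) (key hτ hσ hC hB he.symm)
    show (sameActionSubgroup G σ).subgroupOf _ = (sameActionSubgroup G τ).subgroupOf _
    congr 1
    unfold sameActionSubgroup sameActionClass
    rw [e1, e2]
  big := by
    rintro - _ ⟨B, hB, rfl⟩
    rw [ENat.card_congr (Subgroup.subgroupOfEquivOfLe (le_compGroup hB)).toEquiv]
    exact three_lt_member h2 hk hB.1
  special := by
    rintro _ ⟨B, hB, rfl⟩ _ ⟨C, hC, rfl⟩ hBC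
    refine isSpecial_within (le_compGroup hB) (le_compGroup hC) ?_
    exact special_of_rankOne h2 hk hirr hB.1 hC.1
      (isRankOnePair_of_within (le_compGroup hB) (le_compGroup hC) hBC)

theorem quasisimple_comp (h2 : (2 : k) ≠ 0) (hk : Nat.card k ≠ 3) (hirr : IsIrreducibleFor G)
    {A : Subgroup GL'} (hA : A ∈ quadraticRootSubgroups G) :
    IsQuasisimple ↥(compGroup G A) := by
  have h := criterion_comp h2 hk hirr hA
  have hA' : A.subgroupOf (compGroup G A) ∈ compImage G A := ⟨A, self_mem_comp hA, rfl⟩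
  obtain ⟨P, hP, hAP⟩ := exists_partner_mem h2 hk hirr hA
  have htop : commutator ↥(compGroup G A) = ⊤ := by
    refine h.eq_top_of_member_le inferInstance hA' fun x hx => ?_
    have h1 := le_derived h2 hk hirr hA hP.1 hAP hx
    have h3 : ⁅A ⊔ P, A ⊔ P⁆ ≤
        (commutator ↥(compGroup G A)).map (compGroup G A).subtype := by
      rw [Subgroup.map_subtype_commutator]
      exact Subgroup.commutator_mono (sup_le (le_compGroup (self_mem_comp hA)) (le_compGroup hP))
        (sup_le (le_compGroup (self_mem_comp hA)) (le_compGroup hP))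
    obtain ⟨z, hz, hzx⟩ := h3 h1
    rwa [← Subtype.ext (hzx : (z : GL') = (x : GL'))]
  have hq := h.derived_quasisimple hA'
  rw [htop] at hq
  exact CfsgLib.Balance.isQuasisimple_of_mulEquiv Subgroup.topEquiv hq

theorem finite_comps (h2 : (2 : k) ≠ 0) (hk : Nat.card k ≠ 3) (hirr : IsIrreducibleFor G) :
    ((comp G) '' quadraticRootSubgroups G).Finite := by
  classical
  rw [Set.finite_coe_iff.symm]
  let C := ↥((comp G) '' quadraticRootSubgroups G)
  have hrep : ∀ c : C, ∃ a : End', ∃ ha : IsMin G a, comp G (member G a ha.fam.1) = c.1 := by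
    rintro ⟨_, A, hA, rfl⟩
    obtain ⟨σ, hσ, rfl⟩ := hA
    exact ⟨_, mem_minimal.1 hσ, by rw [← sameAction_eq_member hσ]⟩
  choose a ha hac using hrep
  refine LinearIndependent.finite (R := k) (f := a) ?_
  rw [linearIndependent_iff']
  intro s g hsum i hi
  obtain ⟨t, ht, ho⟩ := exists_opp h2 hk hirr (ha i)
  obtain ⟨b, hb⟩ : ∃ b, b = (t : End') * a i * ((t⁻¹ : GL') : End') := ⟨_, rfl⟩
  have hbm : IsMin G b := hb ▸ (ha i).conj ht
  rw [← hb] at ho
  have hne : a i * b - b * a i ≠ 0 := fun h0 =>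
    not_opp_of_commute (ha i).fam.1 (ha i).ne (sub_eq_zero.1 h0) ho
  have hzero : ∀ j, j ≠ i → a j * b - b * a j = 0 := by
    intro j hji
    by_contra hc
    refine hji (Subtype.ext ?_)
    rw [← hac j, ← hac i]
    exact componentOf_eq ((reach_of_not_commute h2 hk hirr (ha j) hbm
      (fun hcm => hc (sub_eq_zero.2 hcm))).trans
      (Relation.ReflTransGen.single (FAdj_symm (adj_of_opp h2 hk (ha i) hbm ho))))
  have h1 := congrArg (fun x => x * b - b * x) hsum
  simp only [Finset.sum_mul, Finset.mul_sum, zero_mul, mul_zero, sub_self, ← Finset.sum_sub_distrib,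
    smul_mul_assoc, mul_smul_comm, ← smul_sub] at h1
  rw [Finset.sum_eq_single_of_mem i hi (fun j _ hji => by rw [hzero j hji, smul_zero])] at h1
  exact (smul_eq_zero.1 h1).resolve_right hne

end CfsgLib.RootSubgroups.QP
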