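import Cfsg.Agent.RootSubgroups.QPBasic

/-!
# Pairs of minimal quadratic families with nilpotent `ab + ba`
-/

set_option autoImplicit false

namespace CfsgLib.RootSubgroups.QP

open Cfsg

variable {k : Type*} [Field k] {M : Type*} [AddCommGroup M] [Module k M] [FiniteDimensional k M]
variable {G : Subgroup (LinearMap.GeneralLinearGroup k M)}

local notation "GL'" => LinearMap.GeneralLinearGroup k M
local notation "End'" => Module.End k M

theorem commute_left {a b : End'} (ha : a * a = 0) : (a * b + b * a) * a = a * (a * b + b * a) := by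
  rw [add_mul, mul_add, mul_assoc b a a, ha, mul_zero, add_zero, ← mul_assoc a a b, ha, zero_mul,
    zero_add, mul_assoc]

/-- If `z` is nilpotent and preserves the image of `a`, then `z a` has smaller rank. -/
theorem rk_lt_of_nilpotent {a z : End'} (hcom : z * a = a * z) {n : ℕ} (hn : z ^ n = 0) (ha : a ≠ 0) :
    rk (z * a) < rk a := by
  have hle : LinearMap.range (z * a) ≤ LinearMap.range a := hcom ▸ range_mul_le a z
  refine lt_of_le_of_ne (Submodule.finrank_mono hle) fun he => ?_
  have heq : LinearMap.range (z * a) = LinearMap.range a :=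
    Submodule.eq_of_le_of_finrank_eq hle he
  have key : ∀ j, LinearMap.range a ≤ LinearMap.range (z ^ j * a) := by
    intro j
    induction j with
    | zero => rw [pow_zero, one_mul]
    | succ j ih =>
      rintro _ ⟨m, rfl⟩
      obtain ⟨m', hm'⟩ := heq.ge ⟨m, rfl⟩
      obtain ⟨m'', hm''⟩ := ih ⟨m', rfl⟩
      refine ⟨m'', ?_⟩
      rw [pow_succ', mul_assoc, Module.End.mul_apply, hm'', ← Module.End.mul_apply, hm']
  have := key n
  rw [hn, zero_mul, LinearMap.range_zero, le_bot_iff, LinearMap.range_eq_bot] at this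
  exact ha this

/-- The key rewriting system: `(ab + ba)² a = 0 = (ab + ba)² b`. -/
theorem fam_aba (h2 : (2 : k) ≠ 0) {a b : End'} (ha : IsFam G a) (hb : IsFam G b)
    (h5a : a * (b * (a * (b * a))) = 0) (h5b : b * (a * (b * (a * b))) = 0) :
    IsFam G (a * (b * a)) := by
  have haa : a * a = 0 := ha.1
  have hbb : b * b = 0 := hb.1
  have haa' : ∀ x : End', a * (a * x) = 0 := fun x => by rw [← mul_assoc, haa, zero_mul]
  have hbb' : ∀ x : End', b * (b * x) = 0 := fun x => by rw [← mul_assoc, hbb, zero_mul]
  have h5a' : ∀ x : End', a * (b * (a * (b * (a * x)))) = 0 := fun x => by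
    have := congrArg (· * x) h5a
    simpa [mul_assoc] using this
  have h5b' : ∀ x : End', b * (a * (b * (a * (b * x)))) = 0 := fun x => by
    have := congrArg (· * x) h5b
    simpa [mul_assoc] using this
  obtain ⟨za, hza⟩ : ∃ z, z = a * (b * a) := ⟨_, rfl⟩
  obtain ⟨zd, hzd⟩ : ∃ z, z = a * (b * (a * b)) - b * (a * (b * a)) := ⟨_, rfl⟩
  rw [← hza]
  -- the families `w s`
  have hw : ∀ s : k, IsFam G ((2 * s) • za - (s * s) • zd) := by
    intro s
    have e1 : IsFam G (a + s • (b * a - a * b) - (s * s) • (b * (a * b))) := by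
      have := ha.conj (hb.oneAdd_mem s)
      convert this using 1
      rw [coe_oneAdd, coe_inv_of_sq (smul_sq_zero hbb s) (coe_oneAdd _ _)]
      simp only [mul_add, add_mul, mul_sub, sub_mul, one_mul, mul_one, smul_mul_assoc,
        mul_smul_comm, smul_smul, mul_assoc, smul_sub, smul_add, haa, haa', hbb, hbb', smul_zero,
        mul_zero, zero_mul, add_zero, zero_add, sub_zero]
      module
    set as := a + s • (b * a - a * b) - (s * s) • (b * (a * b)) with has
    have e2 : IsFam G (as + ((2 * s) • za - (s * s) • zd)) := by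
      have := e1.conj (ha.oneAdd_mem 1)
      convert this using 1
      rw [coe_oneAdd, coe_inv_of_sq (smul_sq_zero haa 1) (coe_oneAdd _ _), has, hza, hzd]
      simp only [mul_add, add_mul, mul_sub, sub_mul, one_mul, mul_one, smul_mul_assoc,
        mul_smul_comm, smul_smul, mul_assoc, smul_sub, smul_add, haa, haa', hbb, hbb', h5a, h5b,
        h5a', h5b', smul_zero, mul_zero, zero_mul, add_zero, zero_add, sub_zero, one_smul, zero_sub]
      module
    set w := (2 * s) • za - (s * s) • zd with hwdef
    have z1 : as * w = 0 := by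
      rw [has, hwdef, hza, hzd]
      simp only [mul_add, add_mul, mul_sub, sub_mul, smul_mul_assoc,
        mul_smul_comm, smul_smul, mul_assoc, smul_sub, smul_add, haa, haa', hbb, hbb', h5a, h5b,
        h5a', h5b', smul_zero, mul_zero, zero_mul, add_zero, zero_add, sub_zero, sub_self, neg_zero,
        zero_sub]
    have z2 : w * as = 0 := by
      rw [has, hwdef, hza, hzd]
      simp only [mul_add, add_mul, mul_sub, sub_mul, smul_mul_assoc,
        mul_smul_comm, smul_smul, mul_assoc, smul_sub, smul_add, haa, haa', hbb, hbb', h5a, h5b,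
        h5a', h5b', smul_zero, mul_zero, zero_mul, add_zero, zero_add, sub_zero, sub_self, neg_zero,
        zero_sub]
    have := e2.add e1.neg (by rw [mul_neg, add_mul, z2, e1.1, add_zero, neg_zero])
      (by rw [neg_mul, mul_add, z1, e1.1, add_zero, neg_zero])
    rwa [← sub_eq_add_neg, add_sub_cancel_left] at this
  have h4 : IsFam G ((4 : k) • za) := by
    have hp := hw 1
    have hm := (hw (-1)).neg
    have := hp.add hm (by
      rw [hza, hzd]
      simp only [mul_neg, mul_sub, sub_mul, smul_mul_assoc, mul_smul_comm, smul_smul, mul_assoc,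
        haa, haa', hbb, hbb', h5a, h5b, h5a', h5b', smul_zero, mul_zero, sub_zero, neg_zero,
        smul_sub, sub_self, zero_sub]) (by
      rw [hza, hzd]
      simp only [neg_mul, mul_sub, sub_mul, smul_mul_assoc, mul_smul_comm, smul_smul, mul_assoc,
        haa, haa', hbb, hbb', h5a, h5b, h5a', h5b', smul_zero, mul_zero, sub_zero, neg_zero,
        smul_sub, sub_self, zero_sub])
    convert this using 1
    module
  have h4ne : (4 : k) ≠ 0 := by
    rw [show (4 : k) = 2 * 2 by norm_num]; exact mul_ne_zero h2 h2
  simpa [smul_smul, h4ne] using h4.smul ((4 : k)⁻¹)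

/-- In a pair with nilpotent `z = ab + ba` one has `z a = 0`. -/
theorem zmul_eq_zero (h2 : (2 : k) ≠ 0) : ∀ (n : ℕ) (a b : End'), IsMin G a → IsMin G b →
    (a * b + b * a) ^ n = 0 → (a * b + b * a) * a = 0 := by
  intro n
  induction n using Nat.strong_induction_on with
  | _ n ih =>
  intro a b ha hb hn
  rcases Nat.lt_or_ge n 2 with hlt | hge
  · have h1 : a * b + b * a = 0 ∨ (1 : End') = 0 := by
      interval_cases n
      · exact Or.inr (by simpa using hn)
      · exact Or.inl (by simpa using hn)
    rcases h1 with h1 | h1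
    · rw [h1, zero_mul]
    · exact absurd (by rw [← mul_one a, h1, mul_zero]) ha.ne
  have step : ∀ x y : End', IsMin G x → IsMin G y → (x * y + y * x) ^ n = 0 →
      (x * y + y * x) * ((x * y + y * x) * x) = 0 := by
    intro x y hx hy hxy
    have hxx := hx.fam.1
    have hyy := hy.fam.1
    set z := x * y + y * x with hz
    have hx1 := hx.conj hy.fam.one_mem'
    rw [coe_oneAdd, coe_inv_of_sq hyy (coe_oneAdd _ _)] at hx1
    set x1 := (1 + y) * x * (1 - y) with hx1def
    have hz' : x * x1 + x1 * x = -(z * z) := by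
      have hxx' : ∀ t : End', x * (x * t) = 0 := fun t => by rw [← mul_assoc, hxx, zero_mul]
      have hyy' : ∀ t : End', y * (y * t) = 0 := fun t => by rw [← mul_assoc, hyy, zero_mul]
      rw [hx1def, hz]
      simp only [mul_add, add_mul, mul_sub, sub_mul, one_mul, mul_one, mul_assoc, hxx, hxx', hyy,
        hyy', mul_zero, add_zero, zero_add, sub_zero]
      abel
    obtain ⟨m, hm, hmn⟩ : ∃ m, n ≤ 2 * m ∧ m < n := ⟨(n + 1) / 2, by omega, by omega⟩
    have h0 := ih m hmn x x1 hx hx1 (by
      rw [hz', neg_pow, ← sq, ← pow_mul, pow_eq_zero_of_le hm hxy, mul_zero])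
    rw [hz', neg_mul, neg_eq_zero, mul_assoc] at h0
    exact h0
  have hA := step a b ha hb hn
  have hB := step b a hb ha (by rwa [add_comm])
  rw [add_comm (b * a)] at hB
  have hza : (a * b + b * a) * a = a * (b * a) := by
    rw [add_mul, mul_assoc b a a, ha.fam.1, mul_zero, add_zero, mul_assoc]
  have hzb : (a * b + b * a) * b = b * (a * b) := by
    rw [add_mul, mul_assoc a b b, hb.fam.1, mul_zero, zero_add, mul_assoc]
  have haa' : ∀ x : End', a * (a * x) = 0 := fun x => by rw [← mul_assoc, ha.fam.1, zero_mul]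
  have hbb' : ∀ x : End', b * (b * x) = 0 := fun x => by rw [← mul_assoc, hb.fam.1, zero_mul]
  have h5a : a * (b * (a * (b * a))) = 0 := by
    rw [hza] at hA
    simpa [add_mul, mul_assoc, haa'] using hA
  have h5b : b * (a * (b * (a * b))) = 0 := by
    rw [hzb] at hB
    simpa [add_mul, mul_assoc, hbb'] using hB
  rw [hza]
  by_contra hne
  have hlt := rk_lt_of_nilpotent (commute_left (b := b) ha.fam.1) hn ha.ne
  rw [hza] at hlt
  exact absurd (ha.le _ (fam_aba h2 ha.fam hb.fam h5a h5b) hne) (not_le.2 hlt)

end CfsgLib.RootSubgroups.QP
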