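import Cfsg.Agent.RootSubgroups.QPRep
import Cfsg.Agent.RootSubgroups.QPNilp
import Cfsg.Agent.RootSubgroups.GenRing

/-!
# The corner of a pair where `ab + ba` is invertible

Let `a`, `b` be square-zero, `z = ab + ba`, `e` the projection onto the part of `M` where `z` is
invertible. The group generated by the two families induces `SL₂(k[z])` on that part and contains,
for each `r ∈ k[z]`, the family of `r a e`.
-/

set_option autoImplicit false

namespace CfsgLib.RootSubgroups.QP

open Cfsg Polynomial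

variable {k : Type*} [Field k] {M : Type*} [AddCommGroup M] [Module k M]

local notation "GL'" => LinearMap.GeneralLinearGroup k M
local notation "End'" => Module.End k M

/-- The group generated by the families of `a` and `b`. -/
def famGen (a b : Module.End k M) : Subgroup (LinearMap.GeneralLinearGroup k M) :=
  Subgroup.closure {g | ∃ c : k, (g : Module.End k M) = 1 + c • a ∨ (g : Module.End k M) = 1 + c • b}

theorem isFam_famGen_left {a b : End'} (ha : a * a = 0) : IsFam (famGen a b) a :=
  ⟨ha, fun c => ⟨oneAdd (c • a) (smul_sq_zero ha c), Subgroup.subset_closure ⟨c, Or.inl rfl⟩, rfl⟩⟩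

theorem isFam_famGen_right {a b : End'} (hb : b * b = 0) : IsFam (famGen a b) b :=
  ⟨hb, fun c => ⟨oneAdd (c • b) (smul_sq_zero hb c), Subgroup.subset_closure ⟨c, Or.inr rfl⟩, rfl⟩⟩

theorem IsFam.mono {G G' : Subgroup GL'} {x : End'} (h : IsFam G x) (hle : G ≤ G') : IsFam G' x :=
  ⟨h.1, fun c => let ⟨g, hg, he⟩ := h.2 c; ⟨g, hle hg, he⟩⟩

theorem famGen_le {G : Subgroup GL'} {a b : End'} (ha : IsFam G a) (hb : IsFam G b) :
    famGen a b ≤ G := by
  refine (Subgroup.closure_le _).2 ?_
  rintro g ⟨c, h | h⟩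
  · obtain ⟨t, ht, hte⟩ := ha.2 c
    exact (show g = t from Units.ext (h.trans hte.symm)) ▸ ht
  · obtain ⟨t, ht, hte⟩ := hb.2 c
    exact (show g = t from Units.ext (h.trans hte.symm)) ▸ ht

/-- The data of the invertible part. -/
structure Corner (a b e : Module.End k M) : Prop where
  aa : a * a = 0
  bb : b * b = 0
  idem : e * e = e
  ea : e * a = a * e
  eb : e * b = b * e
  nil : ∃ N : ℕ, (a * b + b * a) ^ N * (1 - e) = 0
  inj : ∀ m : M, (a * b + b * a) m = 0 → e m = 0

namespace Corner

variable {a b e : Module.End k M}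

theorem swap (h : Corner a b e) : Corner b a e where
  aa := h.bb
  bb := h.aa
  idem := h.idem
  ea := h.eb
  eb := h.ea
  nil := by rw [add_comm (b * a)]; exact h.nil
  inj := by rw [add_comm (b * a)]; exact h.inj

theorem ez (h : Corner a b e) : e * (a * b + b * a) = (a * b + b * a) * e := by
  rw [mul_add, add_mul, ← mul_assoc, h.ea, mul_assoc, h.eb, ← mul_assoc, ← mul_assoc, h.eb,
    mul_assoc b, h.ea, ← mul_assoc]

theorem unit_inj (h : Corner a b e) {m : M}
    (hm : ((a * b + b * a) * e + (1 - e)) m = 0) : m = 0 := by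
  set z := a * b + b * a
  have h1 := congrArg (fun t => (1 - e) t) hm
  have e1 : (1 - e) * (z * e + (1 - e)) = 1 - e := by
    have hez : e * z = z * e := h.ez
    have h0 : (1 - e) * (z * e) = 0 := by
      rw [sub_mul, one_mul, ← mul_assoc, hez, mul_assoc, h.idem, sub_self]
    have h2 : (1 - e) * (1 - e) = 1 - e := by
      rw [sub_mul, one_mul, mul_sub, mul_one, h.idem, sub_self, sub_zero]
    rw [mul_add, h0, h2, zero_add]
  simp only [← Module.End.mul_apply, e1, map_zero] at h1
  rw [LinearMap.add_apply, h1, add_zero, Module.End.mul_apply] at hm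
  have h3 := h.inj (e m) hm
  rw [← Module.End.mul_apply, h.idem] at h3
  rw [LinearMap.sub_apply, Module.End.one_apply, h3, sub_zero] at h1
  exact h1

/-- The span of the nilpotent parts of degree at least `n`. -/
def deg (a b e : Module.End k M) (n : ℕ) : Submodule k (Module.End k M) :=
  Submodule.span k
    {x | ∃ i : ℕ, (n ≤ 2 * i + 1 ∧ (x = (a * b + b * a) ^ i * a * (1 - e) ∨
        x = (a * b + b * a) ^ i * b * (1 - e))) ∨
      (n ≤ 2 * i + 2 ∧ (x = (a * b + b * a) ^ i * (a * b) * (1 - e) ∨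
        x = (a * b + b * a) ^ i * (b * a) * (1 - e)))}

theorem deg_mul (h : Corner a b e) (n m : ℕ) : deg a b e n * deg a b e m ≤ deg a b e (n + m) := by
  set z := a * b + b * a with hz
  have hza : z * a = a * (b * a) := by
    rw [hz, add_mul, mul_assoc b a a, h.aa, mul_zero, add_zero, mul_assoc]
  have hzb : z * b = b * (a * b) := by
    rw [hz, add_mul, mul_assoc a b b, h.bb, mul_zero, zero_add, mul_assoc]
  have caz : Commute a z := by
    show a * z = z * a
    rw [hza, hz, mul_add, ← mul_assoc, h.aa, zero_mul, zero_add]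
  have cbz : Commute b z := by
    show b * z = z * b
    rw [hzb, hz, mul_add, ← mul_assoc b b a, h.bb, zero_mul, add_zero]
  have cze : Commute z (1 - e) := (Commute.one_right z).sub_right h.ez.symm
  have caf : Commute a (1 - e) := (Commute.one_right a).sub_right h.ea.symm
  have cbf : Commute b (1 - e) := (Commute.one_right b).sub_right h.eb.symm
  have hff : (1 - e) * (1 - e) = 1 - e := by
    rw [sub_mul, one_mul, mul_sub, mul_one, h.idem, sub_self, sub_zero]
  -- a product of two generators
  have hprod : ∀ (u v : End') (i j : ℕ), Commute u (1 - e) → Commute u z → Commute v (1 - e) →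
      (z ^ i * u * (1 - e)) * (z ^ j * v * (1 - e)) = z ^ (i + j) * (u * v) * (1 - e) := by
    intro u v i j huf huz hvf
    have hvv : (1 - e) * (z ^ j * v * (1 - e)) = z ^ j * v * (1 - e) := by
      rw [← mul_assoc, ← mul_assoc, ← (cze.pow_left j).eq, mul_assoc (z ^ j) (1 - e) v, ← hvf.eq,
        ← mul_assoc, mul_assoc _ (1 - e) (1 - e), hff]
    rw [mul_assoc (z ^ i * u) (1 - e), hvv, mul_assoc (z ^ i) u, ← mul_assoc u,
      ← mul_assoc u, (huz.pow_right j).eq, mul_assoc (z ^ j) u v, ← mul_assoc (z ^ i),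
      ← mul_assoc (z ^ i), ← pow_add]
  unfold deg
  rw [Submodule.span_mul_span, Submodule.span_le]
  rintro _ ⟨x, ⟨i, hx⟩, y, ⟨j, hy⟩, rfl⟩
  simp only [SetLike.mem_coe]
  have cA : Commute (a * b) (1 - e) := caf.mul_left cbf
  have cB : Commute (b * a) (1 - e) := cbf.mul_left caf
  have cAz : Commute (a * b) z := caz.mul_left cbz
  have cBz : Commute (b * a) z := cbz.mul_left caz
  have g1 : ∀ l, n + m ≤ 2 * l + 1 → z ^ l * a * (1 - e) ∈ deg a b e (n + m) := fun l hl =>
    Submodule.subset_span ⟨l, Or.inl ⟨hl, Or.inl rfl⟩⟩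
  have g2 : ∀ l, n + m ≤ 2 * l + 1 → z ^ l * b * (1 - e) ∈ deg a b e (n + m) := fun l hl =>
    Submodule.subset_span ⟨l, Or.inl ⟨hl, Or.inr rfl⟩⟩
  have g3 : ∀ l, n + m ≤ 2 * l + 2 → z ^ l * (a * b) * (1 - e) ∈ deg a b e (n + m) := fun l hl =>
    Submodule.subset_span ⟨l, Or.inr ⟨hl, Or.inl rfl⟩⟩
  have g4 : ∀ l, n + m ≤ 2 * l + 2 → z ^ l * (b * a) * (1 - e) ∈ deg a b e (n + m) := fun l hl =>
    Submodule.subset_span ⟨l, Or.inr ⟨hl, Or.inr rfl⟩⟩
  unfold deg at g1 g2 g3 g4
  have hs : ∀ l : ℕ, ∀ u : End', z ^ l * (z * u) = z ^ (l + 1) * u := fun l u => by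
    rw [← mul_assoc, ← pow_succ]
  have haA : a * (a * b) = 0 := by rw [← mul_assoc, h.aa, zero_mul]
  have haB : a * (b * a) = z * a := hza.symm
  have hbA : b * (a * b) = z * b := hzb.symm
  have hbB : b * (b * a) = 0 := by rw [← mul_assoc, h.bb, zero_mul]
  have hAa : a * b * a = z * a := by rw [hza, mul_assoc]
  have hAb : a * b * b = 0 := by rw [mul_assoc, h.bb, mul_zero]
  have hBa : b * a * a = 0 := by rw [mul_assoc, h.aa, mul_zero]
  have hBb : b * a * b = z * b := by rw [hzb, mul_assoc]
  have hAA : a * b * (a * b) = z * (a * b) := by rw [← mul_assoc (a * b), hAa, mul_assoc]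
  have hAB : a * b * (b * a) = 0 := by rw [← mul_assoc (a * b), hAb, zero_mul]
  have hBA : b * a * (a * b) = 0 := by rw [← mul_assoc (b * a), hBa, zero_mul]
  have hBB : b * a * (b * a) = z * (b * a) := by rw [← mul_assoc (b * a), hBb, mul_assoc]
  have h0 : ∀ l : ℕ, z ^ l * (0 : End') * (1 - e) = 0 := fun l => by rw [mul_zero, zero_mul]
  rcases hx with ⟨hi, rfl | rfl⟩ | ⟨hi, rfl | rfl⟩ <;>
    rcases hy with ⟨hj, rfl | rfl⟩ | ⟨hj, rfl | rfl⟩
  · beta_reduce; rw [hprod _ _ i j caf caz caf, h.aa, h0]; exact Submodule.zero_mem _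
  · beta_reduce; rw [hprod _ _ i j caf caz cbf]; exact g3 _ (by omega)
  · beta_reduce; rw [hprod _ _ i j caf caz cA, haA, h0]; exact Submodule.zero_mem _
  · beta_reduce; rw [hprod _ _ i j caf caz cB, haB, hs]; exact g1 _ (by omega)
  · beta_reduce; rw [hprod _ _ i j cbf cbz caf]; exact g4 _ (by omega)
  · beta_reduce; rw [hprod _ _ i j cbf cbz cbf, h.bb, h0]; exact Submodule.zero_mem _
  · beta_reduce; rw [hprod _ _ i j cbf cbz cA, hbA, hs]; exact g2 _ (by omega)
  · beta_reduce; rw [hprod _ _ i j cbf cbz cB, hbB, h0]; exact Submodule.zero_mem _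
  · beta_reduce; rw [hprod _ _ i j cA cAz caf, hAa, hs]; exact g1 _ (by omega)
  · beta_reduce; rw [hprod _ _ i j cA cAz cbf, hAb, h0]; exact Submodule.zero_mem _
  · beta_reduce; rw [hprod _ _ i j cA cAz cA, hAA, hs]; exact g3 _ (by omega)
  · beta_reduce; rw [hprod _ _ i j cA cAz cB, hAB, h0]; exact Submodule.zero_mem _
  · beta_reduce; rw [hprod _ _ i j cB cBz caf, hBa, h0]; exact Submodule.zero_mem _
  · beta_reduce; rw [hprod _ _ i j cB cBz cbf, hBb, hs]; exact g2 _ (by omega)
  · beta_reduce; rw [hprod _ _ i j cB cBz cA, hBA, h0]; exact Submodule.zero_mem _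
  · beta_reduce; rw [hprod _ _ i j cB cBz cB, hBB, hs]; exact g4 _ (by omega)

theorem deg_anti {a b e : End'} {n m : ℕ} (hnm : n ≤ m) : deg a b e m ≤ deg a b e n := by
  refine Submodule.span_mono ?_
  rintro x ⟨i, ⟨hi, hx⟩ | ⟨hi, hx⟩⟩
  · exact ⟨i, Or.inl ⟨hnm.trans hi, hx⟩⟩
  · exact ⟨i, Or.inr ⟨hnm.trans hi, hx⟩⟩

theorem deg_eq_bot (h : Corner a b e) : ∃ n, deg a b e n = ⊥ := by
  obtain ⟨N, hN⟩ := h.nil
  set z := a * b + b * a with hz
  refine ⟨2 * N + 1, Submodule.span_eq_bot.2 ?_⟩
  have key : ∀ (i : ℕ) (u : End'), N ≤ i → Commute u (1 - e) → z ^ i * u * (1 - e) = 0 := by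
    intro i u hi hu
    obtain ⟨d, rfl⟩ : ∃ d, i = d + N := ⟨i - N, by omega⟩
    rw [mul_assoc, hu.eq, ← mul_assoc, pow_add, mul_assoc (z ^ d), hN, mul_zero, zero_mul]
  have caf : Commute a (1 - e) := (Commute.one_right a).sub_right h.ea.symm
  have cbf : Commute b (1 - e) := (Commute.one_right b).sub_right h.eb.symm
  rintro x ⟨i, ⟨hi, rfl | rfl⟩ | ⟨hi, rfl | rfl⟩⟩
  · exact key i a (by omega) caf
  · exact key i b (by omega) cbf
  · exact key i _ (by omega) (caf.mul_left cbf)
  · exact key i _ (by omega) (cbf.mul_left caf)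

/-- Elements of the generated group: commute with `e`, and are `1` plus nilpotent part off `e`. -/
theorem mem_famGen_props (h : Corner a b e) {g : GL'} (hg : g ∈ famGen a b) :
    (g : End') * e = e * g ∧ ((g : End') - 1) * (1 - e) ∈ deg a b e 1 := by
  have base : ∀ (c : k) (u : End') (t : GL'), (u = a ∨ u = b) → (t : End') = 1 + c • u →
      (t : End') * e = e * t ∧ ((t : End') - 1) * (1 - e) ∈ deg a b e 1 := by
    rintro c u t hu ht
    have hue : e * u = u * e := by rcases hu with rfl | rfl <;> [exact h.ea; exact h.eb]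
    refine ⟨?_, ?_⟩
    · rw [ht, add_mul, mul_add, one_mul, mul_one, smul_mul_assoc, mul_smul_comm, hue]
    · rw [ht, add_sub_cancel_left, smul_mul_assoc]
      refine Submodule.smul_mem _ _ (Submodule.subset_span ⟨0, Or.inl ⟨le_rfl, ?_⟩⟩)
      rw [pow_zero, one_mul, one_mul]
      rcases hu with rfl | rfl
      · exact Or.inl rfl
      · exact Or.inr rfl
  induction hg using Subgroup.closure_induction'' with
  | mem t ht =>
    obtain ⟨c, ht | ht⟩ := ht
    · exact base c a t (Or.inl rfl) ht
    · exact base c b t (Or.inr rfl) ht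
  | inv_mem t ht =>
    obtain ⟨c, ht | ht⟩ := ht
    · refine base (-c) a _ (Or.inl rfl) ?_
      rw [coe_inv_of_sq (smul_sq_zero h.aa c) ht, neg_smul, sub_eq_add_neg]
    · refine base (-c) b _ (Or.inr rfl) ?_
      rw [coe_inv_of_sq (smul_sq_zero h.bb c) ht, neg_smul, sub_eq_add_neg]
  | one => simp
  | mul s t _ _ ihs iht =>
    obtain ⟨hse, hs⟩ := ihs
    obtain ⟨hte, ht⟩ := iht
    refine ⟨by rw [Units.val_mul, mul_assoc, hte, ← mul_assoc, hse, mul_assoc], ?_⟩
    have hff : (1 - e) * (1 - e) = 1 - e := by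
      rw [sub_mul, one_mul, mul_sub, mul_one, h.idem, sub_self, sub_zero]
    have htf : ((t : End') - 1) * (1 - e) = (1 - e) * ((t : End') - 1) := by
      simp only [sub_mul, mul_sub, one_mul, mul_one, hte]
      abel
    rw [Unip.mul_sub_one, add_mul, add_mul]
    refine Submodule.add_mem _ ?_ (Submodule.add_mem _ hs ht)
    have e1 : ((s : End') - 1) * ((t : End') - 1) * (1 - e) =
        ((s : End') - 1) * (1 - e) * (((t : End') - 1) * (1 - e)) := by
      rw [mul_assoc ((s : End') - 1) (1 - e), ← mul_assoc (1 - e), ← htf, mul_assoc ((t : End') - 1) (1 - e),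
        hff, mul_assoc]
    rw [e1]
    exact deg_anti (by omega) (h.deg_mul 1 1 (Submodule.mul_mem_mul hs ht))

/-- The degree of a commutator. -/
theorem comm_deg (h : Corner a b e) {g t : GL'} (hg : g ∈ famGen a b) (ht : t ∈ famGen a b)
    {n : ℕ} (hn : ((t : End') - 1) * (1 - e) ∈ deg a b e n) :
    ((g * t * g⁻¹ * t⁻¹ : GL') - 1 : End') * (1 - e) ∈ deg a b e (n + 1) := by
  obtain ⟨hge, hg1⟩ := h.mem_famGen_props hg
  obtain ⟨hte, -⟩ := h.mem_famGen_props ht
  obtain ⟨hie, hi1⟩ := h.mem_famGen_props (mul_mem (inv_mem hg) (inv_mem ht))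
  have hff : (1 - e) * (1 - e) = 1 - e := by
    rw [sub_mul, one_mul, mul_sub, mul_one, h.idem, sub_self, sub_zero]
  obtain ⟨X, hX⟩ : ∃ X, X = (g : End') - 1 := ⟨_, rfl⟩
  obtain ⟨Y, hY⟩ : ∃ Y, Y = (t : End') - 1 := ⟨_, rfl⟩
  obtain ⟨W, hW⟩ : ∃ W, W = ((g⁻¹ * t⁻¹ : GL') : End') := ⟨_, rfl⟩
  rw [← hX] at hg1
  rw [← hY] at hn
  rw [← hW] at hie hi1
  have hXf : X * (1 - e) = (1 - e) * X := by
    rw [hX]; simp only [sub_mul, mul_sub, one_mul, mul_one, hge]; abel
  have hYf : Y * (1 - e) = (1 - e) * Y := by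
    rw [hY]; simp only [sub_mul, mul_sub, one_mul, mul_one, hte]; abel
  have hWf : (1 - e) * W = W * (1 - e) := by
    simp only [sub_mul, mul_sub, one_mul, mul_one, hie]
  have e1 : ((g * t * g⁻¹ * t⁻¹ : GL') : End') - 1 = (X * Y - Y * X) * W := by
    have h2 : (X * Y - Y * X) = ((g * t : GL') : End') - ((t * g : GL') : End') := by
      rw [hX, hY, Units.val_mul, Units.val_mul]
      simp only [mul_sub, sub_mul, mul_one, one_mul]; abel
    have hu : t * g * (g⁻¹ * t⁻¹) = 1 := by group
    have hv : g * t * (g⁻¹ * t⁻¹) = g * t * g⁻¹ * t⁻¹ := by simp only [mul_assoc]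
    rw [h2, sub_mul, hW, ← Units.val_mul, ← Units.val_mul, hu, hv, Units.val_one]
  have e2 : ((g * t * g⁻¹ * t⁻¹ : GL') - 1 : End') * (1 - e) =
      ((X * (1 - e)) * (Y * (1 - e)) - (Y * (1 - e)) * (X * (1 - e))) +
      ((X * (1 - e)) * (Y * (1 - e)) - (Y * (1 - e)) * (X * (1 - e))) * ((W - 1) * (1 - e)) := by
    have q1 : X * (1 - e) * (Y * (1 - e)) = X * Y * (1 - e) := by
      rw [mul_assoc X, ← mul_assoc (1 - e) Y, ← hYf, mul_assoc Y (1 - e) (1 - e), hff, ← mul_assoc]
    have q2 : Y * (1 - e) * (X * (1 - e)) = Y * X * (1 - e) := by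
      rw [mul_assoc Y, ← mul_assoc (1 - e) X, ← hXf, mul_assoc X (1 - e) (1 - e), hff, ← mul_assoc]
    have q3 : (1 - e) * ((W - 1) * (1 - e)) = W * (1 - e) - (1 - e) := by
      rw [← mul_assoc, mul_sub (1 - e) W 1, hWf, mul_one, sub_mul, mul_assoc, hff]
    rw [q1, q2, ← sub_mul, mul_assoc (X * Y - Y * X) (1 - e) ((W - 1) * (1 - e)), q3, e1,
      mul_sub (X * Y - Y * X) (W * (1 - e)), mul_assoc, add_sub_cancel]
  rw [e2]
  have hA : (X * (1 - e)) * (Y * (1 - e)) - (Y * (1 - e)) * (X * (1 - e)) ∈ deg a b e (n + 1) :=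
    Submodule.sub_mem _ (add_comm 1 n ▸ h.deg_mul 1 n (Submodule.mul_mem_mul hg1 hn))
      (h.deg_mul n 1 (Submodule.mul_mem_mul hn hg1))
  exact Submodule.add_mem _ hA (deg_anti (by omega) (h.deg_mul (n + 1) 1 (Submodule.mul_mem_mul hA hi1)))

section Finite

variable [FiniteDimensional k M]

/-- The invertible extension of `z`. -/
noncomputable def zext (a b e : Module.End k M) : Module.End k M :=
  (a * b + b * a) * e + (1 - e)

/-- The commutative algebra generated by `zext`. -/
abbrev Ring' (a b e : Module.End k M) : Type _ := AdjoinRoot (minpoly k (zext a b e))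

theorem finite_ring' (a b e : End') : FiniteDimensional k (Ring' a b e) :=
  (minpoly.monic (Algebra.IsIntegral.isIntegral (R := k) (zext a b e))).finite_adjoinRoot

/-- The action of the algebra on the corner. -/
noncomputable def rho (a b e : Module.End k M) : Ring' a b e →+ Module.End k M :=
  (AddMonoidHom.mulRight e).comp
    (Ideal.Quotient.lift _ (aeval (zext a b e) : k[X] →ₐ[k] Module.End k M).toRingHom (by
      intro p hp
      rw [Ideal.mem_span_singleton] at hp
      obtain ⟨q, rfl⟩ := hp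
      show aeval (zext a b e) (minpoly k (zext a b e) * q) = 0
      rw [map_mul, minpoly.aeval, zero_mul])).toAddMonoidHom

theorem rho_mk (p : k[X]) :
    rho a b e (AdjoinRoot.mk _ p) = aeval (zext a b e) p * e := rfl

theorem commute_aeval {x t : End'} (h : Commute x t) (p : k[X]) :
    Commute x (aeval t p) := by
  induction p using Polynomial.induction_on' with
  | add p q hp hq => rw [map_add]; exact hp.add_right hq
  | monomial n c =>
    rw [aeval_monomial]
    exact (show Commute x (algebraMap k (Module.End k M) c) from (Algebra.commutes c x).symm).mul_right (h.pow_right n)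

theorem isUnit_root (h : Corner a b e) :
    IsUnit (AdjoinRoot.root (minpoly k (zext a b e))) := by
  set f := minpoly k (zext a b e) with hf
  have hint : IsIntegral k (zext a b e) := Algebra.IsIntegral.isIntegral _
  have h0 : f.coeff 0 ≠ 0 := by
    intro h0
    obtain ⟨q, hq⟩ := X_dvd_iff.2 h0
    have hfz : aeval (zext a b e) f = 0 := minpoly.aeval k _
    rw [hq, map_mul, aeval_X] at hfz
    have hq0 : aeval (zext a b e) q = 0 := by
      ext m
      exact h.unit_inj (by
        have := congrArg (fun t : End' => t m) hfz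
        simpa [zext, Module.End.mul_apply] using this)
    have hne : q ≠ 0 := by
      rintro rfl
      rw [mul_zero] at hq
      exact (minpoly.monic hint).ne_zero hq
    have hle := minpoly.degree_le_of_ne_zero k (zext a b e) hne hq0
    rw [← hf, hq, degree_mul, degree_X, degree_eq_natDegree hne] at hle
    exact absurd (by exact_mod_cast hle : 1 + q.natDegree ≤ q.natDegree) (by omega)
  have hdecomp : f = X * f.divX + C (f.coeff 0) := (X_mul_divX_add f).symm
  have h1 : AdjoinRoot.root f * AdjoinRoot.mk f f.divX = algebraMap k _ (-f.coeff 0) := by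
    have := congrArg (AdjoinRoot.mk f) hdecomp
    rw [AdjoinRoot.mk_self, map_add, map_mul, AdjoinRoot.mk_X, AdjoinRoot.mk_C] at this
    rw [map_neg, AdjoinRoot.algebraMap_eq]
    exact eq_neg_of_add_eq_zero_left this.symm
  exact isUnit_of_mul_isUnit_left (h1 ▸ (isUnit_iff_ne_zero.2 (neg_ne_zero.2 h0)).map _)

theorem exists_matUnits (h : Corner a b e) :
    ∃ y : End', MatUnits (rho a b e) (a * e) y ∧
      rho a b e (AdjoinRoot.root _) * y = b * e := by
  set z := a * b + b * a with hz
  set f := minpoly k (zext a b e)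
  obtain ⟨u, hu⟩ := h.isUnit_root
  set w := rho a b e (↑u⁻¹ : Ring' a b e) with hw
  have hcomm : ∀ x : End', Commute x (zext a b e) → Commute x e →
      ∀ r, Commute x (rho a b e r) := by
    intro x hx hxe r
    induction r using AdjoinRoot.induction_on with
    | ih p => rw [rho_mk]; exact (commute_aeval hx p).mul_right hxe
  have hza : z * a = a * z := commute_left h.aa
  have hzb : z * b = b * z := by
    have := commute_left (b := a) h.bb
    rwa [add_comm (b * a)] at this
  have cae : Commute a e := h.ea.symm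
  have cbe : Commute b e := h.eb.symm
  have caT : Commute a (zext a b e) :=
    ((show Commute a z from hza.symm).mul_right cae).add_right ((Commute.one_right a).sub_right cae)
  have cbT : Commute b (zext a b e) :=
    ((show Commute b z from hzb.symm).mul_right cbe).add_right ((Commute.one_right b).sub_right cbe)
  have ceT : Commute e (zext a b e) :=
    ((show Commute e z from h.ez).mul_right (Commute.refl e)).add_right
      ((Commute.one_right e).sub_right (Commute.refl e))
  have hmul : ∀ r s, rho a b e (r * s) = rho a b e r * rho a b e s := by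
    intro r s
    induction r using AdjoinRoot.induction_on with
    | ih p =>
      induction s using AdjoinRoot.induction_on with
      | ih q =>
        rw [← map_mul, rho_mk, rho_mk, rho_mk, map_mul, mul_assoc (aeval _ p) e,
          ← mul_assoc e, (commute_aeval ceT q).eq, mul_assoc (aeval _ q) e e, h.idem,
          mul_assoc]
  have hone : rho a b e 1 = e := by
    rw [show (1 : Ring' a b e) = AdjoinRoot.mk _ 1 from (map_one _).symm, rho_mk, map_one, one_mul]
  have hroot : rho a b e (AdjoinRoot.root _) = z * e := by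
    rw [← AdjoinRoot.mk_X, rho_mk, aeval_X, zext, add_mul, mul_assoc, h.idem, sub_mul, one_mul,
      h.idem, sub_self, add_zero]
  have hzew : z * e * w = e := by
    rw [← hroot, hw, ← hmul, ← hu, Units.mul_inv, hone]
  have hew : e * w = w := by
    have := hmul 1 (↑u⁻¹ : Ring' a b e)
    rw [one_mul, hone] at this
    rw [hw]
    exact this.symm
  have hzw : z * w = e := by rw [← hew, ← mul_assoc]; exact hzew
  have hwa : Commute a w := hcomm a caT cae _
  have hwb : Commute b w := hcomm b cbT cbe _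
  have hwe : Commute e w := hcomm e ceT (Commute.refl e) _
  refine ⟨b * w, ⟨?_, ?_, ?_, ?_, ?_, hmul, ?_, ?_⟩, ?_⟩
  · rw [mul_assoc a e, ← mul_assoc e a, h.ea, mul_assoc a e e, h.idem, ← mul_assoc, h.aa, zero_mul]
  · rw [mul_assoc b w, ← mul_assoc w b, ← hwb.eq, mul_assoc b w w, ← mul_assoc, h.bb, zero_mul]
  · have he' : a * e * (b * w) = a * (b * w) := by
      rw [mul_assoc a e, ← mul_assoc e b, h.eb, mul_assoc b e, hew]
    rw [← mul_assoc (a * e) (b * w), he', ← mul_assoc (a * (b * w)) a e, mul_assoc a (b * w) a,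
      mul_assoc b w a, ← hwa.eq, ← mul_assoc b a, ← mul_assoc a (b * a) w,
      show a * (b * a) = a * z by
        rw [hz, mul_add, ← mul_assoc a a b, h.aa, zero_mul, zero_add],
      mul_assoc a z w, hzw, mul_assoc, h.idem]
  · have he' : a * e * (b * w) = a * (b * w) := by
      rw [mul_assoc a e, ← mul_assoc e b, h.eb, mul_assoc b e, hew]
    rw [he', mul_assoc b w, ← mul_assoc w a, ← hwa.eq, mul_assoc a w, ← mul_assoc w b, ← hwb.eq,
      mul_assoc b w w, ← mul_assoc a b, ← mul_assoc b (a * b),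
      show b * (a * b) = b * z by
        rw [hz, mul_add, ← mul_assoc b b a, h.bb, zero_mul, add_zero],
      mul_assoc b z, ← mul_assoc z, hzw, hew]
  · have he' : a * e * (b * w) = a * (b * w) := by
      rw [mul_assoc a e, ← mul_assoc e b, h.eb, mul_assoc b e, hew]
    rw [hone, he', mul_assoc b w, ← mul_assoc w a, ← hwa.eq, mul_assoc a w, ← hwe.eq, hew,
      ← mul_assoc, ← mul_assoc, ← add_mul, ← hz, hzw]
  · exact fun r => ((hcomm a caT cae r).mul_left (hcomm e ceT (Commute.refl e) r)).eq
  · intro r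
    refine ((hcomm b cbT cbe r).mul_left (Commute.symm ?_)).eq
    show Commute (rho a b e r) (rho a b e _)
    rw [Commute, SemiconjBy, ← hmul, ← hmul, mul_comm]
  · rw [hroot, ← mul_assoc, mul_assoc z e b, h.eb, ← mul_assoc z b e, hzb, mul_assoc b z e,
      mul_assoc b _ w, hzew]

end Finite

end Corner

end CfsgLib.RootSubgroups.QP
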