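import Cfsg.Agent.RootSubgroups.QPProduct

/-!
# The recursion on the sandwiched part
-/

set_option autoImplicit false

namespace CfsgLib.RootSubgroups.QP

open Cfsg

universe u v

variable {k : Type u} [Field k]

section Res

variable {M : Type v} [AddCommGroup M] [Module k M]

/-- Restriction of a group to an invariant subspace. -/
def resHom (C : Subgroup (LinearMap.GeneralLinearGroup k M)) (S : Submodule k M)
    (h : ∀ g ∈ C, ∀ w ∈ S, (g : Module.End k M) w ∈ S) :
    ↥C →* LinearMap.GeneralLinearGroup k ↥S where
  toFun g :=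
    { val := ((g : LinearMap.GeneralLinearGroup k M) : Module.End k M).restrict (h g g.2)
      inv := (((g : LinearMap.GeneralLinearGroup k M)⁻¹ : LinearMap.GeneralLinearGroup k M) :
        Module.End k M).restrict (h _ (inv_mem g.2))
      val_inv := LinearMap.ext fun w => Subtype.ext (by
        show ((g : LinearMap.GeneralLinearGroup k M) : Module.End k M)
          ((((g : LinearMap.GeneralLinearGroup k M)⁻¹ : LinearMap.GeneralLinearGroup k M) :
            Module.End k M) w) = w
        rw [← Module.End.mul_apply, Units.mul_inv, Module.End.one_apply])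
      inv_val := LinearMap.ext fun w => Subtype.ext (by
        show (((g : LinearMap.GeneralLinearGroup k M)⁻¹ : LinearMap.GeneralLinearGroup k M) :
            Module.End k M) (((g : LinearMap.GeneralLinearGroup k M) : Module.End k M) w) = w
        rw [← Module.End.mul_apply, Units.inv_mul, Module.End.one_apply]) }
  map_one' := Units.ext (LinearMap.ext fun _ => Subtype.ext rfl)
  map_mul' _ _ := Units.ext (LinearMap.ext fun _ => Subtype.ext rfl)

theorem coe_resHom {C : Subgroup (LinearMap.GeneralLinearGroup k M)} {S : Submodule k M}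
    (h : ∀ g ∈ C, ∀ w ∈ S, (g : Module.End k M) w ∈ S) (g : ↥C) (w : ↥S) :
    ((((resHom C S h g : LinearMap.GeneralLinearGroup k ↥S) : Module.End k ↥S) w : ↥S) : M) =
      ((g : LinearMap.GeneralLinearGroup k M) : Module.End k M) w := rfl

theorem exists_minimal_invariant [FiniteDimensional k M]
    (C : Subgroup (LinearMap.GeneralLinearGroup k M)) (hM : ∃ m : M, m ≠ 0) :
    ∃ S : Submodule k M, S ≠ ⊥ ∧ (∀ g ∈ C, ∀ w ∈ S, (g : Module.End k M) w ∈ S) ∧
      ∀ T : Submodule k M, T ≤ S → (∀ g ∈ C, ∀ w ∈ T, (g : Module.End k M) w ∈ T) →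
        T = ⊥ ∨ T = S := by
  classical
  have hex : ∃ d, ∃ S : Submodule k M, S ≠ ⊥ ∧
      (∀ g ∈ C, ∀ w ∈ S, (g : Module.End k M) w ∈ S) ∧ Module.finrank k S = d := by
    obtain ⟨m, hm⟩ := hM
    exact ⟨_, ⊤, fun h => hm ((Submodule.mem_bot k).1 (h ▸ Submodule.mem_top)),
      fun _ _ _ _ => Submodule.mem_top, rfl⟩
  obtain ⟨S, hS, hinv, hd⟩ := Nat.find_spec hex
  refine ⟨S, hS, hinv, fun T hT hTinv => ?_⟩
  by_cases hT0 : T = ⊥
  · exact Or.inl hT0
  refine Or.inr (Submodule.eq_of_le_of_finrank_le hT ?_)
  rw [hd]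
  exact Nat.find_min' hex ⟨T, hT0, hTinv, rfl⟩

end Res

theorem decomp (h2 : (2 : k) ≠ 0) (hk : Nat.card k ≠ 3) :
    ∀ (n : ℕ) (M : Type v) [AddCommGroup M] [Module k M] [FiniteDimensional k M]
      (G : Subgroup (LinearMap.GeneralLinearGroup k M)),
      Module.finrank k M ≤ n → IsQuadraticPair G → Decomp G := by
  intro n
  induction n with
  | zero =>
    intro M _ _ _ G hn hG
    obtain ⟨m, hm⟩ := hG.1.1
    haveI : Nontrivial M := ⟨⟨m, 0, hm⟩⟩
    exact absurd (Module.finrank_pos (R := k) (M := M)) (by omega)
  | succ n ih =>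
    intro M _ _ _ G hn hG
    classical
    by_cases hne : (minimalQuadraticElements G).Nonempty
    swap
    · -- no quadratic element at all
      have hnofam : ∀ x, IsFam G x → x = 0 := by
        intro x hx
        by_contra hx0
        apply hne
        have hex : ∃ d, ∃ y, IsFam G y ∧ y ≠ 0 ∧ rk y = d := ⟨_, x, hx, hx0, rfl⟩
        obtain ⟨y, hy, hy0, hyd⟩ := Nat.find_spec hex
        have hmin : IsMin G y := ⟨hy, hy0, fun w hw hw0 => hyd ▸ Nat.find_min' hex ⟨w, hw, hw0, rfl⟩⟩
        exact ⟨_, (sameAction_oneAdd hmin).1⟩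
      refine ⟨0, Fin.elim0, fun i => i.elim0, fun i => i.elim0, ?_, fun i => i.elim0,
        fun x hx hx0 => absurd (hnofam x hx) hx0⟩
      rw [iSup_of_empty, ← hG.2, eq_comm, Subgroup.closure_eq_bot_iff]
      intro σ hσ
      obtain ⟨hx, hx0⟩ := mem_quadraticElements.1 hσ
      exact absurd (hnofam _ hx) hx0
    obtain ⟨σ, hσ⟩ := hne
    obtain ⟨G₀, hG₀⟩ : ∃ K, K = ⨆ A ∈ quadraticRootSubgroups G, A := ⟨_, rfl⟩
    -- the restriction to a minimal invariant subspace
    obtain ⟨S, hS0, hSinv, hSmin⟩ := exists_minimal_invariant (sandGroup G) hG.1.1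
    obtain ⟨f, hf⟩ : ∃ f, f = resHom (sandGroup G) S hSinv := ⟨_, rfl⟩
    obtain ⟨G', hG'⟩ : ∃ G', G' = f.range := ⟨_, rfl⟩
    have hcent : ∀ g ∈ G₀, ∀ c ∈ sandGroup G, g * c = c * g := fun g hg c hc =>
      Subgroup.mem_centralizer_iff.1 (sandGroup_le_centralizer h2 hk hG.1 hc) g (hG₀ ▸ hg)
    -- an endomorphism commuting with `G₀` vanishing on `S` vanishes
    have hext : ∀ t : Module.End k M, (∀ g ∈ G₀, Commute (g : Module.End k M) t) →
        (∀ w ∈ S, t w = 0) → t = 0 := by
      intro t ht hts
      let W : Submodule k M := ⨆ (g : LinearMap.GeneralLinearGroup k M) (_ : g ∈ G₀),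
        S.map (g : Module.End k M)
      have hmem : ∀ g ∈ G₀, ∀ w ∈ S, (g : Module.End k M) w ∈ W := fun g hg w hw =>
        le_iSup₂ (f := fun (s : LinearMap.GeneralLinearGroup k M) (_ : s ∈ G₀) =>
          S.map (s : Module.End k M)) g hg (Submodule.mem_map_of_mem hw)
      have hinv : ∀ g ∈ G, ∀ w ∈ W, (g : Module.End k M) w ∈ W := by
        intro g hg
        let K : Subgroup (LinearMap.GeneralLinearGroup k M) :=
          { carrier := {g | W.map (g : Module.End k M) = W}
            one_mem' := by show W.map _ = W; rw [Units.val_one]; exact Submodule.map_id W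
            mul_mem' := by
              intro s t hs ht
              show W.map _ = W
              rw [Units.val_mul, Module.End.mul_eq_comp, Submodule.map_comp, ht, hs]
            inv_mem' := by
              intro s hs
              show W.map _ = W
              conv_lhs => rw [← show W.map (s : Module.End k M) = W from hs]
              rw [← Submodule.map_comp, ← Module.End.mul_eq_comp, Units.inv_mul]
              exact Submodule.map_id W }
        have key : ∀ s : LinearMap.GeneralLinearGroup k M,
            (∀ g ∈ G₀, ∀ w ∈ S, (s : Module.End k M) ((g : Module.End k M) w) ∈ W) → s ∈ K := by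
          intro s hs
          show W.map _ = W
          refine Submodule.eq_of_le_of_finrank_eq ?_
            ((Submodule.equivMapOfInjective (s : Module.End k M) (fun a b hab => ?_) W).finrank_eq.symm)
          · rw [Submodule.map_le_iff_le_comap]
            refine iSup₂_le fun g hg => ?_
            rintro _ ⟨w, hw, rfl⟩
            exact hs g hg w hw
          · have h1 := congrArg ((((s⁻¹ : LinearMap.GeneralLinearGroup k M)) : Module.End k M) : M → M) hab
            rwa [← Module.End.mul_apply, ← Module.End.mul_apply, Units.inv_mul] at h1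
        have hGK : G ≤ K := by
          rw [← sup_sandGroup h2 hk hG, ← hG₀]
          refine sup_le (fun s hs => key s fun g hg w hw => ?_) (fun s hs => key s fun g hg w hw => ?_)
          · rw [← Module.End.mul_apply, ← Units.val_mul]
            exact hmem _ (mul_mem hs hg) w hw
          · rw [← Module.End.mul_apply, ← Units.val_mul, ← hcent g hg s hs, Units.val_mul,
              Module.End.mul_apply]
            exact hmem g hg _ (hSinv s hs w hw)
        intro w hw
        exact (hGK hg : W.map (g : Module.End k M) = W).le (Submodule.mem_map_of_mem hw)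
      rcases hG.1.2 W hinv with hb | htop
      · exfalso
        apply hS0
        rw [eq_bot_iff, ← hb]
        intro w hw
        have := hmem 1 (one_mem _) w hw
        rwa [Units.val_one, Module.End.one_apply] at this
      · rw [← LinearMap.ker_eq_top, eq_top_iff, ← htop]
        refine iSup₂_le fun g hg => ?_
        rintro _ ⟨w, hw, rfl⟩
        show t ((g : Module.End k M) w) = 0
        rw [← Module.End.mul_apply, ← (ht g hg).eq, Module.End.mul_apply, hts w hw, map_zero]
    have hcomm' : ∀ c ∈ sandGroup G, ∀ g ∈ G₀, Commute (g : Module.End k M) (c : Module.End k M) :=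
      fun c hc g hg => coe_commute (hcent g hg c hc)
    have hfinj : Function.Injective f := by
      rw [injective_iff_map_eq_one]
      intro c hc
      refine Subtype.ext (Units.ext (sub_eq_zero.1 (hext _ (fun g hg =>
        (hcomm' _ c.2 g hg).sub_right (Commute.one_right _)) fun w hw => ?_)))
      have h1 := congrArg (fun u : LinearMap.GeneralLinearGroup k ↥S =>
        (((u : Module.End k ↥S) ⟨w, hw⟩ : ↥S) : M)) hc
      rw [hf, coe_resHom] at h1
      rw [LinearMap.sub_apply, h1]
      show (⟨w, hw⟩ : ↥S).1 - w = 0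
      exact sub_self w
    -- families restrict
    have hres : ∀ x, IsFam (sandGroup G) x → x ≠ 0 →
        ∃ x' : Module.End k ↥S, IsFam G' x' ∧ x' ≠ 0 ∧ ∀ w : ↥S, ((x' w : ↥S) : M) = x w := by
      intro x hx hx0
      have hxS : ∀ w ∈ S, x w ∈ S := by
        intro w hw
        obtain ⟨g, hg, he⟩ := hx.2 1
        have h1 := hSinv g hg w hw
        rw [he, one_smul, LinearMap.add_apply, Module.End.one_apply] at h1
        simpa using S.sub_mem h1 hw
      have hcx : ∀ g ∈ G₀, Commute (g : Module.End k M) x := by
        intro g hg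
        obtain ⟨t, ht, he⟩ := hx.2 1
        have h1 := (hcomm' t ht g hg).sub_right (Commute.one_right _)
        rwa [he, one_smul, add_sub_cancel_left] at h1
      refine ⟨x.restrict hxS, ⟨LinearMap.ext fun w => Subtype.ext
          (LinearMap.congr_fun hx.1 (w : M)), fun c => ?_⟩, fun h0 => ?_, fun w => rfl⟩
      · obtain ⟨g, hg, he⟩ := hx.2 c
        refine ⟨f ⟨g, hg⟩, hG' ▸ ⟨_, rfl⟩, LinearMap.ext fun w => Subtype.ext ?_⟩
        rw [hf, coe_resHom]
        show (g : Module.End k M) w = _
        rw [he]
        rfl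
      · refine hx0 (hext x hcx fun w hw => ?_)
        exact congrArg Subtype.val (LinearMap.congr_fun h0 ⟨w, hw⟩)
    -- lifting quadratic elements
    have hlift : ∀ c : ↥(sandGroup G), f c ∈ quadraticElements G' →
        (c : LinearMap.GeneralLinearGroup k M) ∈ quadraticElements G := by
      intro c hc
      obtain ⟨hfam, hne'⟩ := mem_quadraticElements.1 hc
      have hval : ∀ (d : ↥(sandGroup G)) (w : ↥S),
          ((((f d : LinearMap.GeneralLinearGroup k ↥S) : Module.End k ↥S) - 1) w : ↥S) =
            (((d : LinearMap.GeneralLinearGroup k M) : Module.End k M) - 1) (w : M) := fun d w => by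
        rw [hf]; rfl
      obtain ⟨x, hx⟩ : ∃ x, x = ((c : LinearMap.GeneralLinearGroup k M) : Module.End k M) - 1 :=
        ⟨_, rfl⟩
      have hcx : ∀ g ∈ G₀, Commute (g : Module.End k M) x := fun g hg =>
        hx ▸ (hcomm' _ c.2 g hg).sub_right (Commute.one_right _)
      rw [mem_quadraticElements, ← hx]
      refine ⟨⟨?_, fun t => ?_⟩, fun h0 => hne' ?_⟩
      · refine hext _ (fun g hg => (hcx g hg).mul_right (hcx g hg)) fun w hw => ?_
        have h1 := congrArg Subtype.val (LinearMap.congr_fun hfam.1 ⟨w, hw⟩)
        rw [Module.End.mul_apply, hval, hval, ← hx] at h1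
        exact h1
      · obtain ⟨u, hu, hue⟩ := hfam.2 t
        rw [hG'] at hu
        obtain ⟨d, rfl⟩ := hu
        refine ⟨d, sandGroup_le d.2, sub_eq_zero.1 (hext _ (fun g hg =>
          (hcomm' _ d.2 g hg).sub_right ((Commute.one_right _).add_right ((hcx g hg).smul_right t))) fun w hw => ?_)⟩
        have h1 := congrArg (fun u : Module.End k ↥S => ((u ⟨w, hw⟩ : ↥S) : M))
          (sub_eq_iff_eq_add'.2 hue)
        rw [hval] at h1
        have h3 : (((t • (((f c : LinearMap.GeneralLinearGroup k ↥S) : Module.End k ↥S) - 1))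
            ⟨w, hw⟩ : ↥S) : M) = t • x w := by
          rw [LinearMap.smul_apply, Submodule.coe_smul, hval, ← hx]
        rw [h3] at h1
        rw [← sub_sub, LinearMap.sub_apply, h1, LinearMap.smul_apply, sub_self]
      · refine LinearMap.ext fun w => Subtype.ext ?_
        rw [hval, ← hx, h0]
        rfl
    -- the restricted pair
    have hquad : IsQuadraticPair G' := by
      refine ⟨⟨?_, fun W hW => ?_⟩, le_antisymm ((Subgroup.closure_le _).2 fun u hu => hu.1) ?_⟩
      · obtain ⟨w, hw, hw0⟩ := (Submodule.ne_bot_iff _).1 hS0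
        exact ⟨⟨w, hw⟩, fun h0 => hw0 (congrArg Subtype.val h0)⟩
      · rcases hSmin (W.map S.subtype) (Submodule.map_subtype_le _ _) (by
          rintro g hg _ ⟨w, hw, rfl⟩
          refine ⟨_, hW (f ⟨g, hg⟩) (hG' ▸ ⟨_, rfl⟩) w hw, ?_⟩
          rw [hf]; rfl) with h | h
        · exact Or.inl (Submodule.map_injective_of_injective S.subtype_injective
            (by rw [h, Submodule.map_bot]))
        · exact Or.inr (Submodule.map_injective_of_injective S.subtype_injective
            (by rw [h, Submodule.map_top, Submodule.range_subtype]))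
      · have hgen : ∀ (g) (hg : g ∈ sandGroup G),
            f ⟨g, hg⟩ ∈ Subgroup.closure (quadraticElements G') := by
          intro g hg
          have hg' := hg
          unfold sandGroup at hg
          induction hg using Subgroup.closure_induction with
          | mem t ht =>
            obtain ⟨x, hx, hs, he⟩ := ht
            by_cases hx0 : x = 0
            · have h1 : (⟨t, hg'⟩ : ↥(sandGroup G)) = 1 :=
                Subtype.ext (Units.ext (by rw [he, hx0, add_zero]; rfl))
              rw [h1, map_one]; exact one_mem _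
            obtain ⟨x', hx', hx'0, hxe⟩ := hres x (isFam_sandGroup hx hs) hx0
            have h3 : ((f ⟨t, hg'⟩ : LinearMap.GeneralLinearGroup k ↥S) : Module.End k ↥S) =
                1 + x' := by
              refine LinearMap.ext fun w => Subtype.ext ?_
              rw [hf, coe_resHom]
              show (t : Module.End k M) (w : M) = (w : M) + ((x' w : ↥S) : M)
              rw [hxe, he]
              rfl
            refine Subgroup.subset_closure (mem_quadraticElements.2 ?_)
            rw [h3, add_sub_cancel_left]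
            exact ⟨hx', hx'0⟩
          | one =>
            rw [show (⟨1, hg'⟩ : ↥(sandGroup G)) = 1 from rfl, map_one]; exact one_mem _
          | mul s t hs ht ihs iht =>
            rw [show (⟨s * t, hg'⟩ : ↥(sandGroup G)) = ⟨s, hs⟩ * ⟨t, ht⟩ from rfl, map_mul]
            exact mul_mem (ihs hs) (iht ht)
          | inv s hs ihs =>
            rw [show (⟨s⁻¹, hg'⟩ : ↥(sandGroup G)) = (⟨s, hs⟩ : ↥(sandGroup G))⁻¹ from rfl, map_inv]
            exact inv_mem (ihs hs)
        rw [hG']
        rintro _ ⟨⟨g, hg⟩, rfl⟩
        have := hgen g hg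
        rwa [hG'] at this
    have hlt : Module.finrank k ↥S ≤ n := by
      have h1 : S ≠ ⊤ := by
        intro htop
        have hmin : ∀ T : Submodule k M,
            (∀ g ∈ sandGroup G, ∀ w ∈ T, (g : Module.End k M) w ∈ T) → T = ⊥ ∨ T = S :=
          fun T hT => hSmin T (htop ▸ le_top) hT
        have ha := mem_minimal.1 hσ
        rcases hmin (LinearMap.ker ((σ : Module.End k M) - 1)) (fun g hg w hw => by
          have hσ0 : σ ∈ G₀ := hG₀ ▸ le_iSup₂
            (f := fun (B : Subgroup (LinearMap.GeneralLinearGroup k M))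
              (_ : B ∈ quadraticRootSubgroups G) => B)
            (sameActionSubgroup G σ) ⟨σ, hσ, rfl⟩ (self_mem_sameAction hσ).1
          have hc := ((hcomm' g hg σ hσ0).symm.sub_right (Commute.one_right _)).eq
          show ((σ : Module.End k M) - 1) ((g : Module.End k M) w) = 0
          rw [← Module.End.mul_apply, ← hc, Module.End.mul_apply, LinearMap.mem_ker.1 hw,
            map_zero]) with h | h
        · apply ha.ne
          rw [← LinearMap.range_eq_bot, eq_bot_iff, ← h]
          exact range_le_ker ha.fam.1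
        · rw [htop, LinearMap.ker_eq_top] at h
          exact ha.ne h
      have := Submodule.finrank_lt h1
      omega
    obtain ⟨s, N', hN1, hN2, hN3, hN4, hN5⟩ := ih ↥S G' hlt hquad
    -- the factors
    let N : Fin s → Subgroup (LinearMap.GeneralLinearGroup k M) :=
      fun j => ((N' j).comap f).map (sandGroup G).subtype
    have hN'le : ∀ j, N' j ≤ f.range := fun j => hG' ▸ (hN1 j).1
    have hsupN : (⨆ j, N j) = sandGroup G := by
      have h1 : (⨆ j, (N' j).comap f) = ⊤ := by
        refine Subgroup.map_injective hfinj ?_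
        rw [Subgroup.map_iSup, ← MonoidHom.range_eq_map, ← hG', ← hN3]
        exact iSup_congr fun j => Subgroup.map_comap_eq_self (hN'le j)
      rw [← Subgroup.map_iSup, h1, ← MonoidHom.range_eq_map, Subgroup.range_subtype]
    have hNle : ∀ j, N j ≤ sandGroup G := fun j => Subgroup.map_subtype_le _
    have hNcomm : ∀ i j, i ≠ j → ⁅N i, N j⁆ = ⊥ := by
      intro i j hij
      rw [← Subgroup.map_commutator, Subgroup.map_eq_bot_iff]
      refine le_trans ?_ bot_le
      refine Subgroup.map_le_map_iff_of_injective hfinj |>.1 ?_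
      rw [Subgroup.map_commutator, Subgroup.map_bot, Subgroup.map_comap_eq_self (hN'le i),
        Subgroup.map_comap_eq_self (hN'le j), hN2 i j hij]
    have hNnorm : ∀ j, ∀ g ∈ G, ∀ m ∈ N j, g * m * g⁻¹ ∈ N j := by
      intro j g hg m hm
      have hle : G₀ ⊔ sandGroup G ≤ Subgroup.normalizer ((N j : Subgroup _) : Set _) := by
        refine sup_le (fun t ht => Subgroup.mem_normalizer_iff.2 fun m => ?_) (fun t ht => ?_)
        · constructor
          · intro hm
            rw [hcent t ht m (hNle j hm), mul_inv_cancel_right]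
            exact hm
          · intro hm
            have h1 := hcent t ht _ (hNle j hm)
            rw [inv_mul_cancel_right] at h1
            have h3 : t * m * t⁻¹ = m := mul_left_cancel h1
            rwa [h3] at hm
        · have key : ∀ t (ht : t ∈ sandGroup G), ∀ m ∈ N j, t * m * t⁻¹ ∈ N j := by
            rintro t ht _ ⟨d, hd, rfl⟩
            refine ⟨⟨t, ht⟩ * d * ⟨t, ht⟩⁻¹, ?_, rfl⟩
            show f _ ∈ N' j
            rw [map_mul, map_mul, map_inv]
            exact (hN1 j).2 _ (hG' ▸ ⟨_, rfl⟩) _ hd
          refine Subgroup.mem_normalizer_iff.2 fun m => ⟨key t ht m, fun hm => ?_⟩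
          have := key t⁻¹ (inv_mem ht) _ hm
          simpa [mul_assoc] using this
      rw [hG₀, sup_sandGroup h2 hk hG] at hle
      exact (Subgroup.mem_normalizer_iff.1 (hle hg) m).1 hm
    have hNqs : ∀ j, IsQuasisimple ↥(N j) := fun j => by
      have e1 : ↥((N' j).comap f) ≃* ↥(N' j) :=
        ((N' j).comap f).equivMapOfInjective f hfinj |>.trans
          (MulEquiv.subgroupCongr (Subgroup.map_comap_eq_self (hN'le j)))
      exact CfsgLib.Balance.isQuasisimple_of_mulEquiv
        (((N' j).comap f).equivMapOfInjective _ (sandGroup G).subtype_injective)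
        (CfsgLib.Balance.isQuasisimple_of_mulEquiv e1.symm (hN4 j).1)
    have hNclosure : ∀ j, Subgroup.closure (quadraticElements G ∩
        (N j : Set (LinearMap.GeneralLinearGroup k M))) = N j := by
      intro j
      refine le_antisymm ((Subgroup.closure_le _).2 Set.inter_subset_right) ?_
      rintro _ ⟨d, hd, rfl⟩
      have hd' : f d ∈ N' j := hd
      rw [← (hN4 j).2] at hd'
      have hle : Subgroup.closure (quadraticElements G' ∩ (N' j : Set _)) ≤
          ((Subgroup.closure (quadraticElements G ∩ (N j : Set _))).comap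
            (sandGroup G).subtype).map f := by
        refine (Subgroup.closure_le _).2 fun u hu => ?_
        obtain ⟨c, rfl⟩ := hN'le j hu.2
        exact ⟨c, Subgroup.subset_closure ⟨hlift c hu.1, c, hu.2, rfl⟩, rfl⟩
      obtain ⟨c, hc, hcd⟩ := hle hd'
      rw [hfinj hcd] at hc
      exact hc
    have hNfam : ∀ x, IsFam (sandGroup G) x → x ≠ 0 → ∃ j, IsFam (N j) x := by
      intro x hx hx0
      obtain ⟨x', hx', hx'0, hxe⟩ := hres x hx hx0
      obtain ⟨j, hj⟩ := hN5 x' hx' hx'0
      refine ⟨j, hx.1, fun c => ?_⟩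
      obtain ⟨g, hg, he⟩ := hx.2 c
      obtain ⟨u, hu, hue⟩ := hj.2 c
      refine ⟨g, ⟨⟨g, hg⟩, ?_, rfl⟩, he⟩
      show f ⟨g, hg⟩ ∈ N' j
      rw [show f ⟨g, hg⟩ = u from Units.ext (LinearMap.ext fun w => Subtype.ext ?_)]
      · exact hu
      · rw [hf, coe_resHom, hue]
        show (g : Module.End k M) (w : M) = (w : M) + c • ((x' w : ↥S) : M)
        rw [hxe, he]
        rfl
    -- combine with the components
    haveI := (finite_comps h2 hk hG.1).fintype
    have hrep : ∀ c : ↥((comp G) '' quadraticRootSubgroups G),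
        ∃ A ∈ quadraticRootSubgroups G, comp G A = c.1 := fun c => c.2
    choose A hA hAc using hrep
    let P : ↥((comp G) '' quadraticRootSubgroups G) ⊕ Fin s →
        Subgroup (LinearMap.GeneralLinearGroup k M) :=
      Sum.elim (fun c => compGroup G (A c)) N
    have hP1 : ∀ i, P i ≤ G ∧ ∀ g ∈ G, ∀ m ∈ P i, g * m * g⁻¹ ∈ P i := by
      rintro (c | j)
      · exact ⟨compGroup_le, conj_mem_compGroup h2 hk hG _⟩
      · exact ⟨(hNle j).trans sandGroup_le, hNnorm j⟩
    have hP2 : ∀ i j, i ≠ j → ⁅P i, P j⁆ = ⊥ := by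
      rintro (c | i) (d | j) hne
      · exact commutator_comps h2 hk hG.1 fun he => hne (congrArg Sum.inl (Subtype.ext
          (by rw [← hAc c, ← hAc d, he])))
      · rw [Subgroup.commutator_comm]
        exact Subgroup.commutator_eq_bot_iff_le_centralizer.2
          ((hNle j).trans (sandGroup_le_centralizer_comp h2 hk hG.1 _))
      · exact Subgroup.commutator_eq_bot_iff_le_centralizer.2
          ((hNle i).trans (sandGroup_le_centralizer_comp h2 hk hG.1 _))
      · exact hNcomm i j fun h => hne (congrArg Sum.inr h)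
    have hcompgrp : ∀ B ∈ quadraticRootSubgroups G, ∃ c, compGroup G B = P (Sum.inl c) := by
      intro B hB
      refine ⟨⟨comp G B, B, hB, rfl⟩, ?_⟩
      show compGroup G B = compGroup G _
      unfold compGroup
      rw [hAc]
    have hP3 : (⨆ i, P i) = G := by
      refine le_antisymm (iSup_le fun i => (hP1 i).1) ?_
      conv_lhs => rw [← sup_sandGroup h2 hk hG, ← hsupN]
      refine sup_le (iSup₂_le fun B hB => ?_) (iSup_le fun j => le_iSup P (Sum.inr j))
      obtain ⟨c, hc⟩ := hcompgrp B hB
      exact (le_compGroup (self_mem_comp hB)).trans (hc ▸ le_iSup P (Sum.inl c))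
    have hP4 : ∀ i, IsQuasisimple ↥(P i) ∧
        Subgroup.closure (quadraticElements G ∩ (P i : Set _)) = P i := by
      rintro (c | j)
      · exact ⟨quasisimple_comp h2 hk hG.1 (hA c), closure_comp⟩
      · exact ⟨hNqs j, hNclosure j⟩
    have hP5 : ∀ x, IsFam G x → x ≠ 0 → ∃ i, IsFam (P i) x := by
      intro x hx hx0
      rcases fam_classify h2 hk hG _ _ le_rfl hx with ⟨B, hB, hxB⟩ | hxC
      · obtain ⟨c, hc⟩ := hcompgrp B hB
        exact ⟨Sum.inl c, hc ▸ hxB⟩
      · obtain ⟨j, hj⟩ := hNfam x hxC hx0
        exact ⟨Sum.inr j, hj⟩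
    let e := (Fintype.equivFin (↥((comp G) '' quadraticRootSubgroups G) ⊕ Fin s)).symm
    refine ⟨_, fun i => P (e i), fun i => hP1 _, fun i j hij => hP2 _ _ fun h => hij (e.injective h),
      ?_, fun i => hP4 _, fun x hx hx0 => ?_⟩
    · exact (e.surjective.iSup_comp P).trans hP3
    · obtain ⟨i, hi⟩ := hP5 x hx hx0
      exact ⟨e.symm i, by simp only [Equiv.apply_symm_apply]; exact hi⟩

end CfsgLib.RootSubgroups.QP
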