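import Cfsg.Agent.RootSubgroups.QPCorner

/-!
# Families supported on the corner
-/

set_option autoImplicit false

namespace CfsgLib.RootSubgroups.QP

open Cfsg Matrix

variable {k : Type*} [Field k] {M : Type*} [AddCommGroup M] [Module k M] [FiniteDimensional k M]

local notation "GL'" => LinearMap.GeneralLinearGroup k M
local notation "End'" => Module.End k M

namespace Corner

variable {a b e : Module.End k M}

theorem rho_one (a b e : End') : rho a b e (1 : Ring' a b e) = e := by
  rw [show (1 : Ring' a b e) = AdjoinRoot.mk _ 1 from (map_one _).symm, rho_mk, map_one, one_mul]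

theorem rho_algebraMap (a b e : End') (c : k) :
    rho a b e (algebraMap k (Ring' a b e) c) = c • e := by
  rw [AdjoinRoot.algebraMap_eq, ← AdjoinRoot.mk_C, rho_mk, Polynomial.aeval_C, ← Algebra.smul_def]

theorem rho_smul (h : Corner a b e) (c : k) (r : Ring' a b e) :
    rho a b e (algebraMap k (Ring' a b e) c * r) = c • rho a b e r := by
  induction r using AdjoinRoot.induction_on with
  | ih p =>
    rw [AdjoinRoot.algebraMap_eq, ← AdjoinRoot.mk_C, ← map_mul, rho_mk, rho_mk, map_mul,
      Polynomial.aeval_C, ← Algebra.smul_def, smul_mul_assoc]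

variable {y : Module.End k M}

theorem rep_comm (hm : MatUnits (rho a b e) (a * e) y)
    (m : Matrix.SpecialLinearGroup (Fin 2) (Ring' a b e)) :
    ((hm.rep m : GL') : End') * e = e * ((hm.rep m : GL') : End') := by
  obtain ⟨A, hA⟩ : ∃ A, A = a * e := ⟨_, rfl⟩
  rw [MatUnits.coe_rep, MatUnits.toEnd, ← hA, rho_one]
  have h1e : ∀ r, e * rho a b e r = rho a b e r := fun r => by
    have := hm.e_rho r
    rw [rho_one] at this
    exact this
  have key : ∀ r (x : End'), e * x = x → x * e = x →
      rho a b e r * x * e = e * (rho a b e r * x) := fun r x h1 h2 => by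
    rw [mul_assoc, h2, ← mul_assoc, h1e]
  have hEA : e * A = A := by have := hm.e_a; rw [rho_one, ← hA] at this; exact this
  have hAE : A * e = A := by have := hm.a_e; rw [rho_one, ← hA] at this; exact this
  have hEy : e * y = y := by have := hm.e_y; rw [rho_one] at this; exact this
  have hyE : y * e = y := by have := hm.y_e; rw [rho_one] at this; exact this
  have hP : e * (A * y) = A * y ∧ A * y * e = A * y :=
    ⟨by rw [← mul_assoc, hEA], by rw [mul_assoc, hyE]⟩
  have hQ : e * (y * A) = y * A ∧ y * A * e = y * A :=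
    ⟨by rw [← mul_assoc, hEy], by rw [mul_assoc, hAE]⟩
  simp only [add_mul, sub_mul, mul_add, mul_sub, one_mul, mul_one, key _ _ hEA hAE,
    key _ _ hEy hyE, key _ _ hP.1 hP.2, key _ _ hQ.1 hQ.2]

/-- The matrices induced on the corner by the generated group. -/
def induced (h : Corner a b e) (hm : MatUnits (rho a b e) (a * e) y) :
    Subgroup (Matrix.SpecialLinearGroup (Fin 2) (Ring' a b e)) where
  carrier := {m | ∃ g ∈ famGen a b, (g : End') * e = ((hm.rep m : GL') : End') * e}
  one_mem' := ⟨1, one_mem _, by simp⟩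
  mul_mem' := by
    rintro m n ⟨g, hg, hge⟩ ⟨t, ht, hte⟩
    refine ⟨g * t, mul_mem hg ht, ?_⟩
    rw [map_mul, Units.val_mul, Units.val_mul, mul_assoc, hte, rep_comm hm n, ← mul_assoc, hge,
      mul_assoc, ← rep_comm hm n, mul_assoc]
  inv_mem' := by
    rintro m ⟨g, hg, hge⟩
    refine ⟨g⁻¹, inv_mem hg, ?_⟩
    have h1 := (h.mem_famGen_props (inv_mem hg)).1
    have h2 : ((((hm.rep m)⁻¹ : GL')) : End') * e = e * (((hm.rep m)⁻¹ : GL') : End') := by
      rw [← map_inv]; exact rep_comm hm m⁻¹
    rw [map_inv]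
    calc ((g⁻¹ : GL') : End') * e
        = ((g⁻¹ : GL') : End') * (((hm.rep m : GL') : End') * e) *
            (((hm.rep m)⁻¹ : GL') : End') := by
          rw [mul_assoc, mul_assoc ((hm.rep m : GL') : End'), ← h2,
            ← mul_assoc ((hm.rep m : GL') : End'), Units.mul_inv, one_mul]
      _ = (((hm.rep m)⁻¹ : GL') : End') * e := by
          rw [← hge, ← mul_assoc, Units.inv_mul, one_mul, h2]

theorem mem_induced (h : Corner a b e) (hm : MatUnits (rho a b e) (a * e) y)
    {m : Matrix.SpecialLinearGroup (Fin 2) (Ring' a b e)} :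
    m ∈ h.induced hm ↔ ∃ g ∈ famGen a b, (g : End') * e = ((hm.rep m : GL') : End') * e := Iff.rfl

theorem induced_contains (h : Corner a b e) (hm : MatUnits (rho a b e) (a * e) y)
    (hy : rho a b e (AdjoinRoot.root _) * y = b * e) (h2 : (2 : k) ≠ 0) (hk : Nat.card k ≠ 3)
    (r : Ring' a b e) : Gen.rUp r ∈ h.induced hm ∧ Gen.rLow r ∈ h.induced hm := by
  have := finite_ring' a b e
  have hle : Gen.gen k (AdjoinRoot.root (minpoly k (zext a b e))) ≤ h.induced hm := by
    refine (Subgroup.closure_le _).2 ?_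
    rintro _ (⟨c, rfl⟩ | ⟨c, rfl⟩)
    · refine ⟨oneAdd (c • a) (smul_sq_zero h.aa c), Subgroup.subset_closure ⟨c, Or.inl rfl⟩, ?_⟩
      rw [coe_oneAdd, MatUnits.rep_rUp, rho_algebraMap, add_mul, add_mul, smul_mul_assoc,
        smul_mul_assoc, smul_mul_assoc, mul_assoc e (a * e) e, mul_assoc a e e, h.idem, ← mul_assoc,
        h.ea, mul_assoc a e e, h.idem]
    · refine ⟨oneAdd (c • b) (smul_sq_zero h.bb c), Subgroup.subset_closure ⟨c, Or.inr rfl⟩, ?_⟩
      rw [coe_oneAdd, MatUnits.rep_rLow, h.rho_smul, add_mul, add_mul, smul_mul_assoc,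
        smul_mul_assoc, smul_mul_assoc, hy, mul_assoc b e e, h.idem]
  have hg := Gen.gen_contains h2 hk h.isUnit_root (AdjoinRoot.adjoinRoot_eq_top) r
  exact ⟨hle hg.1, hle hg.2⟩

theorem exists_lift (h : Corner a b e) (hm : MatUnits (rho a b e) (a * e) y)
    (hy : rho a b e (AdjoinRoot.root _) * y = b * e) (h2 : (2 : k) ≠ 0) (hk : Nat.card k ≠ 3)
    (n : ℕ) (r : Ring' a b e) :
    ∃ g ∈ famGen a b, (g : End') * e = ((hm.rep (Gen.rUp r) : GL') : End') * e ∧
      ((g : End') - 1) * (1 - e) ∈ deg a b e n := by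
  induction n generalizing r with
  | zero =>
    obtain ⟨g, hg, hge⟩ := (h.induced_contains hm hy h2 hk r).1
    exact ⟨g, hg, hge, deg_anti (Nat.zero_le 1) (h.mem_famGen_props hg).2⟩
  | succ n ih =>
    obtain ⟨c, hc, hc1⟩ := Gen.exists_sq_ne_one hk h2
    let cR : Ring' a b e := algebraMap k _ c
    obtain ⟨ci, hci⟩ : ∃ x : Ring' a b e, x = algebraMap k _ c⁻¹ := ⟨_, rfl⟩
    let tor : Matrix.SpecialLinearGroup (Fin 2) (Ring' a b e) :=
      Gen.rUp cR * Gen.rLow (-ci) * Gen.rUp cR *
        (Gen.rUp 1 * Gen.rLow (-1) * Gen.rUp 1)⁻¹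
    have hu := fun s => (h.induced_contains hm hy h2 hk s).1
    have hl := fun s => (h.induced_contains hm hy h2 hk s).2
    obtain ⟨t, ht, hte⟩ : tor ∈ h.induced hm :=
      mul_mem (mul_mem (mul_mem (hu _) (hl _)) (hu _)) (inv_mem (mul_mem (mul_mem (hu _) (hl _)) (hu _)))
    set d : k := c * c - 1 with hd
    have hd0 : d ≠ 0 := sub_ne_zero.2 hc1
    obtain ⟨g, hg, hge, hgn⟩ := ih (algebraMap k _ d⁻¹ * r)
    refine ⟨t * g * t⁻¹ * g⁻¹, mul_mem (mul_mem (mul_mem ht hg) (inv_mem ht)) (inv_mem hg), ?_,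
      h.comm_deg ht hg hgn⟩
    obtain ⟨u, hu', hue⟩ : (tor * Gen.rUp (algebraMap k _ d⁻¹ * r) * tor⁻¹ *
        (Gen.rUp (algebraMap k _ d⁻¹ * r))⁻¹) ∈ h.induced hm :=
      mul_mem (mul_mem (mul_mem ⟨t, ht, hte⟩ (hu _)) (inv_mem ⟨t, ht, hte⟩)) (inv_mem (hu _))
    have hmat : tor * Gen.rUp (algebraMap k _ d⁻¹ * r) * tor⁻¹ *
        (Gen.rUp (algebraMap k _ d⁻¹ * r))⁻¹ = Gen.rUp r := by
      have hcc : cR * ci = 1 := by
        rw [hci, ← map_mul, mul_inv_cancel₀ hc, map_one]
      have hdd : (cR * cR - 1) * algebraMap k (Ring' a b e) d⁻¹ = 1 := by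
        rw [← map_mul, ← map_one (algebraMap k (Ring' a b e)), ← map_sub, ← map_mul, ← hd,
          mul_inv_cancel₀ hd0, map_one]
      set s := algebraMap k (Ring' a b e) d⁻¹ * r with hs
      have htor : tor.1 = !![cR, 0; 0, ci] := by
        ext i j
        fin_cases i <;> fin_cases j <;>
          simp [tor, Matrix.mul_apply, Fin.sum_univ_two, Matrix.adjugate_fin_two] <;>
          first | ring1 | linear_combination hcc | linear_combination -hcc | linear_combination cR * hcc | linear_combination (-cR) * hcc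
      have e1 : tor * Gen.rUp s * tor⁻¹ = Gen.rUp (cR * cR * s) := by
        rw [mul_inv_eq_iff_eq_mul]
        refine Subtype.ext ?_
        simp only [Matrix.SpecialLinearGroup.coe_mul, htor, Gen.coe_rUp, Matrix.mul_fin_two]
        ext i j
        fin_cases i <;> fin_cases j <;> simp <;>
          first | ring1 | linear_combination (-(cR * s)) * hcc | linear_combination (cR * s) * hcc
      rw [e1, Gen.rUp_inv, Gen.rUp_mul]
      congr 1
      linear_combination r * hdd
    have hrep : ∀ {x : GL'} {m}, (x : End') * e = ((hm.rep m : GL') : End') * e →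
        x ∈ famGen a b → ((x⁻¹ : GL') : End') * e = (((hm.rep m)⁻¹ : GL') : End') * e := by
      intro x m hx hxg
      have h1 := (h.mem_famGen_props (inv_mem hxg)).1
      have h2' : (((hm.rep m)⁻¹ : GL') : End') * e = e * (((hm.rep m)⁻¹ : GL') : End') := by
        rw [← map_inv]; exact rep_comm hm m⁻¹
      calc ((x⁻¹ : GL') : End') * e
          = ((x⁻¹ : GL') : End') * (((hm.rep m : GL') : End') * e) *
              (((hm.rep m)⁻¹ : GL') : End') := by
            rw [mul_assoc, mul_assoc ((hm.rep m : GL') : End'), ← h2',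
              ← mul_assoc ((hm.rep m : GL') : End'), Units.mul_inv, one_mul]
        _ = (((hm.rep m)⁻¹ : GL') : End') * e := by
            rw [← hx, ← mul_assoc, Units.inv_mul, one_mul, h2']
    have hmul : ∀ {x y' : GL'} {m n'}, (x : End') * e = ((hm.rep m : GL') : End') * e →
        (y' : End') * e = ((hm.rep n' : GL') : End') * e →
        ((x * y' : GL') : End') * e = ((hm.rep (m * n') : GL') : End') * e := by
      intro x y' m n' hx hy'
      rw [map_mul, Units.val_mul, Units.val_mul, mul_assoc, hy', rep_comm hm n', ← mul_assoc, hx,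
        mul_assoc, ← rep_comm hm n', mul_assoc]
    rw [← hmat]
    refine hmul (hmul (hmul hte hge) ?_) ?_
    · rw [map_inv]; exact hrep hte ht
    · rw [map_inv]; exact hrep hge hg

/-- The families supported on the corner. -/
theorem isFam_corner (h : Corner a b e) (hm : MatUnits (rho a b e) (a * e) y)
    (hy : rho a b e (AdjoinRoot.root _) * y = b * e) (h2 : (2 : k) ≠ 0) (hk : Nat.card k ≠ 3)
    (r : Ring' a b e) : IsFam (famGen a b) (rho a b e r * (a * e)) := by
  refine ⟨?_, fun c => ?_⟩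
  · rw [mul_assoc, ← mul_assoc (a * e), hm.comm_a r, mul_assoc (rho a b e r) (a * e) (a * e),
      hm.aa, mul_zero, mul_zero]
  obtain ⟨n, hn⟩ := h.deg_eq_bot
  obtain ⟨g, hg, hge, hgn⟩ := h.exists_lift hm hy h2 hk n (algebraMap k _ c * r)
  rw [hn, Submodule.mem_bot, sub_mul, one_mul, sub_eq_zero] at hgn
  refine ⟨g, hg, ?_⟩
  have hx : rho a b e r * (a * e) * e = rho a b e r * (a * e) := by
    rw [mul_assoc, mul_assoc a e e, h.idem]
  calc (g : End') = (g : End') * e + (g : End') * (1 - e) := by rw [← mul_add, add_sub_cancel, mul_one]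
    _ = (1 + rho a b e (algebraMap k _ c * r) * (a * e)) * e + (1 - e) := by
        rw [hge, hgn, MatUnits.rep_rUp]
    _ = 1 + c • (rho a b e r * (a * e)) := by
        rw [h.rho_smul, smul_mul_assoc, add_mul, one_mul, smul_mul_assoc, hx]
        abel

end Corner

end CfsgLib.RootSubgroups.QP
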