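import Cfsg.Agent.RootSubgroups.QPPair

/-!
# The subgroups `E(σ)` and the groups generated by two families
-/

set_option autoImplicit false

namespace CfsgLib.RootSubgroups.QP

open Cfsg

universe u v

variable {k : Type u} [Field k] {M : Type v} [AddCommGroup M] [Module k M] [FiniteDimensional k M]
variable {G : Subgroup (LinearMap.GeneralLinearGroup k M)}

local notation "GL'" => LinearMap.GeneralLinearGroup k M
local notation "End'" => Module.End k M

theorem sameAction_commutative {σ : GL'} (hσ : σ ∈ minimalQuadraticElements G) {g h : GL'}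
    (hg : g ∈ sameActionSubgroup G σ) (hh : h ∈ sameActionSubgroup G σ) : g * h = h * g := by
  have hg' := (mem_sameAction hσ).1 hg
  have hh' := (mem_sameAction hσ).1 hh
  refine Units.ext ?_
  have h1 : ∀ x y : GL', ((x : End') - 1) * ((y : End') - 1) = 0 →
      (x : End') * y = (x : End') + y - 1 := fun x y h0 => by
    simp only [sub_mul, mul_sub, mul_one, one_mul] at h0
    rw [← sub_eq_zero]
    rw [← h0]; abel
  rw [Units.val_mul, Units.val_mul, h1 g h (espace_mul_zero hg' hh'),
    h1 h g (espace_mul_zero hh' hg'), add_comm]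

theorem mem_sameAction_of_fam {σ : GL'} (hσ : σ ∈ minimalQuadraticElements G) {x : End'}
    (hx : x ∈ espace G ((σ : End') - 1) (mem_minimal.1 hσ).fam.1) :
    oneAdd x hx.1.1 ∈ sameActionSubgroup G σ := by
  rw [mem_sameAction hσ, coe_oneAdd, add_sub_cancel_left]
  exact hx

theorem fixedSubmodule_sameAction {σ : GL'} (hσ : σ ∈ minimalQuadraticElements G) :
    fixedSubmodule (sameActionSubgroup G σ) = LinearMap.ker ((σ : End') - 1) := by
  have hσ' : σ ∈ sameActionSubgroup G σ := Subgroup.subset_closure ⟨hσ, rfl, rfl⟩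
  exact le_antisymm (iInf₂_le σ hσ') (le_iInf₂ fun g hg => ((mem_sameAction hσ).1 hg).2.1)

theorem commutatorSubmodule_sameAction {σ : GL'} (hσ : σ ∈ minimalQuadraticElements G) :
    commutatorSubmodule (sameActionSubgroup G σ) = LinearMap.range ((σ : End') - 1) := by
  have hσ' : σ ∈ sameActionSubgroup G σ := Subgroup.subset_closure ⟨hσ, rfl, rfl⟩
  exact le_antisymm (iSup₂_le fun g hg => ((mem_sameAction hσ).1 hg).2.2)
    (le_iSup₂ (f := fun (g : GL') (_ : g ∈ sameActionSubgroup G σ) =>
      LinearMap.range ((g : End') - 1)) σ hσ')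

theorem fixedSubmodule_sup (A B : Subgroup GL') :
    fixedSubmodule (A ⊔ B) = fixedSubmodule A ⊓ fixedSubmodule B := by
  refine le_antisymm (le_inf (le_iInf₂ fun g hg => iInf₂_le g (Subgroup.mem_sup_left hg))
    (le_iInf₂ fun g hg => iInf₂_le g (Subgroup.mem_sup_right hg))) (le_iInf₂ fun g hg => ?_)
  rw [Subgroup.sup_eq_closure] at hg
  induction hg using Subgroup.closure_induction with
  | mem x hx =>
    rcases hx with hx | hx
    · exact inf_le_left.trans (iInf₂_le x hx)
    · exact inf_le_right.trans (iInf₂_le x hx)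
  | one => intro m _; simp [LinearMap.mem_ker]
  | mul x y _ _ ihx ihy =>
    intro m hm
    have h1 : (x : End') m - m = 0 := ihx hm
    have h2 : (y : End') m - m = 0 := ihy hm
    show ((x * y : GL') : End') m - m = 0
    rw [Units.val_mul, Module.End.mul_apply, sub_eq_zero.1 h2, h1]
  | inv x _ ih =>
    intro m hm
    have h1 : (x : End') m - m = 0 := ih hm
    show ((x⁻¹ : GL') : End') m - m = 0
    conv_lhs => arg 1; rw [← sub_eq_zero.1 h1]
    rw [← Module.End.mul_apply, Units.inv_mul, Module.End.one_apply, sub_self]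

theorem commutatorSubmodule_sup (A B : Subgroup GL') :
    commutatorSubmodule (A ⊔ B) = commutatorSubmodule A ⊔ commutatorSubmodule B := by
  refine le_antisymm (iSup₂_le fun g hg => ?_) (sup_le
    (iSup₂_le fun g hg => le_iSup₂ (f := fun (g : GL') (_ : g ∈ A ⊔ B) =>
      LinearMap.range ((g : End') - 1)) g (Subgroup.mem_sup_left hg))
    (iSup₂_le fun g hg => le_iSup₂ (f := fun (g : GL') (_ : g ∈ A ⊔ B) =>
      LinearMap.range ((g : End') - 1)) g (Subgroup.mem_sup_right hg)))
  rw [Subgroup.sup_eq_closure] at hg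
  induction hg using Subgroup.closure_induction with
  | mem x hx =>
    rcases hx with hx | hx
    · exact le_trans (le_iSup₂ (f := fun (g : GL') (_ : g ∈ A) =>
        LinearMap.range ((g : End') - 1)) x hx) le_sup_left
    · exact le_trans (le_iSup₂ (f := fun (g : GL') (_ : g ∈ B) =>
        LinearMap.range ((g : End') - 1)) x hx) le_sup_right
  | one => simp
  | mul x y _ _ ihx ihy =>
    rintro _ ⟨m, rfl⟩
    have e : ((x * y : GL') : End') m - m =
        ((x : End') - 1) ((y : End') m) + ((y : End') - 1) m := by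
      simp [Units.val_mul, Module.End.mul_apply]
    show ((x * y : GL') : End') m - m ∈ _
    rw [e]
    exact Submodule.add_mem _ (ihx ⟨_, rfl⟩) (ihy ⟨_, rfl⟩)
  | inv x _ ih =>
    rintro _ ⟨m, rfl⟩
    have e : ((x⁻¹ : GL') : End') m - m = -(((x : End') - 1) (((x⁻¹ : GL') : End') m)) := by
      rw [LinearMap.sub_apply, Module.End.one_apply, ← Module.End.mul_apply, Units.mul_inv,
        Module.End.one_apply, neg_sub]
    show ((x⁻¹ : GL') : End') m - m ∈ _
    rw [e]
    exact Submodule.neg_mem _ (ih ⟨_, rfl⟩)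

theorem famGen_le_sup {σ τ : GL'} (hσ : σ ∈ minimalQuadraticElements G)
    (hτ : τ ∈ minimalQuadraticElements G) :
    famGen ((σ : End') - 1) ((τ : End') - 1) ≤ sameActionSubgroup G σ ⊔ sameActionSubgroup G τ := by
  refine (Subgroup.closure_le _).2 ?_
  rintro g ⟨c, hg | hg⟩
  · refine Subgroup.mem_sup_left ((mem_sameAction hσ).2 ?_)
    rw [hg, add_sub_cancel_left]
    exact Submodule.smul_mem _ c (self_mem_espace (mem_minimal.1 hσ).fam)
  · refine Subgroup.mem_sup_right ((mem_sameAction hτ).2 ?_)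
    rw [hg, add_sub_cancel_left]
    exact Submodule.smul_mem _ c (self_mem_espace (mem_minimal.1 hτ).fam)

theorem closure_scalarFamily (σ τ : GL') :
    Subgroup.closure (scalarFamily σ ∪ scalarFamily τ) =
      famGen ((σ : End') - 1) ((τ : End') - 1) := by
  unfold famGen scalarFamily
  congr 1
  ext g
  exact (exists_or).symm

theorem isUnipotentOn_mono {U V : Subgroup GL'} (hUV : U ≤ V) (hV : IsUnipotentOn V) :
    IsUnipotentOn U :=
  let ⟨n, hn⟩ := hV
  ⟨n, fun l hl hlen => hn l (fun g hg => hUV (hl g hg)) hlen⟩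

/-- Non-opposite members generate a unipotent group. -/
theorem sup_unipotent_of_not_opp (h2 : (2 : k) ≠ 0) (hk : Nat.card k ≠ 3) {σ τ : GL'}
    (hσ : σ ∈ minimalQuadraticElements G) (hτ : τ ∈ minimalQuadraticElements G)
    (h : ¬ Opp ((σ : End') - 1) ((τ : End') - 1)) :
    IsUnipotentOn (sameActionSubgroup G σ ⊔ sameActionSubgroup G τ) := by
  have ha := mem_minimal.1 hσ
  have hb := mem_minimal.1 hτ
  set E := espace G ((σ : End') - 1) ha.fam.1 with hE
  set F := espace G ((τ : End') - 1) hb.fam.1 with hF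
  have hEE : E * E = ⊥ := by
    rw [eq_bot_iff, Submodule.mul_le]
    exact fun x hx y hy => (Submodule.mem_bot k).2 (espace_mul_zero hx hy)
  have hFF : F * F = ⊥ := by
    rw [eq_bot_iff, Submodule.mul_le]
    exact fun x hx y hy => (Submodule.mem_bot k).2 (espace_mul_zero hx hy)
  have hEFE : E * (F * E) = ⊥ := by
    rw [eq_bot_iff, Submodule.mul_le]
    intro x hx w hw
    induction hw using Submodule.mul_induction_on' with
    | mem_mul_mem y hy x' hx' =>
      exact (Submodule.mem_bot k).2 (prod_triple_eq_zero h2 hk ha hb h hx hy hx')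
    | add u _ v _ hu hv =>
      rw [mul_add]
      exact Submodule.add_mem _ hu hv
  have hFEF : F * (E * F) = ⊥ := by
    rw [eq_bot_iff, Submodule.mul_le]
    intro x hx w hw
    induction hw using Submodule.mul_induction_on' with
    | mem_mul_mem y hy x' hx' =>
      exact (Submodule.mem_bot k).2
        (prod_triple_eq_zero h2 hk hb ha (fun ho => h ho.symm) hx hy hx')
    | add u _ v _ hu hv =>
      rw [mul_add]
      exact Submodule.add_mem _ hu hv
  set S := E ⊔ F ⊔ E * F ⊔ F * E with hS
  have hSS : S * S ≤ E * F ⊔ F * E := by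
    rw [hS]
    simp only [Submodule.sup_mul, Submodule.mul_sup, mul_assoc, hEE, hFF, hEFE, hFEF,
      Submodule.mul_bot, bot_sup_eq, sup_bot_eq]
    simp only [← mul_assoc, hEE, hFF, Submodule.bot_mul, bot_sup_eq, sup_bot_eq]
    simp only [mul_assoc, hEFE, hFEF, Submodule.mul_bot, bot_sup_eq, sup_bot_eq]
    exact le_of_eq (sup_comm _ _)
  have hS3 : S ^ 3 = ⊥ := by
    rw [eq_bot_iff, pow_succ, pow_succ, pow_one]
    refine le_trans (mul_le_mul' hSS le_rfl) ?_
    rw [hS]
    simp only [Submodule.sup_mul, Submodule.mul_sup, mul_assoc, hEE, hFF, hEFE, hFEF,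
      Submodule.mul_bot, bot_sup_eq, sup_bot_eq]
    simp only [← mul_assoc, hEE, hFF, Submodule.bot_mul, bot_sup_eq, sup_bot_eq]
    simp only [mul_assoc, hEFE, hFEF, Submodule.mul_bot, bot_sup_eq, sup_bot_eq, le_refl]
  have hdisp : Unip.disp (sameActionSubgroup G σ ⊔ sameActionSubgroup G τ) ≤ S := by
    unfold Unip.disp
    rw [Submodule.span_le]
    rintro _ ⟨g, hg, rfl⟩
    rw [SetLike.mem_coe] at hg ⊢
    rw [Subgroup.sup_eq_closure] at hg
    induction hg using Subgroup.closure_induction'' with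
    | mem x hx =>
      rcases hx with hx | hx
      · exact Submodule.mem_sup_left (Submodule.mem_sup_left (Submodule.mem_sup_left
          ((mem_sameAction hσ).1 hx)))
      · exact Submodule.mem_sup_left (Submodule.mem_sup_left (Submodule.mem_sup_right
          ((mem_sameAction hτ).1 hx)))
    | inv_mem x hx =>
      rcases hx with hx | hx
      · exact Submodule.mem_sup_left (Submodule.mem_sup_left (Submodule.mem_sup_left
          ((mem_sameAction hσ).1 (inv_mem hx))))
      · exact Submodule.mem_sup_left (Submodule.mem_sup_left (Submodule.mem_sup_right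
          ((mem_sameAction hτ).1 (inv_mem hx))))
    | one => simp
    | mul x y _ _ ihx ihy =>
      beta_reduce at ihx ihy ⊢
      rw [Unip.mul_sub_one]
      refine Submodule.add_mem _ ?_ (Submodule.add_mem _ ihx ihy)
      have hle : E * F ⊔ F * E ≤ S :=
        sup_le (le_trans le_sup_right le_sup_left) le_sup_right
      exact hle (hSS (Submodule.mul_mem_mul ihx ihy))
  exact Unip.isUnipotentOn_iff.2
    ⟨3, le_bot_iff.1 ((pow_le_pow_left' hdisp 3).trans hS3.le)⟩

theorem not_unipotent_of_opp (h2 : (2 : k) ≠ 0) (hk : Nat.card k ≠ 3) {σ τ : GL'}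
    (hσ : σ ∈ minimalQuadraticElements G) (hτ : τ ∈ minimalQuadraticElements G)
    (h : Opp ((σ : End') - 1) ((τ : End') - 1)) :
    ¬ IsUnipotentOn (sameActionSubgroup G σ ⊔ sameActionSubgroup G τ) := by
  intro hu
  obtain ⟨n, hn⟩ := Unip.isUnipotentOn_iff.1 hu
  obtain ⟨e, y, hp⟩ := h.partner h2 hk (mem_minimal.1 hσ) (mem_minimal.1 hτ)
  set a := (σ : End') - 1
  have hay : a * y ∈ Unip.disp (sameActionSubgroup G σ ⊔ sameActionSubgroup G τ) := by
    refine Unip.disp_mul_le _ (Submodule.mul_mem_mul ?_ ?_)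
    · exact Unip.sub_mem_disp (Subgroup.mem_sup_left (Subgroup.subset_closure ⟨hσ, rfl, rfl⟩))
    · have hy : y ∈ espace G ((τ : End') - 1) (mem_minimal.1 hτ).fam.1 :=
        ⟨hp.min.fam, hp.ker_eq.ge, hp.range_eq.le⟩
      have := Unip.sub_mem_disp (U := sameActionSubgroup G σ ⊔ sameActionSubgroup G τ)
        (Subgroup.mem_sup_right (mem_sameAction_of_fam hτ hy))
      rwa [coe_oneAdd, add_sub_cancel_left] at this
  have hidem : IsIdempotentElem (a * y) := by
    show a * y * (a * y) = a * y
    rw [← mul_assoc, mul_assoc a y a, hp.aya]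
  have h0 : a * y = 0 := by
    rcases n with _ | m
    · rw [pow_zero, eq_bot_iff] at hn
      have h1 : (1 : End') = 0 := (Submodule.mem_bot k).1 (hn (Submodule.one_le.1 le_rfl))
      rw [← one_mul (a * y), h1, zero_mul]
    · have := Submodule.pow_mem_pow _ hay (m + 1)
      rwa [hn, hidem.pow_succ_eq, Submodule.mem_bot] at this
  apply (mem_minimal.1 hσ).ne
  show a = 0
  rw [← hp.aya, ← mul_assoc, h0, zero_mul]

/-- The group of two opposite families is `SL₂` of a simple extension field. -/
theorem famGen_equiv_SL2 (h2 : (2 : k) ≠ 0) (hk : Nat.card k ≠ 3) {a b : End'} (ha : IsMin G a)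
    (hb : IsMin G b) (h : Opp a b) :
    ∃ (K : Type u) (_ : Field K) (_ : Algebra k K) (lam : K), IsAlgebraic k lam ∧
      IntermediateField.adjoin k ({lam} : Set K) = ⊤ ∧
      Nonempty (↥(famGen a b) ≃* Matrix.SpecialLinearGroup (Fin 2) K) := by
  rcases dichotomy h2 hk ha hb with ⟨-, -, hn⟩ | ⟨-, e, y, hc, hae, hbe, hm, hy, hp⟩
  · exact absurd h hn
  set ρ := Corner.rho a b e with hρ
  let I : Ideal (Corner.Ring' a b e) :=
    { carrier := {r | ρ r = 0}
      zero_mem' := map_zero ρ
      add_mem' := fun {r s} (hr : ρ r = 0) (hs : ρ s = 0) => by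
        show ρ (r + s) = 0
        rw [map_add, hr, hs, add_zero]
      smul_mem' := fun c r (hr : ρ r = 0) => by
        show ρ (c • r) = 0
        rw [smul_eq_mul, hm.mul, hr, mul_zero] }
  have hsplit : ∀ r, ρ r * a = 0 → ρ r = 0 := by
    intro r hr
    rw [← hm.rho_e r, hm.one, mul_add, ← mul_assoc, hr, zero_mul, zero_add, ← mul_assoc,
      ← hm.comm_y, mul_assoc, hr, mul_zero]
  have hprime : I.IsPrime := by
    refine Ideal.isPrime_iff.2 ⟨fun htop => ?_, fun {r s} hrs => ?_⟩
    · have h1 : ρ 1 = 0 := by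
        have : (1 : Corner.Ring' a b e) ∈ I := htop ▸ Submodule.mem_top
        exact this
      exact ha.ne (by rw [← hm.e_a, h1, zero_mul])
    · by_cases hs : ρ s = 0
      · exact Or.inr hs
      left
      refine hsplit r ?_
      have hfam : IsFam G (ρ s * a) := by
        have := (hc.isFam_corner (hae.symm ▸ hm) (hy.trans hbe.symm) h2 hk s).mono
          (famGen_le ha.fam hb.fam)
        rwa [hae] at this
      obtain ⟨-, -, hr⟩ := ha.eq_spaces hfam (fun h0 => hs (hsplit s h0)) (ker_le_ker_mul _ a)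
        (hm.comm_a s ▸ range_mul_le a _)
      refine LinearMap.ext fun m => ?_
      obtain ⟨n, hn⟩ := hr.ge ⟨m, rfl⟩
      have h0 : ρ r * ρ s = 0 := by rw [← hm.mul]; exact hrs
      rw [Module.End.mul_apply, ← hn, ← Module.End.mul_apply, ← mul_assoc, h0, zero_mul]
      rfl
  have : FiniteDimensional k (Corner.Ring' a b e) := Corner.finite_ring' a b e
  have : IsArtinianRing (Corner.Ring' a b e) := IsArtinianRing.of_finite k _
  have hmax : I.IsMaximal := IsArtinianRing.isMaximal_of_isPrime I
  let := Ideal.Quotient.field I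
  let ρK : (Corner.Ring' a b e ⧸ I) →+ End' :=
    QuotientAddGroup.lift I.toAddSubgroup ρ (fun r hr => hr)
  have hρK : ∀ r, ρK (Ideal.Quotient.mk I r) = ρ r := fun r => rfl
  have hmK : MatUnits ρK a y :=
    { aa := hm.aa
      yy := hm.yy
      aya := hm.aya
      yay := hm.yay
      one := by rw [← map_one (Ideal.Quotient.mk I), hρK, hm.one]
      mul := fun r s => by
        obtain ⟨r, rfl⟩ := Ideal.Quotient.mk_surjective r
        obtain ⟨s, rfl⟩ := Ideal.Quotient.mk_surjective s
        rw [← map_mul, hρK, hρK, hρK, hm.mul]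
      comm_a := fun r => by
        obtain ⟨r, rfl⟩ := Ideal.Quotient.mk_surjective r
        exact hm.comm_a r
      comm_y := fun r => by
        obtain ⟨r, rfl⟩ := Ideal.Quotient.mk_surjective r
        exact hm.comm_y r }
  have hinj : Function.Injective ρK := by
    rw [injective_iff_map_eq_zero]
    intro r hr
    obtain ⟨r, rfl⟩ := Ideal.Quotient.mk_surjective r
    exact Ideal.Quotient.eq_zero_iff_mem.2 hr
  have hrange : hmK.rep.range = famGen a b := by
    refine le_antisymm ?_ ((Subgroup.closure_le _).2 ?_)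
    · rintro _ ⟨g, rfl⟩
      have hg : g ∈ lowerUnipotentSL2 (Corner.Ring' a b e ⧸ I) ⊔
          upperUnipotentSL2 (Corner.Ring' a b e ⧸ I) := by rw [SLTwo.sup_eq_top]; trivial
      obtain ⟨u, hu⟩ := hc.isUnit_root
      have hyu : y = ρ (↑u⁻¹ : Corner.Ring' a b e) * b :=
        calc y = ρ (↑u⁻¹ : Corner.Ring' a b e) * (ρ (AdjoinRoot.root _) * y) := by
              rw [← mul_assoc, ← hm.mul, ← hu, Units.inv_mul, hm.e_y]
          _ = _ := congrArg _ hy
      refine (sup_le (?_ : lowerUnipotentSL2 (Corner.Ring' a b e ⧸ I) ≤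
        (famGen a b).comap hmK.rep) ?_) hg
      · intro z hz
        obtain ⟨t, rfl⟩ := SLTwo.mem_lower.1 hz
        obtain ⟨t, rfl⟩ := Ideal.Quotient.mk_surjective t
        obtain ⟨g, hg, hge⟩ := (isFam_corner_right (y := y) hc (hae.symm ▸ hm) h2 hk
          (t * (↑u⁻¹ : Corner.Ring' a b e))).2 1
        show hmK.rep (Gen.rLow (Ideal.Quotient.mk I t)) ∈ famGen a b
        rwa [show hmK.rep (Gen.rLow (Ideal.Quotient.mk I t)) = g from Units.ext (by
          rw [hmK.rep_rLow, hρK, hge, hbe, one_smul, hyu, ← mul_assoc, ← hm.mul])]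
      · intro z hz
        obtain ⟨t, rfl⟩ := SLTwo.mem_upper.1 hz
        obtain ⟨t, rfl⟩ := Ideal.Quotient.mk_surjective t
        obtain ⟨g, hg, hge⟩ := (hc.isFam_corner (hae.symm ▸ hm) (hy.trans hbe.symm) h2 hk t).2 1
        show hmK.rep (Gen.rUp (Ideal.Quotient.mk I t)) ∈ famGen a b
        rwa [show hmK.rep (Gen.rUp (Ideal.Quotient.mk I t)) = g from Units.ext (by
          rw [hmK.rep_rUp, hρK, hge, hae, one_smul])]
    · rintro g ⟨c, hg | hg⟩
      · refine ⟨Gen.rUp (Ideal.Quotient.mk I (algebraMap k _ c)), Units.ext ?_⟩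
        rw [hmK.rep_rUp, hρK, Corner.rho_algebraMap, hg, smul_mul_assoc, hc.ea, hae]
      · refine ⟨Gen.rLow (Ideal.Quotient.mk I (algebraMap k _ c * AdjoinRoot.root _)), Units.ext ?_⟩
        rw [hmK.rep_rLow, hρK, hc.rho_smul, hg, smul_mul_assoc, hy]
  refine ⟨Corner.Ring' a b e ⧸ I, inferInstance, inferInstance,
    Ideal.Quotient.mk I (AdjoinRoot.root _), ?_, ?_, ?_⟩
  · exact Algebra.IsAlgebraic.isAlgebraic _
  · refine IntermediateField.adjoin_eq_top_of_algebra _ _ ?_
    rw [← Set.image_singleton, ← Ideal.Quotient.mkₐ_eq_mk k, ← AlgHom.map_adjoin,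
      AdjoinRoot.adjoinRoot_eq_top, Algebra.map_top, AlgHom.range_eq_top]
    exact Ideal.Quotient.mkₐ_surjective k I
  · exact ⟨((MulEquiv.subgroupCongr hrange.symm).trans
      (MonoidHom.ofInjective (hmK.rep_injective hinj)).symm)⟩

end CfsgLib.RootSubgroups.QP
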