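import Cfsg.Agent.RootSubgroups.RankOne

/-!
# Special rank one groups with abelian unipotent subgroups
-/

set_option autoImplicit false

namespace CfsgLib.RootSubgroups

open Cfsg

variable {G : Type*} [Group G]

/-- A special rank one pair with abelian unipotent subgroups. -/
structure AbSpecial (A B : Subgroup G) : Prop where
  sp : IsSpecialRankOnePair A B
  commA : ∀ x ∈ A, ∀ y ∈ A, x * y = y * x
  commB : ∀ x ∈ B, ∀ y ∈ B, x * y = y * x

theorem AbSpecial.of_commutative {A B : Subgroup G} (h : IsSpecialRankOnePair A B)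
    (hA : IsMulCommutative A) (hB : IsMulCommutative B) : AbSpecial A B :=
  ⟨h, fun x hx y hy => congrArg Subtype.val (mul_comm' (⟨x, hx⟩ : A) ⟨y, hy⟩),
    fun x hx y hy => congrArg Subtype.val (mul_comm' (⟨x, hx⟩ : B) ⟨y, hy⟩)⟩

open Classical in
/-- The inverse of the partner of `a`. -/
noncomputable def opp (A B : Subgroup G) (a : G) : G :=
  if a = 1 then 1
  else if h : ∃ b : G, b ∈ B ∧ b ≠ 1 ∧ conjBy A b⁻¹ = conjBy B a⁻¹ then h.choose⁻¹ else 1

/-- The element `a c a` interchanging the unipotent subgroups. -/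
noncomputable def flip1 (A B : Subgroup G) (a : G) : G := a * opp A B a * a

namespace AbSpecial

variable {A B : Subgroup G}

theorem rk (h : AbSpecial A B) : IsRankOnePair A B := h.sp.1

theorem opp_one (A B : Subgroup G) : opp A B 1 = 1 := by simp [opp]

theorem opp_spec (h : AbSpecial A B) {a : G} (ha : a ∈ A) (ha1 : a ≠ 1) :
    opp A B a ∈ B ∧ opp A B a ≠ 1 ∧ conjBy A (opp A B a) = conjBy B a⁻¹ ∧
      a * opp A B a * a = opp A B a * a * opp A B a := by
  have hex : ∃ b : G, b ∈ B ∧ b ≠ 1 ∧ conjBy A b⁻¹ = conjBy B a⁻¹ := h.rk.cond_left a ha ha1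
  have hdef : opp A B a = hex.choose⁻¹ := by simp [opp, ha1, dif_pos hex]
  obtain ⟨hb, hb1, hab⟩ := hex.choose_spec
  rw [hdef]
  refine ⟨inv_mem hb, fun h0 => hb1 (inv_eq_one.1 h0), hab, ?_⟩
  have := h.sp.2 a ha ha1 _ hb hb1 hab
  generalize hex.choose = b at this ⊢
  calc a * b⁻¹ * a = a * (b⁻¹ * a * b) * b⁻¹ := by simp [mul_assoc]
    _ = a * (a⁻¹ * b⁻¹ * a) * b⁻¹ := by rw [this]
    _ = b⁻¹ * a * b⁻¹ := by simp [mul_assoc]

theorem opp_mem (h : AbSpecial A B) {a : G} (ha : a ∈ A) : opp A B a ∈ B := by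
  by_cases ha1 : a = 1
  · rw [ha1, opp_one]; exact one_mem _
  · exact (opp_spec h ha ha1).1

theorem opp_ne_one (h : AbSpecial A B) {a : G} (ha : a ∈ A) (ha1 : a ≠ 1) : opp A B a ≠ 1 :=
  (opp_spec h ha ha1).2.1

theorem opp_conj (h : AbSpecial A B) {a : G} (ha : a ∈ A) (ha1 : a ≠ 1) :
    conjBy A (opp A B a) = conjBy B a⁻¹ :=
  (opp_spec h ha ha1).2.2.1

theorem braid (h : AbSpecial A B) {a : G} (ha : a ∈ A) (ha1 : a ≠ 1) :
    a * opp A B a * a = opp A B a * a * opp A B a :=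
  (opp_spec h ha ha1).2.2.2

theorem opp_unique (h : AbSpecial A B) {a c : G} (ha : a ∈ A) (ha1 : a ≠ 1) (hc : c ∈ B)
    (hac : conjBy A c = conjBy B a⁻¹) : c = opp A B a := by
  have hc1 : c⁻¹ ≠ 1 := by
    intro h0
    rw [inv_eq_one.1 h0, conjBy_one, eq_comm, conjBy_eq_iff, inv_inv,
      conjBy_self_of_mem ha] at hac
    exact h.rk.ne hac.symm
  obtain ⟨b, -, hu⟩ := RankOne.partner_unique h.rk ha ha1
  have h1 := hu c⁻¹ ⟨inv_mem hc, hc1, by rw [inv_inv]; exact hac⟩
  have h2 := hu (opp A B a)⁻¹ ⟨inv_mem (opp_mem h ha),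
    fun h0 => opp_ne_one h ha ha1 (inv_eq_one.1 h0), by rw [inv_inv]; exact opp_conj h ha ha1⟩
  exact inv_injective (h1.trans h2.symm)

theorem eq_of_mem_mem (h : AbSpecial A B) {C D : Subgroup G} (hC : C ∈ unipotentSubgroups A B)
    (hD : D ∈ unipotentSubgroups A B) {x : G} (hxC : x ∈ C) (hxD : x ∈ D) (hx : x ≠ 1) :
    C = D := by
  by_contra hne
  exact hx (RankOne.eq_one_of_normalizes (RankOne.pair_of_mem h.rk hC hD hne) hxC
    (conjBy_self_of_mem hxD))

theorem flip_mem (h : AbSpecial A B) {a : G} (ha : a ∈ A) : flip1 A B a ∈ A ⊔ B :=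
  mul_mem (mul_mem (Subgroup.mem_sup_left ha) (Subgroup.mem_sup_right (opp_mem h ha)))
    (Subgroup.mem_sup_left ha)

theorem conjBy_flip_left (h : AbSpecial A B) {a : G} (ha : a ∈ A) (ha1 : a ≠ 1) :
    conjBy A (flip1 A B a) = B := by
  rw [flip1, ← conjBy_conjBy, conjBy_self_of_mem ha, ← conjBy_conjBy, opp_conj h ha ha1,
    conjBy_conjBy, mul_inv_cancel, conjBy_one]

theorem flip_mul_self (h : AbSpecial A B) {a : G} (ha : a ∈ A) (ha1 : a ≠ 1) :
    flip1 A B a * a = opp A B a * flip1 A B a := by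
  have := braid h ha ha1
  calc flip1 A B a * a = a * opp A B a * a * a := rfl
    _ = opp A B a * a * opp A B a * a := by rw [this]
    _ = opp A B a * flip1 A B a := by simp [flip1, mul_assoc]

theorem flip_mul_opp (h : AbSpecial A B) {a : G} (ha : a ∈ A) (ha1 : a ≠ 1) :
    flip1 A B a * opp A B a = a * flip1 A B a := by
  have := braid h ha ha1
  calc flip1 A B a * opp A B a = a * (opp A B a * a * opp A B a) := by simp [flip1, mul_assoc]
    _ = a * flip1 A B a := by rw [← this]; rfl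

theorem conjBy_flip_right (h : AbSpecial A B) {a : G} (ha : a ∈ A) (ha1 : a ≠ 1) :
    conjBy B (flip1 A B a) = A := by
  refine eq_of_mem_mem h (RankOne.conjBy_mem_unipotent (RankOne.right_mem_unipotent h.rk)
    (flip_mem h ha)) RankOne.left_mem_unipotent (x := a) ?_ ha ha1
  refine mem_conjBy.2 ?_
  rw [mul_assoc, ← flip_mul_opp h ha ha1, inv_mul_cancel_left]
  exact opp_mem h ha

theorem opp_inv_conj (h : AbSpecial A B) {a : G} (ha : a ∈ A) (ha1 : a ≠ 1) :
    conjBy A (opp A B a)⁻¹ = conjBy B a := by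
  have h1 := conjBy_flip_right h ha ha1
  rw [flip1, braid h ha ha1, ← conjBy_conjBy, conjBy_self_of_mem (opp_mem h ha),
    ← conjBy_conjBy, conjBy_eq_iff] at h1
  exact h1.symm

theorem opp_inv (h : AbSpecial A B) {a : G} (ha : a ∈ A) : opp A B a⁻¹ = (opp A B a)⁻¹ := by
  by_cases ha1 : a = 1
  · simp [ha1, opp_one]
  · exact (opp_unique h (inv_mem ha) (by simpa using ha1) (inv_mem (opp_mem h ha))
      (by rw [inv_inv]; exact opp_inv_conj h ha ha1)).symm

theorem exists_opp_eq (h : AbSpecial A B) {b : G} (hb : b ∈ B) (hb1 : b ≠ 1) :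
    ∃ a ∈ A, a ≠ 1 ∧ opp A B a = b := by
  obtain ⟨a, ha, ha1, hab⟩ := h.rk.cond_right b hb hb1
  refine ⟨a⁻¹, inv_mem ha, by simpa using ha1, ?_⟩
  have : b⁻¹ = opp A B a := opp_unique h ha ha1 (inv_mem hb) hab.symm
  rw [opp_inv h ha, ← this, inv_inv]

theorem opp_injective (h : AbSpecial A B) {a e : G} (ha : a ∈ A) (he : e ∈ A)
    (hae : opp A B a = opp A B e) : a = e := by
  by_cases ha1 : a = 1
  · by_contra hne
    exact opp_ne_one h he (fun h0 => hne (ha1.trans h0.symm)) (by rw [← hae, ha1, opp_one])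
  by_cases he1 : e = 1
  · exact absurd (by rw [hae, he1, opp_one]) (opp_ne_one h ha ha1)
  have h1 := (opp_conj h ha ha1).symm.trans (hae ▸ opp_conj h he he1)
  rw [conjBy_eq_iff, inv_inv, conjBy_conjBy] at h1
  have h2 : a * e⁻¹ = 1 :=
    RankOne.eq_one_of_normalizes h.rk (mul_mem ha (inv_mem he)) h1.symm
  exact mul_inv_eq_one.1 h2

theorem symm (h : AbSpecial A B) : AbSpecial B A := by
  refine ⟨⟨RankOne.symm h.rk, fun b hb hb1 a ha ha1 hba => ?_⟩, h.commB, h.commA⟩
  have := congrArg (fun t => t⁻¹) (h.sp.2 a ha ha1 b hb hb1 hba.symm)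
  simpa [mul_assoc] using this.symm

theorem flip_conj_mem (h : AbSpecial A B) {a y : G} (ha : a ∈ A) (ha1 : a ≠ 1) (hy : y ∈ A) :
    flip1 A B a * y * (flip1 A B a)⁻¹ ∈ B := by
  exact (conjBy_flip_left h ha ha1).le (mem_conjBy.2 (by simpa [mul_assoc] using hy))

theorem flip_conj_mem' (h : AbSpecial A B) {a y : G} (ha : a ∈ A) (ha1 : a ≠ 1) (hy : y ∈ B) :
    flip1 A B a * y * (flip1 A B a)⁻¹ ∈ A := by
  exact (conjBy_flip_right h ha ha1).le (mem_conjBy.2 (by simpa [mul_assoc] using hy))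

theorem flip_inv_conj_mem (h : AbSpecial A B) {a y : G} (ha : a ∈ A) (ha1 : a ≠ 1) (hy : y ∈ A) :
    (flip1 A B a)⁻¹ * y * flip1 A B a ∈ B := by
  rw [← conjBy_flip_right h ha ha1, mem_conjBy] at hy
  exact hy

theorem flip_conj_self (h : AbSpecial A B) {a : G} (ha : a ∈ A) (ha1 : a ≠ 1) :
    flip1 A B a * a * (flip1 A B a)⁻¹ = opp A B a := by
  rw [flip_mul_self h ha ha1, mul_inv_cancel_right]

theorem flip_conj_opp (h : AbSpecial A B) {a : G} (ha : a ∈ A) (ha1 : a ≠ 1) :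
    flip1 A B a * opp A B a * (flip1 A B a)⁻¹ = a := by
  rw [flip_mul_opp h ha ha1, mul_inv_cancel_right]

theorem regular_right (h : AbSpecial A B) {x y : G} (hx : x ∈ B) (hy : y ∈ B)
    (hxy : conjBy A x = conjBy A y) : x = y := by
  rw [conjBy_eq_iff, conjBy_conjBy] at hxy
  have h1 : x⁻¹ * y = 1 :=
    RankOne.eq_one_of_normalizes (RankOne.symm h.rk) (mul_mem (inv_mem hx) hy) hxy.symm
  exact inv_mul_eq_one.1 h1

/-- The fundamental identity of special rank one groups. -/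
theorem hua (h : AbSpecial A B) {a e s : G} (ha : a ∈ A) (ha1 : a ≠ 1) (he : e ∈ A)
    (hae : a * e ≠ 1) (hs : s ∈ A) (hs1 : s ≠ 1)
    (hse : opp A B s = flip1 A B a * e * (flip1 A B a)⁻¹) :
    a * s ≠ 1 ∧ opp A B a * opp A B (a * e)⁻¹ = opp A B (a * s) := by
  have hae' : (a * e)⁻¹ ∈ A := inv_mem (mul_mem ha he)
  have hae1 : (a * e)⁻¹ ≠ 1 := fun h0 => hae (inv_eq_one.1 h0)
  have hca : opp A B a * (a * e) = a⁻¹ * (opp A B s * flip1 A B a) := by
    rw [hse]
    simp [flip1, mul_assoc]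
  have hpt : conjBy A (opp A B a * opp A B (a * e)⁻¹) = conjBy B (a * s)⁻¹ := by
    rw [← conjBy_conjBy, opp_conj h hae' hae1, inv_inv, conjBy_conjBy, hca, ← mul_assoc,
      ← conjBy_conjBy, conjBy_flip_right h ha ha1, ← conjBy_conjBy, opp_conj h hs hs1,
      conjBy_conjBy, ← mul_inv_rev, h.commA _ hs _ ha]
  have hmemB : opp A B a * opp A B (a * e)⁻¹ ∈ B := mul_mem (opp_mem h ha) (opp_mem h hae')
  have hne : a * s ≠ 1 := by
    intro h0
    rw [h0, inv_one, conjBy_one] at hpt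
    rw [conjBy_eq_iff, conjBy_self_of_mem (inv_mem hmemB)] at hpt
    exact h.rk.ne hpt
  exact ⟨hne, opp_unique h (mul_mem ha hs) hne hmemB hpt⟩

theorem pow_eq_one_iff_conj (g x : G) (k : ℕ) : (g * x * g⁻¹) ^ k = 1 ↔ x ^ k = 1 := by
  rw [conj_pow, mul_inv_eq_one]
  exact mul_eq_left

/-- `(opp (a ^ m)) ^ m = opp a`, provided there is no torsion below `m`. -/
theorem opp_pow (h : AbSpecial A B) :
    ∀ m : ℕ, 0 < m → (∀ k, 0 < k → k < m → ∀ x ∈ A, x ^ k = 1 → x = 1) →
      ∀ a ∈ A, a ^ m ≠ 1 → opp A B (a ^ m) ^ m = opp A B a := by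
  intro m
  induction m using Nat.strong_induction_on with
  | _ m ih =>
    intro hm hnt a ha ham
    obtain ⟨k, rfl⟩ : ∃ k, m = k + 1 := ⟨m - 1, by omega⟩
    rcases Nat.eq_zero_or_pos k with rfl | hk
    · simp
    have hIH : ∀ x ∈ A, x ≠ 1 → opp A B (x ^ k) ^ k = opp A B x := fun x hx hx1 =>
      ih k (by omega) hk (fun j hj hjk => hnt j hj (by omega)) x hx
        (fun h0 => hx1 (hnt k hk (by omega) x hx h0))
    have ha1 : a ≠ 1 := fun h0 => ham (by rw [h0, one_pow])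
    set c := opp A B a with hcdef
    have hconj : flip1 A B a * a ^ k * (flip1 A B a)⁻¹ = c ^ k := by
      rw [← conj_pow, flip_conj_self h ha ha1]
    have hck : c ^ k ≠ 1 := by
      rw [← hconj]
      intro h0
      have : a ^ k = 1 := by
        simpa [mul_assoc] using congrArg (fun t => (flip1 A B a)⁻¹ * t * flip1 A B a) h0
      exact ha1 (hnt k hk (by omega) a ha this)
    obtain ⟨s, hs, hs1, hsc⟩ := exists_opp_eq h (pow_mem (opp_mem h ha) k) hck
    obtain ⟨has, hh⟩ := hua h ha ha1 (pow_mem ha k) (by rwa [← pow_succ']) hs hs1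
      (by rw [hsc, hconj])
    -- `s ^ k = a`
    have hsk : s ^ k = a := by
      apply opp_injective h (pow_mem hs k) ha
      have h1 := hIH s hs hs1
      rw [hsc] at h1
      -- `k`-th powers are injective on `B`
      have h2 : (opp A B (s ^ k) * c⁻¹) ^ k = 1 := by
        have hcomm : Commute (opp A B (s ^ k)) c⁻¹ :=
          h.commB _ (opp_mem h (pow_mem hs k)) _ (inv_mem (opp_mem h ha))
        rw [hcomm.mul_pow, h1, inv_pow, mul_inv_cancel]
      have h3 := hnt k hk (by omega) _ (flip_conj_mem' h ha ha1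
        (mul_mem (opp_mem h (pow_mem hs k)) (inv_mem (opp_mem h ha))))
        ((pow_eq_one_iff_conj _ _ k).2 h2)
      have h4 : opp A B (s ^ k) * c⁻¹ = 1 := by
        simpa [mul_assoc] using congrArg (fun t => (flip1 A B a)⁻¹ * t * flip1 A B a) h3
      exact mul_inv_eq_one.1 h4
    have hw : s ^ (k + 1) = a * s := by rw [pow_succ, hsk]
    have hwA : s ^ (k + 1) ∈ A := pow_mem hs _
    have hw1 : s ^ (k + 1) ≠ 1 := hw ▸ has
    have h5 := hIH _ hwA hw1
    have hwk : (s ^ (k + 1)) ^ k = a ^ (k + 1) := by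
      rw [← pow_mul, mul_comm, pow_mul, hsk]
    rw [hwk, hw, ← hh, opp_inv h (mul_mem ha (pow_mem ha k)), ← pow_succ'] at h5
    rw [pow_succ, h5, inv_mul_cancel_right]

/-- Either the unipotent subgroup has prime exponent or it is torsion-free and divisible. -/
theorem exponent_or_divisible (h : AbSpecial A B) :
    (∃ p : ℕ, p.Prime ∧ ∀ a ∈ A, a ^ p = 1) ∨
    ((∀ a ∈ A, a ≠ 1 → ¬ IsOfFinOrder a) ∧ ∀ a ∈ A, ∀ n : ℕ, 0 < n → ∃ c ∈ A, c ^ n = a) := by
  classical
  by_cases htf : ∀ m : ℕ, 0 < m → ∀ x ∈ A, x ^ m = 1 → x = 1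
  · right
    refine ⟨fun a ha ha1 hfin => ?_, fun a ha n hn => ?_⟩
    · obtain ⟨m, hm, ham⟩ := isOfFinOrder_iff_pow_eq_one.1 hfin
      exact ha1 (htf m hm a ha ham)
    · by_cases ha1 : a = 1
      · exact ⟨1, one_mem _, by rw [one_pow, ha1]⟩
      have han : a ^ n ≠ 1 := fun h0 => ha1 (htf n hn a ha h0)
      refine ⟨(flip1 A B a)⁻¹ * opp A B (a ^ n) * flip1 A B a, ?_, ?_⟩
      · exact mem_conjBy.1 ((conjBy_flip_left h ha ha1).ge (opp_mem h (pow_mem ha n)))
      · have := conj_pow (a := (flip1 A B a)⁻¹) (b := opp A B (a ^ n)) (i := n)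
        rw [inv_inv] at this
        rw [this, opp_pow h n hn (fun k hk _ => htf k hk) a ha han, mul_assoc,
          ← flip_mul_self h ha ha1, inv_mul_cancel_left]
  · left
    push Not at htf
    have hex : ∃ m, 0 < m ∧ ∃ x ∈ A, x ^ m = 1 ∧ x ≠ 1 := by
      obtain ⟨m, hm, x, hx, hxm, hx1⟩ := htf
      exact ⟨m, hm, x, hx, hxm, hx1⟩
    obtain ⟨hp0, a, ha, hap, ha1⟩ := Nat.find_spec hex
    have hmin : ∀ k, 0 < k → k < Nat.find hex → ∀ x ∈ A, x ^ k = 1 → x = 1 := by
      intro k hk hkp x hx hxk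
      by_contra hx1
      exact Nat.find_min hex hkp ⟨hk, x, hx, hxk, hx1⟩
    set p := Nat.find hex with hpdef
    refine ⟨p, ?_, fun x hx => ?_⟩
    · rw [Nat.prime_def_lt']
      refine ⟨?_, fun m hm2 hmp hdvd => ?_⟩
      · by_contra hlt
        have : p = 1 := by omega
        rw [this, pow_one] at hap
        exact ha1 hap
      · obtain ⟨r, hr⟩ := hdvd
        have hr0 : 0 < r := by
          rcases Nat.eq_zero_or_pos r with h0 | h0
          · rw [h0, mul_zero] at hr; omega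
          · exact h0
        have hrp : r < p := by rw [hr]; exact lt_mul_left hr0 (by omega)
        refine ha1 (hmin r hr0 hrp a ha ?_)
        refine hmin m (by omega) hmp _ (pow_mem ha r) ?_
        rw [← pow_mul, mul_comm, ← hr, hap]
    · by_contra hxp
      have hx1 : x ≠ 1 := fun h0 => hxp (by rw [h0, one_pow])
      have hax : (a * x) ^ p = x ^ p := by
        rw [(show Commute a x from h.commA _ ha _ hx).mul_pow, hap, one_mul]
      have e1 := opp_pow h p hp0 hmin x hx hxp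
      have e2 := opp_pow h p hp0 hmin (a * x) (mul_mem ha hx) (hax ▸ hxp)
      rw [hax] at e2
      exact ha1 (by simpa using opp_injective h (mul_mem ha hx) hx (e2.symm.trans e1))

end AbSpecial

end CfsgLib.RootSubgroups
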