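import Cfsg.Agent.RootSubgroups.QPGroup
import Cfsg.Agent.RootSubgroups.Special

/-!
# Opposite members form special rank one pairs
-/

set_option autoImplicit false

namespace CfsgLib.RootSubgroups.QP

open Cfsg

universe u v

variable {k : Type u} [Field k] {M : Type v} [AddCommGroup M] [Module k M] [FiniteDimensional k M]
variable {G : Subgroup (LinearMap.GeneralLinearGroup k M)}

local notation "GL'" => LinearMap.GeneralLinearGroup k M
local notation "End'" => Module.End k M

namespace Partner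

variable {a b e y : Module.End k M}

theorem idem (hp : Partner G a b e y) (ha : a * a = 0) : e * e = e := by
  have haa : ∀ t, a * (a * t) = 0 := fun t => by rw [← mul_assoc, ha, zero_mul]
  have hyy : ∀ t, y * (y * t) = 0 := fun t => by rw [← mul_assoc, hp.min.fam.1, zero_mul]
  rw [hp.eq]
  simp only [add_mul, mul_add, mul_assoc, haa, hyy, mul_zero, add_zero, zero_add, hp.yay, hp.aya]

theorem mem_espace (hp : Partner G a b e y) (hb : IsMin G b) : y ∈ espace G b hb.fam.1 :=
  ⟨hp.min.fam, hp.ker_eq.ge, hp.range_eq.le⟩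

/-- Elements of the first family space commute with the idempotent and lie in its corner. -/
theorem left_corner (hp : Partner G a b e y) (ha : a * a = 0) {x : End'}
    (hk : LinearMap.ker a ≤ LinearMap.ker x) (hr : LinearMap.range x ≤ LinearMap.range a) :
    e * x = x ∧ x * e = x := by
  refine ⟨LinearMap.ext fun m => ?_, ?_⟩
  · obtain ⟨n, hn⟩ := hp.range_e.ge (Submodule.mem_sup_left (hr ⟨m, rfl⟩))
    rw [Module.End.mul_apply, ← hn, ← Module.End.mul_apply, hp.idem ha]
  · have h0 : x * (1 - e) = 0 := by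
      refine mul_eq_zero_of_le ?_
      rintro _ ⟨m, rfl⟩
      have hm : (1 - e) m ∈ LinearMap.ker e := by
        show e ((1 - e) m) = 0
        rw [← Module.End.mul_apply, mul_sub, mul_one, hp.idem ha, sub_self, LinearMap.zero_apply]
      exact hk (hp.ker_e.le hm).1
    rw [mul_sub, mul_one, sub_eq_zero] at h0
    exact h0.symm

theorem right_corner (hp : Partner G a b e y) (ha : a * a = 0) {x : End'}
    (hk : LinearMap.ker b ≤ LinearMap.ker x) (hr : LinearMap.range x ≤ LinearMap.range b) :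
    e * x = x ∧ x * e = x := by
  refine ⟨LinearMap.ext fun m => ?_, ?_⟩
  · obtain ⟨n, hn⟩ := hp.range_e.ge (Submodule.mem_sup_right (hr ⟨m, rfl⟩))
    rw [Module.End.mul_apply, ← hn, ← Module.End.mul_apply, hp.idem ha]
  · have h0 : x * (1 - e) = 0 := by
      refine mul_eq_zero_of_le ?_
      rintro _ ⟨m, rfl⟩
      have hm : (1 - e) m ∈ LinearMap.ker e := by
        show e ((1 - e) m) = 0
        rw [← Module.End.mul_apply, mul_sub, mul_one, hp.idem ha, sub_self, LinearMap.zero_apply]
      exact hk (hp.ker_e.le hm).2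
    rw [mul_sub, mul_one, sub_eq_zero] at h0
    exact h0.symm

end Partner

/-- The flip `(1 + a)(1 - y)(1 + a)`. -/
def pflip (a y : Module.End k M) (ha : a * a = 0) (hy : y * y = 0) :
    LinearMap.GeneralLinearGroup k M :=
  oneAdd a ha * (oneAdd y hy)⁻¹ * oneAdd a ha

theorem pflip_mem {a y : End'} (ha : IsFam G a) (hy : IsFam G y) :
    pflip a y ha.1 hy.1 ∈ G :=
  mul_mem (mul_mem ha.one_mem' (inv_mem hy.one_mem')) ha.one_mem'

theorem coe_pflip {a y e : End'} (ha : a * a = 0) (hy : y * y = 0) (haya : a * (y * a) = a)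
    (he : e = a * y + y * a) :
    ((pflip a y ha hy : GL') : End') = 1 - e + a - y ∧
      (((pflip a y ha hy)⁻¹ : GL') : End') = 1 - e - a + y := by
  subst he
  refine ⟨?_, ?_⟩
  · show (1 + a) * (1 - y) * (1 + a) = _
    simp only [add_mul, mul_add, sub_mul, mul_sub, one_mul, mul_one, mul_assoc, ha, haya]
    abel
  · show (1 - a) * ((1 + y) * (1 - a)) = _
    simp only [add_mul, mul_add, sub_mul, mul_sub, one_mul, mul_one, ha, haya]
    abel

section Pair

variable {σ τ : LinearMap.GeneralLinearGroup k M}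

theorem exists_partner_of_mem (h2 : (2 : k) ≠ 0) (hk : Nat.card k ≠ 3)
    (hσ : σ ∈ minimalQuadraticElements G) (hτ : τ ∈ minimalQuadraticElements G)
    (h : Opp ((σ : End') - 1) ((τ : End') - 1)) {g : GL'} (hg : g ∈ sameActionSubgroup G σ)
    (hg1 : g ≠ 1) : ∃ e y, Partner G ((g : End') - 1) ((τ : End') - 1) e y ∧
      IsMin G ((g : End') - 1) ∧
      LinearMap.ker ((g : End') - 1) = LinearMap.ker ((σ : End') - 1) ∧
      LinearMap.range ((g : End') - 1) = LinearMap.range ((σ : End') - 1) := by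
  have hx := (mem_sameAction hσ).1 hg
  have hx0 : (g : End') - 1 ≠ 0 := fun h0 => hg1 (Units.ext (sub_eq_zero.1 h0))
  obtain ⟨hxm, hxk, hxr⟩ := (mem_minimal.1 hσ).of_mem hx hx0
  have ho : Opp ((g : End') - 1) ((τ : End') - 1) :=
    (opp_congr (mem_minimal.1 hσ) (mem_minimal.1 hτ) hx hx0
      (self_mem_espace (mem_minimal.1 hτ).fam) (mem_minimal.1 hτ).ne).2 h
  obtain ⟨e, y, hp⟩ := ho.partner h2 hk hxm (mem_minimal.1 hτ)
  exact ⟨e, y, hp, hxm, hxk, hxr⟩

theorem conj_pflip (h2 : (2 : k) ≠ 0) (hk : Nat.card k ≠ 3) (hσ : σ ∈ minimalQuadraticElements G)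
    (hτ : τ ∈ minimalQuadraticElements G) {g : GL'} (hg : g ∈ sameActionSubgroup G σ) {e y : End'}
    (hp : Partner G ((g : End') - 1) ((τ : End') - 1) e y) (hxm : IsMin G ((g : End') - 1))
    (hxk : LinearMap.ker ((g : End') - 1) = LinearMap.ker ((σ : End') - 1))
    (hxr : LinearMap.range ((g : End') - 1) = LinearMap.range ((σ : End') - 1)) :
    conjBy (sameActionSubgroup G σ) (pflip ((g : End') - 1) y hxm.fam.1 hp.min.fam.1) =
      sameActionSubgroup G τ := by
  set a := (g : End') - 1 with ha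
  have hw := pflip_mem hxm.fam hp.min.fam
  obtain ⟨w1, w2⟩ := coe_pflip hxm.fam.1 hp.min.fam.1 hp.aya hp.eq
  have hb := mem_minimal.1 hτ
  ext t
  rw [mem_conjBy]
  set w := pflip a y hxm.fam.1 hp.min.fam.1 with hwdef
  constructor
  · intro ht
    obtain ⟨hf, hk', hr'⟩ := (mem_sameAction hσ).1 ht
    set x := ((w⁻¹ * t * w : GL') : End') - 1 with hx
    have hc := hp.left_corner hxm.fam.1 (x := x) (hxk ▸ hk') (hxr ▸ hr')
    have hxa : x * a = 0 := espace_mul_zero ⟨hf, hk', hr'⟩ ((mem_sameAction hσ).1 hg)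
    have hax : a * x = 0 := espace_mul_zero ((mem_sameAction hσ).1 hg) ⟨hf, hk', hr'⟩
    have e1 : (t : End') - 1 = (w : End') * x * ((w⁻¹ : GL') : End') := by
      rw [hx, mul_sub, sub_mul, mul_one, Units.mul_inv, ← Units.val_mul, ← Units.val_mul]
      congr 2
      group
    have e2 : (w : End') * x * ((w⁻¹ : GL') : End') = -(y * (x * y)) := by
      have h1 : (w : End') * x = -(y * x) := by
        rw [w1, sub_mul, add_mul, sub_mul, one_mul, hc.1, hax, sub_self, add_zero, zero_sub]
      rw [h1, w2, neg_mul, mul_add, mul_sub, mul_sub, mul_one, mul_assoc y x e, hc.2, sub_self,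
        mul_assoc y x a, hxa, mul_zero, zero_sub, neg_zero, zero_add, mul_assoc]
    rw [mem_sameAction hτ]
    refine ⟨?_, ?_, ?_⟩
    · rw [e1]; exact hf.conj hw
    · rw [e1, e2]
      intro m hm
      have h0 : y m = 0 := hp.ker_eq.ge hm
      simp [LinearMap.mem_ker, h0]
    · rw [e1, e2]
      rintro _ ⟨m, rfl⟩
      refine hp.range_eq.le ?_
      rw [LinearMap.neg_apply]
      exact Submodule.neg_mem _ ⟨_, rfl⟩
  · intro ht
    obtain ⟨hf, hk', hr'⟩ := (mem_sameAction hτ).1 ht
    set x := (t : End') - 1 with hx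
    have hc := hp.right_corner hxm.fam.1 (x := x) hk' hr'
    have hyx : y * x = 0 := espace_mul_zero (hp.mem_espace hb) ⟨hf, hk', hr'⟩
    have hxy : x * y = 0 := espace_mul_zero ⟨hf, hk', hr'⟩ (hp.mem_espace hb)
    have e1 : ((w⁻¹ * t * w : GL') : End') - 1 = ((w⁻¹ : GL') : End') * x * (w : End') := by
      rw [hx, mul_sub, sub_mul, mul_one, Units.inv_mul, Units.val_mul, Units.val_mul]
    have e2 : ((w⁻¹ : GL') : End') * x * (w : End') = -(a * (x * a)) := by
      have h1 : ((w⁻¹ : GL') : End') * x = -(a * x) := by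
        rw [w2, add_mul, sub_mul, sub_mul, one_mul, hc.1, hyx, sub_self, add_zero, zero_sub]
      rw [h1, w1, neg_mul, mul_sub, mul_add, mul_sub, mul_one, mul_assoc a x e, hc.2, sub_self,
        mul_assoc a x y, hxy, mul_zero, zero_add, sub_zero, mul_assoc]
    rw [mem_sameAction hσ]
    refine ⟨?_, ?_, ?_⟩
    · rw [e1]
      have := hf.conj (inv_mem hw)
      rwa [inv_inv] at this
    · rw [e1, e2, ← hxk]
      intro m hm
      have h0 : a m = 0 := hm
      simp [LinearMap.mem_ker, h0]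
    · rw [e1, e2, ← hxr]
      rintro _ ⟨m, rfl⟩
      rw [LinearMap.neg_apply]
      exact Submodule.neg_mem _ ⟨_, rfl⟩

theorem rankOneCondition_of_opp (h2 : (2 : k) ≠ 0) (hk : Nat.card k ≠ 3)
    (hσ : σ ∈ minimalQuadraticElements G) (hτ : τ ∈ minimalQuadraticElements G)
    (h : Opp ((σ : End') - 1) ((τ : End') - 1)) :
    RankOneCondition (sameActionSubgroup G σ) (sameActionSubgroup G τ) := by
  intro g hg hg1
  obtain ⟨e, y, hp, hxm, hxk, hxr⟩ := exists_partner_of_mem h2 hk hσ hτ h hg hg1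
  refine ⟨oneAdd y hp.min.fam.1, mem_sameAction_of_fam hτ (hp.mem_espace (mem_minimal.1 hτ)),
    fun h0 => hp.min.ne ?_, ?_⟩
  · have := congrArg Units.val h0
    rwa [coe_oneAdd, Units.val_one, add_eq_left] at this
  · have hfl := conj_pflip h2 hk hσ hτ hg hp hxm hxk hxr
    have hga : oneAdd ((g : End') - 1) hxm.fam.1 = g := Units.ext (by simp)
    rw [pflip, hga, ← conjBy_conjBy, conjBy_self_of_mem hg, ← conjBy_conjBy, conjBy_eq_iff] at hfl
    exact hfl

theorem sameAction_ne_of_opp (hσ : σ ∈ minimalQuadraticElements G)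
    (hτ : τ ∈ minimalQuadraticElements G) (h : Opp ((σ : End') - 1) ((τ : End') - 1)) :
    sameActionSubgroup G σ ≠ sameActionSubgroup G τ := by
  intro he
  have h1 : σ ∈ sameActionSubgroup G τ := he ▸ Subgroup.subset_closure ⟨hσ, rfl, rfl⟩
  obtain ⟨-, hk, hr⟩ := (mem_sameAction hτ).1 h1
  apply (mem_minimal.1 hσ).ne
  rw [← LinearMap.range_eq_bot, eq_bot_iff, ← h.1]
  exact le_inf le_rfl (hr.trans (range_le_ker (mem_minimal.1 hτ).fam.1))

theorem isNilpotent_sameAction (hσ : σ ∈ minimalQuadraticElements G) :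
    Group.IsNilpotent ↥(sameActionSubgroup G σ) := by
  refine ⟨⟨1, ?_⟩⟩
  rw [Subgroup.upperCentralSeries_one, eq_top_iff]
  exact fun x _ => Subgroup.mem_center_iff.2 fun y =>
    Subtype.ext (sameAction_commutative hσ y.2 x.2)

theorem isRankOnePair_of_opp (h2 : (2 : k) ≠ 0) (hk : Nat.card k ≠ 3)
    (hσ : σ ∈ minimalQuadraticElements G) (hτ : τ ∈ minimalQuadraticElements G)
    (h : Opp ((σ : End') - 1) ((τ : End') - 1)) :
    IsRankOnePair (sameActionSubgroup G σ) (sameActionSubgroup G τ) :=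
  ⟨sameAction_ne_of_opp hσ hτ h, isNilpotent_sameAction hσ, isNilpotent_sameAction hτ,
    rankOneCondition_of_opp h2 hk hσ hτ h, rankOneCondition_of_opp h2 hk hτ hσ h.symm⟩

theorem isSpecial_of_opp (h2 : (2 : k) ≠ 0) (hk : Nat.card k ≠ 3)
    (hσ : σ ∈ minimalQuadraticElements G) (hτ : τ ∈ minimalQuadraticElements G)
    (h : Opp ((σ : End') - 1) ((τ : End') - 1)) :
    IsSpecialRankOnePair (sameActionSubgroup G σ) (sameActionSubgroup G τ) := by
  have hrk := isRankOnePair_of_opp h2 hk hσ hτ h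
  refine ⟨hrk, fun g hg hg1 b hb hb1 hgb => ?_⟩
  obtain ⟨e, y, hp, hxm, hxk, hxr⟩ := exists_partner_of_mem h2 hk hσ hτ h hg hg1
  obtain ⟨b0, -, huniq⟩ := RankOne.partner_unique hrk hg hg1
  have hga : oneAdd ((g : End') - 1) hxm.fam.1 = g := Units.ext (by simp)
  have hfl := conj_pflip h2 hk hσ hτ hg hp hxm hxk hxr
  rw [pflip, hga, ← conjBy_conjBy, conjBy_self_of_mem hg, ← conjBy_conjBy, conjBy_eq_iff] at hfl
  have hy1 : oneAdd y hp.min.fam.1 ≠ 1 := fun h0 => hp.min.ne (by
    have := congrArg Units.val h0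
    rwa [coe_oneAdd, Units.val_one, add_eq_left] at this)
  have hbe : b = oneAdd y hp.min.fam.1 := (huniq b ⟨hb, hb1, hgb⟩).trans
    (huniq _ ⟨mem_sameAction_of_fam hτ (hp.mem_espace (mem_minimal.1 hτ)), hy1, hfl⟩).symm
  refine Units.ext ?_
  obtain ⟨a, rfl⟩ : ∃ a, a = (g : End') - 1 := ⟨_, rfl⟩
  rw [hbe]
  obtain ⟨A, hA⟩ : ∃ A, A = (g : End') - 1 := ⟨_, rfl⟩
  have hgA : (g : End') = 1 + A := by rw [hA]; abel
  have hAA : A * A = 0 := hA ▸ hxm.fam.1
  have hAyA : A * (y * A) = A := hA ▸ hp.aya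
  simp only [Units.val_mul, coe_oneAdd, coe_inv_of_sq hAA hgA,
    coe_inv_of_sq hp.min.fam.1 (coe_oneAdd _ _), hgA]
  have hyAy : y * (A * y) = y := hA ▸ hp.yay
  simp only [add_mul, mul_add, sub_mul, mul_sub, one_mul, mul_one, mul_assoc, hAA, hAyA, hyAy,
    hp.min.fam.1, mul_zero]
  abel

/-- The central involution of an opposite pair and the decomposition of the module. -/
theorem involution_of_opp (h2 : (2 : k) ≠ 0) (hk : Nat.card k ≠ 3)
    (hσ : σ ∈ minimalQuadraticElements G) (hτ : τ ∈ minimalQuadraticElements G)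
    (h : Opp ((σ : End') - 1) ((τ : End') - 1)) :
    (∃! i : GL', i ∈ sameActionSubgroup G σ ⊔ sameActionSubgroup G τ ∧ i ≠ 1 ∧ i * i = 1 ∧
      (∀ x ∈ sameActionSubgroup G σ ⊔ sameActionSubgroup G τ, i * x = x * i) ∧
      (∀ m ∈ commutatorSubmodule (sameActionSubgroup G σ ⊔ sameActionSubgroup G τ),
        (i : M →ₗ[k] M) m = -m) ∧
      (∀ m ∈ fixedSubmodule (sameActionSubgroup G σ ⊔ sameActionSubgroup G τ),
        (i : M →ₗ[k] M) m = m)) ∧
    IsCompl (fixedSubmodule (sameActionSubgroup G σ ⊔ sameActionSubgroup G τ))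
      (commutatorSubmodule (sameActionSubgroup G σ ⊔ sameActionSubgroup G τ)) := by
  have ha := mem_minimal.1 hσ
  have hb := mem_minimal.1 hτ
  obtain ⟨e, y, hp⟩ := h.partner h2 hk ha hb
  set a := (σ : End') - 1 with hadef
  have hee := hp.idem ha.fam.1
  rw [fixedSubmodule_sup, fixedSubmodule_sameAction hσ, fixedSubmodule_sameAction hτ,
    commutatorSubmodule_sup, commutatorSubmodule_sameAction hσ, commutatorSubmodule_sameAction hτ,
    ← hp.ker_e, ← hp.range_e]
  have hcompl : IsCompl (LinearMap.ker e) (LinearMap.range e) :=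
    (LinearMap.IsIdempotentElem.isCompl (f := e) hee).symm
  refine ⟨?_, hcompl⟩
  set w := pflip a y ha.fam.1 hp.min.fam.1 with hw
  have hwX : w ∈ sameActionSubgroup G σ ⊔ sameActionSubgroup G τ := by
    have h1 := mem_sameAction_of_fam hσ (self_mem_espace ha.fam)
    have h3 := mem_sameAction_of_fam hτ (hp.mem_espace hb)
    exact mul_mem (mul_mem (Subgroup.mem_sup_left h1) (inv_mem (Subgroup.mem_sup_right h3)))
      (Subgroup.mem_sup_left h1)
  have hww : ((w * w : GL') : End') = 1 - (e + e) := by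
    have hc1 := hp.left_corner ha.fam.1 (le_refl (LinearMap.ker a)) le_rfl
    have hc2 := hp.right_corner ha.fam.1 hp.ker_eq.ge hp.range_eq.le
    rw [Units.val_mul, (coe_pflip ha.fam.1 hp.min.fam.1 hp.aya hp.eq).1]
    simp only [add_mul, mul_add, sub_mul, mul_sub, one_mul, mul_one, hee, hc1.1, hc1.2, hc2.1,
      hc2.2, ha.fam.1, hp.min.fam.1]
    rw [hp.eq]
    abel
  have hker : ∀ m ∈ LinearMap.ker e, ((w * w : GL') : End') m = m := fun m hm => by
    rw [hww]; simp [LinearMap.mem_ker.1 hm]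
  have hran : ∀ m ∈ LinearMap.range e, ((w * w : GL') : End') m = -m := by
    rintro _ ⟨m, rfl⟩
    rw [hww, LinearMap.sub_apply, LinearMap.add_apply, Module.End.one_apply,
      ← Module.End.mul_apply, hee]
    abel
  refine ⟨w * w, ⟨mul_mem hwX hwX, ?_, ?_, ?_, hran, hker⟩, ?_⟩
  · intro h1
    have h3 : (2 : k) • e = 0 := by
      rw [two_smul, ← sub_sub_cancel (1 : End') (e + e), ← hww, h1, Units.val_one, sub_self]
    rw [smul_eq_zero, or_iff_right h2] at h3
    apply ha.ne
    have hc1 := hp.left_corner ha.fam.1 (le_refl (LinearMap.ker a)) le_rfl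
    rw [← hc1.1, h3, zero_mul]
  · refine Units.ext ?_
    rw [Units.val_mul, hww, Units.val_one]
    simp only [add_mul, mul_add, sub_mul, mul_sub, one_mul, mul_one, hee]
    abel
  · intro x hx
    refine Units.ext ?_
    rw [Units.val_mul, Units.val_mul x, hww]
    have hxe : e * (x : End') = (x : End') * e := by
      rw [Subgroup.sup_eq_closure] at hx
      induction hx using Subgroup.closure_induction with
      | mem z hz =>
        rcases hz with hz | hz
        · obtain ⟨-, hk', hr'⟩ := (mem_sameAction hσ).1 hz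
          have hc := hp.left_corner ha.fam.1 hk' hr'
          rw [mul_sub, sub_mul, mul_one, one_mul] at hc
          rw [← sub_eq_zero, ← sub_sub_sub_cancel_right _ _ e, hc.1, hc.2, sub_self]
        · obtain ⟨-, hk', hr'⟩ := (mem_sameAction hτ).1 hz
          have hc := hp.right_corner ha.fam.1 hk' hr'
          rw [mul_sub, sub_mul, mul_one, one_mul] at hc
          rw [← sub_eq_zero, ← sub_sub_sub_cancel_right _ _ e, hc.1, hc.2, sub_self]
      | one => simp
      | mul s t _ _ ihs iht =>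
        rw [Units.val_mul, ← mul_assoc, ihs, mul_assoc, iht, mul_assoc]
      | inv s _ ih => exact (show Commute e (s : End') from ih).units_inv_right.eq
    simp only [sub_mul, mul_sub, add_mul, mul_add, one_mul, mul_one, hxe]
  · rintro i ⟨-, -, -, -, hi1, hi2⟩
    refine Units.ext (LinearMap.ext fun m => ?_)
    obtain ⟨p, hp', q, hq, rfl⟩ := Submodule.mem_sup.1 (hcompl.sup_eq_top.ge (Submodule.mem_top (x := m)))
    rw [map_add, map_add, hker p hp', hran q hq]
    exact congrArg₂ (· + ·) (hi2 p hp') (hi1 q hq)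

/-- An element of one member commuting with, or normalizing, a member of the other. -/
theorem commute_of_commute (h2 : (2 : k) ≠ 0) (hk : Nat.card k ≠ 3)
    (hσ : σ ∈ minimalQuadraticElements G) (hτ : τ ∈ minimalQuadraticElements G)
    (h : (∃ g ∈ sameActionSubgroup G σ, g ≠ 1 ∧ ∃ f ∈ sameActionSubgroup G τ, f ≠ 1 ∧ g * f = f * g) ∨
      sameActionSubgroup G σ ⊓
        Subgroup.normalizer ((sameActionSubgroup G τ : Subgroup GL') : Set GL') ≠ ⊥) :
    ⁅sameActionSubgroup G σ, sameActionSubgroup G τ⁆ = ⊥ := by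
  have ha := mem_minimal.1 hσ
  have hb := mem_minimal.1 hτ
  have main : ∀ {x y : End'}, x ∈ espace G ((σ : End') - 1) ha.fam.1 → x ≠ 0 →
      y ∈ espace G ((τ : End') - 1) hb.fam.1 → y ≠ 0 → x * y = y * x →
      ⁅sameActionSubgroup G σ, sameActionSubgroup G τ⁆ = ⊥ := by
    intro x y hx hx0 hy hy0 hxy
    obtain ⟨hxm, hxk, hxr⟩ := ha.of_mem hx hx0
    obtain ⟨hym, hyk, hyr⟩ := hb.of_mem hy hy0
    rw [commutator_eq_bot_iff_commutes]
    intro g hg f hf
    obtain ⟨h1, h1', h1''⟩ := (mem_sameAction hσ).1 hg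
    obtain ⟨h3, h3', h3''⟩ := (mem_sameAction hτ).1 hf
    have he := commute_congr h2 hk hxm hym hxy (x := (g : End') - 1) (y := (f : End') - 1)
      ⟨h1, hxk ▸ h1', hxr ▸ h1''⟩ ⟨h3, hyk ▸ h3', hyr ▸ h3''⟩
    refine Units.ext ?_
    rw [Units.val_mul, Units.val_mul]
    simp only [sub_mul, mul_sub, one_mul, mul_one] at he
    rw [← sub_eq_zero]
    rw [← sub_eq_zero] at he
    rw [← he]
    abel
  rcases h with ⟨g, hg, hg1, f, hf, hf1, hgf⟩ | hn
  · refine main ((mem_sameAction hσ).1 hg) (fun h0 => hg1 (Units.ext (sub_eq_zero.1 h0)))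
      ((mem_sameAction hτ).1 hf) (fun h0 => hf1 (Units.ext (sub_eq_zero.1 h0))) ?_
    simp only [sub_mul, mul_sub, one_mul, mul_one]
    rw [← Units.val_mul, ← Units.val_mul, hgf]
    abel
  · obtain ⟨g, hg, hg1⟩ : ∃ g ∈ sameActionSubgroup G σ ⊓
        Subgroup.normalizer ((sameActionSubgroup G τ : Subgroup GL') : Set GL'), g ≠ 1 := by
      by_contra hc
      push Not at hc
      exact hn ((Subgroup.eq_bot_iff_forall _).2 hc)
    obtain ⟨hgA, hgN⟩ := hg
    set b := (τ : End') - 1 with hbdef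
    obtain ⟨x, hxdef⟩ : ∃ x, x = (g : End') - 1 := ⟨_, rfl⟩
    have hx : x ∈ espace G ((σ : End') - 1) ha.fam.1 := hxdef ▸ (mem_sameAction hσ).1 hgA
    have hx0 : x ≠ 0 := fun h0 => hg1 (Units.ext (sub_eq_zero.1 (hxdef.symm.trans h0)))
    obtain ⟨hxm, hxk, hxr⟩ := ha.of_mem hx hx0
    by_contra hcon
    have hne : x * b ≠ b * x := fun he =>
      hcon (main hx hx0 (self_mem_espace hb.fam) hb.ne he)
    have hmem : (g : End') * b * ((g⁻¹ : GL') : End') ∈ espace G b hb.fam.1 := by
      have h1 := (Subgroup.mem_normalizer_iff.1 hgN _).1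
        (mem_sameAction_of_fam hτ (self_mem_espace hb.fam))
      have := (mem_sameAction hτ).1 h1
      simp only [Units.val_mul, coe_oneAdd, mul_add, mul_one, add_mul, Units.mul_inv,
        add_sub_cancel_left] at this
      exact this
    have hgx : (g : End') = 1 + x := by rw [hxdef]; abel
    rw [coe_inv_of_sq hxm.fam.1 hgx, hgx] at hmem
    by_cases ho : Opp x b
    · -- an opposite element moves the image
      apply hb.ne
      rw [← LinearMap.range_eq_bot, eq_bot_iff, ← ho.2]
      rintro _ ⟨m, rfl⟩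
      refine ⟨⟨m, rfl⟩, ?_⟩
      have hxbm : x (b m) ∈ LinearMap.range x ⊓ LinearMap.ker b := by
        refine ⟨⟨b m, rfl⟩, range_le_ker hb.fam.1 ?_⟩
        obtain ⟨n, hn⟩ := hmem.2.2 ⟨(1 + x) m, rfl⟩
        have e1 : ((1 + x) * b * (1 - x)) ((1 + x) m) = b m + x (b m) := by
          have hone : (1 - x) * (1 + x) = (1 : End') := by
            simp [sub_mul, mul_add, hxm.fam.1]
          rw [← Module.End.mul_apply, mul_assoc ((1 + x) * b), hone, mul_one, Module.End.mul_apply,
            LinearMap.add_apply, Module.End.one_apply]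
        rw [e1] at hn
        refine ⟨n - m, ?_⟩
        rw [map_sub, hn]
        abel
      rw [ho.1, Submodule.mem_bot] at hxbm
      exact hxbm
    · obtain ⟨t1, t1'⟩ := not_opp_triple h2 hk hxm hb ho
      have hd : x * b - b * x ∈ espace G b hb.fam.1 := by
        have e1 : (1 + x) * b * (1 - x) = b + (x * b - b * x) := by
          simp only [add_mul, one_mul, mul_sub, mul_one, mul_assoc, t1, add_zero, sub_zero]
          abel
        rw [e1] at hmem
        have := Submodule.sub_mem _ hmem (self_mem_espace hb.fam)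
        rwa [add_sub_cancel_left] at this
      have hd0 : x * b - b * x ≠ 0 := sub_ne_zero.2 hne
      obtain ⟨-, hdk, hdr⟩ := hb.of_mem hd hd0
      obtain ⟨-, p1, -, -, p4, -⟩ := delta_spaces h2 hk hxm hb ho hd0
      have hbx : b * x = 0 := by
        refine mul_eq_zero_of_le ?_
        rw [← hdk]
        refine le_of_mul_eq_zero ?_
        rw [sub_mul, mul_assoc x b x, t1, mul_assoc b x x, hxm.fam.1, mul_zero, sub_zero]
      have hxb : LinearMap.range (x * b) = LinearMap.range x := by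
        rw [p1, inf_eq_left]; exact le_of_mul_eq_zero hbx
      apply hd0
      rw [hbx, sub_zero]
      refine mul_eq_zero_of_le ?_
      rw [← hdr, p4, hbx, LinearMap.range_zero, sup_bot_eq, hxb]
      exact range_le_ker hxm.fam.1

end Pair

end CfsgLib.RootSubgroups.QP
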