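import Cfsg.Agent.RootSubgroups.QPFam

/-!
# Pairs of minimal quadratic families

A pair `a`, `b` either is opposite (`z = ab + ba` invertible on `[M, a] + [M, b]`), or satisfies
`aba = bab = 0`; in the second case `δ = ab - ba` is zero or again minimal.
-/

set_option autoImplicit false

namespace CfsgLib.RootSubgroups.QP

open Cfsg

variable {k : Type*} [Field k] {M : Type*} [AddCommGroup M] [Module k M] [FiniteDimensional k M]
variable {G : Subgroup (LinearMap.GeneralLinearGroup k M)}

local notation "GL'" => LinearMap.GeneralLinearGroup k M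
local notation "End'" => Module.End k M

/-- Opposite kernel and image pairs. -/
def Opp (a b : Module.End k M) : Prop :=
  LinearMap.range a ⊓ LinearMap.ker b = ⊥ ∧ LinearMap.range b ⊓ LinearMap.ker a = ⊥

theorem Opp.symm {a b : End'} (h : Opp a b) : Opp b a := ⟨h.2, h.1⟩

/-- The matrix units of an opposite pair. -/
structure Partner (G : Subgroup (LinearMap.GeneralLinearGroup k M)) (a b e y : Module.End k M) :
    Prop where
  aya : a * (y * a) = a
  yay : y * (a * y) = y
  eq : e = a * y + y * a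
  min : IsMin G y
  ker_eq : LinearMap.ker y = LinearMap.ker b
  range_eq : LinearMap.range y = LinearMap.range b
  ker_e : LinearMap.ker e = LinearMap.ker a ⊓ LinearMap.ker b
  range_e : LinearMap.range e = LinearMap.range a ⊔ LinearMap.range b

theorem famGen_comm (a b : End') : famGen a b = famGen b a := by
  unfold famGen
  congr 1
  ext g
  exact exists_congr fun c => or_comm

theorem rho_swap_mk (a b e : End') (p : Polynomial k) :
    Corner.rho b a e (AdjoinRoot.mk _ p) = Corner.rho a b e (AdjoinRoot.mk _ p) := by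
  rw [Corner.rho_mk, Corner.rho_mk, Corner.zext, Corner.zext, add_comm (b * a)]

theorem isFam_corner_right {a b e y : End'} (h : Corner a b e)
    (hm : MatUnits (Corner.rho a b e) (a * e) y) (h2 : (2 : k) ≠ 0) (hk : Nat.card k ≠ 3)
    (r : Corner.Ring' a b e) : IsFam (famGen a b) (Corner.rho a b e r * (b * e)) := by
  obtain ⟨y', hm', hy'⟩ := h.swap.exists_matUnits
  induction r using AdjoinRoot.induction_on with
  | ih p =>
    rw [← rho_swap_mk, famGen_comm]
    exact h.swap.isFam_corner hm' hy' h2 hk _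

/-- The Fitting idempotent. -/
theorem exists_corner {a b : End'} (ha : a * a = 0) (hb : b * b = 0) :
    ∃ (e : End') (N : ℕ), Corner a b e ∧ (a * b + b * a) ^ N * (1 - e) = 0 ∧
      (e = 0 → (a * b + b * a) ^ N = 0) := by
  set z := a * b + b * a with hz
  obtain ⟨N, hN⟩ := Filter.eventually_atTop.1 (LinearMap.eventually_isCompl_ker_pow_range_pow z)
  have hc := hN (N + 1) (Nat.le_succ N)
  set K := LinearMap.ker (z ^ (N + 1))
  set I := LinearMap.range (z ^ (N + 1))
  let e : End' := I.subtype ∘ₗ Submodule.linearProjOfIsCompl I K hc.symm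
  have heI : ∀ x ∈ I, e x = x := fun x hx => by
    exact congrArg Subtype.val (Submodule.linearProjOfIsCompl_apply_left hc.symm ⟨x, hx⟩)
  have heK : ∀ x ∈ K, e x = 0 := fun x hx => by
    show ((Submodule.linearProjOfIsCompl I K hc.symm x : I) : M) = 0
    exact congrArg Subtype.val (Submodule.linearProjOfIsCompl_apply_right hc.symm ⟨x, hx⟩)
  have hrange : ∀ x, e x ∈ I := fun x => (Submodule.linearProjOfIsCompl I K hc.symm x).2
  have hcomm : ∀ u : End', Commute u z → e * u = u * e := by
    intro u hu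
    have hup := (hu.pow_right (N + 1)).eq
    have huI : ∀ x ∈ I, u x ∈ I := by
      rintro _ ⟨m, rfl⟩
      exact ⟨u m, by rw [← Module.End.mul_apply, ← hup]; rfl⟩
    have huK : ∀ x ∈ K, u x ∈ K := fun x hx => by
      show (z ^ (N + 1)) (u x) = 0
      rw [← Module.End.mul_apply, ← hup, Module.End.mul_apply, LinearMap.mem_ker.1 hx, map_zero]
    ext m
    obtain ⟨i, hi, j, hj, rfl⟩ := Submodule.mem_sup.1 (hc.symm.sup_eq_top.ge (Submodule.mem_top (x := m)))
    simp only [Module.End.mul_apply, map_add, heI i hi, heK j hj, heI _ (huI i hi), heK _ (huK j hj),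
      map_zero]
  have hidem : e * e = e := by
    ext m
    exact heI _ (hrange m)
  have hza : Commute a z := (commute_left ha).symm
  have hzb : Commute b z := by
    have := (commute_left (b := a) hb).symm
    rwa [add_comm (b * a)] at this
  have hkill : z ^ (N + 1) * (1 - e) = 0 := by
    ext m
    obtain ⟨i, hi, j, hj, rfl⟩ :=
      Submodule.mem_sup.1 (hc.symm.sup_eq_top.ge (Submodule.mem_top (x := m)))
    have h1 : (1 - e) (i + j) = j := by
      rw [LinearMap.sub_apply, Module.End.one_apply, map_add, heI i hi, heK j hj, add_zero]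
      abel
    rw [Module.End.mul_apply, h1]
    exact hj
  refine ⟨e, N + 1, ⟨ha, hb, hidem, hcomm a hza, hcomm b hzb, ⟨N + 1, hkill⟩, fun m hm => ?_⟩,
    hkill, fun h0 => ?_⟩
  · refine heK m ?_
    show (z ^ (N + 1)) m = 0
    rw [pow_succ, Module.End.mul_apply, hm, map_zero]
  · rw [h0, sub_zero, mul_one] at hkill
    exact hkill

/-- The two kinds of pairs. -/
theorem dichotomy (h2 : (2 : k) ≠ 0) (hk : Nat.card k ≠ 3) {a b : End'} (ha : IsMin G a)
    (hb : IsMin G b) :
    (a * (b * a) = 0 ∧ b * (a * b) = 0 ∧ ¬ Opp a b) ∨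
    (Opp a b ∧ ∃ e y, Corner a b e ∧ a * e = a ∧ b * e = b ∧
      MatUnits (Corner.rho a b e) a y ∧ Corner.rho a b e (AdjoinRoot.root _) * y = b ∧
      Partner G a b e y) := by
  have haa := ha.fam.1
  have hbb := hb.fam.1
  obtain ⟨e, N, hc, hN, he0⟩ := exists_corner haa hbb
  by_cases hz : e = 0
  · left
    have h1 := zmul_eq_zero h2 N a b ha hb (he0 hz)
    have h2' := zmul_eq_zero h2 N b a hb ha (by rw [add_comm]; exact he0 hz)
    rw [add_mul, mul_assoc b a a, haa, mul_zero, add_zero, mul_assoc] at h1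
    rw [add_mul, mul_assoc a b b, hbb, mul_zero, add_zero, mul_assoc] at h2'
    refine ⟨h1, h2', fun ⟨hab, hba⟩ => ?_⟩
    have hba0 : b * a = 0 := by
      rw [← LinearMap.range_eq_bot, eq_bot_iff, ← hba]
      exact le_inf (range_mul_le b a) (le_of_mul_eq_zero h1)
    apply ha.ne
    rw [← LinearMap.range_eq_bot, eq_bot_iff, ← hab]
    exact le_inf le_rfl (le_of_mul_eq_zero hba0)
  right
  obtain ⟨y, hm, hy⟩ := hc.exists_matUnits
  have hfG : ∀ {x}, IsFam (famGen a b) x → IsFam G x := fun h => h.mono (famGen_le ha.fam hb.fam)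
  have hsplit : ∀ {x : End'}, IsMin G x → IsFam G (x * e) → e * x = x * e →
      (x * e = 0 → False) → x * e = x := by
    intro x hx hfam hcom hne
    obtain ⟨-, -, hr⟩ := hx.eq_spaces hfam hne (hcom ▸ ker_le_ker_mul e x) (range_mul_le x e)
    ext m
    obtain ⟨n, hn⟩ := hr.ge ⟨m, rfl⟩
    rw [← hcom, Module.End.mul_apply, ← hn, ← hcom, ← Module.End.mul_apply, ← mul_assoc, hc.idem]
  have hnez : ∀ {x w : End'}, x * e = 0 → a * b + b * a = x * w + w * x → Commute e w →
      e * x = x * e → False := by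
    intro x w h0 hzx hw hcom
    have hz0 : (a * b + b * a) * e = 0 := by
      rw [hzx, add_mul, mul_assoc x w e, ← hw.eq, ← mul_assoc x e w, h0, zero_mul, mul_assoc w x e,
        h0, mul_zero, add_zero]
    refine hz (LinearMap.ext fun m => ?_)
    have := hc.inj (e m) (by rw [← Module.End.mul_apply, hz0]; rfl)
    rwa [← Module.End.mul_apply, hc.idem] at this
  have hae : a * e = a := by
    refine hsplit ha (hfG ?_) hc.ea fun h0 => hnez h0 rfl hc.eb hc.ea
    have := hc.isFam_corner hm hy h2 hk 1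
    rwa [Corner.rho_one, ← mul_assoc, hc.ea, mul_assoc, hc.idem] at this
  have hbe : b * e = b := by
    refine hsplit hb (hfG ?_) hc.eb fun h0 => hnez h0 (add_comm _ _) hc.ea hc.eb
    have := isFam_corner_right hc hm h2 hk 1
    rwa [Corner.rho_one, ← mul_assoc, hc.eb, mul_assoc, hc.idem] at this
  rw [hae] at hm
  rw [hbe] at hy
  obtain ⟨u, hu⟩ := hc.isUnit_root
  have hyu : y = Corner.rho a b e (↑u⁻¹ : Corner.Ring' a b e) * b :=
    calc y = Corner.rho a b e (↑u⁻¹ : Corner.Ring' a b e) *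
          (Corner.rho a b e (AdjoinRoot.root _) * y) := by
            rw [← mul_assoc, ← hm.mul, ← hu, Units.inv_mul, hm.e_y]
      _ = _ := congrArg _ hy
  have hyne : y ≠ 0 := by
    intro h0
    apply hb.ne
    rw [← hy, h0, mul_zero]
  have hyfam : IsFam G y := by
    have := hfG (isFam_corner_right (y := y) hc (hae.symm ▸ hm) h2 hk
      (↑u⁻¹ : Corner.Ring' a b e))
    rwa [hbe, ← hyu] at this
  have hker : LinearMap.ker b ≤ LinearMap.ker y := hyu ▸ ker_le_ker_mul _ b
  have hrk : rk y ≤ rk b := by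
    have := rk_add_ker y
    have := rk_add_ker b
    have := Submodule.finrank_mono hker
    omega
  have hrange : LinearMap.range b = LinearMap.range y := by
    refine Submodule.eq_of_le_of_finrank_le ?_ hrk
    rw [← hy, ← hm.comm_y]
    exact range_mul_le y _
  obtain ⟨hymin, hykey, hyr⟩ := hb.eq_spaces hyfam hyne hker hrange.ge
  have heq : e = a * y + y * a := by rw [← Corner.rho_one a b e]; exact hm.one
  have hker_e : LinearMap.ker e = LinearMap.ker a ⊓ LinearMap.ker b := by
    refine le_antisymm ?_ ?_ <;> intro m hm'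
    · refine ⟨?_, ?_⟩
      show a m = 0
      rw [← hae, Module.End.mul_apply, show e m = 0 from hm', map_zero]
      show b m = 0
      rw [← hbe, Module.End.mul_apply, show e m = 0 from hm', map_zero]
    · obtain ⟨h2', hb'⟩ := hm'
      have h1 : y m = 0 := hykey.ge hb'
      show e m = 0
      simp [heq, h1, show a m = 0 from h2']
  have hrange_e : LinearMap.range e = LinearMap.range a ⊔ LinearMap.range b := by
    refine le_antisymm ?_ (sup_le ?_ ?_)
    · rw [heq]
      rintro _ ⟨m, rfl⟩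
      exact Submodule.add_mem_sup ⟨y m, rfl⟩ (hyr.le ⟨a m, rfl⟩)
    · rw [← hae, ← hc.ea]; exact range_mul_le e a
    · rw [← hbe, ← hc.eb]; exact range_mul_le e b
  refine ⟨⟨?_, ?_⟩, e, y, hc, hae, hbe, hm, hy,
    ⟨hm.aya, hm.yay, heq, hymin, hykey, hyr, hker_e, hrange_e⟩⟩
  · rw [eq_bot_iff]
    rintro _ ⟨⟨m, rfl⟩, hbm⟩
    have h1 : y (a m) = 0 := hykey.ge hbm
    show a m = 0
    rw [← hm.aya, Module.End.mul_apply, Module.End.mul_apply, h1, map_zero]
  · rw [eq_bot_iff]
    rintro _ ⟨hx, hax⟩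
    obtain ⟨m, rfl⟩ := hyr.ge hx
    have h1 : a (y m) = 0 := hax
    show y m = 0
    rw [← hm.yay, Module.End.mul_apply, Module.End.mul_apply, h1, map_zero]

/-- An opposite pair gives a partner. -/
theorem Opp.partner {a b : End'} (h : Opp a b) (h2 : (2 : k) ≠ 0) (hk : Nat.card k ≠ 3)
    (ha : IsMin G a) (hb : IsMin G b) : ∃ e y, Partner G a b e y := by
  rcases dichotomy h2 hk ha hb with ⟨-, -, hn⟩ | ⟨-, e, y, -, -, -, -, -, hp⟩
  · exact absurd h hn
  · exact ⟨e, y, hp⟩

theorem not_opp_triple (h2 : (2 : k) ≠ 0) (hk : Nat.card k ≠ 3) {a b : End'} (ha : IsMin G a)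
    (hb : IsMin G b) (h : ¬ Opp a b) : a * (b * a) = 0 ∧ b * (a * b) = 0 := by
  rcases dichotomy h2 hk ha hb with ⟨h1, h1', -⟩ | ⟨ho, -⟩
  · exact ⟨h1, h1'⟩
  · exact absurd ho h

/-- Members of the family spaces inherit being non-opposite. -/
theorem opp_congr {a b x y : End'} (ha : IsMin G a) (hb : IsMin G b)
    (hx : x ∈ espace G a ha.fam.1) (hx0 : x ≠ 0) (hy : y ∈ espace G b hb.fam.1) (hy0 : y ≠ 0) :
    Opp x y ↔ Opp a b := by
  obtain ⟨-, hxk, hxr⟩ := ha.of_mem hx hx0
  obtain ⟨-, hyk, hyr⟩ := hb.of_mem hy hy0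
  rw [Opp, Opp, hxk, hxr, hyk, hyr]

theorem prod_triple_eq_zero (h2 : (2 : k) ≠ 0) (hk : Nat.card k ≠ 3) {a b x y x' : End'}
    (ha : IsMin G a) (hb : IsMin G b) (h : ¬ Opp a b) (hx : x ∈ espace G a ha.fam.1)
    (hy : y ∈ espace G b hb.fam.1) (hx' : x' ∈ espace G a ha.fam.1) : x * (y * x') = 0 := by
  rcases eq_or_ne y 0 with rfl | hy0
  · rw [zero_mul, mul_zero]
  obtain ⟨hym, -, -⟩ := hb.of_mem hy hy0
  have h1 : a * (y * a) = 0 := (not_opp_triple h2 hk ha hym (fun ho =>
    h ((opp_congr ha hb (self_mem_espace ha.fam) ha.ne hy hy0).1 ho))).1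
  refine mul_eq_zero_of_le ?_
  rintro _ ⟨m, rfl⟩
  obtain ⟨n, hn⟩ := hx'.2.2 ⟨m, rfl⟩
  refine hx.2.1 ?_
  show a (y (x' m)) = 0
  rw [← hn]
  exact congrArg (fun f : End' => f n) h1

/-- The commutator family of a non-opposite pair. -/
theorem isFam_delta {a b : End'} (ha : IsFam G a) (hb : IsFam G b) (h1 : a * (b * a) = 0)
    (h1' : b * (a * b) = 0) : IsFam G (a * b - b * a) := by
  have e := ha.conj hb.one_mem'
  rw [coe_oneAdd, coe_inv_of_sq hb.1 (coe_oneAdd _ _)] at e
  have e' : (1 + b) * a * (1 - b) = a + (b * a - a * b) := by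
    simp only [mul_sub, add_mul, one_mul, mul_one, mul_assoc, h1']
    abel
  rw [e'] at e
  have h3 : a * (b * a - a * b) = 0 := by rw [mul_sub, h1, ← mul_assoc, ha.1, zero_mul, sub_zero]
  have h4 : (b * a - a * b) * a = 0 := by
    rw [sub_mul, mul_assoc, ha.1, mul_zero, mul_assoc, h1, sub_zero]
  have := (e.add ha.neg (by rw [mul_neg, add_mul, ha.1, h4, add_zero, neg_zero])
    (by rw [neg_mul, mul_add, ha.1, h3, add_zero, neg_zero])).neg
  convert this using 1
  abel

/-- The structure of the commutator of a non-opposite pair with `δ ≠ 0`. -/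
theorem delta_spaces (h2 : (2 : k) ≠ 0) (hk : Nat.card k ≠ 3) {a b : End'} (ha : IsMin G a)
    (hb : IsMin G b) (h : ¬ Opp a b) (hd : a * b - b * a ≠ 0) :
    IsMin G (a * b - b * a) ∧
    LinearMap.range (a * b) = LinearMap.range a ⊓ LinearMap.ker b ∧
    LinearMap.range (b * a) = LinearMap.range b ⊓ LinearMap.ker a ∧
    LinearMap.range (a * b) ⊓ LinearMap.range (b * a) = ⊥ ∧
    LinearMap.range (a * b - b * a) = LinearMap.range (a * b) ⊔ LinearMap.range (b * a) ∧
    LinearMap.ker (a * b - b * a) = LinearMap.ker (a * b) ⊓ LinearMap.ker (b * a) := by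
  obtain ⟨h1, h1'⟩ := not_opp_triple h2 hk ha hb h
  have hfam := isFam_delta ha.fam hb.fam h1 h1'
  have key : ∀ a b : End', b * (a * b) = 0 → LinearMap.range (a * b) ≤
      LinearMap.range a ⊓ LinearMap.ker b := fun a b h' =>
    le_inf (range_mul_le a b) (le_of_mul_eq_zero h')
  have hcount : ∀ a b : End', rk (b * a) +
      Module.finrank k ↥(LinearMap.range a ⊓ LinearMap.ker b) = rk a := by
    intro a b
    have h1 := LinearMap.finrank_range_add_finrank_ker (b.domRestrict (LinearMap.range a))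
    rw [LinearMap.range_domRestrict, LinearMap.ker_domRestrict] at h1
    rw [rk, rk, show LinearMap.range (b * a) = (LinearMap.range a).map b from
      LinearMap.range_comp a b, ← h1]
    congr 1
    exact (LinearEquiv.finrank_eq ((LinearEquiv.ofEq _ _ (by
      rw [Submodule.comap_inf, Submodule.comap_subtype_self, top_inf_eq])).trans
        (Submodule.comapSubtypeEquivOfLe inf_le_left))).symm
  have hle : LinearMap.range (a * b - b * a) ≤
      LinearMap.range (a * b) ⊔ LinearMap.range (b * a) := by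
    rintro _ ⟨m, rfl⟩
    exact Submodule.sub_mem _ (Submodule.mem_sup_left ⟨m, rfl⟩) (Submodule.mem_sup_right ⟨m, rfl⟩)
  have c1 := hcount a b
  have c2 := hcount b a
  have r1 := Submodule.finrank_mono (key a b h1')
  have r2 := Submodule.finrank_mono (key b a h1)
  have hsum := Submodule.finrank_sup_add_finrank_inf_eq (LinearMap.range (a * b)) (LinearMap.range (b * a))
  have hmono := Submodule.finrank_mono hle
  have hmin := ha.le _ hfam hd
  have hrk := ha.rk_eq hb
  unfold rk at c1 c2 hmin hrk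
  refine ⟨⟨hfam, hd, fun w hw hw0 => le_trans ?_ (ha.le w hw hw0)⟩,
    Submodule.eq_of_le_of_finrank_le (key a b h1') (by omega),
    Submodule.eq_of_le_of_finrank_le (key b a h1) (by omega),
    Submodule.finrank_eq_zero.1 (by omega),
    Submodule.eq_of_le_of_finrank_le hle (by omega), ?_⟩
  · unfold rk; omega
  refine le_antisymm (fun m hm => ?_) fun m hm => ?_
  · have hm' : (a * b) m = (b * a) m := sub_eq_zero.1 hm
    have hmem : (a * b) m ∈ LinearMap.range (a * b) ⊓ LinearMap.range (b * a) :=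
      ⟨⟨m, rfl⟩, ⟨m, hm'.symm⟩⟩
    rw [Submodule.finrank_eq_zero.1 (by omega : Module.finrank k
      ↥(LinearMap.range (a * b) ⊓ LinearMap.range (b * a)) = 0), Submodule.mem_bot] at hmem
    exact ⟨hmem, show (b * a) m = 0 from hm'.symm.trans hmem⟩
  · have h3 : (a * b) m = 0 := hm.1
    have h4 : (b * a) m = 0 := hm.2
    show (a * b - b * a) m = 0
    rw [LinearMap.sub_apply, h3, h4, sub_zero]

theorem ker_mul_eq {a b x y : End'} (ha : IsMin G a) (hx : x ∈ espace G a ha.fam.1) (hx0 : x ≠ 0)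
    (hxyx : x * (y * x) = 0) (hyb : LinearMap.ker y = LinearMap.ker b)
    (hr : LinearMap.range (y * x) = LinearMap.range y ⊓ LinearMap.ker x) :
    LinearMap.ker (x * y) = LinearMap.range a ⊔ LinearMap.ker b := by
  obtain ⟨-, -, hxr⟩ := ha.of_mem hx hx0
  refine le_antisymm (fun m hm => ?_) (sup_le ?_ ?_)
  · obtain ⟨n, hn⟩ := hr.ge ⟨⟨m, rfl⟩, hm⟩
    have hsub : y (m - x n) = 0 := by rw [map_sub, ← hn]; exact sub_self _
    rw [show m = x n + (m - x n) from (add_sub_cancel _ _).symm]
    exact Submodule.add_mem_sup (hxr.le ⟨n, rfl⟩) (hyb.le hsub)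
  · rw [← hxr]
    exact le_of_mul_eq_zero (by rw [mul_assoc]; exact hxyx)
  · rw [← hyb]
    exact ker_le_ker_mul x y

/-- The commutator pattern only depends on the kernels and images. -/
theorem delta_congr (h2 : (2 : k) ≠ 0) (hk : Nat.card k ≠ 3) {a b x y : End'} (ha : IsMin G a)
    (hb : IsMin G b) (h : ¬ Opp a b) (hd : a * b - b * a ≠ 0) (hx : x ∈ espace G a ha.fam.1)
    (hx0 : x ≠ 0) (hy : y ∈ espace G b hb.fam.1) (hy0 : y ≠ 0) :
    IsMin G (x * y - y * x) ∧
    LinearMap.ker (x * y - y * x) = LinearMap.ker (a * b - b * a) ∧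
    LinearMap.range (x * y - y * x) = LinearMap.range (a * b - b * a) := by
  obtain ⟨hxm, hxk, hxr⟩ := ha.of_mem hx hx0
  obtain ⟨hym, hyk, hyr⟩ := hb.of_mem hy hy0
  have hn : ¬ Opp x y := fun ho => h ((opp_congr ha hb hx hx0 hy hy0).1 ho)
  obtain ⟨t1, t1'⟩ := not_opp_triple h2 hk hxm hym hn
  obtain ⟨-, p1, p2, p3, p4, p5⟩ := delta_spaces h2 hk ha hb h hd
  obtain ⟨s1, s1'⟩ := not_opp_triple h2 hk ha hb h
  have hcount : ∀ u v : End', rk (v * u) +
      Module.finrank k ↥(LinearMap.range u ⊓ LinearMap.ker v) = rk u := by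
    intro u v
    have h1 := LinearMap.finrank_range_add_finrank_ker (v.domRestrict (LinearMap.range u))
    rw [LinearMap.range_domRestrict, LinearMap.ker_domRestrict] at h1
    rw [rk, rk, show LinearMap.range (v * u) = (LinearMap.range u).map v from
      LinearMap.range_comp u v, ← h1]
    congr 1
    exact (LinearEquiv.finrank_eq ((LinearEquiv.ofEq _ _ (by
      rw [Submodule.comap_inf, Submodule.comap_subtype_self, top_inf_eq])).trans
        (Submodule.comapSubtypeEquivOfLe inf_le_left))).symm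
  have r1 : LinearMap.range (x * y) = LinearMap.range (a * b) := by
    rw [p1]
    refine Submodule.eq_of_le_of_finrank_le (le_inf ((range_mul_le x y).trans hxr.le)
      (hyk ▸ le_of_mul_eq_zero t1')) ?_
    have c1 := hcount b a
    have c2 := hcount y x
    rw [hyr, hxk] at c2
    rw [← p1]
    have := hym.rk_eq hb
    unfold rk at c1 c2 this
    omega
  have r2 : LinearMap.range (y * x) = LinearMap.range (b * a) := by
    rw [p2]
    refine Submodule.eq_of_le_of_finrank_le (le_inf ((range_mul_le y x).trans hyr.le)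
      (hxk ▸ le_of_mul_eq_zero t1)) ?_
    have c1 := hcount a b
    have c2 := hcount x y
    rw [hxr, hyk] at c2
    rw [← p2]
    have := hxm.rk_eq ha
    unfold rk at c1 c2 this
    omega
  have hne : x * y - y * x ≠ 0 := by
    intro h0
    rw [sub_eq_zero] at h0
    have hr : LinearMap.range (a * b) = LinearMap.range (b * a) := by rw [← r1, ← r2, h0]
    rw [hr, inf_idem] at p3
    apply hd
    rw [LinearMap.range_eq_bot.1 p3, LinearMap.range_eq_bot.1 (hr.trans p3), sub_zero]
  obtain ⟨hmin, q1, q2, -, q4, q5⟩ := delta_spaces h2 hk hxm hym hn hne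
  refine ⟨hmin, ?_, by rw [q4, p4, r1, r2]⟩
  rw [q5, p5, ker_mul_eq ha hx hx0 t1 hyk q2, ker_mul_eq hb hy hy0 t1' hxk q1,
    ker_mul_eq ha (self_mem_espace ha.fam) ha.ne s1 (rfl : LinearMap.ker b = _) p2,
    ker_mul_eq hb (self_mem_espace hb.fam) hb.ne s1' (rfl : LinearMap.ker a = _) p1]

theorem commute_congr (h2 : (2 : k) ≠ 0) (hk : Nat.card k ≠ 3) {a b x y : End'} (ha : IsMin G a)
    (hb : IsMin G b) (h : a * b = b * a) (hx : x ∈ espace G a ha.fam.1)
    (hy : y ∈ espace G b hb.fam.1) : x * y = y * x := by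
  by_contra hne
  have hx0 : x ≠ 0 := fun h0 => hne (by rw [h0, zero_mul, mul_zero])
  have hy0 : y ≠ 0 := fun h0 => hne (by rw [h0, zero_mul, mul_zero])
  obtain ⟨hxm, hxk, hxr⟩ := ha.of_mem hx hx0
  obtain ⟨hym, hyk, hyr⟩ := hb.of_mem hy hy0
  have hno : ¬ Opp a b := by
    intro ho
    apply ha.ne
    have h1 : b * a = 0 := by
      rw [← LinearMap.range_eq_bot, eq_bot_iff, ← ho.2]
      refine le_inf (range_mul_le b a) (le_of_mul_eq_zero ?_)
      rw [← h, ← mul_assoc, ha.fam.1, zero_mul]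
    rw [← LinearMap.range_eq_bot, eq_bot_iff, ← ho.1]
    exact le_inf le_rfl (le_of_mul_eq_zero h1)
  have hn : ¬ Opp x y := fun ho => hno ((opp_congr ha hb hx hx0 hy hy0).1 ho)
  have := delta_congr h2 hk hxm hym hn (sub_ne_zero.2 hne) (x := a) (y := b)
    ⟨ha.fam, hxk.le, hxr.ge⟩ ha.ne ⟨hb.fam, hyk.le, hyr.ge⟩ hb.ne
  exact this.1.ne (sub_eq_zero.2 h)

end CfsgLib.RootSubgroups.QP
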