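import Cfsg.Agent.RootSubgroups.QPCentral

/-!
# A quadratic pair is a central product of quasisimple groups
-/

set_option autoImplicit false

namespace CfsgLib.RootSubgroups.QP

open Cfsg

universe u v

variable {k : Type u} [Field k] {M : Type v} [AddCommGroup M] [Module k M] [FiniteDimensional k M]
variable {G : Subgroup (LinearMap.GeneralLinearGroup k M)}

local notation "GL'" => LinearMap.GeneralLinearGroup k M
local notation "End'" => Module.End k M

theorem coe_commute {g h : GL'} (hgh : g * h = h * g) : Commute (g : End') (h : End') := by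
  show (g : End') * h = h * g
  rw [← Units.val_mul, ← Units.val_mul, hgh]

theorem commute_of_mem_centralizer {P : Subgroup GL'} {x : End'} (hx : IsFam P x) {g : GL'}
    (hg : g ∈ Subgroup.centralizer (P : Set GL')) : Commute (g : End') x := by
  obtain ⟨t, ht, hte⟩ := hx.2 1
  rw [one_smul] at hte
  have h1 := coe_commute (Subgroup.mem_centralizer_iff.1 hg t ht)
  rw [hte] at h1
  have h3 := (h1.symm.sub_right (Commute.one_right _))
  rwa [add_sub_cancel_left] at h3

/-- Two families from commuting factors of an irreducible group have non-zero product. -/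
theorem not_mul_eq_zero (hirr : IsIrreducibleFor G) {P : Subgroup GL'}
    (hP : G ≤ P ⊔ Subgroup.centralizer (P : Set GL')) {x' x'' : End'} (h' : IsFam P x')
    (h'' : IsFam (Subgroup.centralizer (P : Set GL')) x'') (hne : x' ≠ 0) (hne' : x'' ≠ 0) :
    x' * x'' ≠ 0 := by
  intro h0
  have key : ∀ g ∈ G, x' * ((g : End') * x'') = 0 := by
    intro g hg
    have hmem : ∃ p ∈ P, ∃ q ∈ Subgroup.centralizer (P : Set GL'), g = q * p := by
      have hg' := hP hg
      clear hg
      rw [Subgroup.sup_eq_closure] at hg'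
      induction hg' using Subgroup.closure_induction with
      | mem t ht =>
        rcases ht with ht | ht
        · exact ⟨t, ht, 1, one_mem _, (one_mul t).symm⟩
        · exact ⟨1, one_mem _, t, ht, (mul_one t).symm⟩
      | one => exact ⟨1, one_mem _, 1, one_mem _, (one_mul 1).symm⟩
      | mul s t hs ht ihs iht =>
        obtain ⟨p, hp, q, hq, rfl⟩ := ihs
        obtain ⟨p', hp', q', hq', rfl⟩ := iht
        refine ⟨p * p', mul_mem hp hp', q * q', mul_mem hq hq', ?_⟩
        have h1 := Subgroup.mem_centralizer_iff.1 hq' p hp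
        rw [mul_assoc q p, ← mul_assoc p q', h1]
        simp only [mul_assoc]
      | inv s hs ihs =>
        obtain ⟨p, hp, q, hq, rfl⟩ := ihs
        refine ⟨p⁻¹, inv_mem hp, q⁻¹, inv_mem hq, ?_⟩
        rw [mul_inv_rev]
        exact Subgroup.mem_centralizer_iff.1 (inv_mem hq) _ (inv_mem hp)
    obtain ⟨p, hp, q, hq, rfl⟩ := hmem
    have c1 : Commute (q : End') x' := commute_of_mem_centralizer h' hq
    have c2 : Commute (p : End') x'' := by
      obtain ⟨t, ht, hte⟩ := h''.2 1
      rw [one_smul] at hte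
      have h1 := coe_commute (Subgroup.mem_centralizer_iff.1 ht p hp)
      rw [hte] at h1
      have h3 := h1.sub_right (Commute.one_right _)
      rwa [add_sub_cancel_left] at h3
    rw [Units.val_mul, mul_assoc, c2.eq, ← mul_assoc, ← c1.eq, mul_assoc, ← mul_assoc x', h0,
      zero_mul, mul_zero]
  let W : Submodule k M := ⨆ (g : GL') (_ : g ∈ G), LinearMap.range ((g : End') * x'')
  have hWk : W ≤ LinearMap.ker x' := by
    refine iSup₂_le fun g hg => ?_
    exact le_of_mul_eq_zero (key g hg)
  have hWinv : ∀ g ∈ G, ∀ w ∈ W, (g : End') w ∈ W := by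
    intro g hg w hw
    have hle : W ≤ W.comap (g : End') := by
      refine iSup₂_le fun t ht => ?_
      rintro _ ⟨m, rfl⟩
      refine le_iSup₂ (f := fun (s : GL') (_ : s ∈ G) => LinearMap.range ((s : End') * x''))
        (g * t) (mul_mem hg ht) ⟨m, ?_⟩
      rw [Units.val_mul, mul_assoc]
      rfl
    exact hle hw
  rcases hirr.2 W hWinv with hb | ht
  · apply hne'
    rw [← LinearMap.range_eq_bot, eq_bot_iff, ← hb]
    refine le_trans ?_ (le_iSup₂ (f := fun (s : GL') (_ : s ∈ G) =>
      LinearMap.range ((s : End') * x'')) 1 (one_mem G))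
    rw [Units.val_one, one_mul]
  · apply hne
    rw [← LinearMap.ker_eq_top, eq_top_iff, ← ht]
    exact hWk

/-- The group generated by the sandwiched families. -/
def sandGroup (G : Subgroup (LinearMap.GeneralLinearGroup k M)) :
    Subgroup (LinearMap.GeneralLinearGroup k M) :=
  Subgroup.closure {g | ∃ x, IsFam G x ∧ Sandwiched G x ∧ (g : Module.End k M) = 1 + x}

theorem sandGroup_le : sandGroup G ≤ G := by
  refine (Subgroup.closure_le _).2 ?_
  rintro g ⟨x, hx, -, he⟩
  rw [show g = oneAdd x hx.1 from Units.ext he]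
  exact hx.one_mem'

theorem isFam_sandGroup {x : End'} (hx : IsFam G x) (hs : Sandwiched G x) :
    IsFam (sandGroup G) x :=
  ⟨hx.1, fun c => ⟨_, Subgroup.subset_closure ⟨c • x, hx.smul c,
    fun a ha => by rw [smul_mul_assoc, mul_smul_comm, hs a ha, smul_zero],
    coe_oneAdd _ (smul_sq_zero hx.1 c)⟩, rfl⟩⟩

theorem sandGroup_le_centralizer (h2 : (2 : k) ≠ 0) (hk : Nat.card k ≠ 3)
    (hirr : IsIrreducibleFor G) :
    sandGroup G ≤
      Subgroup.centralizer ((⨆ A ∈ quadraticRootSubgroups G, A : Subgroup GL') : Set GL') := by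
  refine (Subgroup.closure_le _).2 ?_
  rintro g ⟨x, hx, hs, he⟩
  exact mem_centralizer_of_sandwiched h2 hk hirr hx hs he

theorem compGroup_le_join {A : Subgroup GL'} :
    compGroup G A ≤ ⨆ B ∈ quadraticRootSubgroups G, B :=
  iSup₂_le fun C hC => le_iSup₂ (f := fun (B : Subgroup GL') (_ : B ∈ quadraticRootSubgroups G) => B)
    C hC.1

theorem le_sup_centralizer (h2 : (2 : k) ≠ 0) (hk : Nat.card k ≠ 3) (hG : IsQuadraticPair G)
    (A : Subgroup GL') :
    G ≤ compGroup G A ⊔ Subgroup.centralizer ((compGroup G A : Subgroup GL') : Set GL') := by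
  conv_lhs => rw [← product_eq h2 hk hG]
  refine sup_le (iSup₂_le fun E hE => ?_) (le_trans inf_le_right (le_trans ?_ le_sup_right))
  · by_cases he : comp G E = comp G A
    · refine le_trans ?_ le_sup_left
      exact le_compGroup (he ▸ self_mem_comp hE)
    · refine le_trans ?_ le_sup_right
      exact (le_compGroup (self_mem_comp hE)).trans
        (Subgroup.commutator_eq_bot_iff_le_centralizer.1 (commutator_comps h2 hk hG.1 he))
  · exact Subgroup.centralizer_le (SetLike.coe_subset_coe.2 compGroup_le_join)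

theorem conj_mem_compGroup (h2 : (2 : k) ≠ 0) (hk : Nat.card k ≠ 3) (hG : IsQuadraticPair G)
    (A : Subgroup GL') : ∀ g ∈ G, ∀ n ∈ compGroup G A, g * n * g⁻¹ ∈ compGroup G A := by
  intro g hg n hn
  have hle : compGroup G A ⊔ Subgroup.centralizer ((compGroup G A : Subgroup GL') : Set GL') ≤
      Subgroup.normalizer ((compGroup G A : Subgroup GL') : Set GL') := by
    refine sup_le Subgroup.le_normalizer fun t ht => Subgroup.mem_normalizer_iff.2 fun m => ?_
    constructor
    · intro hm
      rwa [← Subgroup.mem_centralizer_iff.1 ht m hm, mul_inv_cancel_right]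
    · intro hm
      have h1 := Subgroup.mem_centralizer_iff.1 ht _ hm
      rw [inv_mul_cancel_right] at h1
      rw [mul_left_cancel h1]
      exact hm
  exact (Subgroup.mem_normalizer_iff.1 (hle (le_sup_centralizer h2 hk hG A hg)) n).1 hn

theorem sandGroup_le_centralizer_comp (h2 : (2 : k) ≠ 0) (hk : Nat.card k ≠ 3)
    (hirr : IsIrreducibleFor G) (A : Subgroup GL') :
    sandGroup G ≤ Subgroup.centralizer ((compGroup G A : Subgroup GL') : Set GL') :=
  (sandGroup_le_centralizer h2 hk hirr).trans
    (Subgroup.centralizer_le (SetLike.coe_subset_coe.2 compGroup_le_join))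

/-- Every family lies in one factor. -/
theorem fam_classify (h2 : (2 : k) ≠ 0) (hk : Nat.card k ≠ 3) (hG : IsQuadraticPair G) :
    ∀ (n : ℕ) (x : End'), rk x ≤ n → IsFam G x →
      (∃ A ∈ quadraticRootSubgroups G, IsFam (compGroup G A) x) ∨ IsFam (sandGroup G) x := by
  intro n
  induction n using Nat.strong_induction_on with
  | _ n ih =>
  intro x hn hx
  by_cases hs : Sandwiched G x
  · exact Or.inr (isFam_sandGroup hx hs)
  simp only [Sandwiched, not_forall] at hs
  obtain ⟨a, ha, hne⟩ := hs
  obtain ⟨x₁, x₂, rfl, -, h2', h12, h21, hne1, hrk, hN⟩ := split_fam h2 hk ha hx hne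
  have hA := member_mem_roots ha
  have hx1 := hN (compGroup G (member G a ha.fam.1)) (conj_mem_compGroup h2 hk hG _)
    (le_compGroup (self_mem_comp hA))
  left
  refine ⟨_, hA, ?_⟩
  by_cases hx2 : x₂ = 0
  · rw [hx2, add_zero]; exact hx1
  have hpos := rk_pos hne1
  rcases ih (rk x₂) (by omega) x₂ le_rfl h2' with ⟨B, hB, hxB⟩ | hxC
  · by_cases he : comp G B = comp G (member G a ha.fam.1)
    · have e : compGroup G B = compGroup G (member G a ha.fam.1) := by unfold compGroup; rw [he]
      exact hx1.add (e ▸ hxB) h12 h21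
    · exact absurd h12 (not_mul_eq_zero hG.1 (le_sup_centralizer h2 hk hG _) hx1
        (hxB.mono (Subgroup.commutator_eq_bot_iff_le_centralizer.1
          (commutator_comps h2 hk hG.1 he))) hne1 hx2)
  · exact absurd h12 (not_mul_eq_zero hG.1 (le_sup_centralizer h2 hk hG _) hx1
      (hxC.mono (sandGroup_le_centralizer_comp h2 hk hG.1 _)) hne1 hx2)

theorem sup_sandGroup (h2 : (2 : k) ≠ 0) (hk : Nat.card k ≠ 3) (hG : IsQuadraticPair G) :
    (⨆ A ∈ quadraticRootSubgroups G, A) ⊔ sandGroup G = G := by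
  refine le_antisymm (sup_le join_roots_le sandGroup_le) ?_
  conv_lhs => rw [← hG.2]
  refine (Subgroup.closure_le _).2 fun σ hσ => ?_
  obtain ⟨hx, -⟩ := mem_quadraticElements.1 hσ
  have e : ∀ g : GL', (g : End') = 1 + (1 : k) • ((σ : End') - 1) → σ = g := fun g hg =>
    Units.ext (by rw [hg, one_smul, add_sub_cancel])
  rcases fam_classify h2 hk hG _ _ le_rfl hx with ⟨A, -, hA⟩ | hC
  · obtain ⟨g, hg, he⟩ := hA.2 1
    exact Subgroup.mem_sup_left (compGroup_le_join (e g he ▸ hg))
  · obtain ⟨g, hg, he⟩ := hC.2 1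
    exact Subgroup.mem_sup_right (e g he ▸ hg)

/-- The conclusion: a decomposition into quasisimple commuting factors. -/
def Decomp (G : Subgroup (LinearMap.GeneralLinearGroup k M)) : Prop :=
  ∃ (s : ℕ) (N : Fin s → Subgroup (LinearMap.GeneralLinearGroup k M)),
    (∀ i, N i ≤ G ∧ ∀ g ∈ G, ∀ n ∈ N i, g * n * g⁻¹ ∈ N i) ∧
    (∀ i j, i ≠ j → ⁅N i, N j⁆ = ⊥) ∧ (⨆ i, N i) = G ∧
    (∀ i, IsQuasisimple ↥(N i) ∧
      Subgroup.closure (quadraticElements G ∩ (N i : Set (LinearMap.GeneralLinearGroup k M))) = N i) ∧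
    (∀ x, IsFam G x → x ≠ 0 → ∃ i, IsFam (N i) x)

theorem closure_comp {A : Subgroup GL'} :
    Subgroup.closure (quadraticElements G ∩ (compGroup G A : Set GL')) = compGroup G A := by
  refine le_antisymm ((Subgroup.closure_le _).2 Set.inter_subset_right) (iSup₂_le fun C hC => ?_)
  have hle := le_compGroup hC
  obtain ⟨σ, -, rfl⟩ := hC.1
  refine (Subgroup.closure_le _).2 fun t ht => Subgroup.subset_closure ⟨ht.1.1, ?_⟩
  exact hle (Subgroup.subset_closure ht)

end CfsgLib.RootSubgroups.QP
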