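import Cfsg.Agent.RootSubgroups.QPClasses

/-!
# Arbitrary quadratic families against the minimal ones

A family either splits off a part lying in the normal closure of a minimal one, or commutes with
every minimal one.
-/

set_option autoImplicit false

namespace CfsgLib.RootSubgroups.QP

open Cfsg

universe u v

variable {k : Type u} [Field k] {M : Type v} [AddCommGroup M] [Module k M] [FiniteDimensional k M]
variable {G : Subgroup (LinearMap.GeneralLinearGroup k M)}

local notation "GL'" => LinearMap.GeneralLinearGroup k M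
local notation "End'" => Module.End k M

/-- `a x a = 0` for every minimal `a`. -/
def Sandwiched (G : Subgroup (LinearMap.GeneralLinearGroup k M)) (t : Module.End k M) : Prop :=
  ∀ a, IsMin G a → a * (t * a) = 0

theorem aba_eq_zero (h2 : (2 : k) ≠ 0) {a x : End'} (ha : IsMin G a) (hx : IsFam G x) {n : ℕ}
    (hn : (a * x + x * a) ^ n = 0) : a * (x * a) = 0 := by
  have haa := ha.fam.1
  have hxx := hx.1
  have za : ∀ t, a * (a * t) = 0 := fun t => by rw [← mul_assoc, haa, zero_mul]
  have zx : ∀ t, x * (x * t) = 0 := fun t => by rw [← mul_assoc, hxx, zero_mul]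
  obtain ⟨z, hz⟩ : ∃ z, z = a * x + x * a := ⟨_, rfl⟩
  rw [← hz] at hn
  have hfam : ∀ s : k, IsFam G ((2 * s) • (a * (x * a)) -
      (s * s) • (a * (x * (a * x)) - x * (a * (x * a)))) := by
    intro s
    have hm := ha.conj (hx.oneAdd_mem s)
    rw [coe_inv_of_sq (smul_sq_zero hxx s) (coe_oneAdd _ _), coe_oneAdd] at hm
    obtain ⟨a1, ha1⟩ : ∃ t, t = (1 + s • x) * a * (1 - s • x) := ⟨_, rfl⟩
    rw [← ha1] at hm
    have hz1 : a * a1 + a1 * a = -((s * s) • (z * z)) := by
      rw [ha1, hz]
      simp only [mul_add, add_mul, mul_sub, sub_mul, one_mul, mul_one, smul_mul_assoc,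
        mul_smul_comm, smul_smul, mul_assoc, haa, za, hxx, zx, mul_zero, smul_zero, add_zero,
        zero_add, sub_zero]
      module
    have hnil : (a * a1 + a1 * a) ^ n = 0 := by
      rw [hz1, neg_pow, smul_pow, ← sq z, ← pow_mul, pow_eq_zero_of_le (by omega) hn, smul_zero,
        mul_zero]
    have t1 : a * (a1 * a) = 0 := by
      have := zmul_eq_zero h2 n a a1 ha hm hnil
      rwa [add_mul, mul_assoc a1 a a, haa, mul_zero, add_zero, mul_assoc] at this
    have t2 : a1 * (a * a1) = 0 := by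
      have := zmul_eq_zero h2 n a1 a hm ha (by rw [add_comm]; exact hnil)
      rwa [add_mul, mul_assoc a a1 a1, hm.fam.1, mul_zero, add_zero, mul_assoc] at this
    have := isFam_delta ha.fam hm.fam t1 t2
    convert this using 1
    rw [ha1]
    simp only [mul_add, add_mul, mul_sub, sub_mul, one_mul, mul_one, smul_mul_assoc,
      mul_smul_comm, smul_smul, mul_assoc, haa, za, mul_zero, smul_zero, add_zero,
      zero_add, sub_zero]
    module
  have h5 : a * (x * (a * (x * a))) = 0 := by
    have hm := ha.conj hx.one_mem'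
    rw [coe_inv_of_sq hxx (coe_oneAdd _ _), coe_oneAdd] at hm
    have hz1 : a * ((1 + x) * a * (1 - x)) + (1 + x) * a * (1 - x) * a = -(z * z) := by
      rw [hz]
      simp only [mul_add, add_mul, mul_sub, sub_mul, one_mul, mul_one, mul_assoc, haa, za, hxx, zx,
        mul_zero, add_zero, zero_add, sub_zero]
      abel
    have := zmul_eq_zero h2 n _ _ ha hm (by
      rw [hz1, neg_pow, ← sq z, ← pow_mul, pow_eq_zero_of_le (by omega) hn, mul_zero])
    rw [hz1, neg_mul, neg_eq_zero, hz] at this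
    simpa [add_mul, mul_add, mul_assoc, haa, za, hxx, zx] using this
  have h5' : ∀ t, a * (x * (a * (x * (a * t)))) = 0 := fun t => by
    have := congrArg (· * t) h5
    simpa [mul_assoc] using this
  by_contra hne
  have h4 := (hfam 1).add (hfam (-1)).neg (by
    simp only [mul_neg, mul_sub, sub_mul, smul_mul_assoc, mul_smul_comm, smul_smul, mul_assoc, haa,
      za, hxx, zx, h5, h5', smul_zero, mul_zero, sub_zero, neg_zero, smul_sub, sub_self, zero_sub])
    (by
    simp only [neg_mul, mul_sub, sub_mul, smul_mul_assoc, mul_smul_comm, smul_smul, mul_assoc, haa,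
      za, hxx, zx, h5, h5', smul_zero, mul_zero, sub_zero, neg_zero, smul_sub, sub_self, zero_sub])
  have h4ne : (4 : k) ≠ 0 := by
    rw [show (4 : k) = 2 * 2 by norm_num]; exact mul_ne_zero h2 h2
  have hfz : IsFam G (a * (x * a)) := by
    have h := h4.smul ((4 : k)⁻¹)
    convert h using 1
    match_scalars <;> field_simp <;> ring
  have hza : z * a = a * (x * a) := by
    rw [hz, add_mul, mul_assoc x a a, haa, mul_zero, add_zero, mul_assoc]
  have hlt := rk_lt_of_nilpotent (z := z) (hz ▸ commute_left (b := x) haa) hn ha.ne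
  rw [hza] at hlt
  exact absurd (ha.le _ hfz hne) (not_le.2 hlt)

theorem IsFam.conj_normal {N : Subgroup GL'} {x : End'} (h : IsFam N x)
    (hN : ∀ g ∈ G, ∀ n ∈ N, g * n * g⁻¹ ∈ N) {g : GL'} (hg : g ∈ G) :
    IsFam N ((g : End') * x * ((g⁻¹ : GL') : End')) := by
  refine ⟨?_, fun c => ?_⟩
  · calc (g : End') * x * ((g⁻¹ : GL') : End') * ((g : End') * x * ((g⁻¹ : GL') : End'))
        = (g : End') * x * (((g⁻¹ : GL') : End') * (g : End')) * x * ((g⁻¹ : GL') : End') := by
          simp only [mul_assoc]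
      _ = 0 := by rw [Units.inv_mul, mul_one, mul_assoc (g : End') x x, h.1, mul_zero, zero_mul]
  · obtain ⟨t, ht, hte⟩ := h.2 c
    refine ⟨g * t * g⁻¹, hN g hg t ht, ?_⟩
    rw [Units.val_mul, Units.val_mul, hte, mul_add, mul_one, add_mul, Units.mul_inv, mul_smul_comm,
      smul_mul_assoc]

/-- A family splits along a minimal one that it does not sandwich to zero. -/
theorem split_fam (h2 : (2 : k) ≠ 0) (hk : Nat.card k ≠ 3) {a x : End'} (ha : IsMin G a)
    (hx : IsFam G x) (h : a * (x * a) ≠ 0) :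
    ∃ x₁ x₂, x = x₁ + x₂ ∧ IsFam G x₁ ∧ IsFam G x₂ ∧ x₁ * x₂ = 0 ∧ x₂ * x₁ = 0 ∧ x₁ ≠ 0 ∧
      rk x₁ + rk x₂ ≤ rk x ∧
      ∀ N : Subgroup GL', (∀ g ∈ G, ∀ n ∈ N, g * n * g⁻¹ ∈ N) →
        member G a ha.fam.1 ≤ N → IsFam N x₁ := by
  obtain ⟨e, n, hc, -, he0⟩ := exists_corner ha.fam.1 hx.1
  have hez : e ≠ 0 := fun h0 => h (aba_eq_zero h2 ha hx (he0 h0))
  obtain ⟨y, hm, hy⟩ := hc.exists_matUnits
  have hle : famGen a x ≤ G := famGen_le ha.fam hx
  have hnez : ∀ {u w : End'}, u * e = 0 → a * x + x * a = u * w + w * u → Commute e w →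
      e * u = u * e → False := by
    intro u w h0 hzx hw hcom
    have hz0 : (a * x + x * a) * e = 0 := by
      rw [hzx, add_mul, mul_assoc u w e, ← hw.eq, ← mul_assoc u e w, h0, zero_mul, mul_assoc w u e,
        h0, mul_zero, add_zero]
    refine hez (LinearMap.ext fun m => ?_)
    have := hc.inj (e m) (by rw [← Module.End.mul_apply, hz0]; rfl)
    rwa [← Module.End.mul_apply, hc.idem] at this
  have hae : a * e = a := by
    have hf : IsFam G (a * e) := by
      have := (hc.isFam_corner hm hy h2 hk 1).mono hle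
      rwa [Corner.rho_one, ← mul_assoc, hc.ea, mul_assoc, hc.idem] at this
    obtain ⟨-, -, hr⟩ := ha.eq_spaces hf (fun h0 => hnez h0 rfl hc.eb hc.ea)
      (hc.ea ▸ ker_le_ker_mul e a) (range_mul_le a e)
    refine LinearMap.ext fun m => ?_
    obtain ⟨n', hn'⟩ := hr.ge ⟨m, rfl⟩
    rw [← hc.ea, Module.End.mul_apply, ← hn', ← hc.ea, ← Module.End.mul_apply, ← mul_assoc, hc.idem]
  have hm' := hm
  rw [hae] at hm
  have hfe : IsFam G (x * e) := by
    have := (isFam_corner_right (y := y) hc hm' h2 hk 1).mono hle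
    rwa [Corner.rho_one, ← mul_assoc, hc.eb, mul_assoc, hc.idem] at this
  have hp1 : x * (x * e) = 0 := by rw [← mul_assoc, hx.1, zero_mul]
  have hp2 : x * e * x = 0 := by rw [mul_assoc, hc.eb, ← mul_assoc, hx.1, zero_mul]
  have hne : x * e ≠ 0 := fun h0 => hnez h0 (add_comm _ _) hc.ea hc.eb
  have hexe : e * (x * e) = x * e := by rw [← mul_assoc, hc.eb, mul_assoc, hc.idem]
  refine ⟨x * e, x - x * e, (add_sub_cancel _ _).symm, hfe, ?_, ?_, ?_, hne, ?_, ?_⟩
  · rw [sub_eq_add_neg]
    exact hx.add hfe.neg (by rw [mul_neg, hp1, neg_zero]) (by rw [neg_mul, hp2, neg_zero])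
  · rw [mul_sub, hp2, mul_assoc, hexe, ← mul_assoc, hx.1, zero_mul, sub_zero]
  · rw [sub_mul, hp1, mul_assoc x e, hexe, hp1, sub_zero]
  · have := rk_split (x := x) (Q := e) (R := 1 - e) (by
      rw [hc.eb, mul_assoc, mul_one_sub, hc.idem, sub_self, mul_zero])
    rwa [hc.eb, mul_one_sub] at this
  · intro N hN haN
    -- `x e` is conjugate to a member of the family space of `a`
    obtain ⟨u, hu⟩ := hc.isUnit_root
    obtain ⟨r, hr⟩ : ∃ r, r = AdjoinRoot.root (minpoly k (Corner.zext a x e)) := ⟨_, rfl⟩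
    rw [← hr] at hy
    have hyfam : IsFam G y := by
      have := (isFam_corner_right (y := y) hc hm' h2 hk
        (↑u⁻¹ : Corner.Ring' a x e)).mono hle
      rwa [← hy, ← mul_assoc, ← hm.mul, hr, ← hu, Units.inv_mul, hm.e_y] at this
    have hra : IsFam G (-(Corner.rho a x e r * a)) := by
      have := ((hc.isFam_corner hm' (by rw [← hr]; exact hy) h2 hk r).mono hle).neg
      rwa [hae] at this
    have hmem : -(Corner.rho a x e r * a) ∈ espace G a ha.fam.1 := by
      refine ⟨hra, ?_, ?_⟩
      · rw [LinearMap.ker_neg]; exact ker_le_ker_mul _ a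
      · rw [LinearMap.range_neg, ← hm.comm_a]; exact range_mul_le a _
    have hN1 : IsFam N (-(Corner.rho a x e r * a)) := by
      refine ⟨hra.1, fun c => ⟨oneAdd (c • (-(Corner.rho a x e r * a))) (smul_sq_zero hra.1 c),
        haN ?_, rfl⟩⟩
      obtain ⟨hσ, e1⟩ := sameAction_oneAdd ha
      rw [member, mem_sameAction hσ]
      simp only [e1, coe_oneAdd, add_sub_cancel_left]
      exact Submodule.smul_mem _ c hmem
    have hone : e = a * y + y * a := by rw [← Corner.rho_one a x e]; exact hm.one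
    obtain ⟨w1, w2⟩ := coe_pflip hm.aa hyfam.1 hm.aya hone
    have key : (((pflip a y hm.aa hyfam.1 : GL') : End')) * (-(Corner.rho a x e r * a)) *
        (((pflip a y hm.aa hyfam.1)⁻¹ : GL') : End') = x * e := by
      have hea : e * a = a := by rw [hc.ea, hae]
      have e1 : (((pflip a y hm.aa hyfam.1 : GL') : End')) * Corner.rho a x e r =
          Corner.rho a x e r * (((pflip a y hm.aa hyfam.1 : GL') : End')) := by
        rw [w1]
        simp only [sub_mul, add_mul, mul_sub, mul_add, one_mul, mul_one, hm.comm_a, hm.comm_y]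
        have h1 := hm.e_rho r
        have h3 := hm.rho_e r
        rw [Corner.rho_one] at h1 h3
        rw [h1, h3]
      have e2 : (((pflip a y hm.aa hyfam.1 : GL') : End')) * a = -(y * a) := by
        rw [w1, sub_mul, add_mul, sub_mul, one_mul, hea, hm.aa, sub_self, add_zero, zero_sub]
      rw [mul_neg, ← mul_assoc, e1, mul_assoc _ _ a, e2, w2, ← hy]
      simp only [mul_neg, neg_neg, mul_add, mul_sub, mul_one, mul_assoc, hm.aa, mul_zero, sub_zero,
        hm.yay, hae, sub_self, zero_add]
    have := hN1.conj_normal hN (pflip_mem ha.fam hyfam)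
    rwa [key] at this

/-! ### Families sandwiched to zero by all minimal ones -/

theorem Sandwiched.conj {t : End'} (h : Sandwiched G t) {g : GL'} (hg : g ∈ G) :
    Sandwiched G ((g : End') * t * ((g⁻¹ : GL') : End')) := by
  intro a ha
  have ha' := ha.conj (inv_mem hg)
  rw [inv_inv] at ha'
  have h1 := congrArg (fun u => (g : End') * u * ((g⁻¹ : GL') : End')) (h _ ha')
  simp only [mul_assoc, Units.mul_inv, mul_one, ← mul_assoc (g : End') ((g⁻¹ : GL') : End'),
    one_mul, mul_zero, zero_mul] at h1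
  simpa only [mul_assoc] using h1

theorem Sandwiched.bracket (h2 : (2 : k) ≠ 0) {t y : End'} (h : Sandwiched G t) (hy : IsFam G y) :
    Sandwiched G (y * t - t * y) := by
  intro a ha
  have h1 := h.conj hy.one_mem' a ha
  have h3 := h.conj (inv_mem hy.one_mem') a ha
  rw [coe_inv_of_sq hy.1 (coe_oneAdd _ _), coe_oneAdd] at h1
  rw [inv_inv, coe_inv_of_sq hy.1 (coe_oneAdd _ _), coe_oneAdd] at h3
  have : (2 : k) • (a * ((y * t - t * y) * a)) = 0 := by
    rw [← sub_zero (0 : End')]
    conv_rhs => arg 1; rw [← h1]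
    conv_rhs => arg 2; rw [← h3]
    simp only [add_mul, mul_add, sub_mul, mul_sub, one_mul, mul_one, mul_assoc, two_smul]
    abel
  exact (smul_eq_zero.1 this).resolve_left h2

/-- A sandwiched family kills every minimal one from both sides, and brackets to families. -/
theorem xax_eq_zero (h2 : (2 : k) ≠ 0) (hk : Nat.card k ≠ 3) (hirr : IsIrreducibleFor G)
    {x : End'} (hx : IsFam G x) (hs : Sandwiched G x) {a : End'} (ha : IsMin G a) :
    x * (a * x) = 0 ∧ IsFam G (x * a - a * x) := by
  have haa := ha.fam.1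
  have hxx := hx.1
  have haxa := hs a ha
  have za : ∀ t, a * (a * t) = 0 := fun t => by rw [← mul_assoc, haa, zero_mul]
  have zx : ∀ t, x * (x * t) = 0 := fun t => by rw [← mul_assoc, hxx, zero_mul]
  have za' : ∀ t, a * (x * (a * t)) = 0 := fun t => by
    have := congrArg (· * t) haxa
    simpa [mul_assoc] using this
  have h1 := ha.fam.conj hx.one_mem'
  have h3 := ha.fam.conj (inv_mem hx.one_mem')
  rw [coe_inv_of_sq hxx (coe_oneAdd _ _), coe_oneAdd] at h1
  rw [inv_inv, coe_inv_of_sq hxx (coe_oneAdd _ _), coe_oneAdd] at h3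
  have z12 : (1 + x) * a * (1 - x) * ((1 - x) * a * (1 + x)) = 0 := by
    simp only [add_mul, mul_add, sub_mul, mul_sub, one_mul, mul_one, mul_assoc, haa, za, hxx, zx,
      haxa, za', mul_zero, add_zero, zero_add, sub_zero, sub_self]
  have z21 : (1 - x) * a * (1 + x) * ((1 + x) * a * (1 - x)) = 0 := by
    simp only [add_mul, mul_add, sub_mul, mul_sub, one_mul, mul_one, mul_assoc, haa, za, hxx, zx,
      haxa, za', mul_zero, add_zero, zero_add, sub_zero, sub_self]
  have hw : IsFam G (x * a - a * x) := by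
    have h4 := (h1.add h3.neg (by rw [mul_neg, z12, neg_zero])
      (by rw [neg_mul, z21, neg_zero])).smul (2 : k)⁻¹
    convert h4 using 1
    rw [show (1 + x) * a * (1 - x) + -((1 - x) * a * (1 + x)) =
      (x * a - a * x) + (x * a - a * x) by
        simp only [add_mul, mul_add, sub_mul, mul_sub, one_mul, mul_one]; abel,
      ← two_smul k (x * a - a * x), smul_smul, inv_mul_cancel₀ h2, one_smul]
  refine ⟨?_, hw⟩
  have hu : IsFam G (x * (a * x)) := by
    have h5 := ((h1.add h3 z12 z21).add (ha.fam.smul (-2 : k)) (by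
      simp only [add_mul, mul_add, sub_mul, mul_sub, one_mul, mul_one, mul_smul_comm, mul_assoc,
        haa, za, haxa, mul_zero, add_zero, sub_zero, smul_zero, zero_add, sub_self]) (by
      simp only [add_mul, mul_add, sub_mul, mul_sub, one_mul, mul_one, smul_mul_assoc, mul_assoc,
        haa, za, haxa, za', mul_zero, add_zero, sub_zero, smul_zero, zero_add, sub_self])).smul (-(2 : k)⁻¹)
    convert h5 using 1
    simp only [add_mul, mul_add, sub_mul, mul_sub, one_mul, mul_one, mul_assoc]
    match_scalars <;> field_simp <;> ring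
  by_contra hne
  have hrk : rk (x * (a * x)) ≤ rk a := by
    show Module.finrank k (LinearMap.range (x ∘ₗ (a * x))) ≤ _
    rw [LinearMap.range_comp]
    exact (Submodule.finrank_map_le _ _).trans (Submodule.finrank_mono (range_mul_le a x))
  have hum : IsMin G (x * (a * x)) := ⟨hu, hne, fun w hw' hw0 => hrk.trans (ha.le w hw' hw0)⟩
  obtain ⟨d, e, q, hp⟩ := exists_min_partner h2 hk hirr hum
  have h6 := (hs.bracket h2 hp.min.fam).bracket h2 hx a ha
  have h7 : (2 : k) • (a * (x * (q * (x * a)))) = 0 := by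
    rw [← h6]
    simp only [mul_sub, sub_mul, mul_assoc, zx, hxx, mul_zero, sub_zero, zero_sub, sub_neg_eq_add,
      two_smul, add_mul, mul_add]
  have h8 := (smul_eq_zero.1 h7).resolve_left h2
  have h9 := congrArg (fun t => x * (t * x)) h8
  apply hne
  have h10 := hp.aya
  simp only [mul_assoc] at h9 h10
  rw [h9] at h10
  simpa using h10.symm

/-- Half of the vanishing of the odd part, for one orientation of an opposite pair. -/
theorem odd_part_eq_zero (h2 : (2 : k) ≠ 0) (hk : Nat.card k ≠ 3) (hirr : IsIrreducibleFor G)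
    {x : End'} (hx : IsFam G x) (hs : Sandwiched G x) {a y : End'} (ha : IsMin G a)
    (hy : IsMin G y) (hay : a * (y * a) = a) (hya : y * (a * y) = y) :
    a * y * (x * (1 - (a * y + y * a))) = 0 ∧ (1 - (a * y + y * a)) * (x * (y * a)) = 0 := by
  have haa := ha.fam.1
  have hyy := hy.fam.1
  have haxa := hs a ha
  have hyxy := hs y hy
  obtain ⟨hxax, -⟩ := xax_eq_zero h2 hk hirr hx hs ha
  obtain ⟨hxyx, hv⟩ := xax_eq_zero h2 hk hirr hx hs hy
  obtain ⟨p, hp⟩ : ∃ p, p = a * y := ⟨_, rfl⟩
  obtain ⟨q, hq⟩ : ∃ q, q = y * a := ⟨_, rfl⟩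
  rw [← hp, ← hq]
  obtain ⟨P, hP⟩ : ∃ P, P = 1 - (p + q) := ⟨_, rfl⟩
  rw [← hP]
  have za : ∀ t, a * (a * t) = 0 := fun t => by rw [← mul_assoc, haa, zero_mul]
  have zy : ∀ t, y * (y * t) = 0 := fun t => by rw [← mul_assoc, hyy, zero_mul]
  have ppp : p * p = p := by rw [hp, mul_assoc, hya]
  have qqq : q * q = q := by rw [hq, mul_assoc, hay]
  have hpq : p * q = 0 := by rw [hp, hq, mul_assoc, zy, mul_zero]
  have hqp : q * p = 0 := by rw [hp, hq, mul_assoc, za, mul_zero]
  have hPp : P * p = 0 := by rw [hP, one_sub_mul, add_mul, ppp, hqp, add_zero, sub_self]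
  have hPq : P * q = 0 := by rw [hP, one_sub_mul, add_mul, qqq, hpq, zero_add, sub_self]
  have hpP : p * P = 0 := by rw [hP, mul_one_sub, mul_add, ppp, hpq, add_zero, sub_self]
  have hqP : q * P = 0 := by rw [hP, mul_one_sub, mul_add, qqq, hqp, zero_add, sub_self]
  have hPP : P * P = P := by
    conv_lhs => arg 2; rw [hP]
    rw [mul_one_sub, mul_add, hPp, hPq, add_zero, sub_zero]
  have hpa : p * a = a := by rw [hp, mul_assoc, hay]
  have haq : a * q = a := by rw [hq, hay]
  have hqy : q * y = y := by rw [hq, mul_assoc, hya]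
  have hyp : y * p = y := by rw [hp, hya]
  have hPa : P * a = 0 := by rw [← hpa, ← mul_assoc, hPp, zero_mul]
  have haP : a * P = 0 := by rw [← haq, mul_assoc, hqP, mul_zero]
  have pol1 : p * (x * a) = a * (x * q) := by
    have h := hs.bracket h2 hy.fam a ha
    rw [sub_mul, mul_sub, sub_eq_zero] at h
    simp only [mul_assoc] at h
    rw [hp, hq, mul_assoc]
    exact h
  have pxq : p * (x * q) = 0 := by
    rw [hp, hq, mul_assoc, ← mul_assoc x, ← mul_assoc y (x * y), hyxy, zero_mul, mul_zero]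
  -- the conjugate of `a` by `1 + (x y - y x)`
  obtain ⟨w, hw⟩ : ∃ w, w = x * y - y * x := ⟨_, rfl⟩
  rw [← hw] at hv
  have qxq : q * (x * q) = y * (x * a) := by
    conv_rhs => rw [← hyp, mul_assoc, pol1, ← mul_assoc, ← hq]
  have pxp : p * (x * p) = a * (x * y) := by
    conv_lhs => arg 2; arg 2; rw [hp]
    rw [← mul_assoc x a y, ← mul_assoc p, pol1, mul_assoc, mul_assoc, hqy]
  obtain ⟨T, hT⟩ : ∃ T, T = w * a - a * w := ⟨_, rfl⟩
  have hTv : T = p * (x * P) + P * (x * q) := by
    have e1 : T = x * q - y * (x * a) - (a * (x * y) - p * x) := by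
      rw [hT, hw, sub_mul, mul_sub, hq, hp]
      simp only [mul_assoc]
    rw [e1, ← qxq, ← pxp, hP]
    simp only [mul_sub, mul_add, mul_one, sub_mul, add_mul, one_mul, pxq]
    abel
  have hawa : a * (w * a) = 0 := by
    rw [hw, sub_mul, mul_sub, mul_assoc x, ← hq, ← pol1, mul_assoc y, ← mul_assoc a y, ← hp,
      sub_self]
  have hwaw : w * (a * w) = 0 := by
    have hK : x * (q * x) = x * (p * x) := by
      have h1 := (xax_eq_zero h2 hk hirr hx hs (ha.conj hy.fam.one_mem')).1
      have h3 := (xax_eq_zero h2 hk hirr hx hs (ha.conj (inv_mem hy.fam.one_mem'))).1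
      rw [coe_inv_of_sq hyy (coe_oneAdd _ _), coe_oneAdd] at h1
      rw [inv_inv, coe_inv_of_sq hyy (coe_oneAdd _ _), coe_oneAdd] at h3
      have h4 : (2 : k) • (x * (q * x) - x * (p * x)) = 0 := by
        rw [← sub_zero (0 : End')]
        conv_rhs => arg 1; rw [← h1]
        conv_rhs => arg 2; rw [← h3]
        simp only [hp, hq, add_mul, mul_add, sub_mul, mul_sub, one_mul, mul_one, mul_assoc,
          two_smul]
        abel
      exact sub_eq_zero.1 ((smul_eq_zero.1 h4).resolve_left h2)
    have k1 : x * (q * (x * y)) = 0 := by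
      rw [← mul_assoc q, ← mul_assoc x, hK, hp, mul_assoc a y x, mul_assoc x, mul_assoc a,
        mul_assoc y x y, hyxy, mul_zero, mul_zero]
    have k2 : y * (x * (p * x)) = 0 := by
      rw [← hK, hq, mul_assoc y a x, ← mul_assoc x y, ← mul_assoc y, hyxy, zero_mul]
    have t1 : x * (y * (a * (x * y))) = 0 := by
      rw [← k1, hq]; simp only [mul_assoc]
    have t4 : y * (x * (a * (y * x))) = 0 := by
      rw [← k2, hp]; simp only [mul_assoc]
    have t2 : x * (y * (a * (y * x))) = 0 := by
      rw [show y * (a * (y * x)) = y * x by rw [← mul_assoc a, ← mul_assoc y (a * y), hya]]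
      exact hxyx
    have t3 : y * (x * (a * (x * y))) = 0 := by
      rw [← mul_assoc a, ← mul_assoc x (a * x), hxax, zero_mul, mul_zero]
    simp only [hw, sub_mul, mul_sub, mul_assoc, t1, t2, t3, t4, sub_self]
  have hc : IsMin G (a + T) := by
    have h1 := ha.conj hv.one_mem'
    rw [coe_inv_of_sq hv.1 (coe_oneAdd _ _), coe_oneAdd] at h1
    have e : (1 + w) * a * (1 - w) = a + T := by
      rw [hT]
      simp only [add_mul, mul_sub, one_mul, mul_one, mul_assoc, hwaw, sub_zero]
      abel
    rwa [e] at h1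
  have hfT : IsFam G T := by
    have h1 := hc.fam.add ha.fam.neg (by
      rw [mul_neg, hT, add_mul, sub_mul, mul_assoc w a a, haa, mul_assoc a w a, hawa]; simp) (by
      rw [neg_mul, hT, mul_add, mul_sub, ← mul_assoc a a w, haa, hawa]; simp)
    rwa [show a + T + -a = T by abel] at h1
  have hPT : P * T = P * (x * q) := by
    rw [hTv, mul_add, ← mul_assoc P p, hPp, zero_mul, zero_add, ← mul_assoc P P, hPP]
  have hTP : T * P = p * (x * P) := by
    rw [hTv, add_mul, mul_assoc, mul_assoc, hPP, mul_assoc, mul_assoc, hqP, mul_zero, mul_zero,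
      add_zero]
  have hrk : rk T ≤ rk a := by
    have r1 : rk (P * (a + T)) + rk ((a + T) * P) ≤ rk (a + T) := rk_split (by
      rw [mul_add, hPa, zero_add, hPT, mul_assoc, mul_assoc, hqP, mul_zero, mul_zero])
    rw [mul_add, hPa, zero_add, add_mul, haP, zero_add, hPT, hTP] at r1
    have r3 := rk_add_le (p * (x * P)) (P * (x * q))
    rw [← hTv] at r3
    have r5 := ha.rk_eq hc
    omega
  suffices hT0 : T = 0 by
    rw [hT0, zero_mul] at hTP
    rw [hT0, mul_zero] at hPT
    exact ⟨hTP.symm, hPT.symm⟩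
  by_contra hne
  have hTm : IsMin G T := ⟨hfT, hne, fun s hs' hs0 => hrk.trans (ha.le s hs' hs0)⟩
  obtain ⟨d, e, f, hpf⟩ := exists_min_partner h2 hk hirr hTm
  -- the weight `-1` part of the partner
  obtain ⟨F, hF⟩ : ∃ F, F = P * (f * p) + q * (f * P) := ⟨_, rfl⟩
  have hker : x * (F * x) = 0 := by
    obtain ⟨S, hS⟩ : ∃ S : Submodule k End',
        S = LinearMap.ker ((LinearMap.mulLeft k x) ∘ₗ (LinearMap.mulRight k x)) := ⟨_, rfl⟩
    have hS' : ∀ t, t ∈ S ↔ x * (t * x) = 0 := fun t => by rw [hS]; exact Iff.rfl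
    obtain ⟨L, hL⟩ : ∃ L : Submodule k End', L = Submodule.span k {m | IsMin G m} := ⟨_, rfl⟩
    have hLS : L ≤ S := by
      rw [hL, Submodule.span_le]
      exact fun m hm => (hS' m).2 (xax_eq_zero h2 hk hirr hx hs hm).1
    have hLconj : ∀ g ∈ G, ∀ t ∈ L, (g : End') * t * ((g⁻¹ : GL') : End') ∈ L := by
      intro g hg t ht
      rw [hL] at ht ⊢
      induction ht using Submodule.span_induction with
      | mem m hm => exact Submodule.subset_span (hm.conj hg)
      | zero => rw [mul_zero, zero_mul]; exact Submodule.zero_mem _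
      | add s t _ _ hs ht => rw [mul_add, add_mul]; exact Submodule.add_mem _ hs ht
      | smul c s _ hs => rw [mul_smul_comm, smul_mul_assoc]; exact Submodule.smul_mem _ c hs
    have hLbr : ∀ m, IsFam G m → ∀ t ∈ L, m * t - t * m ∈ L := by
      intro m hm t ht
      have h1 := hLconj _ hm.one_mem' t ht
      have h3 := hLconj _ (inv_mem hm.one_mem') t ht
      rw [coe_inv_of_sq hm.1 (coe_oneAdd _ _), coe_oneAdd] at h1
      rw [inv_inv, coe_inv_of_sq hm.1 (coe_oneAdd _ _), coe_oneAdd] at h3
      have h4 := Submodule.smul_mem _ (2 : k)⁻¹ (Submodule.sub_mem _ h1 h3)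
      rwa [show (1 + m) * t * (1 - m) - (1 - m) * t * (1 + m) =
        (m * t - t * m) + (m * t - t * m) by
          simp only [add_mul, mul_add, sub_mul, mul_sub, one_mul, mul_one]; abel,
        ← two_smul k (m * t - t * m), smul_smul, inv_mul_cancel₀ h2, one_smul] at h4
    refine (hS' F).1 (hLS ?_)
    have hf : f ∈ L := hL ▸ Submodule.subset_span hpf.min
    obtain ⟨Y, hY⟩ : ∃ Y, Y = y * (a * f - f * a) - (a * f - f * a) * y := ⟨_, rfl⟩
    have hYL : Y ∈ L := hY ▸ hLbr y hy.fam _ (hLbr a ha.fam f hf)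
    obtain ⟨j, hj⟩ : ∃ j : GL', j = pflip a y haa hyy * pflip a y haa hyy := ⟨_, rfl⟩
    have hjG : j ∈ G := hj ▸ mul_mem (pflip_mem ha.fam hy.fam) (pflip_mem ha.fam hy.fam)
    have hPy : P * y = 0 := by rw [← hqy, ← mul_assoc, hPq, zero_mul]
    have hyP : y * P = 0 := by rw [← hyp, mul_assoc, hpP, mul_zero]
    have hjv : (j : End') = P + P - 1 := by
      rw [hj, Units.val_mul, (coe_pflip haa hyy hay rfl).1, ← hp, ← hq, ← hP]
      simp only [add_mul, mul_add, sub_mul, mul_sub, hPP, hPa, haP, hyP, hPy, haa, hyy, ← hp, ← hq]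
      rw [hP]
      abel
    have hjj : (P + P - 1) * (P + P - 1) = (1 : End') := by
      simp only [add_mul, mul_add, sub_mul, mul_sub, hPP, one_mul, mul_one]
      abel
    have hjinv : ((j⁻¹ : GL') : End') = P + P - 1 := by
      calc ((j⁻¹ : GL') : End') = ((j⁻¹ : GL') : End') * ((j : End') * (j : End')) := by
            rw [hjv, hjj, mul_one]
        _ = P + P - 1 := by rw [← mul_assoc, Units.inv_mul, one_mul, hjv]
    have hodd := Submodule.smul_mem _ (2 : k)⁻¹ (Submodule.sub_mem _ hYL (hLconj j hjG Y hYL))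
    rw [hjv, hjinv] at hodd
    have e1 : P * Y = P * (f * p) := by
      rw [hY, hp]
      simp only [mul_sub, sub_mul, ← mul_assoc, hPy, hPa, zero_mul, sub_zero, zero_sub, neg_sub,
        neg_neg]
    have e2 : Y * P = q * (f * P) := by
      rw [hY, hq]
      simp only [mul_sub, sub_mul, mul_assoc, hyP, haP, mul_zero, sub_zero, zero_sub, neg_sub,
        neg_neg]
    have e3 : P * (Y * P) = 0 := by rw [e2, ← mul_assoc, hPq, zero_mul]
    rw [show Y - (P + P - 1) * Y * (P + P - 1) = (P * Y + Y * P) + (P * Y + Y * P) by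
        simp only [add_mul, mul_add, sub_mul, mul_sub, one_mul, mul_one, mul_assoc, e3]
        abel,
      ← two_smul k (P * Y + Y * P), smul_smul, inv_mul_cancel₀ h2, one_smul, e1, e2, ← hF] at hodd
    exact hodd
  apply hne
  have pl : ∀ t, p * (p * t) = p * t := fun t => by rw [← mul_assoc, ppp]
  have ql : ∀ t, q * (q * t) = q * t := fun t => by rw [← mul_assoc, qqq]
  have Pl : ∀ t, P * (P * t) = P * t := fun t => by rw [← mul_assoc, hPP]
  have z1 : ∀ t, p * (q * t) = 0 := fun t => by rw [← mul_assoc, hpq, zero_mul]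
  have z2 : ∀ t, q * (p * t) = 0 := fun t => by rw [← mul_assoc, hqp, zero_mul]
  have z3 : ∀ t, p * (P * t) = 0 := fun t => by rw [← mul_assoc, hpP, zero_mul]
  have z4 : ∀ t, q * (P * t) = 0 := fun t => by rw [← mul_assoc, hqP, zero_mul]
  have z5 : ∀ t, P * (p * t) = 0 := fun t => by rw [← mul_assoc, hPp, zero_mul]
  have z6 : ∀ t, P * (q * t) = 0 := fun t => by rw [← mul_assoc, hPq, zero_mul]
  have z7 : ∀ t, p * (x * (q * t)) = 0 := fun t => by
    rw [← mul_assoc x, ← mul_assoc p, pxq, zero_mul]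
  have h1 := congrArg (fun t => p * (t * P)) hker
  have h3 := congrArg (fun t => P * (t * q)) hker
  simp only [hF, add_mul, mul_add, mul_assoc, z7, mul_zero, add_zero, zero_mul] at h1
  simp only [hF, add_mul, mul_add, mul_assoc, pxq, mul_zero, zero_add, zero_mul] at h3
  have e4 := hpf.aya
  have f1 := congrArg (fun t => p * (t * P)) e4
  have f2 := congrArg (fun t => P * (t * q)) e4
  simp only [hTv, add_mul, mul_add, mul_assoc, pl, ql, Pl, z1, z2, z3, z4, z5, z6, ppp, qqq, hPP,
    hpq, hqp, hpP, hqP, hPp, hPq, mul_zero, add_zero, zero_add] at f1 f2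
  rw [hTv, ← f1, ← f2, h1, h3, add_zero]

/-- A sandwiched family commutes with every minimal one. -/
theorem commute_of_sandwiched (h2 : (2 : k) ≠ 0) (hk : Nat.card k ≠ 3) (hirr : IsIrreducibleFor G)
    {x : End'} (hx : IsFam G x) (hs : Sandwiched G x) {a : End'} (ha : IsMin G a) :
    Commute a x := by
  obtain ⟨d, e, y, hp⟩ := exists_min_partner h2 hk hirr ha
  have hym := hp.min
  have hay := hp.aya
  have hya := hp.yay
  obtain ⟨o1, o2⟩ := odd_part_eq_zero h2 hk hirr hx hs ha hym hay hya
  obtain ⟨o3, o4⟩ := odd_part_eq_zero h2 hk hirr hx hs hym ha hya hay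
  rw [add_comm (y * a)] at o3 o4
  have haxa := hs a ha
  have pol : a * y * (x * a) = a * (x * (y * a)) := by
    have h := hs.bracket h2 hym.fam a ha
    rw [sub_mul, mul_sub, sub_eq_zero] at h
    simp only [mul_assoc] at h ⊢
    exact h
  have e1 : a * (x * (1 - (a * y + y * a))) = 0 := by
    conv_lhs => arg 1; rw [← hay]
    rw [mul_assoc, o3, mul_zero]
  have e2 : (1 - (a * y + y * a)) * (x * a) = 0 := by
    conv_lhs => arg 2; arg 2; rw [← hay, ← mul_assoc]
    rw [← mul_assoc x (a * y) a, ← mul_assoc, o4, zero_mul]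
  have q1 : a * (x * (a * y)) = 0 := by rw [← mul_assoc x, ← mul_assoc, haxa, zero_mul]
  have q2 : y * a * (x * a) = 0 := by rw [mul_assoc, haxa, mul_zero]
  rw [mul_one_sub, mul_sub, mul_add, mul_add, q1, zero_add, sub_eq_zero] at e1
  rw [one_sub_mul, add_mul, q2, add_zero, sub_eq_zero] at e2
  show a * x = x * a
  rw [e1, e2, pol]

end CfsgLib.RootSubgroups.QP
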