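import Cfsg.Agent.RootSubgroups.QPBasic
import Cfsg.Agent.RootSubgroups.GenBasic
import Cfsg.Agent.RootSubgroups.SL2

/-!
# Representations of `SL₂` by matrix units inside an endomorphism ring
-/

set_option autoImplicit false

namespace CfsgLib.RootSubgroups.QP

open Matrix

variable {k : Type*} [Field k] {M : Type*} [AddCommGroup M] [Module k M]
variable {R : Type*} [CommRing R]

/-- Matrix units `a y`, `a`, `y`, `y a` over the commutative ring `R` acting through `ρ`. -/
structure MatUnits (ρ : R →+ Module.End k M) (a y : Module.End k M) : Prop where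
  aa : a * a = 0
  yy : y * y = 0
  aya : a * (y * a) = a
  yay : y * (a * y) = y
  one : ρ 1 = a * y + y * a
  mul : ∀ r s, ρ (r * s) = ρ r * ρ s
  comm_a : ∀ r, a * ρ r = ρ r * a
  comm_y : ∀ r, y * ρ r = ρ r * y

namespace MatUnits

variable {ρ : R →+ Module.End k M} {a y : Module.End k M}

theorem e_a (h : MatUnits ρ a y) : ρ 1 * a = a := by
  rw [h.one, add_mul, mul_assoc, mul_assoc, h.aya, h.aa, mul_zero, add_zero]

theorem a_e (h : MatUnits ρ a y) : a * ρ 1 = a := by rw [h.comm_a, h.e_a]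

theorem e_y (h : MatUnits ρ a y) : ρ 1 * y = y := by
  rw [h.one, add_mul, mul_assoc, mul_assoc, h.yay, h.yy, mul_zero, zero_add]

theorem y_e (h : MatUnits ρ a y) : y * ρ 1 = y := by rw [h.comm_y, h.e_y]

theorem e_rho (h : MatUnits ρ a y) (r : R) : ρ 1 * ρ r = ρ r := by rw [← h.mul, one_mul]

theorem rho_e (h : MatUnits ρ a y) (r : R) : ρ r * ρ 1 = ρ r := by rw [← h.mul, mul_one]

/-- The endomorphism attached to a matrix. -/
def toEnd (ρ : R →+ Module.End k M) (a y : Module.End k M) (m : Matrix (Fin 2) (Fin 2) R) :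
    Module.End k M :=
  1 - ρ 1 + (ρ (m 0 0) * (a * y) + ρ (m 0 1) * a + ρ (m 1 0) * y + ρ (m 1 1) * (y * a))

theorem toEnd_one (h : MatUnits ρ a y) : toEnd ρ a y 1 = 1 := by
  simp only [toEnd, one_apply_eq, Fin.isValue, ne_eq, zero_ne_one, not_false_eq_true,
    one_apply_ne, one_ne_zero, map_zero, zero_mul, add_zero]
  rw [← mul_add, ← h.one, h.e_rho, sub_add_cancel]

theorem toEnd_mul (h : MatUnits ρ a y) (m n : Matrix (Fin 2) (Fin 2) R) :
    toEnd ρ a y (m * n) = toEnd ρ a y m * toEnd ρ a y n := by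
  have hr : ∀ r s x, ρ r * (ρ s * x) = ρ (r * s) * x := fun r s x => by rw [h.mul, mul_assoc]
  have ha : ∀ r x, a * (ρ r * x) = ρ r * (a * x) := fun r x => by
    rw [← mul_assoc, h.comm_a, mul_assoc]
  have hy : ∀ r x, y * (ρ r * x) = ρ r * (y * x) := fun r x => by
    rw [← mul_assoc, h.comm_y, mul_assoc]
  have haa : ∀ x, a * (a * x) = 0 := fun x => by rw [← mul_assoc, h.aa, zero_mul]
  have hyy : ∀ x, y * (y * x) = 0 := fun x => by rw [← mul_assoc, h.yy, zero_mul]
  have haya : ∀ x, a * (y * (a * x)) = a * x := fun x => by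
    rw [← mul_assoc, ← mul_assoc, mul_assoc a y a, h.aya]
  have hyay : ∀ x, y * (a * (y * x)) = y * x := fun x => by
    rw [← mul_assoc, ← mul_assoc, mul_assoc y a y, h.yay]
  simp only [toEnd, Matrix.mul_apply, Fin.sum_univ_two, map_add, add_mul, mul_add, sub_mul,
    mul_sub, one_mul, mul_one, mul_assoc, hr, ha, hy, haa, hyy, haya, hyay, h.aa, h.yy, h.aya,
    h.yay, h.e_a, h.a_e, h.e_y, h.y_e, h.e_rho, h.rho_e, h.comm_a, h.comm_y, mul_zero, add_zero,
    zero_add]
  abel

/-- The representation of `SL₂(R)`. -/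
def rep (h : MatUnits ρ a y) :
    Matrix.SpecialLinearGroup (Fin 2) R →* LinearMap.GeneralLinearGroup k M where
  toFun g :=
    { val := toEnd ρ a y g.1
      inv := toEnd ρ a y (g⁻¹ : Matrix.SpecialLinearGroup (Fin 2) R).1
      val_inv := (h.toEnd_mul _ _).symm.trans
        ((congrArg (toEnd ρ a y) (congrArg Subtype.val (mul_inv_cancel g))).trans h.toEnd_one)
      inv_val := (h.toEnd_mul _ _).symm.trans
        ((congrArg (toEnd ρ a y) (congrArg Subtype.val (inv_mul_cancel g))).trans h.toEnd_one) }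
  map_one' := Units.ext h.toEnd_one
  map_mul' g g' := Units.ext (h.toEnd_mul g.1 g'.1)

theorem coe_rep (h : MatUnits ρ a y) (g : Matrix.SpecialLinearGroup (Fin 2) R) :
    ((h.rep g : LinearMap.GeneralLinearGroup k M) : Module.End k M) = toEnd ρ a y g.1 := rfl

theorem rep_rUp (h : MatUnits ρ a y) (r : R) :
    ((h.rep (Gen.rUp r) : LinearMap.GeneralLinearGroup k M) : Module.End k M) = 1 + ρ r * a := by
  simp only [coe_rep, toEnd, Gen.coe_rUp, of_apply, cons_val', cons_val_zero, cons_val_one,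
    cons_val_fin_one, map_zero, zero_mul, add_zero]
  rw [add_right_comm, ← mul_add, ← h.one, h.e_rho, ← add_assoc, sub_add_cancel]

theorem rep_rLow (h : MatUnits ρ a y) (r : R) :
    ((h.rep (Gen.rLow r) : LinearMap.GeneralLinearGroup k M) : Module.End k M) = 1 + ρ r * y := by
  simp only [coe_rep, toEnd, Gen.coe_rLow, of_apply, cons_val', cons_val_zero, cons_val_one,
    cons_val_fin_one, map_zero, zero_mul, add_zero]
  rw [add_right_comm (ρ 1 * (a * y)), ← mul_add, ← h.one, h.e_rho, ← add_assoc, sub_add_cancel]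

theorem rep_injective (h : MatUnits ρ a y) (hρ : Function.Injective ρ) :
    Function.Injective h.rep := by
  intro g g' he
  have he' : toEnd ρ a y g.1 = toEnd ρ a y g'.1 := congrArg Units.val he
  have key : ∀ m : Matrix (Fin 2) (Fin 2) R,
      ρ (m 0 0) * a = a * (y * (toEnd ρ a y m * a)) ∧ ρ (m 0 1) * a = a * (y * (toEnd ρ a y m * (y * a))) ∧
      ρ (m 1 0) * a = a * (toEnd ρ a y m * a) ∧ ρ (m 1 1) * a = a * (toEnd ρ a y m * (y * a)) := by
    intro m
    have ha : ∀ r x, a * (ρ r * x) = ρ r * (a * x) := fun r x => by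
      rw [← mul_assoc, h.comm_a, mul_assoc]
    have hy : ∀ r x, y * (ρ r * x) = ρ r * (y * x) := fun r x => by
      rw [← mul_assoc, h.comm_y, mul_assoc]
    have haa : ∀ x, a * (a * x) = 0 := fun x => by rw [← mul_assoc, h.aa, zero_mul]
    have hyy : ∀ x, y * (y * x) = 0 := fun x => by rw [← mul_assoc, h.yy, zero_mul]
    have haya : ∀ x, a * (y * (a * x)) = a * x := fun x => by
      rw [← mul_assoc, ← mul_assoc, mul_assoc a y a, h.aya]
    have hyay : ∀ x, y * (a * (y * x)) = y * x := fun x => by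
      rw [← mul_assoc, ← mul_assoc, mul_assoc y a y, h.yay]
    have hey : ∀ x, ρ 1 * (y * x) = y * x := fun x => by rw [← mul_assoc, h.e_y]
    refine ⟨?_, ?_, ?_, ?_⟩ <;>
      simp only [toEnd, add_mul, mul_add, sub_mul, mul_sub, one_mul, mul_assoc, ha, hy, haa, hyy,
        haya, hyay, hey, h.aa, h.yy, h.aya, h.yay, h.e_a, h.comm_a, h.comm_y, mul_zero, add_zero,
        zero_add, sub_self, zero_mul]
  have hcancel : ∀ r s : R, ρ r * a = ρ s * a → r = s := fun r s e => hρ (by
    have hy : ρ r * y = ρ s * y := by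
      have h1 := congrArg (fun t => y * (t * y)) e
      simp only [mul_assoc] at h1
      rwa [← mul_assoc, h.comm_y, mul_assoc, h.yay, ← mul_assoc, h.comm_y, mul_assoc, h.yay] at h1
    rw [← h.rho_e r, ← h.rho_e s, h.one, mul_add, mul_add, ← mul_assoc, e, mul_assoc,
      ← mul_assoc (ρ r), hy, mul_assoc])
  refine Gen.ext_entries ?_ ?_ ?_ ?_ <;> refine hcancel _ _ ?_
  · rw [(key g.1).1, (key g'.1).1, he']
  · rw [(key g.1).2.1, (key g'.1).2.1, he']
  · rw [(key g.1).2.2.1, (key g'.1).2.2.1, he']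
  · rw [(key g.1).2.2.2, (key g'.1).2.2.2, he']

end MatUnits

end CfsgLib.RootSubgroups.QP
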