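import Cfsg.Agent.RootSubgroups.Image

/-!
# Passing to the subgroup generated by a family
-/

set_option autoImplicit false

namespace CfsgLib.RootSubgroups.Within

open Cfsg

variable {G : Type*} [Group G] {H : Subgroup G}

theorem map_eq {A : Subgroup G} (hA : A ≤ H) : (A.subgroupOf H).map H.subtype = A := by
  rw [Subgroup.subgroupOf_map_subtype, inf_eq_left.2 hA]

theorem map_inj {A B : Subgroup ↥H} (h : A.map H.subtype = B.map H.subtype) : A = B :=
  Subgroup.map_injective H.subtype_injective h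

theorem commutator_eq {A B : Subgroup G} (hA : A ≤ H) (hB : B ≤ H) (hAB : ⁅A, B⁆ ≤ H) :
    ⁅A.subgroupOf H, B.subgroupOf H⁆ = ⁅A, B⁆.subgroupOf H :=
  map_inj (by rw [Subgroup.map_commutator, map_eq hA, map_eq hB, map_eq hAB])

theorem conjBy_eq {A : Subgroup G} (hA : A ≤ H) (g : ↥H) :
    conjBy (A.subgroupOf H) g = (conjBy A (g : G)).subgroupOf H := by
  have hle : conjBy A (g : G) ≤ H := by
    rintro _ ⟨a, ha, rfl⟩
    exact mul_mem (mul_mem g.2 (hA ha)) (inv_mem g.2)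
  refine map_inj ?_
  rw [map_conjBy, map_eq hA, map_eq hle]
  rfl

theorem isRankOnePair {A B : Subgroup G} (hA : A ≤ H) (hB : B ≤ H) (h : IsRankOnePair A B) :
    IsRankOnePair (A.subgroupOf H) (B.subgroupOf H) := by
  have cond : ∀ {A B : Subgroup G}, A ≤ H → B ≤ H → RankOneCondition A B →
      RankOneCondition (A.subgroupOf H) (B.subgroupOf H) := by
    intro A B hA hB h a ha ha1
    obtain ⟨b, hb, hb1, hab⟩ := h (a : G) ha (fun h0 => ha1 (Subtype.ext h0))
    refine ⟨⟨b, hB hb⟩, hb, fun h0 => hb1 (congrArg Subtype.val h0), ?_⟩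
    rw [conjBy_eq hA, conjBy_eq hB]
    exact congrArg (fun C => Subgroup.subgroupOf C H) hab
  refine ⟨fun he => h.ne ?_, ?_, ?_, cond hA hB h.cond_left, cond hB hA h.cond_right⟩
  · rw [← map_eq hA, ← map_eq hB, he]
  · haveI := h.nilpotent_left
    exact (Group.isNilpotent_congr (Subgroup.subgroupOfEquivOfLe hA)).2 h.nilpotent_left
  · haveI := h.nilpotent_right
    exact (Group.isNilpotent_congr (Subgroup.subgroupOfEquivOfLe hB)).2 h.nilpotent_right

theorem commutatorCase {S : Set (Subgroup G)} (hS : ∀ A ∈ S, A ≤ H) {A B : Subgroup G}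
    (hA : A ∈ S) (hB : B ∈ S) (h : RootCommutatorCase S A B) :
    RootCommutatorCase ((fun A : Subgroup G => A.subgroupOf H) '' S) (A.subgroupOf H)
      (B.subgroupOf H) := by
  obtain ⟨h1, h2, h3, h4⟩ := h
  have he := commutator_eq (hS A hA) (hS B hB) (hS _ h1)
  refine ⟨⟨_, h1, he.symm⟩, ?_, ?_, ?_⟩
  · intro c hc x hx
    rw [he] at hc
    have hx' : (x : G) ∈ A ⊔ B := by
      rw [← map_eq (hS A hA), ← map_eq (hS B hB), ← Subgroup.map_sup]
      exact Subgroup.mem_map_of_mem H.subtype hx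
    exact Subtype.ext (h2 c hc x hx')
  · intro a ha ha1
    refine map_inj ?_
    rw [he, map_eq (hS _ h1), ← h3 a ha (fun h0 => ha1 (Subtype.ext h0)), MonoidHom.map_closure,
      ← Set.image_comp]
    congr 1
    ext t
    constructor
    · rintro ⟨b, hb, rfl⟩
      exact ⟨b, hb, rfl⟩
    · rintro ⟨b, hb, rfl⟩
      exact ⟨⟨b, hS B hB hb⟩, hb, rfl⟩
  · intro b hb hb1
    refine map_inj ?_
    rw [he, map_eq (hS _ h1), ← h4 b hb (fun h0 => hb1 (Subtype.ext h0)), MonoidHom.map_closure,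
      ← Set.image_comp]
    congr 1
    ext t
    constructor
    · rintro ⟨a, ha, rfl⟩
      exact ⟨a, ha, rfl⟩
    · rintro ⟨a, ha, rfl⟩
      exact ⟨⟨a, hS A hA ha⟩, ha, rfl⟩

/-- A family with the root subgroup axioms gives such a set in the subgroup it generates. -/
theorem isRootSubgroupSet {S : Set (Subgroup G)} (hH : (⨆ A ∈ S, A) = H)
    (hcomm : ∀ A ∈ S, IsMulCommutative A) (hne : ∀ A ∈ S, A ≠ ⊥)
    (hconj : ∀ A ∈ S, ∀ g ∈ H, conjBy A g ∈ S)
    (hpair : ∀ A ∈ S, ∀ B ∈ S, ⁅A, B⁆ = ⊥ ∨ IsRankOnePair A B ∨ RootCommutatorCase S A B) :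
    IsRootSubgroupSet ((fun A : Subgroup G => A.subgroupOf H) '' S) := by
  have hle : ∀ A ∈ S, A ≤ H := fun A hA => hH ▸ le_iSup₂ (f := fun (B : Subgroup G) _ => B) A hA
  refine ⟨?_, ?_, ?_, ?_, ?_⟩
  · rintro _ ⟨A, hA, rfl⟩
    haveI := hcomm A hA
    exact ⟨⟨fun x y => Subtype.ext (Subtype.ext (congrArg Subtype.val
      (mul_comm' (⟨((x : ↥H) : G), x.2⟩ : A) ⟨((y : ↥H) : G), y.2⟩) : _))⟩⟩
  · rintro _ ⟨A, hA, rfl⟩ h0
    exact hne A hA (by rw [← map_eq (hle A hA), show A.subgroupOf H = ⊥ from h0, Subgroup.map_bot])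
  · refine map_inj ?_
    rw [← MonoidHom.range_eq_map, Subgroup.range_subtype, iSup_image]
    simp_rw [Subgroup.map_iSup]
    exact (biSup_congr fun A hA => map_eq (hle A hA)).trans hH
  · rintro _ ⟨A, hA, rfl⟩ g
    exact ⟨_, hconj A hA g g.2, (conjBy_eq (hle A hA) g).symm⟩
  · rintro _ ⟨A, hA, rfl⟩ _ ⟨B, hB, rfl⟩
    rcases hpair A hA B hB with h | h | h
    · left
      refine map_inj ?_
      rw [Subgroup.map_commutator, map_eq (hle A hA), map_eq (hle B hB), h, Subgroup.map_bot]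
    · exact Or.inr (Or.inl (isRankOnePair (hle A hA) (hle B hB) h))
    · exact Or.inr (Or.inr (commutatorCase hle hA hB h))

end CfsgLib.RootSubgroups.Within
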