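import Cfsg.Agent.RootSubgroups.QPClassTwo
import Cfsg.Agent.RootSubgroups.SubgroupOf

/-!
# The members `E(σ)` as a set of abstract root subgroups
-/

set_option autoImplicit false

namespace CfsgLib.RootSubgroups.QP

open Cfsg

universe u v

variable {k : Type u} [Field k] {M : Type v} [AddCommGroup M] [Module k M] [FiniteDimensional k M]
variable {G : Subgroup (LinearMap.GeneralLinearGroup k M)}

local notation "GL'" => LinearMap.GeneralLinearGroup k M
local notation "End'" => Module.End k M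

theorem le_of_mem_roots {A : Subgroup GL'} (hA : A ∈ quadraticRootSubgroups G) : A ≤ G := by
  obtain ⟨σ, -, rfl⟩ := hA
  exact sameAction_le

theorem join_roots_le : (⨆ A ∈ quadraticRootSubgroups G, A) ≤ G :=
  iSup₂_le fun _ hA => le_of_mem_roots hA

theorem commutative_of_mem_roots {A : Subgroup GL'} (hA : A ∈ quadraticRootSubgroups G) :
    IsMulCommutative A := by
  obtain ⟨σ, hσ, rfl⟩ := hA
  exact ⟨⟨fun x y => Subtype.ext (sameAction_commutative hσ x.2 y.2)⟩⟩

theorem self_mem_sameAction {σ : GL'} (hσ : σ ∈ minimalQuadraticElements G) :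
    σ ∈ sameActionSubgroup G σ ∧ σ ≠ 1 :=
  ⟨Subgroup.subset_closure ⟨hσ, rfl, rfl⟩, fun h0 => (mem_minimal.1 hσ).ne (by
    rw [h0, Units.val_one, sub_self])⟩

theorem ne_bot_of_mem_roots {A : Subgroup GL'} (hA : A ∈ quadraticRootSubgroups G) : A ≠ ⊥ := by
  obtain ⟨σ, hσ, rfl⟩ := hA
  intro h0
  obtain ⟨h1, h2⟩ := self_mem_sameAction hσ
  rw [h0, Subgroup.mem_bot] at h1
  exact h2 h1

theorem conjBy_mem_roots {A : Subgroup GL'} (hA : A ∈ quadraticRootSubgroups G) {g : GL'}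
    (hg : g ∈ G) : conjBy A g ∈ quadraticRootSubgroups G := by
  obtain ⟨σ, hσ, rfl⟩ := hA
  exact ⟨_, conj_minimal hσ hg, conjBy_sameAction hσ hg⟩

/-- The three cases for two members. -/
theorem pair_cases (h2 : (2 : k) ≠ 0) (hk : Nat.card k ≠ 3) (hirr : IsIrreducibleFor G) {σ τ : GL'}
    (hσ : σ ∈ minimalQuadraticElements G) (hτ : τ ∈ minimalQuadraticElements G) :
    ⁅sameActionSubgroup G σ, sameActionSubgroup G τ⁆ = ⊥ ∨
    Opp ((σ : End') - 1) ((τ : End') - 1) ∨
    RootCommutatorCase (quadraticRootSubgroups G) (sameActionSubgroup G σ)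
      (sameActionSubgroup G τ) := by
  by_cases ho : Opp ((σ : End') - 1) ((τ : End') - 1)
  · exact Or.inr (Or.inl ho)
  by_cases hc : ⁅sameActionSubgroup G σ, sameActionSubgroup G τ⁆ = ⊥
  · exact Or.inl hc
  obtain ⟨h1, h3, h4, h5, -⟩ := class_two h2 hk hirr hσ hτ ho hc
  exact Or.inr (Or.inr ⟨h1, h5, h3, h4⟩)

theorem roots_pair (h2 : (2 : k) ≠ 0) (hk : Nat.card k ≠ 3) (hirr : IsIrreducibleFor G) :
    ∀ A ∈ quadraticRootSubgroups G, ∀ B ∈ quadraticRootSubgroups G, ⁅A, B⁆ = ⊥ ∨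
      IsRankOnePair A B ∨ RootCommutatorCase (quadraticRootSubgroups G) A B := by
  rintro _ ⟨σ, hσ, rfl⟩ _ ⟨τ, hτ, rfl⟩
  exact (pair_cases h2 hk hirr hσ hτ).imp id (Or.imp (isRankOnePair_of_opp h2 hk hσ hτ) id)

/-- A rank one pair is not in the commutator case. -/
theorem not_rankOne_of_central {H : Type*} [Group H] {A B : Subgroup H} (h : IsRankOnePair A B)
    (hA : ∀ a ∈ A, ∀ a' ∈ A, a * a' = a' * a)
    (hc : ∀ c ∈ ⁅A, B⁆, ∀ x ∈ A ⊔ B, c * x = x * c) : False := by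
  obtain ⟨a, ha, ha1⟩ := RankOne.exists_left h
  obtain ⟨b, hb, -, hab⟩ := h.cond_left a ha ha1
  refine RankOne.commutator_ne_bot h (commutator_eq_bot_iff_commutes.2 fun a' ha' f hf => ?_)
  -- `B` lies in `A ⁅A, B⁆`, which centralises `A`
  have hC : f ∈ Subgroup.centralizer (A : Set H) := by
    have hmem : a⁻¹ * f * a ∈ conjBy A b⁻¹ := by
      rw [hab, mem_conjBy, inv_inv]
      simpa only [mul_assoc, mul_inv_cancel_left, mul_inv_cancel, mul_one] using hf
    rw [mem_conjBy, inv_inv] at hmem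
    obtain ⟨x, hx⟩ : ∃ x, x = b * (a⁻¹ * f * a) * b⁻¹ := ⟨_, rfl⟩
    rw [← hx] at hmem
    have hf' : f = a * (x * (x⁻¹ * b⁻¹ * x * b)) * a⁻¹ := by rw [hx]; group
    have h1 : x⁻¹ * b⁻¹ * x * b ∈ Subgroup.centralizer (A : Set H) := by
      refine Subgroup.mem_centralizer_iff.2 fun y hy => (hc _ ?_ y (Subgroup.mem_sup_left hy)).symm
      have h3 := Subgroup.commutator_mem_commutator (inv_mem hmem) (inv_mem hb)
      rwa [commutatorElement_def, inv_inv, inv_inv] at h3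
    have hAle : A ≤ Subgroup.centralizer (A : Set H) := fun y hy =>
      Subgroup.mem_centralizer_iff.2 fun z hz => hA z hz y hy
    rw [hf']
    exact mul_mem (mul_mem (hAle ha) (mul_mem (hAle hmem) h1)) (inv_mem (hAle ha))
  exact Subgroup.mem_centralizer_iff.1 hC a' ha'

theorem opp_of_rankOne (h2 : (2 : k) ≠ 0) (hk : Nat.card k ≠ 3) (hirr : IsIrreducibleFor G)
    {σ τ : GL'} (hσ : σ ∈ minimalQuadraticElements G) (hτ : τ ∈ minimalQuadraticElements G)
    (h : IsRankOnePair (sameActionSubgroup G σ) (sameActionSubgroup G τ)) :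
    Opp ((σ : End') - 1) ((τ : End') - 1) := by
  rcases pair_cases h2 hk hirr hσ hτ with hc | ho | ⟨-, hc, -⟩
  · exact absurd hc (RankOne.commutator_ne_bot h)
  · exact ho
  · exact (not_rankOne_of_central h
      (fun a ha a' ha' => sameAction_commutative hσ ha ha') hc).elim

theorem exists_rankOne_partner (h2 : (2 : k) ≠ 0) (hk : Nat.card k ≠ 3) (hirr : IsIrreducibleFor G)
    {A : Subgroup GL'} (hA : A ∈ quadraticRootSubgroups G) :
    ∃ g ∈ G, IsRankOnePair A (conjBy A g) := by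
  obtain ⟨σ, hσ, rfl⟩ := hA
  obtain ⟨g, hg, ho⟩ := exists_opp h2 hk hirr (mem_minimal.1 hσ)
  refine ⟨g, hg, ?_⟩
  rw [conjBy_sameAction hσ hg]
  refine isRankOnePair_of_opp h2 hk hσ (conj_minimal hσ hg) ?_
  rw [coe_conj_sub_one]
  exact ho

theorem three_lt_card (h2 : (2 : k) ≠ 0) (hk : Nat.card k ≠ 3) : 3 < ENat.card k := by
  cases finite_or_infinite k with
  | inr h => rw [ENat.card_eq_top_of_infinite]; exact ENat.coe_lt_top 3
  | inl h =>
    have := Fintype.ofFinite k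
    rw [ENat.card_eq_coe_fintype_card]
    rw [Nat.card_eq_fintype_card] at hk
    have h1 : 1 < Fintype.card k := Fintype.one_lt_card
    have h3 : Fintype.card k ≠ 2 := fun h0 => h2 (by
      have := Nat.cast_card_eq_zero k
      rwa [h0, Nat.cast_ofNat] at this)
    exact_mod_cast (by omega : 3 < Fintype.card k)

/-- A rank one pair of members contains an image of `SL₂(k)`. -/
theorem exists_psl_pair (h2 : (2 : k) ≠ 0) (hk : Nat.card k ≠ 3) (hirr : IsIrreducibleFor G)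
    {A B : Subgroup GL'} (hA : A ∈ quadraticRootSubgroups G) (hB : B ∈ quadraticRootSubgroups G)
    (h : IsRankOnePair A B) :
    ∃ A₀ B₀ : Subgroup GL', A₀ ≤ A ∧ B₀ ≤ B ∧
      ∃ (k₁ : Type u) (_ : Field k₁), 3 < ENat.card k₁ ∧ IsPSL2PairOver k₁ A₀ B₀ := by
  obtain ⟨σ, hσ, rfl⟩ := hA
  obtain ⟨τ, hτ, rfl⟩ := hB
  have ho := opp_of_rankOne h2 hk hirr hσ hτ h
  have ha := mem_minimal.1 hσ
  have hb := mem_minimal.1 hτ
  obtain ⟨e, y, hp⟩ := ho.partner h2 hk ha hb
  obtain ⟨a, hadef⟩ : ∃ a, a = (σ : End') - 1 := ⟨_, rfl⟩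
  have hee := hp.idem ha.fam.1
  rw [← hadef] at hp
  have haa : a * a = 0 := hadef ▸ ha.fam.1
  have hc1 := hp.left_corner haa (le_refl (LinearMap.ker a)) le_rfl
  have hc2 := hp.right_corner haa hp.ker_eq.ge hp.range_eq.le
  let ρ : k →+ End' :=
    { toFun := fun c => c • e
      map_zero' := zero_smul k e
      map_add' := fun c d => add_smul c d e }
  have hρ : ∀ c, ρ c = c • e := fun _ => rfl
  have hm : MatUnits ρ a y :=
    { aa := haa
      yy := hp.min.fam.1
      aya := hp.aya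
      yay := hp.yay
      one := by rw [hρ, one_smul, hp.eq]
      mul := fun r s => by rw [hρ, hρ, hρ, smul_mul_smul_comm, hee]
      comm_a := fun r => by rw [hρ, mul_smul_comm, smul_mul_assoc, hc1.1, hc1.2]
      comm_y := fun r => by rw [hρ, mul_smul_comm, smul_mul_assoc, hc2.1, hc2.2] }
  have hinj : Function.Injective ρ := by
    intro c d hcd
    rw [hρ, hρ, ← sub_eq_zero, ← sub_smul, smul_eq_zero] at hcd
    refine sub_eq_zero.1 (hcd.resolve_right fun h0 => ?_)
    apply ha.ne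
    rw [← hadef, ← hc1.1, h0, zero_mul]
  refine ⟨(upperUnipotentSL2 k).map hm.rep, (lowerUnipotentSL2 k).map hm.rep, ?_, ?_, k,
    inferInstance, three_lt_card h2 hk, hm.rep, ?_, ?_, rfl, rfl⟩
  · rintro _ ⟨z, hz, rfl⟩
    obtain ⟨s, rfl⟩ := SLTwo.mem_upper.1 hz
    rw [mem_sameAction hσ]
    show ((hm.rep (Gen.rUp s) : GL') : End') - 1 ∈ _
    rw [hm.rep_rUp, add_sub_cancel_left, hρ, smul_mul_assoc, hc1.1, hadef]
    exact Submodule.smul_mem _ s (self_mem_espace ha.fam)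
  · rintro _ ⟨z, hz, rfl⟩
    obtain ⟨s, rfl⟩ := SLTwo.mem_lower.1 hz
    rw [mem_sameAction hτ]
    show ((hm.rep (Gen.rLow s) : GL') : End') - 1 ∈ _
    rw [hm.rep_rLow, add_sub_cancel_left, hρ, smul_mul_assoc, hc2.1]
    exact Submodule.smul_mem _ s (hp.mem_espace hb)
  · rw [← Subgroup.map_sup, sup_comm, SLTwo.sup_eq_top, MonoidHom.range_eq_map]
  · rw [(MonoidHom.ker_eq_bot_iff _).2 (hm.rep_injective hinj)]
    exact bot_le

end CfsgLib.RootSubgroups.QP
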