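import Cfsg.Agent.RootSubgroups.QPRootSet
import Cfsg.Agent.RootSubgroups.Components

/-!
# Two members with the same commuting members are equal

Also: members in the commutator case lie in one component of the rank one graph.
-/

set_option autoImplicit false

namespace CfsgLib.RootSubgroups.QP

open Cfsg

universe u v

variable {k : Type u} [Field k] {M : Type v} [AddCommGroup M] [Module k M] [FiniteDimensional k M]
variable {G : Subgroup (LinearMap.GeneralLinearGroup k M)}

local notation "GL'" => LinearMap.GeneralLinearGroup k M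
local notation "End'" => Module.End k M

/-- The minimal elements commuting with `a` commute with `c`. -/
def CommLE (G : Subgroup (LinearMap.GeneralLinearGroup k M)) (a c : Module.End k M) : Prop :=
  ∀ d, IsMin G d → Commute d a → Commute d c

theorem commute_conj {g : GL'} {d a : End'} :
    Commute ((g : End') * d * ((g⁻¹ : GL') : End')) ((g : End') * a * ((g⁻¹ : GL') : End')) ↔
      Commute d a := by
  constructor
  · intro h
    show d * a = a * d
    have h1 := congrArg (fun t => ((g⁻¹ : GL') : End') * t * (g : End')) h.eq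
    simpa only [mul_assoc, Units.inv_mul, mul_one, ← mul_assoc ((g⁻¹ : GL') : End') (g : End'),
      one_mul] using h1
  · intro h
    show _ * _ = _ * _
    simp only [mul_assoc, ← mul_assoc ((g⁻¹ : GL') : End') (g : End'), Units.inv_mul, one_mul]
    rw [← mul_assoc d a, h.eq, mul_assoc]

theorem commute_member (h2 : (2 : k) ≠ 0) (hk : Nat.card k ≠ 3) {a x d : End'} (ha : IsMin G a)
    (hd : IsMin G d) (hx : x ∈ espace G a ha.fam.1) (hx0 : x ≠ 0) :
    Commute d x ↔ Commute d a := by
  obtain ⟨hxm, hxk, hxr⟩ := ha.of_mem hx hx0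
  exact ⟨fun h => commute_congr h2 hk hd hxm h.eq (self_mem_espace hd.fam)
      ⟨ha.fam, hxk.le, hxr.ge⟩,
    fun h => commute_congr h2 hk hd ha h.eq (self_mem_espace hd.fam) hx⟩

theorem not_opp_of_commute {a b : End'} (ha : a * a = 0) (ha0 : a ≠ 0) (h : Commute a b) :
    ¬ Opp a b :=
  not_opp_of_triple (by rw [← h.eq, ← mul_assoc, ha, zero_mul]) ha0

/-- The linear span of the minimal elements commuting with `a`. -/
def commSpan (G : Subgroup (LinearMap.GeneralLinearGroup k M)) (a : Module.End k M) :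
    Submodule k (Module.End k M) :=
  Submodule.span k {d | IsMin G d ∧ Commute d a}

theorem commute_of_mem_commSpan {a d : End'} (h : d ∈ commSpan G a) : Commute d a := by
  induction h using Submodule.span_induction with
  | mem x hx => exact hx.2
  | zero => exact Commute.zero_left a
  | add x y _ _ hx hy => exact hx.add_left hy
  | smul c x _ hx => exact hx.smul_left c

/-- Containment of the commuting members between conjugates is equality. -/
theorem commLE_symm (h2 : (2 : k) ≠ 0) (hk : Nat.card k ≠ 3) {a x : End'} (ha : IsMin G a)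
    {g : GL'} (hg : g ∈ G) (hx : x ∈ espace G _ (ha.conj hg).fam.1) (hx0 : x ≠ 0)
    (h : CommLE G a x) : CommLE G x a := by
  obtain ⟨L, hL⟩ : ∃ L : End' →ₗ[k] End', ∀ t, L t = (g : End') * t * ((g⁻¹ : GL') : End') :=
    ⟨(LinearMap.mulRight k ((g⁻¹ : GL') : End')) ∘ₗ (LinearMap.mulLeft k (g : End')), fun t => rfl⟩
  have hcx : ∀ d, IsMin G d →
      (Commute d x ↔ Commute d ((g : End') * a * ((g⁻¹ : GL') : End'))) := fun d hd =>
    commute_member h2 hk (ha.conj hg) hd hx hx0
  have hback : ∀ t : End',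
      (g : End') * (((g⁻¹ : GL') : End') * t * (g : End')) * ((g⁻¹ : GL') : End') = t := fun t => by
    simp only [mul_assoc, Units.mul_inv, mul_one, ← mul_assoc (g : End') ((g⁻¹ : GL') : End'),
      one_mul]
  have himage : (commSpan G a).map L = commSpan G x := by
    rw [commSpan, Submodule.map_span]
    congr 1
    ext d
    constructor
    · rintro ⟨t, ⟨ht, hta⟩, rfl⟩
      rw [hL]
      exact ⟨ht.conj hg, (hcx _ (ht.conj hg)).2 (commute_conj.2 hta)⟩
    · rintro ⟨hd, hdx⟩
      refine ⟨((g⁻¹ : GL') : End') * d * (g : End'), ⟨?_, ?_⟩, by rw [hL, hback]⟩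
      · have := hd.conj (inv_mem hg)
        rwa [inv_inv] at this
      · refine (commute_conj (g := g)).1 ?_
        rw [hback]
        exact (hcx d hd).1 hdx
  have hinj : Function.Injective L := fun s t hst => by
    have h1 := congrArg (fun u => ((g⁻¹ : GL') : End') * u * (g : End')) hst
    simpa only [hL, mul_assoc, Units.inv_mul, mul_one,
      ← mul_assoc ((g⁻¹ : GL') : End') (g : End'), one_mul] using h1
  have hle : commSpan G a ≤ commSpan G x :=
    Submodule.span_mono fun d hd => ⟨hd.1, h d hd.1 hd.2⟩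
  have heq : commSpan G a = commSpan G x := by
    refine Submodule.eq_of_le_of_finrank_eq hle ?_
    rw [← himage]
    exact (Submodule.equivMapOfInjective L hinj (commSpan G a)).finrank_eq
  intro d hd hdx
  have h1 : d ∈ commSpan G x := Submodule.subset_span ⟨hd, hdx⟩
  rw [← heq] at h1
  exact commute_of_mem_commSpan h1

/-- A member with the commuting members of `a` has the partners of `a`. -/
theorem twin_opp (h2 : (2 : k) ≠ 0) (hk : Nat.card k ≠ 3) {a b c : End'} (ha : IsMin G a)
    (hb : IsMin G b) (hc : IsMin G c) (hab : Opp a b) (hac : Commute a c) (h : CommLE G c a) :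
    Opp c b := by
  obtain ⟨e, y, hp⟩ := hab.partner h2 hk ha hb
  have hy : y ∈ espace G b hb.fam.1 := ⟨hp.min.fam, hp.ker_eq.ge, hp.range_eq.le⟩
  refine (opp_congr hc hb (self_mem_espace hc.fam) hc.ne hy hp.min.ne).1 ?_
  have hym := hp.min
  have hyy := hym.fam.1
  by_contra hno
  have hno' : ¬ Opp y c := fun ho => hno ho.symm
  have haya := hp.aya
  have hyay := hp.yay
  have hopp : Opp a y := (opp_congr ha hb (self_mem_espace ha.fam) ha.ne hy hym.ne).2 hab
  obtain ⟨δ, hδ⟩ : ∃ δ, δ = y * c - c * y := ⟨_, rfl⟩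
  by_cases hd0 : δ = 0
  · have h1 : Commute y a := h y hym (sub_eq_zero.1 (hδ ▸ hd0 : y * c - c * y = 0))
    exact not_opp_of_commute ha.fam.1 ha.ne h1.symm hopp
  obtain ⟨hdm, -⟩ := delta_spaces h2 hk hym hc hno' (hδ ▸ hd0)
  rw [← hδ] at hdm
  obtain ⟨t1, t2⟩ := not_opp_triple h2 hk hym hc hno'
  have hdy : Commute δ y := by
    show δ * y = y * δ
    simp only [hδ, sub_mul, mul_sub, mul_assoc, hyy, t1, mul_zero, sub_zero]
    simp only [← mul_assoc, hyy, zero_mul, zero_sub, neg_zero]
  have hdc : Commute δ c := by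
    show δ * c = c * δ
    simp only [hδ, sub_mul, mul_sub, mul_assoc, hc.fam.1, t2, mul_zero, sub_zero, zero_sub]
    simp only [← mul_assoc, hc.fam.1, zero_mul, sub_zero, neg_zero]
  have hda : Commute δ a := h δ hdm hdc
  obtain ⟨hh, hhdef⟩ : ∃ h, h = a * y - y * a := ⟨_, rfl⟩
  have hhy : hh * y = -y := by
    rw [hhdef, sub_mul, mul_assoc, hyy, mul_zero, zero_sub, mul_assoc, hyay]
  have hyh : y * hh = y := by
    rw [hhdef, mul_sub, hyay, ← mul_assoc, hyy, zero_mul, sub_zero]
  have hhd : hh * δ = δ * hh := by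
    rw [hhdef]
    exact ((hda.symm.mul_left hdy.symm).sub_left (hdy.symm.mul_left hda.symm)).eq
  have hhc : hh * c = c * hh := by
    have e1 : hh * c - c * hh =
        (a * δ - δ * a) - (y * (a * c - c * a) - (a * c - c * a) * y) := by
      rw [hhdef, hδ]
      simp only [sub_mul, mul_sub, mul_assoc]
      abel
    rw [hac.eq, sub_self, mul_zero, zero_mul, sub_self, sub_zero, hda.eq, sub_self] at e1
    exact sub_eq_zero.1 e1
  have e2 : hh * δ - δ * hh = -δ - δ := by
    have a1 : hh * (y * c) = -(y * c) := by rw [← mul_assoc, hhy, neg_mul]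
    have a2 : c * y * hh = c * y := by rw [mul_assoc, hyh]
    have a3 : hh * (c * y) = -(c * y) := by rw [← mul_assoc, hhc, mul_assoc, hhy, mul_neg]
    have a4 : y * c * hh = y * c := by rw [mul_assoc, ← hhc, ← mul_assoc, hyh]
    rw [hδ, mul_sub, sub_mul, a1, a2, a3, a4]
    abel
  rw [hhd, sub_self] at e2
  apply hd0
  have : (2 : k) • δ = 0 := by rw [two_smul, ← neg_eq_zero, e2]; abel
  exact (smul_eq_zero.1 this).resolve_left h2

theorem rk_split {x Q R : End'} (h : Q * x * R = 0) : rk (Q * x) + rk (x * R) ≤ rk x := by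
  have h3 : LinearMap.range (x * R) ≤ LinearMap.range x ⊓ LinearMap.ker Q :=
    le_inf (range_mul_le x R) (le_of_mul_eq_zero (by rw [← mul_assoc]; exact h))
  have h4 := LinearMap.finrank_range_add_finrank_ker (Q.domRestrict (LinearMap.range x))
  rw [LinearMap.range_domRestrict, LinearMap.ker_domRestrict, ← LinearMap.range_comp x Q] at h4
  have h5 : Module.finrank k ↥((LinearMap.ker Q).comap (LinearMap.range x).subtype) =
      Module.finrank k ↥(LinearMap.range x ⊓ LinearMap.ker Q) :=
    LinearEquiv.finrank_eq ((LinearEquiv.ofEq _ _ (by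
      rw [Submodule.comap_inf, Submodule.comap_subtype_self, top_inf_eq])).trans
        (Submodule.comapSubtypeEquivOfLe inf_le_left))
  have h7 := Submodule.finrank_mono h3
  unfold rk
  change Module.finrank k ↥(LinearMap.range (Q * x)) + _ = _ at h4
  omega

theorem rk_add_le (x y : End') : rk (x + y) ≤ rk x + rk y := by
  have h1 : LinearMap.range (x + y) ≤ LinearMap.range x ⊔ LinearMap.range y := by
    rintro _ ⟨m, rfl⟩
    exact Submodule.add_mem_sup ⟨m, rfl⟩ ⟨m, rfl⟩
  have h6 := Submodule.finrank_mono h1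
  have h8 := Submodule.finrank_sup_add_finrank_inf_eq (LinearMap.range x) (LinearMap.range y)
  unfold rk
  omega

theorem rk_neg (x : End') : rk (-x) = rk x := by rw [rk, rk, LinearMap.range_neg]

/-! ### Components -/

theorem sameAction_oneAdd {x : End'} (hx : IsMin G x) :
    oneAdd x hx.fam.1 ∈ minimalQuadraticElements G ∧
      ((oneAdd x hx.fam.1 : GL') : End') - 1 = x := by
  have e : ((oneAdd x hx.fam.1 : GL') : End') - 1 = x := by rw [coe_oneAdd, add_sub_cancel_left]
  exact ⟨mem_minimal.2 (by rw [e]; exact hx), e⟩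

/-- The member of the family space of a minimal `a`. -/
noncomputable def member (G : Subgroup (LinearMap.GeneralLinearGroup k M)) (a : Module.End k M)
    (ha : a * a = 0) : Subgroup (LinearMap.GeneralLinearGroup k M) :=
  sameActionSubgroup G (oneAdd a ha)

theorem member_mem_roots {a : End'} (ha : IsMin G a) :
    member G a ha.fam.1 ∈ quadraticRootSubgroups G :=
  ⟨_, (sameAction_oneAdd ha).1, rfl⟩

theorem sameAction_eq_member {σ : GL'} (hσ : σ ∈ minimalQuadraticElements G) :
    sameActionSubgroup G σ = member G ((σ : End') - 1) (mem_minimal.1 hσ).fam.1 := by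
  rw [member]
  congr 1
  exact Units.ext (by simp)

theorem adj_of_opp (h2 : (2 : k) ≠ 0) (hk : Nat.card k ≠ 3) {a b : End'} (ha : IsMin G a)
    (hb : IsMin G b) (h : Opp a b) :
    FAdj (quadraticRootSubgroups G) (member G a ha.fam.1) (member G b hb.fam.1) :=
  ⟨member_mem_roots ha, member_mem_roots hb, isRankOnePair_of_opp h2 hk (sameAction_oneAdd ha).1
    (sameAction_oneAdd hb).1 (by rw [(sameAction_oneAdd ha).2, (sameAction_oneAdd hb).2]; exact h)⟩

/-- `a` and the commutator `δ` of a class two pair lie in one component. -/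
theorem reach_delta (h2 : (2 : k) ≠ 0) (hk : Nat.card k ≠ 3) (hirr : IsIrreducibleFor G)
    {a b : End'} (ha : IsMin G a) (hb : IsMin G b) (h : ¬ Opp a b)
    (hd : IsMin G (a * b - b * a)) :
    Relation.ReflTransGen (FAdj (quadraticRootSubgroups G)) (member G a ha.fam.1)
      (member G (a * b - b * a) hd.fam.1) := by
  obtain ⟨t1, t2⟩ := not_opp_triple h2 hk ha hb h
  obtain ⟨δ, hδ⟩ : ∃ δ, δ = a * b - b * a := ⟨_, rfl⟩
  have hadd : IsMin G (a + δ) := by
    have h1 := ha.conj (inv_mem hb.fam.one_mem')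
    rw [inv_inv, coe_inv_of_sq hb.fam.1 (coe_oneAdd _ _), coe_oneAdd] at h1
    have e : (1 - b) * a * (1 + b) = a + δ := by
      simp only [hδ, sub_mul, mul_add, one_mul, mul_one, mul_assoc, t2, sub_zero]
      abel
    rwa [e] at h1
  obtain ⟨a', e1, y, hy⟩ := exists_min_partner h2 hk hirr ha
  obtain ⟨d', e2, r, hr⟩ := exists_min_partner h2 hk hirr hd
  have opp_of : ∀ {u v : End'}, IsMin G u → IsMin G v → u * (v * u) = u → Opp u v := by
    intro u v hu hv huv
    by_contra hn
    exact hu.ne (huv.symm.trans (not_opp_triple h2 hk hu hv hn).1)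
  have hay : Opp a y := opp_of ha hy.min hy.aya
  have hdr : Opp δ r := opp_of (hδ ▸ hd) hr.min (hδ ▸ hr.aya)
  have hadd' : ∀ {u v p : End'}, IsMin G (u + v) → IsMin G u → IsMin G v → IsMin G p →
      u * (p * u) = u → ¬ Opp v p → Opp (u + v) p := by
    intro u v p huv hu hv hp hup hn
    by_contra hn'
    obtain ⟨s1, -⟩ := not_opp_triple h2 hk huv hp hn'
    obtain ⟨s3, s4⟩ := not_opp_triple h2 hk hv hp hn
    simp only [mul_add, add_mul, hup, s3, add_zero] at s1
    -- `u + (u p v + v p u) = 0`
    have z4 : ∀ t, p * (v * (p * t)) = 0 := fun t => by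
      have := congrArg (fun w => w * t) s4
      simpa [mul_assoc] using this
    have z5 : ∀ t, u * (p * (u * t)) = u * t := fun t => by
      have := congrArg (fun w => w * t) hup
      simpa [mul_assoc] using this
    have s5 := congrArg (fun t => u * (p * t)) s1
    simp only [mul_add, z4, z5, hup, mul_zero, add_zero] at s5
    have s6 := congrArg (fun t => t * (p * u)) s5
    simp only [add_mul, mul_assoc, hup, z4, mul_zero, add_zero, zero_mul] at s6
    exact hu.ne s6
  have hD : member G (a * b - b * a) hd.fam.1 =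
      member G δ (hδ.symm ▸ hd.fam.1) := by simp only [hδ]
  rw [hD]
  obtain hdm : IsMin G δ := hδ ▸ hd
  by_cases h1 : Opp δ y
  · exact (Relation.ReflTransGen.single (adj_of_opp h2 hk ha hy.min hay)).tail
      (adj_of_opp h2 hk hy.min hdm h1.symm)
  by_cases h3 : Opp a r
  · exact (Relation.ReflTransGen.single (adj_of_opp h2 hk ha hr.min h3)).tail
      (adj_of_opp h2 hk hr.min hdm hdr.symm)
  have k1 := hadd' hadd ha hdm hy.min hy.aya h1
  have k2 := hadd' (add_comm a δ ▸ hadd) hdm ha hr.min (hδ ▸ hr.aya) h3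
  rw [add_comm δ a] at k2
  exact (((Relation.ReflTransGen.single (adj_of_opp h2 hk ha hy.min hay)).tail
    (adj_of_opp h2 hk hy.min hadd k1.symm)).tail (adj_of_opp h2 hk hadd hr.min k2)).tail
    (adj_of_opp h2 hk hr.min hdm hdr.symm)


/-- Members that do not commute, and are not in the commutator case with each other. -/
theorem reach_of_not_commute (h2 : (2 : k) ≠ 0) (hk : Nat.card k ≠ 3) (hirr : IsIrreducibleFor G)
    {a b : End'} (ha : IsMin G a) (hb : IsMin G b) (hne : ¬ Commute a b) :
    Relation.ReflTransGen (FAdj (quadraticRootSubgroups G)) (member G a ha.fam.1)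
      (member G b hb.fam.1) := by
  by_cases h : Opp a b
  · exact Relation.ReflTransGen.single (adj_of_opp h2 hk ha hb h)
  have hd0 : a * b - b * a ≠ 0 := fun h0 => hne (sub_eq_zero.1 h0)
  obtain ⟨hd, -⟩ := delta_spaces h2 hk ha hb h hd0
  have hd' : IsMin G (b * a - a * b) := by
    rw [← neg_sub (a * b)]
    exact (hd.of_mem (Submodule.neg_mem _ (self_mem_espace hd.fam)) (neg_ne_zero.2 hd.ne)).1
  have r1 := reach_delta h2 hk hirr ha hb h hd
  have r2 := reach_delta h2 hk hirr hb ha (fun ho => h ho.symm) hd'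
  have key : ∀ (u w : End') (hu : IsMin G u) (hw : IsMin G w), u = -w →
      member G u hu.fam.1 = member G w hw.fam.1 := by
    intro u w hu hw huw
    obtain ⟨hσ, e1⟩ := sameAction_oneAdd hu
    obtain ⟨hσ', e2⟩ := sameAction_oneAdd hw
    subst huw
    ext t
    rw [member, member, mem_sameAction hσ, mem_sameAction hσ']
    simp only [e1, e2]
    constructor <;> rintro ⟨h1, h2, h3⟩ <;>
      exact ⟨h1, by simpa only [LinearMap.ker_neg] using h2,
        by simpa only [LinearMap.range_neg] using h3⟩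
  have e := key _ _ hd' hd (neg_sub _ _).symm
  rw [e] at r2
  exact r1.trans (CfsgLib.RootSubgroups.reach_symm r2)

/-- Members in different components commute. -/
theorem commutator_of_not_reach (h2 : (2 : k) ≠ 0) (hk : Nat.card k ≠ 3) (hirr : IsIrreducibleFor G)
    {A B : Subgroup GL'} (hA : A ∈ quadraticRootSubgroups G) (hB : B ∈ quadraticRootSubgroups G)
    (h : ¬ Relation.ReflTransGen (FAdj (quadraticRootSubgroups G)) A B) : ⁅A, B⁆ = ⊥ := by
  obtain ⟨σ, hσ, rfl⟩ := hA
  obtain ⟨τ, hτ, rfl⟩ := hB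
  obtain ⟨h1, h1'⟩ := self_mem_sameAction hσ
  obtain ⟨h3, h3'⟩ := self_mem_sameAction hτ
  refine commute_of_commute h2 hk hσ hτ (Or.inl ⟨σ, h1, h1', τ, h3, h3', ?_⟩)
  by_contra hne
  refine h ?_
  rw [sameAction_eq_member hσ, sameAction_eq_member hτ]
  refine reach_of_not_commute h2 hk hirr (mem_minimal.1 hσ) (mem_minimal.1 hτ) fun hc => hne (Units.ext ?_)
  have e := hc.eq
  simp only [sub_mul, mul_sub, one_mul, mul_one] at e
  rw [Units.val_mul, Units.val_mul]
  rw [← sub_eq_zero] at e ⊢
  rw [← e]; abel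

/-- Members of one component are conjugate by an element of the group that component generates. -/
theorem exists_conj_of_reach {S : Set (Subgroup GL')} {A B : Subgroup GL'} (hA : A ∈ S)
    (h : Relation.ReflTransGen (FAdj S) A B) :
    ∃ g ∈ ⨆ C ∈ componentOf (FAdj S) S A, C, B = conjBy A g := by
  induction h with
  | refl => exact ⟨1, one_mem _, (conjBy_one A).symm⟩
  | @tail X Y hX hadj ih =>
    obtain ⟨g, hg, rfl⟩ := ih
    obtain ⟨x, hx, hxe⟩ := RankOne.right_mem_unipotent hadj.2.2
    refine ⟨x * g, mul_mem ?_ hg, by rw [hxe, conjBy_conjBy]⟩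
    refine (sup_le ?_ ?_ : conjBy A g ⊔ Y ≤ _) hx
    · exact le_iSup₂ (f := fun (C : Subgroup GL') (_ : C ∈ componentOf (FAdj S) S A) => C)
        (conjBy A g) ⟨hadj.1, hX⟩
    · exact le_iSup₂ (f := fun (C : Subgroup GL') (_ : C ∈ componentOf (FAdj S) S A) => C)
        Y ⟨hadj.2.1, hX.tail hadj⟩

/-- A minimal element centralised by all members centralising `a` is in a conjugate of `a`. -/
theorem exists_conj_of_commLE (h2 : (2 : k) ≠ 0) (hk : Nat.card k ≠ 3) (hirr : IsIrreducibleFor G)
    {a x : End'} (ha : IsMin G a) (hx : IsMin G x) (h : CommLE G a x) :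
    ∃ g, ∃ hg : g ∈ G, x ∈ espace G _ (ha.conj (g := g) hg).fam.1 := by
  obtain ⟨p, e, y, hp⟩ := exists_min_partner h2 hk hirr hx
  have hxy : Opp x y := by
    by_contra hn
    exact hx.ne (hp.aya.symm.trans (not_opp_triple h2 hk hx hp.min hn).1)
  have hya : ¬ Commute y a := fun hc =>
    not_opp_of_commute hx.fam.1 hx.ne (h y hp.min hc).symm hxy
  have hr := (reach_of_not_commute h2 hk hirr ha hp.min fun hc => hya hc.symm).tail
    (adj_of_opp h2 hk hp.min hx hxy.symm)
  obtain ⟨g, hg, he⟩ := exists_conj_of_reach (member_mem_roots ha) hr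
  have hgG : g ∈ G := (iSup₂_le fun C hC => le_of_mem_roots hC.1) hg
  refine ⟨g, hgG, ?_⟩
  obtain ⟨hσ, e1⟩ := sameAction_oneAdd ha
  obtain ⟨hτ, e2⟩ := sameAction_oneAdd hx
  have hmem : oneAdd x hx.fam.1 ∈ conjBy (member G a ha.fam.1) g :=
    he ▸ (self_mem_sameAction hτ).1
  rw [member, conjBy_sameAction hσ hgG, mem_sameAction (conj_minimal hσ hgG)] at hmem
  simp only [coe_conj_sub_one, e1, e2] at hmem
  exact hmem

/-- The block calculation for twins `a`, `c`, normalised by a partner `f` of both. -/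
theorem twin_eq_of_partner (h2 : (2 : k) ≠ 0) (hk : Nat.card k ≠ 3) (hirr : IsIrreducibleFor G)
    {a c f : End'} (ha : IsMin G a) (hc : IsMin G c) (hf : IsMin G f) (hac : Commute a c)
    (hle : CommLE G a c) (hafa : a * (f * a) = a) (hfaf : f * (a * f) = f)
    (hcfc : c * (f * c) = c) : c = a := by
  have haa := ha.fam.1
  have hff := hf.fam.1
  obtain ⟨e, he⟩ : ∃ e, e = a * f + f * a := ⟨_, rfl⟩
  obtain ⟨P, hP⟩ : ∃ P, P = 1 - e := ⟨_, rfl⟩
  obtain ⟨p, hp⟩ : ∃ p, p = a * f := ⟨_, rfl⟩
  obtain ⟨q, hq⟩ : ∃ q, q = f * a := ⟨_, rfl⟩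
  have za : ∀ t, a * (a * t) = 0 := fun t => by rw [← mul_assoc, haa, zero_mul]
  have zf : ∀ t, f * (f * t) = 0 := fun t => by rw [← mul_assoc, hff, zero_mul]
  have hee : e * e = e := by
    rw [he]
    simp only [add_mul, mul_add, mul_assoc, za, zf, mul_zero, add_zero, zero_add, hfaf, hafa]
  have ppp : p * p = p := by rw [hp, mul_assoc, hfaf]
  have qqq : q * q = q := by rw [hq, mul_assoc, hafa]
  have hpq : p * q = 0 := by rw [hp, hq, mul_assoc, zf, mul_zero]
  have hqp : q * p = 0 := by rw [hp, hq, mul_assoc, za, mul_zero]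
  have hqa : q * a = 0 := by rw [hq, mul_assoc, haa, mul_zero]
  have hap : a * p = 0 := by rw [hp, za]
  have hpa : p * a = a := by rw [hp, mul_assoc, hafa]
  have haq : a * q = a := by rw [hq, hafa]
  have hfp : f * p = f := by rw [hp, hfaf]
  have hqf : q * f = f := by rw [hq, mul_assoc, hfaf]
  have hone : ∀ t : End', t = p * t + q * t + P * t := fun t => by
    rw [hP, he, hp, hq, ← add_mul, ← add_mul, add_sub_cancel, one_mul]
  have hone' : ∀ t : End', t = t * p + t * q + t * P := fun t => by
    rw [hP, he, hp, hq, ← mul_add, ← mul_add, add_sub_cancel, mul_one]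
  have hPP : P * P = P := by rw [hP, sub_mul, one_mul, mul_sub, mul_one, hee, sub_self, sub_zero]
  have hpP : p * P = 0 := by
    have h1 := hone' p
    rw [ppp, hpq, add_zero, left_eq_add] at h1
    exact h1
  have hqP : q * P = 0 := by
    have h1 := hone' q
    rw [qqq, hqp, zero_add, left_eq_add] at h1
    exact h1
  have hPp : P * p = 0 := by
    have h1 := hone p
    rw [ppp, hqp, add_zero, left_eq_add] at h1
    exact h1
  have hPq : P * q = 0 := by
    have h1 := hone q
    rw [qqq, hpq, zero_add, left_eq_add] at h1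
    exact h1
  have hPa : P * a = 0 := by rw [← hpa, ← mul_assoc, hPp, zero_mul]
  have haP : a * P = 0 := by rw [← haq, mul_assoc, hqP, mul_zero]
  have hfP : f * P = 0 := by rw [← hfp, mul_assoc, hpP, mul_zero]
  -- the zero blocks
  have hca : c * a = a * c := hac.eq.symm
  have c1 : q * (c * p) = 0 := by
    rw [hq, mul_assoc, ← mul_assoc a c p, ← hca, mul_assoc, hap, mul_zero, mul_zero]
  have c2 : q * (c * P) = 0 := by
    rw [hq, mul_assoc, ← mul_assoc a c P, ← hca, mul_assoc, haP, mul_zero, mul_zero]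
  have c3 : P * (c * p) = 0 := by
    rw [hp, ← mul_assoc c a f, hca, ← mul_assoc, ← mul_assoc, hPa, zero_mul, zero_mul]
  have qc : q * c = q * (c * q) := by
    conv_lhs => rw [hone' c]
    rw [mul_add, mul_add, c1, c2, zero_add, add_zero]
  have cp : c * p = p * (c * p) := by
    conv_lhs => rw [hone (c * p)]
    rw [c1, c3, add_zero, add_zero]
  -- the top block
  have top : p * (c * q) = a := by
    obtain ⟨E, hE⟩ : ∃ E, E = p * (c * f) := ⟨_, rfl⟩
    have e1 : E * (p * c) = p * c := by
      rw [hE, mul_assoc, mul_assoc c f, ← mul_assoc f p c, hfp, hcfc]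
    have hr : LinearMap.range (p * c) = LinearMap.range a := by
      refine Submodule.eq_of_le_of_finrank_le
        ((range_mul_le p c).trans (by rw [hp]; exact range_mul_le a f)) ?_
      have h1 : rk c ≤ rk (p * c) := by
        have h3 : LinearMap.range c = LinearMap.range (c * f * (p * c)) := by
          rw [mul_assoc c f, ← mul_assoc f p c, hfp, hcfc]
        show Module.finrank k (LinearMap.range c) ≤ _
        rw [h3]
        show Module.finrank k (LinearMap.range ((c * f) ∘ₗ (p * c))) ≤ _
        rw [LinearMap.range_comp]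
        exact Submodule.finrank_map_le _ _
      have := ha.rk_eq hc
      unfold rk at h1 this
      omega
    have e2 : E * a = a := by
      refine LinearMap.ext fun m => ?_
      obtain ⟨n, hn⟩ := hr.ge ⟨m, rfl⟩
      show E (a m) = a m
      rw [← hn]
      exact LinearMap.congr_fun e1 n
    rw [← e2, hE, mul_assoc, mul_assoc c f a, ← hq]
  -- the parts of weight one and zero
  obtain ⟨c0, hc0⟩ : ∃ x, x = p * (c * p) + q * (c * q) + P * (c * P) := ⟨_, rfl⟩
  obtain ⟨d, hd⟩ : ∃ x, x = p * (c * P) + P * (c * q) := ⟨_, rfl⟩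
  have hsum : c = a + c0 + d := by
    conv_lhs => rw [hone c, hone' (p * c), hone' (q * c), hone' (P * c)]
    simp only [mul_assoc, c1, c2, c3, top]
    rw [hc0, hd]
    abel
  -- conjugation by the involution of the pair
  obtain ⟨j, hj⟩ : ∃ j : GL', j = pflip a f haa hff * pflip a f haa hff := ⟨_, rfl⟩
  have hjG : j ∈ G := hj ▸ mul_mem (pflip_mem ha.fam hf.fam) (pflip_mem ha.fam hf.fam)
  have hjv : (j : End') = P - p - q := by
    rw [hj, Units.val_mul, (coe_pflip haa hff hafa he).1, ← hP]
    simp only [add_mul, mul_add, sub_mul, mul_sub, hPP, hPa, haP, hfP, haa, hff,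
      show P * f = 0 by rw [← hqf, ← mul_assoc, hPq, zero_mul], ← hp, ← hq]
    abel
  have hjj : (P - p - q) * (P - p - q) = (1 : End') := by
    have h1 := hone 1
    simp only [mul_one] at h1
    simp only [mul_sub, sub_mul, hPP, hPp, hPq, hpP, hqP, ppp, qqq, hpq, hqp]
    rw [h1]
    abel
  have hjinv : ((j⁻¹ : GL') : End') = P - p - q := by
    calc ((j⁻¹ : GL') : End') = ((j⁻¹ : GL') : End') * ((j : End') * (j : End')) := by
          rw [hjv, hjj, mul_one]
      _ = P - p - q := by rw [← mul_assoc, Units.inv_mul, one_mul, hjv]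
  have hja : (j : End') * a * ((j⁻¹ : GL') : End') = a := by
    rw [hjv, hjinv]
    simp only [sub_mul, mul_sub, mul_assoc, hPa, hpa, hqa, haP, hap, haq, mul_zero, sub_zero,
      zero_sub, mul_neg, sub_neg_eq_add, zero_add, neg_zero]
    simp only [neg_mul, haP, hap, haq, neg_zero, sub_zero, zero_sub, neg_neg]
  have hjc : (j : End') * c * ((j⁻¹ : GL') : End') = a + c0 - d := by
    rw [hjv, hjinv]
    simp only [sub_mul, mul_sub, mul_assoc, c1, c2, c3, top]
    rw [hc0, hd]
    abel
  have hc' := hc.conj hjG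
  rw [hjc] at hc'
  have hle' : CommLE G a (a + c0 - d) := by
    intro x hx hxa
    rw [← hjc]
    have hx' := hx.conj (inv_mem hjG)
    rw [inv_inv] at hx'
    have hback : x = (j : End') * (((j⁻¹ : GL') : End') * x * (j : End')) * ((j⁻¹ : GL') : End') := by
      simp only [mul_assoc, Units.mul_inv, mul_one, ← mul_assoc (j : End') ((j⁻¹ : GL') : End'),
        one_mul]
    rw [hback, commute_conj]
    refine hle _ hx' ((commute_conj (g := j)).1 ?_)
    rw [← hback, hja]
    exact hxa
  have hac' : Commute a (a + c0 - d) := by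
    rw [← hjc]
    have := (commute_conj (g := j)).2 hac
    rwa [hja] at this
  have hcc' : Commute c (a + c0 - d) := (hle _ hc' hac'.symm).symm
  -- algebra of the sum and the difference
  obtain ⟨S, hS⟩ : ∃ S, S = a + c0 := ⟨_, rfl⟩
  rw [← hS] at hsum hc' hcc' hac' hle' hjc
  have q1 : (S + d) * (S + d) = 0 := hsum ▸ hc.fam.1
  have q2 : (S - d) * (S - d) = 0 := hc'.fam.1
  have q3 : (S + d) * (S - d) = (S - d) * (S + d) := hsum ▸ hcc'.eq
  have q4 := q3
  simp only [add_mul, mul_add, sub_mul, mul_sub] at q1 q2 q3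
  have two_cancel : ∀ t : End', t + t = 0 → t = 0 := fun t ht =>
    (smul_eq_zero.1 ((two_smul k t).trans ht)).resolve_left h2
  have hSd : S * d = d * S := by
    refine sub_eq_zero.1 (two_cancel _ ?_)
    rw [← sub_eq_zero] at q3
    rw [← neg_eq_zero, ← q3]
    abel
  have hSS : S * S + d * d = 0 := by
    refine two_cancel _ ?_
    rw [← add_zero (0 : End')]
    conv_rhs => arg 1; rw [← q1]
    conv_rhs => arg 2; rw [← q2]
    abel
  have hSd0 : S * d = 0 := by
    refine two_cancel _ (two_cancel _ ?_)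
    conv_lhs => arg 1; arg 2; rw [hSd]
    conv_lhs => arg 2; arg 2; rw [hSd]
    rw [← sub_zero (0 : End')]
    conv_rhs => arg 1; rw [← q1]
    conv_rhs => arg 2; rw [← q2]
    abel
  have hda : Commute a S ∧ Commute a d := by
    have h1 : a * (S + d) = (S + d) * a := hsum ▸ hac.eq
    have h3 := hac'.eq
    simp only [mul_add, add_mul, mul_sub, sub_mul] at h1 h3
    refine ⟨sub_eq_zero.1 (two_cancel _ ?_), sub_eq_zero.1 (two_cancel _ ?_)⟩
    · rw [← sub_eq_zero] at h1 h3
      rw [← add_zero (0 : End')]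
      conv_rhs => arg 1; rw [← h1]
      conv_rhs => arg 2; rw [← h3]
      abel
    · rw [← sub_eq_zero] at h1 h3
      rw [← sub_zero (0 : End')]
      conv_rhs => arg 1; rw [← h1]
      conv_rhs => arg 2; rw [← h3]
      abel
  have hac0 : a * c0 = c0 * a := by
    have h1 := hda.1.eq
    rw [hS, mul_add, add_mul, add_right_inj] at h1
    exact h1
  have hc00 : c0 * c0 = 0 := by
    have pl : ∀ t, p * (p * t) = p * t := fun t => by rw [← mul_assoc, ppp]
    have ql : ∀ t, q * (q * t) = q * t := fun t => by rw [← mul_assoc, qqq]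
    have z1 : ∀ t, p * (q * t) = 0 := fun t => by rw [← mul_assoc, hpq, zero_mul]
    have z2 : ∀ t, q * (p * t) = 0 := fun t => by rw [← mul_assoc, hqp, zero_mul]
    have z3 : ∀ t, p * (P * t) = 0 := fun t => by rw [← mul_assoc, hpP, zero_mul]
    have z4 : ∀ t, q * (P * t) = 0 := fun t => by rw [← mul_assoc, hqP, zero_mul]
    have z5 : ∀ t, P * (p * t) = 0 := fun t => by rw [← mul_assoc, hPp, zero_mul]
    have z6 : ∀ t, P * (q * t) = 0 := fun t => by rw [← mul_assoc, hPq, zero_mul]
    have Pl : ∀ t, P * (P * t) = P * t := fun t => by rw [← mul_assoc, hPP]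
    have d1 : p * (d * d * q) = d * d := by
      simp only [hd, add_mul, mul_add, mul_assoc, pl, ql, z1, z2, z3, z4, z5, z6, Pl, qqq, hpP,
        hqP, hPq, hpq, mul_zero, add_zero, zero_add]
    have d2 : p * (c0 * c0 * q) = 0 := by
      simp only [hc0, add_mul, mul_add, mul_assoc, pl, ql, z1, z2, z3, z4, z5, z6, Pl, qqq, hpP,
        hqP, hPq, hpq, mul_zero, add_zero, zero_add]
    have d3 : p * (a * c0 * q) = a * c0 := by
      rw [hac0, mul_assoc c0 a q, haq, ← hac0, ← mul_assoc, hpa]
    have h1 := hSS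
    rw [hS, add_mul, mul_add, mul_add, haa, ← hac0, zero_add] at h1
    have h3 := congrArg (fun t => p * (t * q)) h1
    simp only [add_mul, mul_add, d1, d2, d3, zero_mul, mul_zero, add_zero] at h3
    rw [← sub_zero (0 : End')]
    conv_rhs => arg 1; rw [← h1]
    conv_rhs => arg 2; rw [← h3]
    abel
  have hprod : (S + d) * (S - d) = a * c0 + a * c0 + (a * c0 + a * c0) := by
    have hdd : d * d = -(S * S) := by rw [eq_neg_iff_add_eq_zero, add_comm]; exact hSS
    have h3 : S * S = a * c0 + a * c0 := by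
      rw [hS, add_mul, mul_add, mul_add, haa, ← hac0, hc00, zero_add, add_zero]
    rw [add_mul, mul_sub, mul_sub, ← hSd, hSd0, hdd, h3]
    abel
  -- the weight zero part is a family
  have hfam0 : IsFam G c0 := by
    refine ⟨hc00, fun t => ?_⟩
    haveI : NeZero (2 : k) := ⟨h2⟩
    obtain ⟨s, hs⟩ : ∃ s : k, s = t / 2 := ⟨_, rfl⟩
    refine ⟨oneAdd (s • c) (smul_sq_zero hc.fam.1 s) *
      oneAdd (s • (S - d)) (smul_sq_zero hc'.fam.1 s) *
      oneAdd ((-(s + s)) • a) (smul_sq_zero haa _),
      mul_mem (mul_mem (hc.fam.oneAdd_mem s) (hc'.fam.oneAdd_mem s)) (ha.fam.oneAdd_mem _), ?_⟩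
    have e1 : c * (S - d) * a = 0 := by
      rw [hsum, hprod]
      simp only [add_mul, mul_assoc, ← hac0, za, add_zero]
    have e2 : (S + d) * a + (S - d) * a = a * c0 + a * c0 := by
      rw [← add_mul, show S + d + (S - d) = S + S by abel, add_mul, hS, add_mul, haa, zero_add,
        ← hac0]
    simp only [Units.val_mul, coe_oneAdd, add_mul, mul_add, one_mul, mul_one, smul_mul_assoc,
      mul_smul_comm, smul_smul, e1, smul_zero]
    rw [hsum, hprod]
    have e3 : (S - d) * a = a * c0 + a * c0 - (S + d) * a := by rw [← e2]; abel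
    rw [e3, show t = s + s by rw [hs, add_halves], hS]
    module
  have pl : ∀ t, p * (p * t) = p * t := fun t => by rw [← mul_assoc, ppp]
  -- rank of the weight zero part
  have hrk0 : rk c0 ≤ rk a := by
    obtain ⟨x, hx⟩ : ∃ x, x = c * (1 - q) := ⟨_, rfl⟩
    have r1 : rk (q * c) + rk x ≤ rk c := hx ▸ rk_split (by
      rw [mul_sub, mul_one, mul_assoc, ← qc, sub_self])
    have r2 : rk ((1 - p) * x) + rk (x * p) ≤ rk x := rk_split (by
      rw [hx, mul_assoc, mul_assoc, show (1 - q) * p = p by rw [one_sub_mul, hqp, sub_zero],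
        one_sub_mul, ← cp, sub_self])
    have e1 : x * p = p * (c * p) := by
      rw [hx, mul_assoc, one_sub_mul, hqp, sub_zero, ← cp]
    have e2 : (1 - p) * x = P * (c * P) := by
      have h1 := hone x
      have h3 : q * x = 0 := by rw [hx, ← mul_assoc, qc, mul_assoc, mul_assoc, mul_one_sub, qqq, sub_self, mul_zero, mul_zero]
      have h4 : P * x = P * (c * P) := by
        rw [hx, mul_one_sub, mul_sub]
        conv_lhs => arg 1; rw [hone' c, mul_add, mul_add, c3]
        rw [zero_add, add_sub_cancel_left]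
      rw [one_sub_mul]
      conv_lhs => arg 1; rw [h1, h3, h4]
      rw [add_zero, add_sub_cancel_left]
    rw [e1, e2] at r2
    rw [qc] at r1
    have r3 := rk_add_le (p * (c * p) + q * (c * q)) (P * (c * P))
    have r4 := rk_add_le (p * (c * p)) (q * (c * q))
    rw [← hc0] at r3
    have r5 := ha.rk_eq hc
    omega
  have hfc0 : f * c0 = c0 * f := by
    have e1 : f * c0 = f * (c * p) := by
      rw [hc0]
      have z1 : ∀ t, f * (q * t) = 0 := fun t => by rw [hq, mul_assoc, zf]
      have z3 : ∀ t, f * (P * t) = 0 := fun t => by rw [← mul_assoc, hfP, zero_mul]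
      rw [mul_add, mul_add, z1, z3, add_zero, add_zero, ← mul_assoc, hfp]
    have e2 : c0 * f = q * (c * f) := by
      rw [hc0, add_mul, add_mul]
      simp only [mul_assoc, hqf, show p * f = 0 by rw [hp, mul_assoc, hff, mul_zero],
        show P * f = 0 by rw [← hqf, ← mul_assoc, hPq, zero_mul], mul_zero, add_zero, zero_add]
    rw [e1, e2, hp, hq, ← mul_assoc c a f, hca, mul_assoc, mul_assoc]
  have hopp : Opp a f := by
    by_contra hn
    exact ha.ne (hafa.symm.trans (not_opp_triple h2 hk ha hf hn).1)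
  have hle0 : CommLE G a c0 := by
    intro x hx hxa
    have h1 : Commute x (S + d) := hsum ▸ hle x hx hxa
    have h4 : Commute x S := by
      have h5 : Commute x (S + S) := by
        have := h1.add_right (hle' x hx hxa)
        rwa [show S + d + (S - d) = S + S by abel] at this
      have h6 := h5.smul_right ((2 : k)⁻¹)
      rwa [← two_smul k, smul_smul, inv_mul_cancel₀ h2, one_smul] at h6
    have h7 := h4.sub_right hxa
    rwa [hS, add_sub_cancel_left] at h7
  have hz0 : c0 = 0 := by
    by_contra hne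
    have hm : IsMin G c0 := ⟨hfam0, hne, fun w hw hw0 => hrk0.trans (ha.le w hw hw0)⟩
    obtain ⟨g, hg, hmem⟩ := exists_conj_of_commLE h2 hk hirr ha hm hle0
    have h1 := commLE_symm h2 hk ha hg hmem hne hle0 f hf hfc0
    exact not_opp_of_commute ha.fam.1 ha.ne h1.symm hopp
  -- now the weight one part
  have hSa : S = a := by rw [hS, hz0, add_zero]
  rw [hz0, mul_zero, add_zero, add_zero] at hprod
  have hfamd : IsFam G d := by
    have h := (hc.fam.add hc'.fam.neg (by rw [hsum, mul_neg, hprod, neg_zero])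
      (by rw [hsum, neg_mul, show (S - d) * (S + d) = 0 by rw [← q4, hprod], neg_zero])).smul (2 : k)⁻¹
    rwa [hsum, show S + d + -(S - d) = d + d by abel, ← two_smul k, smul_smul,
      inv_mul_cancel₀ h2, one_smul] at h
  have hrkd : rk d ≤ rk a := by
    have hPcP : P * (c * P) = 0 := by
      have h1 := congrArg (fun t => P * (t * P)) hz0
      simp only [hc0, add_mul, mul_add, mul_assoc, mul_zero, zero_mul] at h1
      simp only [← mul_assoc P p, ← mul_assoc P q, hPp, hPq, zero_mul, zero_add, ← mul_assoc P P,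
        hPP] at h1
      exact h1
    have e1 : P * c = P * (c * q) := by
      conv_lhs => rw [hone' c]
      rw [mul_add, mul_add, c3, hPcP, zero_add, add_zero]
    have e2 : c * P = p * (c * P) := by
      conv_lhs => rw [hone (c * P)]
      rw [c2, hPcP, add_zero, add_zero]
    have r1 : rk (P * c) + rk (c * P) ≤ rk c := rk_split (by rw [mul_assoc]; exact hPcP)
    have r3 := rk_add_le (p * (c * P)) (P * (c * q))
    rw [← hd] at r3
    rw [e1, e2] at r1
    have r5 := ha.rk_eq hc
    omega
  have hled : CommLE G a d := by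
    intro x hx hxa
    have h1 : Commute x (S + d) := hsum ▸ hle x hx hxa
    rw [hSa] at h1
    have := h1.sub_right hxa
    rwa [add_sub_cancel_left] at this
  have hd0 : d = 0 := by
    by_contra hne
    have hm : IsMin G d := ⟨hfamd, hne, fun w hw hw0 => hrkd.trans (ha.le w hw hw0)⟩
    obtain ⟨g, hg, hmem⟩ := exists_conj_of_commLE h2 hk hirr ha hm hled
    have ho := twin_opp h2 hk ha hf hm hopp hda.2 (commLE_symm h2 hk ha hg hmem hne hled)
    refine not_opp_odd (P := P) ?_ hne hf.ne hfP (by rw [← hqf, ← mul_assoc, hPq, zero_mul]) ho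
    show P * d + d * P = d
    rw [hd]
    simp only [mul_add, add_mul, mul_assoc, ← mul_assoc P p, hPp, ← mul_assoc P P, hPP,
      ← mul_assoc P q, hPq, zero_mul, hqP, mul_zero, hPP, zero_add, add_zero]
    abel
  rw [hsum, hSa, hd0, add_zero]

theorem twin_eq (h2 : (2 : k) ≠ 0) (hk : Nat.card k ≠ 3) (hirr : IsIrreducibleFor G) {a c : End'}
    (ha : IsMin G a) (hc : IsMin G c) (h : CommLE G a c) (h' : CommLE G c a) :
    LinearMap.ker c = LinearMap.ker a ∧ LinearMap.range c = LinearMap.range a := by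
  have hac : Commute a c := h a ha (Commute.refl a)
  obtain ⟨g, hg, hab⟩ := exists_opp h2 hk hirr ha
  have hb := ha.conj hg
  have hcb := twin_opp h2 hk ha hb hc hab hac h'
  obtain ⟨e, f, hp⟩ := hcb.partner h2 hk hc hb
  have hfb : f ∈ espace G _ hb.fam.1 := ⟨hp.min.fam, hp.ker_eq.ge, hp.range_eq.le⟩
  have hfa : Opp f a := ((opp_congr ha hb (self_mem_espace ha.fam) ha.ne hfb hp.min.ne).2 hab).symm
  obtain ⟨e', a1, hp'⟩ := hfa.partner h2 hk hp.min ha
  have ha1 : a1 ∈ espace G a ha.fam.1 := ⟨hp'.min.fam, hp'.ker_eq.ge, hp'.range_eq.le⟩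
  have hmem : ∀ d, IsMin G d → (Commute d a1 ↔ Commute d a) := fun d hd =>
    commute_member h2 hk ha hd ha1 hp'.min.ne
  have hle : CommLE G a1 c := fun d hd hda => h d hd ((hmem d hd).1 hda)
  have heq := twin_eq_of_partner h2 hk hirr hp'.min hc hp.min
    (hle a1 hp'.min (Commute.refl a1)) hle hp'.yay hp'.aya hp.aya
  subst heq
  exact ⟨hp'.ker_eq, hp'.range_eq⟩

end CfsgLib.RootSubgroups.QP
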