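import Cfsg.Agent.RootSubgroups.QPOpp

/-!
# Non-opposite, non-commuting members: the class two case

If `a`, `b` are minimal with `δ = ab - ba ≠ 0` and not opposite, then every member of the family
space of `δ` is `ay - ya` with `y` in the family space of `b`.
-/

set_option autoImplicit false

namespace CfsgLib.RootSubgroups.QP

open Cfsg

universe u v

variable {k : Type u} [Field k] {M : Type v} [AddCommGroup M] [Module k M] [FiniteDimensional k M]
variable {G : Subgroup (LinearMap.GeneralLinearGroup k M)}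

local notation "GL'" => LinearMap.GeneralLinearGroup k M
local notation "End'" => Module.End k M

theorem not_opp_of_triple {a b : End'} (h : a * (b * a) = 0) (ha : a ≠ 0) : ¬ Opp a b := by
  rintro ⟨hab, hba⟩
  have h1 : b * a = 0 := by
    rw [← LinearMap.range_eq_bot, eq_bot_iff, ← hba]
    exact le_inf (range_mul_le b a) (le_of_mul_eq_zero h)
  apply ha
  rw [← LinearMap.range_eq_bot, eq_bot_iff, ← hab]
  exact le_inf le_rfl (le_of_mul_eq_zero h1)

/-! ### Conjugation -/

theorem conj_mem_espace {z x : End'} {hz : z * z = 0} (hx : x ∈ espace G z hz) {g : GL'}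
    (hg : g ∈ G) (hz' : (g : End') * z * ((g⁻¹ : GL') : End') *
      ((g : End') * z * ((g⁻¹ : GL') : End')) = 0) :
    (g : End') * x * ((g⁻¹ : GL') : End') ∈
      espace G ((g : End') * z * ((g⁻¹ : GL') : End')) hz' := by
  have hinj : ∀ n : M, (g : End') n = 0 → n = 0 := fun n hn => by
    have h1 : (((g⁻¹ : GL') : End') * (g : End')) n = 0 := by
      rw [Module.End.mul_apply, hn, map_zero]
    rwa [Units.inv_mul, Module.End.one_apply] at h1
  refine ⟨hx.1.conj hg, fun m hm => ?_, ?_⟩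
  · have h1 : z (((g⁻¹ : GL') : End') m) = 0 := hinj _ hm
    have h2 : x (((g⁻¹ : GL') : End') m) = 0 := hx.2.1 h1
    show (g : End') (x (((g⁻¹ : GL') : End') m)) = 0
    rw [h2, map_zero]
  · rintro _ ⟨m, rfl⟩
    obtain ⟨n, hn⟩ := hx.2.2 ⟨((g⁻¹ : GL') : End') m, rfl⟩
    refine ⟨(g : End') n, ?_⟩
    show ((g : End') * z * ((g⁻¹ : GL') : End')) ((g : End') n) = _
    rw [← Module.End.mul_apply, mul_assoc ((g : End') * z), Units.inv_mul, mul_one,
      Module.End.mul_apply, hn]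
    rfl

theorem Opp.conj {a b : End'} (h : Opp a b) (g : GL') :
    Opp ((g : End') * a * ((g⁻¹ : GL') : End')) ((g : End') * b * ((g⁻¹ : GL') : End')) := by
  have key : ∀ a b : End', LinearMap.range a ⊓ LinearMap.ker b = ⊥ →
      LinearMap.range ((g : End') * a * ((g⁻¹ : GL') : End')) ⊓
        LinearMap.ker ((g : End') * b * ((g⁻¹ : GL') : End')) = ⊥ := by
    intro a b hab
    rw [eq_bot_iff]
    rintro _ ⟨⟨m, rfl⟩, hb⟩
    obtain ⟨n, hn⟩ : ∃ n, n = ((g⁻¹ : GL') : End') m := ⟨_, rfl⟩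
    have h1 : (g : End') (b (a n)) = 0 := by
      have h2 : ((g : End') * b * (((g⁻¹ : GL') : End') * (g : End')) * a) n = 0 := by
        rw [hn]; exact hb
      rwa [Units.inv_mul, mul_one] at h2
    have h2 : b (a n) = 0 := by
      have h3 : (((g⁻¹ : GL') : End') * (g : End')) (b (a n)) = 0 := by
        rw [Module.End.mul_apply, h1, map_zero]
      rwa [Units.inv_mul, Module.End.one_apply] at h3
    have h3 : a n ∈ LinearMap.range a ⊓ LinearMap.ker b := ⟨⟨n, rfl⟩, h2⟩
    rw [hab, Submodule.mem_bot] at h3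
    rw [Submodule.mem_bot, Module.End.mul_apply, Module.End.mul_apply, ← hn, h3, map_zero]
  exact ⟨key a b h.1, key b a h.2⟩

theorem coe_conj_sub_one (g σ : GL') :
    ((g * σ * g⁻¹ : GL') : End') - 1 = (g : End') * ((σ : End') - 1) * ((g⁻¹ : GL') : End') := by
  rw [Units.val_mul, Units.val_mul, mul_sub, mul_one, sub_mul, Units.mul_inv]

theorem conj_minimal {σ g : GL'} (hσ : σ ∈ minimalQuadraticElements G) (hg : g ∈ G) :
    g * σ * g⁻¹ ∈ minimalQuadraticElements G := by
  rw [mem_minimal, coe_conj_sub_one]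
  exact (mem_minimal.1 hσ).conj hg

theorem conjBy_sameAction {σ g : GL'} (hσ : σ ∈ minimalQuadraticElements G) (hg : g ∈ G) :
    conjBy (sameActionSubgroup G σ) g = sameActionSubgroup G (g * σ * g⁻¹) := by
  have hσ' := conj_minimal hσ hg
  have key : ∀ {σ g t : GL'}, σ ∈ minimalQuadraticElements G → g ∈ G →
      t ∈ sameActionSubgroup G σ → g * t * g⁻¹ ∈ sameActionSubgroup G (g * σ * g⁻¹) := by
    intro σ g t hσ hg ht
    rw [mem_sameAction (conj_minimal hσ hg)]
    simp only [coe_conj_sub_one]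
    exact conj_mem_espace ((mem_sameAction hσ).1 ht) hg _
  ext t
  rw [mem_conjBy]
  constructor
  · intro ht
    have := key hσ hg ht
    rwa [show g * (g⁻¹ * t * g) * g⁻¹ = t by group] at this
  · intro ht
    have := key hσ' (inv_mem hg) ht
    rwa [inv_inv, show g⁻¹ * (g * σ * g⁻¹) * g = σ by group] at this

/-! ### Every member has an opposite conjugate -/

theorem exists_fixed {U : Subgroup GL'} (hU : IsUnipotentOn U) (hM : ∃ m : M, m ≠ 0) :
    ∃ m : M, m ≠ 0 ∧ m ∈ fixedSubmodule U := by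
  classical
  obtain ⟨n, hn⟩ := Unip.isUnipotentOn_iff.1 hU
  have hex : ∃ i, (Unip.disp U) ^ i = ⊥ := ⟨n, hn⟩
  obtain ⟨m0, hm0⟩ := hM
  have hpos : Nat.find hex ≠ 0 := by
    intro h0
    have h1 := Nat.find_spec hex
    rw [h0, pow_zero, eq_bot_iff] at h1
    have h2 : (1 : End') = 0 := (Submodule.mem_bot k).1 (h1 (Submodule.one_le.1 le_rfl))
    exact hm0 (LinearMap.congr_fun h2 m0)
  obtain ⟨i, hi⟩ := Nat.exists_eq_succ_of_ne_zero hpos
  have hlt : (Unip.disp U) ^ i ≠ ⊥ := Nat.find_min hex (by omega)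
  obtain ⟨w, hw, hw0⟩ := (Submodule.ne_bot_iff _).1 hlt
  obtain ⟨m, hm⟩ : ∃ m, w m ≠ 0 := by
    by_contra hc
    push Not at hc
    exact hw0 (LinearMap.ext hc)
  refine ⟨w m, hm, ?_⟩
  simp only [fixedSubmodule, Submodule.mem_iInf]
  intro g hg
  have h1 : ((g : End') - 1) * w ∈ (Unip.disp U) ^ Nat.find hex := by
    rw [hi, pow_succ']
    exact Submodule.mul_mem_mul (Unip.sub_mem_disp hg) hw
  rw [Nat.find_spec hex, Submodule.mem_bot] at h1
  exact LinearMap.congr_fun h1 m

theorem exists_opp (h2 : (2 : k) ≠ 0) (hk : Nat.card k ≠ 3) (hirr : IsIrreducibleFor G) {c : End'}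
    (hc : IsMin G c) :
    ∃ g ∈ G, Opp c ((g : End') * c * ((g⁻¹ : GL') : End')) := by
  by_contra hno
  push Not at hno
  obtain ⟨σ, hσ, hσc⟩ : ∃ σ ∈ minimalQuadraticElements G, (σ : End') - 1 = c := by
    refine ⟨oneAdd c hc.fam.1, mem_minimal.2 ?_, ?_⟩ <;> rw [coe_oneAdd, add_sub_cancel_left]
    exact hc
  let W : Set (Subgroup GL') := {A | ∃ g ∈ G, A = sameActionSubgroup G (g * σ * g⁻¹)}
  have hWconj : ∀ A ∈ W, ∀ g ∈ G, conjBy A g ∈ W := by
    rintro _ ⟨g, hg, rfl⟩ h hh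
    refine ⟨h * g, mul_mem hh hg, ?_⟩
    rw [conjBy_sameAction (conj_minimal hσ hg) hh, mul_inv_rev]
    simp only [mul_assoc]
  have hWW : ∀ A ∈ W, ∀ B ∈ W, IsUnipotentOn (A ⊔ B) := by
    rintro _ ⟨g, hg, rfl⟩ _ ⟨h, hh, rfl⟩
    refine sup_unipotent_of_not_opp h2 hk (conj_minimal hσ hg) (conj_minimal hσ hh) fun ho => ?_
    have h1 := ho.conj g⁻¹
    rw [← coe_conj_sub_one, ← coe_conj_sub_one, inv_inv,
      show g⁻¹ * (g * σ * g⁻¹) * g = σ by group,
      show g⁻¹ * (h * σ * h⁻¹) * g = (g⁻¹ * h) * σ * (g⁻¹ * h)⁻¹ by group, coe_conj_sub_one,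
      hσc] at h1
    exact hno (g⁻¹ * h) (mul_mem (inv_mem hg) hh) h1
  have hWG : ∀ A ∈ W, A ≤ G := by
    rintro _ ⟨g, -, rfl⟩
    exact sameAction_le
  have hu := Unip.join_unipotent W hWG hWW hWconj
  obtain ⟨m, hm0, hm⟩ := exists_fixed hu hirr.1
  have hinv : ∀ g ∈ G, ∀ w ∈ fixedSubmodule (Unip.join W),
      (g : End') w ∈ fixedSubmodule (Unip.join W) := by
    intro g hg w hw
    simp only [fixedSubmodule, Submodule.mem_iInf] at hw ⊢
    intro t ht
    have hfix : conjBy (Unip.join W) g⁻¹ ≤ Unip.join W := by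
      rw [Unip.join_conj]
      refine iSup₂_le ?_
      rintro _ ⟨A, hA, rfl⟩
      exact Unip.le_join (hWconj A hA g⁻¹ (inv_mem hg))
    have ht' : g⁻¹ * t * g⁻¹⁻¹ ∈ Unip.join W :=
      hfix (mem_conjBy.2 (by
        rw [show g⁻¹⁻¹ * (g⁻¹ * t * g⁻¹⁻¹) * g⁻¹ = t by group]; exact ht))
    have h1 : ((g⁻¹ : GL') : End') (((t : End') - 1) ((g : End') w)) = 0 := by
      have := hw _ ht'
      rw [coe_conj_sub_one, inv_inv] at this
      exact this
    show ((t : End') - 1) ((g : End') w) = 0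
    have h3 : ((g : End') * ((g⁻¹ : GL') : End')) (((t : End') - 1) ((g : End') w)) = 0 := by
      rw [Module.End.mul_apply, h1, map_zero]
    rwa [Units.mul_inv, Module.End.one_apply] at h3
  rcases hirr.2 _ hinv with hb | ht
  · rw [hb, Submodule.mem_bot] at hm; exact hm0 hm
  · have hσW : σ ∈ Unip.join W := by
      refine Unip.le_join (T := W) (A := sameActionSubgroup G (1 * σ * 1⁻¹)) ⟨1, one_mem G, rfl⟩ ?_
      rw [one_mul, inv_one, mul_one]
      exact Subgroup.subset_closure ⟨hσ, rfl, rfl⟩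
    apply hc.ne
    rw [← hσc]
    refine LinearMap.ext fun m => ?_
    have h1 : m ∈ fixedSubmodule (Unip.join W) := ht ▸ Submodule.mem_top
    simp only [fixedSubmodule, Submodule.mem_iInf] at h1
    exact h1 σ hσW

theorem exists_min_partner (h2 : (2 : k) ≠ 0) (hk : Nat.card k ≠ 3) (hirr : IsIrreducibleFor G)
    {c : End'} (hc : IsMin G c) : ∃ d e y, Partner G c d e y := by
  obtain ⟨g, hg, ho⟩ := exists_opp h2 hk hirr hc
  exact ⟨_, ho.partner h2 hk hc (hc.conj hg)⟩

/-! ### Odd elements -/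

/-- `w` exchanges the range of the idempotent `P` and that of `1 - P`. -/
def OddFor (P w : Module.End k M) : Prop := P * w + w * P = w

theorem OddFor.corner {P w : End'} (h : OddFor P w) (hP : P * P = P) : P * (w * P) = 0 := by
  have h1 := congrArg (fun t => P * t) h
  simp only [mul_add, ← mul_assoc, hP] at h1
  rw [← mul_assoc]
  exact add_eq_left.1 h1

theorem OddFor.mul_compl {P w : End'} (h : OddFor P w) : w * (1 - P) = P * w := by
  rw [mul_sub, mul_one, sub_eq_iff_eq_add]; exact h.symm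

theorem not_opp_odd {P w z : End'} (hw : OddFor P w) (hw0 : w ≠ 0) (hz0 : z ≠ 0) (hzP : z * P = 0)
    (hPz : P * z = 0) : ¬ Opp w z := by
  rintro ⟨h1, h1'⟩
  have hPw : P * w = 0 := by
    rw [← LinearMap.range_eq_bot, eq_bot_iff, ← h1]
    refine le_inf ?_ (le_of_mul_eq_zero (by rw [← mul_assoc, hzP, zero_mul]))
    rw [← hw.mul_compl]
    exact range_mul_le w _
  have hwz : w * z = 0 := by
    have h3 : w = w * P := by rw [← sub_eq_zero, ← mul_one_sub, hw.mul_compl, hPw]
    rw [h3, mul_assoc, hPz, mul_zero]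
  apply hz0
  rw [← LinearMap.range_eq_bot, eq_bot_iff, ← h1']
  exact le_inf le_rfl (le_of_mul_eq_zero hwz)

/-! ### The pure case -/

/-- A non-opposite non-commuting pair with a partner of its commutator. -/
structure TwoPair (G : Subgroup (LinearMap.GeneralLinearGroup k M))
    (a b δ f e : Module.End k M) : Prop where
  min_a : IsMin G a
  min_b : IsMin G b
  nopp : ¬ Opp a b
  eqd : δ = a * b - b * a
  ne_d : δ ≠ 0
  min_d : IsMin G δ
  min_f : IsMin G f
  dfd : δ * (f * δ) = δ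
  fdf : f * (δ * f) = f
  eqe : e = δ * f + f * δ

namespace TwoPair

variable {a b δ f e : Module.End k M}

theorem annihilate (h2 : (2 : k) ≠ 0) (hk : Nat.card k ≠ 3) (h : TwoPair G a b δ f e) :
    a * δ = 0 ∧ δ * a = 0 ∧ b * δ = 0 ∧ δ * b = 0 := by
  obtain ⟨t1, t2⟩ := not_opp_triple h2 hk h.min_a h.min_b h.nopp
  refine ⟨?_, ?_, ?_, ?_⟩ <;>
    simp only [h.eqd, mul_sub, sub_mul, mul_assoc, h.min_a.fam.1, h.min_b.fam.1, t1, t2, mul_zero,
      sub_zero, sub_self] <;>
    simp only [← mul_assoc, h.min_a.fam.1, h.min_b.fam.1, zero_mul, sub_self]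

theorem symm (h : TwoPair G a b δ f e) : TwoPair G b a (-δ) (-f) e where
  min_a := h.min_b
  min_b := h.min_a
  nopp := fun ho => h.nopp ho.symm
  eqd := by rw [h.eqd, neg_sub]
  ne_d := neg_ne_zero.2 h.ne_d
  min_d := by
    refine (h.min_d.of_mem (Submodule.neg_mem _ (self_mem_espace h.min_d.fam)) ?_).1
    exact neg_ne_zero.2 h.ne_d
  min_f := by
    refine (h.min_f.of_mem (Submodule.neg_mem _ (self_mem_espace h.min_f.fam)) ?_).1
    exact neg_ne_zero.2 h.min_f.ne
  dfd := by simp only [neg_mul, mul_neg, neg_neg, h.dfd]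
  fdf := by simp only [neg_mul, mul_neg, neg_neg, h.fdf]
  eqe := by rw [neg_mul_neg, neg_mul_neg, h.eqe]

theorem idem (h : TwoPair G a b δ f e) : e * e = e := by
  have haa : ∀ t, δ * (δ * t) = 0 := fun t => by rw [← mul_assoc, h.min_d.fam.1, zero_mul]
  have hyy : ∀ t, f * (f * t) = 0 := fun t => by rw [← mul_assoc, h.min_f.fam.1, zero_mul]
  rw [h.eqe]
  simp only [add_mul, mul_add, mul_assoc, haa, hyy, mul_zero, add_zero, zero_add, h.fdf, h.dfd]

theorem e_delta (h : TwoPair G a b δ f e) :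
    e * δ = δ ∧ δ * e = δ ∧ e * f = f ∧ f * e = f := by
  refine ⟨?_, ?_, ?_, ?_⟩ <;> rw [h.eqe] <;>
    simp only [add_mul, mul_add, mul_assoc, h.dfd, h.fdf, h.min_d.fam.1, h.min_f.fam.1, mul_zero,
      add_zero, zero_add] <;>
    simp only [← mul_assoc, h.min_d.fam.1, h.min_f.fam.1, zero_mul, add_zero, zero_add]

/-- The member of the family of `δ` lies in the corner. -/
theorem eps (h : TwoPair G a b δ f e) {ε : End'} (hε : ε ∈ espace G δ h.min_d.fam.1) :
    δ * (f * ε) = ε ∧ ε * (f * δ) = ε ∧ ε * δ = 0 ∧ δ * ε = 0 := by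
  refine ⟨?_, ?_, espace_mul_zero hε (self_mem_espace h.min_d.fam),
    espace_mul_zero (self_mem_espace h.min_d.fam) hε⟩
  · refine LinearMap.ext fun m => ?_
    obtain ⟨n, hn⟩ := hε.2.2 ⟨m, rfl⟩
    show δ (f (ε m)) = ε m
    rw [← hn]
    exact LinearMap.congr_fun h.dfd n
  · refine LinearMap.ext fun m => ?_
    have h1 : δ (m - f (δ m)) = 0 := by
      rw [map_sub, sub_eq_zero]
      exact (LinearMap.congr_fun h.dfd m).symm
    have h3 : ε (m - f (δ m)) = 0 := hε.2.1 h1
    rw [map_sub, sub_eq_zero] at h3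
    exact h3.symm

theorem odd_side {b δ f e : End'} (hb : IsMin G b) (hd : IsMin G δ) (hf : IsMin G f)
    (h2 : (2 : k) ≠ 0) (hk : Nat.card k ≠ 3) (he : e = δ * f + f * δ) (hee : e * e = e)
    (hef : e * f = f ∧ f * e = f) (hed : e * δ = δ ∧ δ * e = δ)
    (hbd : b * δ = 0) (hdb : δ * b = 0) (hodd : OddFor (1 - e) b)
    {ε : End'} (hε : ε ∈ espace G δ hd.fam.1) :
    (b * f - f * b) * ε - ε * (b * f - f * b) ∈ espace G b hb.fam.1 := by
  have hP : (1 - e) * (1 - e) = 1 - e := by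
    simp only [sub_mul, mul_sub, one_mul, mul_one, hee]; abel
  have hfP : f * (1 - e) = 0 := by rw [mul_one_sub, hef.2, sub_self]
  have hPf : (1 - e) * f = 0 := by rw [one_sub_mul, hef.1, sub_self]
  have hdP : δ * (1 - e) = 0 := by rw [mul_one_sub, hed.2, sub_self]
  have hPd : (1 - e) * δ = 0 := by rw [one_sub_mul, hed.1, sub_self]
  have hn : ¬ Opp b f := not_opp_odd hodd hb.ne hf.ne hfP hPf
  obtain ⟨t1, t2⟩ := not_opp_triple h2 hk hb hf hn
  have hback : (b * f - f * b) * δ - δ * (b * f - f * b) = b := by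
    have h4 : b * (f * δ) = b * e := by
      rw [he, mul_add, ← mul_assoc b δ f, hbd, zero_mul, zero_add]
    have h5 : δ * (f * b) = e * b := by
      rw [he, add_mul, mul_assoc f δ b, hdb, mul_zero, add_zero, mul_assoc]
    have h7 := hodd
    unfold OddFor at h7
    rw [one_sub_mul, mul_one_sub] at h7
    rw [sub_mul, mul_sub, mul_assoc b f δ, mul_assoc f b δ, hbd, mul_zero, sub_zero,
      ← mul_assoc δ b f, hdb, zero_mul, zero_sub, sub_neg_eq_add, h4, h5]
    rw [← sub_eq_zero] at h7 ⊢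
    rw [← neg_eq_zero, ← h7]
    abel
  have hne : b * f - f * b ≠ 0 := fun h0 => hb.ne (by
    rw [← hback, h0, zero_mul, mul_zero, sub_zero])
  obtain ⟨hmin, -⟩ := delta_spaces h2 hk hb hf hn hne
  have hodd' : OddFor (1 - e) (b * f - f * b) := by
    have h7 : ∀ t, f * ((1 - e) * t) = 0 := fun t => by rw [← mul_assoc, hfP, zero_mul]
    have h8 : b * f = (1 - e) * (b * f) := by
      conv_lhs => rw [← hodd]
      rw [add_mul, mul_assoc b (1 - e) f, hPf, mul_zero, add_zero, mul_assoc]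
    have h9 : f * b = f * b * (1 - e) := by
      conv_lhs => rw [← hodd]
      rw [mul_add, h7, zero_add, mul_assoc]
    have h10 : (1 - e) * (f * b) = 0 := by rw [← mul_assoc, hPf, zero_mul]
    have h11 : b * f * (1 - e) = 0 := by rw [mul_assoc, hfP, mul_zero]
    show (1 - e) * (b * f - f * b) + (b * f - f * b) * (1 - e) = _
    rw [mul_sub ((1 : End') - e), sub_mul (b * f) (f * b), ← h8, ← h9, h10, h11]
    abel
  have hn' : ¬ Opp (b * f - f * b) δ := not_opp_odd hodd' hne hd.ne hdP hPd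
  rcases eq_or_ne ε 0 with rfl | hε0
  · rw [mul_zero, zero_mul, sub_zero]; exact Submodule.zero_mem _
  have h := delta_congr h2 hk hmin hd hn' (by rw [hback]; exact hb.ne)
    (x := b * f - f * b) (y := ε) (self_mem_espace hmin.fam) hne hε hε0
  rw [hback] at h
  exact ⟨h.1.fam, h.2.1.ge, h.2.2.le⟩

theorem surj_odd (h2 : (2 : k) ≠ 0) (hk : Nat.card k ≠ 3) (h : TwoPair G a b δ f e)
    (hao : OddFor (1 - e) a) (hbo : OddFor (1 - e) b) {ε : End'}
    (hε : ε ∈ espace G δ h.min_d.fam.1) :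
    ∃ y ∈ espace G b h.min_b.fam.1, a * y - y * a = ε := by
  obtain ⟨haδ, hδa, hbδ, hδb⟩ := h.annihilate h2 hk
  obtain ⟨e1, e2, e3, e4⟩ := h.e_delta
  have hy := odd_side h.min_b h.min_d h.min_f h2 hk h.eqe h.idem ⟨e3, e4⟩ ⟨e1, e2⟩ hbδ hδb hbo hε
  have hy' := odd_side h.min_a h.min_d h.min_f h2 hk h.eqe h.idem ⟨e3, e4⟩ ⟨e1, e2⟩ haδ hδa hao hε
  refine ⟨_, hy, ?_⟩
  obtain ⟨k1, k2, k3, k4⟩ := h.eps hε
  have kill : ∀ {x : End'}, x * δ = 0 → x * ε = 0 := fun {x} hx => by
    rw [← k1, ← mul_assoc, hx, zero_mul]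
  have kill' : ∀ {x : End'}, δ * x = 0 → ε * x = 0 := fun {x} hx => by
    rw [← k2, mul_assoc, mul_assoc, hx, mul_zero, mul_zero]
  have haε := kill haδ
  have hbε := kill hbδ
  have hεa := kill' hδa
  have hεb := kill' hδb
  have e5 : ε * e = ε := by
    rw [h.eqe, mul_add, ← mul_assoc, k3, zero_mul, zero_add, k2]
  have hεP : ε * (1 - e) = 0 := by rw [mul_one_sub, e5, sub_self]
  obtain ⟨-, p1, p2, p3, -, -⟩ := delta_spaces h2 hk h.min_a h.min_b h.nopp (h.eqd ▸ h.ne_d)
  -- products through the complement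
  have cross : ∀ {a b : End'}, a * δ = 0 → δ * b = 0 → b * ε = 0 →
      ∀ {ha : a * a = 0}, (a * f - f * a) * ε - ε * (a * f - f * a) ∈ espace G a ha →
      LinearMap.range (ε * (f * (a * b))) ≤ LinearMap.range a ⊓ LinearMap.ker b := by
    intro a b haδ hδb hbε ha hy'
    refine le_inf ?_ (le_of_mul_eq_zero (by rw [← mul_assoc, hbε, zero_mul]))
    have h1 : a * b = a * ((1 - e) * b) := by
      rw [h.eqe, one_sub_mul, mul_sub, add_mul, mul_add, mul_assoc δ f b, ← mul_assoc a δ, haδ,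
        zero_mul, mul_assoc f δ b, hδb, mul_zero, mul_zero, add_zero, sub_zero]
    have h3 : ((a * f - f * a) * ε - ε * (a * f - f * a)) * (1 - e) = ε * (f * (a * (1 - e))) := by
      have hfP : f * (1 - e) = 0 := by rw [mul_one_sub, e4, sub_self]
      rw [sub_mul, mul_assoc (a * f - f * a), hεP, mul_zero, zero_sub, mul_assoc ε,
        sub_mul (a * f) (f * a), mul_assoc a f, hfP, mul_zero, zero_sub, mul_neg, neg_neg, mul_assoc]
    have h4 : ε * (f * (a * b)) =
        ((a * f - f * a) * ε - ε * (a * f - f * a)) * (1 - e) * b := by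
      rw [h3, h1]; simp only [mul_assoc]
    rw [h4, mul_assoc]
    exact (range_mul_le _ _).trans hy'.2.2
  have ra : LinearMap.range (ε * (f * (a * b))) ≤ LinearMap.range (a * b) :=
    (cross haδ hδb hbε hy').trans p1.ge
  have rb : LinearMap.range (ε * (f * (b * a))) ≤ LinearMap.range (b * a) :=
    (cross hbδ hδa haε hy).trans p2.ge
  -- `ab f` is the projection of `range δ` on `range (ab)`
  have proj : (a * b) * (f * (a * b)) = a * b ∧ (a * b) * (f * (b * a)) = 0 := by
    have hd1 : a * b * (f * δ) = a * b := by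
      refine LinearMap.ext fun m => ?_
      have h1 : δ (m - f (δ m)) = 0 := by
        rw [map_sub, sub_eq_zero]
        exact (LinearMap.congr_fun h.dfd m).symm
      have h3 : (a * b) (m - f (δ m)) = 0 := by
        obtain ⟨-, -, -, -, -, p5⟩ := delta_spaces h2 hk h.min_a h.min_b h.nopp (h.eqd ▸ h.ne_d)
        rw [← h.eqd] at p5
        exact (p5.le h1).1
      rw [map_sub, sub_eq_zero] at h3
      exact h3.symm
    have hd2 : ∀ {x : End'}, LinearMap.range x ≤ LinearMap.range δ → δ * (f * x) = x := by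
      intro x hx
      refine LinearMap.ext fun m => ?_
      obtain ⟨n, hn⟩ := hx ⟨m, rfl⟩
      show δ (f (x m)) = x m
      rw [← hn]
      exact LinearMap.congr_fun h.dfd n
    obtain ⟨-, -, -, -, p4, -⟩ := delta_spaces h2 hk h.min_a h.min_b h.nopp (h.eqd ▸ h.ne_d)
    rw [← h.eqd] at p4
    have hA := hd2 (x := a * b) (p4 ▸ le_sup_left)
    have hB := hd2 (x := b * a) (p4 ▸ le_sup_right)
    rw [h.eqd, sub_mul, sub_eq_iff_eq_add] at hA hB
    have zero : ∀ {x y : End'}, LinearMap.range x ≤ LinearMap.range (a * b) →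
        LinearMap.range y ≤ LinearMap.range (b * a) → x = y → x = 0 := by
      intro x y hx hy hxy
      rw [← LinearMap.range_eq_bot, eq_bot_iff, ← p3]
      exact le_inf hx (hxy ▸ hy)
    have hle : ∀ {x y : End'}, LinearMap.range (x - x * y) ≤ LinearMap.range x := fun {x y} => by
      rw [← mul_one_sub]; exact range_mul_le x _
    constructor
    · have := zero (x := a * b - a * b * (f * (a * b))) (y := -(b * a * (f * (a * b))))
        hle (by rw [LinearMap.range_neg]; exact range_mul_le _ _)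
        (by rw [eq_neg_iff_add_eq_zero, hA]; abel)
      exact (sub_eq_zero.1 this).symm
    · exact zero (x := a * b * (f * (b * a))) (y := b * a + b * a * (f * (b * a)))
        (range_mul_le _ _) (by rw [← mul_one_add]; exact range_mul_le _ _) hB
  have hcommute : a * b * (f * ε) = ε * (f * (a * b)) := by
    have hsplit : ε = ε * (f * (a * b)) - ε * (f * (b * a)) := by
      rw [← mul_sub, ← mul_sub, ← h.eqd, k2]
    conv_lhs => rw [hsplit]
    rw [mul_sub, mul_sub]
    have h1 : a * b * (f * (ε * (f * (a * b)))) = ε * (f * (a * b)) := by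
      refine LinearMap.ext fun m => ?_
      obtain ⟨n, hn⟩ := ra ⟨m, rfl⟩
      show (a * b) (f ((ε * (f * (a * b))) m)) = (ε * (f * (a * b))) m
      rw [← hn]
      exact LinearMap.congr_fun proj.1 n
    have h3 : a * b * (f * (ε * (f * (b * a)))) = 0 := by
      refine LinearMap.ext fun m => ?_
      obtain ⟨n, hn⟩ := rb ⟨m, rfl⟩
      show (a * b) (f ((ε * (f * (b * a))) m)) = 0
      rw [← hn]
      exact LinearMap.congr_fun proj.2 n
    rw [h1, h3, sub_zero]
  have hfin : a * b * (f * ε) - ε * (f * (b * a)) = ε := by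
    rw [hcommute, ← mul_sub, ← mul_sub, ← h.eqd, k2]
  conv_rhs => rw [← hfin]
  simp only [mul_sub, sub_mul, mul_assoc, haε, hbε, hεa, hεb, mul_zero, sub_zero]
  simp only [← mul_assoc, haε, hbε, hεa, hεb, zero_mul, sub_zero, mul_zero]
  abel_nf

end TwoPair


/-! ### The general case -/

/-- Elements annihilated by `δ` annihilate its family space. -/
theorem mul_espace_zero {δ x u : End'} (hd : δ * δ = 0) (hx : x ∈ espace G δ hd) :
    (u * δ = 0 → u * x = 0) ∧ (δ * u = 0 → x * u = 0) :=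
  ⟨fun h => mul_eq_zero_of_le (hx.2.2.trans (le_of_mul_eq_zero h)),
    fun h => mul_eq_zero_of_le ((le_of_mul_eq_zero h).trans hx.2.1)⟩

/-- Members of the family space of `a` map `ker δ` into `[M, δ]`. -/
theorem apply_mem_range_delta (h2 : (2 : k) ≠ 0) (hk : Nat.card k ≠ 3) {a b x : End'}
    (ha : IsMin G a) (hb : IsMin G b) (h : ¬ Opp a b) (hd : a * b - b * a ≠ 0)
    (hx : x ∈ espace G a ha.fam.1) {m : M} (hm : (a * b - b * a) m = 0) :
    x m ∈ LinearMap.range (a * b - b * a) := by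
  rcases eq_or_ne x 0 with rfl | hx0
  · rw [LinearMap.zero_apply]; exact Submodule.zero_mem _
  obtain ⟨hxm, hxk, hxr⟩ := ha.of_mem hx hx0
  have hc := delta_congr h2 hk ha hb h hd hx hx0 (self_mem_espace hb.fam) hb.ne
  have hn : ¬ Opp x b := fun ho => h
    ((opp_congr ha hb hx hx0 (self_mem_espace hb.fam) hb.ne).1 ho)
  obtain ⟨-, q1, -, -, q4, q5⟩ := delta_spaces h2 hk hxm hb hn hc.1.ne
  have h1 : m ∈ LinearMap.ker (x * b - b * x) := hc.2.1.ge hm
  rw [← hc.2.2, q4, q1]
  exact Submodule.mem_sup_left ⟨⟨m, rfl⟩, (q5.le h1).2⟩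

theorem split_odd (h2 : (2 : k) ≠ 0) {a δ f e : End'} (ha : IsMin G a) (hd : IsMin G δ)
    (hf : IsMin G f) (hdfd : δ * (f * δ) = δ) (hfdf : f * (δ * f) = f)
    (he : e = δ * f + f * δ) (haδ : a * δ = 0) (hδa : δ * a = 0)
    (hker : ∀ m, δ m = 0 → a m ∈ LinearMap.range δ) (hna : a ∉ espace G δ hd.fam.1) :
    ∃ a1 a2, a = a1 + a2 ∧ IsMin G a1 ∧ OddFor (1 - e) a1 ∧ a2 ∈ espace G δ hd.fam.1 ∧
      a1 * δ = 0 ∧ δ * a1 = 0 := by
  have hdd := hd.fam.1
  have hff := hf.fam.1
  have z1 : ∀ t, δ * (δ * t) = 0 := fun t => by rw [← mul_assoc, hdd, zero_mul]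
  have z2 : ∀ t, f * (f * t) = 0 := fun t => by rw [← mul_assoc, hff, zero_mul]
  have hee : e * e = e := by
    rw [he]
    simp only [add_mul, mul_add, mul_assoc, z1, z2, mul_zero, add_zero, zero_add, hfdf, hdfd]
  have hed : e * δ = δ ∧ δ * e = δ := by
    constructor <;> rw [he] <;>
      simp only [add_mul, mul_add, mul_assoc, hdfd, hdd, z1, mul_zero, add_zero, zero_add]
  have hef : e * f = f ∧ f * e = f := by
    constructor <;> rw [he] <;>
      simp only [add_mul, mul_add, mul_assoc, hfdf, hff, z2, mul_zero, add_zero, zero_add]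
  obtain ⟨P, hP⟩ : ∃ P, P = 1 - e := ⟨_, rfl⟩
  have hPP : P * P = P := by
    rw [hP]; simp only [sub_mul, mul_sub, one_mul, mul_one, hee]; abel
  have hdP : δ * P = 0 := by rw [hP, mul_one_sub, hed.2, sub_self]
  have hPd : P * δ = 0 := by rw [hP, one_sub_mul, hed.1, sub_self]
  have hPaP : P * (a * P) = 0 := by
    refine LinearMap.ext fun m => ?_
    obtain ⟨n, hn⟩ := hker (P m) (LinearMap.congr_fun hdP m)
    show P (a (P m)) = 0
    rw [← hn]
    exact LinearMap.congr_fun hPd n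
  have haea : a * (e * a) = 0 := by
    rw [he, add_mul, mul_add, mul_assoc δ f a, ← mul_assoc a δ, haδ, zero_mul, mul_assoc f δ a, hδa,
      mul_zero, mul_zero, add_zero]
  have hPa : a * (P * a) = 0 := by rw [hP, one_sub_mul, mul_sub, ha.fam.1, haea, sub_zero]
  obtain ⟨a1, ha1⟩ : ∃ x, x = P * a + a * P := ⟨_, rfl⟩
  have m1 : a * a1 = 0 := by rw [ha1, mul_add, hPa, ← mul_assoc, ha.fam.1, zero_mul, add_zero]
  have m2 : a1 * a = 0 := by
    rw [ha1, add_mul, mul_assoc, ha.fam.1, mul_zero, zero_add, mul_assoc, hPa]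
  obtain ⟨j, hj⟩ : ∃ j : GL', j = pflip δ f hdd hff * pflip δ f hdd hff := ⟨_, rfl⟩
  have hjG : j ∈ G := hj ▸ mul_mem (pflip_mem hd.fam hf.fam) (pflip_mem hd.fam hf.fam)
  have hjv : (j : End') = P + P - 1 := by
    rw [hj, Units.val_mul, (coe_pflip hdd hff hdfd he).1, ← hP]
    have c1 : P * δ = 0 := hPd
    have c3 : P * f = 0 := by rw [hP, one_sub_mul, hef.1, sub_self]
    have c4 : f * P = 0 := by rw [hP, mul_one_sub, hef.2, sub_self]
    simp only [add_mul, mul_add, sub_mul, mul_sub, hPP, hdP, c1, c3, c4, hdd, hff]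
    rw [hP, he]
    abel
  have hjj : (P + P - 1) * (P + P - 1) = (1 : End') := by
    simp only [add_mul, mul_add, sub_mul, mul_sub, hPP, one_mul, mul_one]
    abel
  have hjinv : ((j⁻¹ : GL') : End') = P + P - 1 := by
    calc ((j⁻¹ : GL') : End') = ((j⁻¹ : GL') : End') * ((j : End') * (j : End')) := by
          rw [hjv, hjj, mul_one]
      _ = P + P - 1 := by rw [← mul_assoc, Units.inv_mul, one_mul, hjv]
  have hfam := ha.fam.conj hjG
  rw [hjv, hjinv, show (P + P - 1) * a * (P + P - 1) = a - (a1 + a1) by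
    simp only [ha1, add_mul, mul_add, sub_mul, mul_sub, one_mul, mul_one, mul_assoc, hPaP]
    abel] at hfam
  have hsq : a1 * a1 = 0 := by
    have haP : a * (P * (a * P)) = 0 := by rw [hPaP, mul_zero]
    rw [ha1]
    simp only [add_mul, mul_add, mul_assoc]
    rw [hPaP, mul_zero, hPa, mul_zero, ← mul_assoc a a, ha.fam.1, zero_mul, mul_zero]
    rw [show a * (P * (P * a)) = 0 by rw [← mul_assoc P P a, hPP, hPa]]
    simp
  have hf1 : IsFam G a1 := by
    have h := (ha.fam.add hfam.neg (by rw [mul_neg, mul_sub, ha.fam.1, mul_add, m1]; simp)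
      (by rw [neg_mul, sub_mul, ha.fam.1, add_mul, m2]; simp)).smul (2 : k)⁻¹
    rwa [show (2 : k)⁻¹ • (a + -(a - (a1 + a1))) = a1 by
      rw [show a + -(a - (a1 + a1)) = a1 + a1 by abel, ← two_smul k, smul_smul,
        inv_mul_cancel₀ h2, one_smul]] at h
  have hf2 : IsFam G (a - a1) := by
    rw [sub_eq_add_neg]
    exact ha.fam.add hf1.neg (by rw [mul_neg, m1, neg_zero]) (by rw [neg_mul, m2, neg_zero])
  have heq : a - a1 = δ * (f * (a * (f * δ))) := by
    have h1 : a - a1 = e * (a * e) := by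
      have h3 := hPaP
      simp only [ha1, hP, one_sub_mul, mul_one_sub, mul_sub] at h3 ⊢
      simp only [mul_one] at h3 ⊢
      rw [← sub_eq_zero] at h3 ⊢
      rw [← neg_eq_zero, ← h3]
      abel
    rw [h1, he]
    simp only [add_mul, mul_add, mul_assoc]
    simp only [← mul_assoc a δ, haδ, zero_mul, mul_zero, zero_add]
    simp only [← mul_assoc δ a, hδa, zero_mul, mul_zero, add_zero]
  have hmem : a - a1 ∈ espace G δ hdd := by
    refine ⟨hf2, ?_, ?_⟩ <;> rw [heq]
    · intro m hm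
      have h0 : δ m = 0 := hm
      simp [LinearMap.mem_ker, h0]
    · exact range_mul_le δ _
  have hne : a1 ≠ 0 := fun h0 => hna (by rwa [h0, sub_zero] at hmem)
  have hle : rk a1 ≤ rk a := by
    have h1 : LinearMap.range a1 ≤ LinearMap.range (P * a) ⊔ LinearMap.range (a * P) := by
      rw [ha1]
      rintro _ ⟨m, rfl⟩
      exact Submodule.add_mem_sup ⟨m, rfl⟩ ⟨m, rfl⟩
    have h3 : LinearMap.range (a * P) ≤ LinearMap.range a ⊓ LinearMap.ker P :=
      le_inf (range_mul_le a P) (le_of_mul_eq_zero hPaP)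
    have h4 := LinearMap.finrank_range_add_finrank_ker (P.domRestrict (LinearMap.range a))
    rw [LinearMap.range_domRestrict, LinearMap.ker_domRestrict,
      ← LinearMap.range_comp a P] at h4
    have h5 : Module.finrank k ↥((LinearMap.ker P).comap (LinearMap.range a).subtype) =
        Module.finrank k ↥(LinearMap.range a ⊓ LinearMap.ker P) :=
      LinearEquiv.finrank_eq ((LinearEquiv.ofEq _ _ (by
        rw [Submodule.comap_inf, Submodule.comap_subtype_self, top_inf_eq])).trans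
          (Submodule.comapSubtypeEquivOfLe inf_le_left))
    have h6 := Submodule.finrank_mono h1
    have h7 := Submodule.finrank_mono h3
    have h8 := Submodule.finrank_sup_add_finrank_inf_eq (LinearMap.range (P * a))
      (LinearMap.range (a * P))
    unfold rk
    change Module.finrank k ↥(LinearMap.range (P * a)) + _ = _ at h4
    omega
  refine ⟨a1, a - a1, (add_sub_cancel a1 a).symm,
    ⟨hf1, hne, fun w hw hw0 => hle.trans (ha.le w hw hw0)⟩, ?_, hmem, ?_, ?_⟩
  · show (1 - e) * a1 + a1 * (1 - e) = a1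
    rw [← hP, ha1]
    simp only [add_mul, mul_add, mul_assoc, hPP, hPaP]
    rw [← mul_assoc P P a, hPP]
    abel
  · rw [ha1, add_mul, mul_assoc, haδ, mul_zero, zero_add, mul_assoc, hPd, mul_zero]
  · rw [ha1, mul_add, ← mul_assoc, hdP, zero_mul, zero_add, ← mul_assoc, hδa, zero_mul]

theorem exists_commutator_self (h2 : (2 : k) ≠ 0) (hk : Nat.card k ≠ 3)
    (hirr : IsIrreducibleFor G) {a b δ : End'} (ha : IsMin G a) (hb : IsMin G b) (h : ¬ Opp a b)
    (hδ : δ = a * b - b * a) (hd : IsMin G δ) {ε : End'} (hε : ε ∈ espace G δ hd.fam.1) :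
    ∃ y ∈ espace G b hb.fam.1, a * y - y * a = ε := by
  obtain ⟨d, e, f, hp⟩ := exists_min_partner h2 hk hirr hd
  obtain ⟨t1, t2⟩ := not_opp_triple h2 hk ha hb h
  obtain ⟨haδ, hδa⟩ : a * δ = 0 ∧ δ * a = 0 := by
    constructor <;> simp only [hδ, mul_sub, sub_mul, mul_assoc, ha.fam.1, t1, mul_zero, sub_zero] <;>
      simp only [← mul_assoc, ha.fam.1, zero_mul, sub_self]
  obtain ⟨hbδ, hδb⟩ : b * δ = 0 ∧ δ * b = 0 := by
    constructor <;> simp only [hδ, mul_sub, sub_mul, mul_assoc, hb.fam.1, t2, mul_zero, zero_sub,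
      neg_eq_zero] <;> simp only [← mul_assoc, hb.fam.1, zero_mul, sub_self]
  have hna : a ∉ espace G δ hd.fam.1 := fun hm => hd.ne (by
    rw [hδ, (mul_espace_zero _ hm).2 hδb, (mul_espace_zero _ hm).1 hbδ, sub_self])
  have hnb : b ∉ espace G δ hd.fam.1 := fun hm => hd.ne (by
    rw [hδ, (mul_espace_zero _ hm).1 haδ, (mul_espace_zero _ hm).2 hδa, sub_self])
  have hne : a * b - b * a ≠ 0 := hδ ▸ hd.ne
  have hne' : b * a - a * b ≠ 0 := sub_ne_zero.2 (sub_ne_zero.1 hne).symm
  obtain ⟨a1, a2, rfl, ha1, hao, ha2, a1d, da1⟩ :=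
    split_odd h2 ha hd hp.min hp.aya hp.yay hp.eq haδ hδa
      (fun m hm => by
        rw [hδ] at hm ⊢
        exact apply_mem_range_delta h2 hk ha hb h hne (self_mem_espace ha.fam) hm) hna
  obtain ⟨b1, b2, rfl, hb1, hbo, hb2, b1d, db1⟩ :=
    split_odd h2 hb hd hp.min hp.aya hp.yay hp.eq hbδ hδb
      (fun m hm => by
        rw [hδ] at hm ⊢
        have h3 : (b + 0) = b := add_zero b
        have := apply_mem_range_delta h2 hk hb ha (fun ho => h ho.symm) hne' (self_mem_espace hb.fam)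
          (m := m) (by rw [← neg_sub, LinearMap.neg_apply, hm, neg_zero])
        rwa [← neg_sub, LinearMap.range_neg] at this) hnb
  have hδ1 : δ = a1 * b1 - b1 * a1 := by
    rw [hδ]
    simp only [add_mul, mul_add, (mul_espace_zero _ hb2).1 a1d, (mul_espace_zero _ hb2).2 da1,
      (mul_espace_zero _ ha2).1 b1d, (mul_espace_zero _ ha2).2 db1, espace_mul_zero ha2 hb2,
      espace_mul_zero hb2 ha2]
    abel
  have htriple : a1 * (b1 * a1) = 0 := by
    have h3 := t1
    simp only [add_mul, mul_add, (mul_espace_zero _ hb2).1 a1d, (mul_espace_zero _ hb2).2 da1,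
      (mul_espace_zero _ ha2).1 b1d, (mul_espace_zero _ ha2).2 db1, espace_mul_zero ha2 hb2,
      espace_mul_zero hb2 ha2, mul_zero, add_zero, zero_add] at h3
    rw [← mul_assoc a2, (mul_espace_zero _ ha2).2 db1, zero_mul, add_zero] at h3
    exact h3
  have hn1 : ¬ Opp a1 b1 := not_opp_of_triple htriple ha1.ne
  have T : TwoPair G a1 b1 δ f e :=
    { min_a := ha1, min_b := hb1, nopp := hn1, eqd := hδ1, ne_d := hd.ne, min_d := hd
      min_f := hp.min, dfd := hp.aya, fdf := hp.yay, eqe := hp.eq }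
  obtain ⟨y1, hy1, he1⟩ := T.surj_odd h2 hk hao hbo hε
  have hb2' : -b2 ∈ espace G (-δ) T.symm.min_d.fam.1 :=
    ⟨hb2.1.neg, by simpa only [LinearMap.ker_neg] using hb2.2.1,
      by simpa only [LinearMap.range_neg] using hb2.2.2⟩
  obtain ⟨x, hx, hex⟩ := T.symm.surj_odd h2 hk hbo hao hb2'
  have hg := hx.1.one_mem'
  have hgc : ((oneAdd x hx.1.1 : GL') : End') * b1 * (((oneAdd x hx.1.1)⁻¹ : GL') : End') =
      b1 + b2 := by
    rw [coe_inv_of_sq hx.1.1 (coe_oneAdd _ _), coe_oneAdd, ← neg_neg b2, ← hex]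
    have h3 := prod_triple_eq_zero h2 hk ha1 hb1 hn1 hx (self_mem_espace hb1.fam) hx
    simp only [add_mul, mul_sub, one_mul, mul_one, mul_assoc, h3]
    abel
  have hy := conj_mem_espace hy1 hg (by rw [hgc]; exact hb.fam.1)
  simp only [hgc] at hy
  have e0 : ((oneAdd x hx.1.1 : GL') : End') * y1 * (((oneAdd x hx.1.1)⁻¹ : GL') : End') =
      (1 + x) * y1 * (1 - x) := by rw [coe_inv_of_sq hx.1.1 (coe_oneAdd _ _), coe_oneAdd]
  replace hy : (1 + x) * y1 * (1 - x) ∈ espace G (b1 + b2) hb.fam.1 :=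
    (congrArg (fun t => t ∈ espace G (b1 + b2) hb.fam.1) e0).mp hy
  refine ⟨_, hy, ?_⟩
  have h3 := prod_triple_eq_zero h2 hk ha1 hb1 hn1 hx hy1 hx
  have hw : x * y1 - y1 * x ∈ espace G δ hd.fam.1 := by
    by_cases hx0 : x = 0
    · rw [hx0, zero_mul, mul_zero, sub_zero]; exact Submodule.zero_mem _
    by_cases hy0 : y1 = 0
    · rw [hy0, zero_mul, mul_zero, sub_zero]; exact Submodule.zero_mem _
    have hc := delta_congr h2 hk ha1 hb1 hn1 (hδ1 ▸ hd.ne) hx hx0 hy1 hy0
    rw [← hδ1] at hc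
    exact ⟨hc.1.fam, hc.2.1.ge, hc.2.2.le⟩
  have e1 : (1 + x) * y1 * (1 - x) = y1 + (x * y1 - y1 * x) := by
    simp only [add_mul, mul_sub, one_mul, mul_one, mul_assoc, h3]
    abel
  have hy1d : y1 * δ = 0 ∧ δ * y1 = 0 :=
    ⟨mul_eq_zero_of_le ((le_of_mul_eq_zero b1d).trans hy1.2.1),
      mul_eq_zero_of_le (hy1.2.2.trans (le_of_mul_eq_zero db1))⟩
  rw [e1, mul_add, add_mul (y1) (x * y1 - y1 * x), (mul_espace_zero _ hw).1 haδ,
    (mul_espace_zero _ hw).2 hδa, add_zero, add_zero, add_mul, mul_add,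
    (mul_espace_zero _ ha2).2 hy1d.2, (mul_espace_zero _ ha2).1 hy1d.1, add_zero, add_zero, he1]

/-- In the class two case every member of the family of the commutator is a commutator. -/
theorem exists_commutator (h2 : (2 : k) ≠ 0) (hk : Nat.card k ≠ 3) (hirr : IsIrreducibleFor G)
    {a b : End'} (ha : IsMin G a) (hb : IsMin G b) (h : ¬ Opp a b)
    (hd : IsMin G (a * b - b * a)) {x ε : End'} (hx : x ∈ espace G a ha.fam.1) (hx0 : x ≠ 0)
    (hε : ε ∈ espace G (a * b - b * a) hd.fam.1) :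
    ∃ y ∈ espace G b hb.fam.1, x * y - y * x = ε := by
  obtain ⟨hxm, -, -⟩ := ha.of_mem hx hx0
  obtain ⟨hm, hk', hr'⟩ := delta_congr h2 hk ha hb h hd.ne hx hx0 (self_mem_espace hb.fam) hb.ne
  exact exists_commutator_self h2 hk hirr hxm hb
    (fun ho => h ((opp_congr ha hb hx hx0 (self_mem_espace hb.fam) hb.ne).1 ho)) rfl hm
    ⟨hε.1, hk'.le.trans hε.2.1, hε.2.2.trans hr'.ge⟩

end CfsgLib.RootSubgroups.QP
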