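import Cfsg.Agent.RootSubgroups.RankOne

/-!
# Rank one groups with a quadratically acting unipotent subgroup
-/

set_option autoImplicit false

namespace CfsgLib.RootSubgroups.Quad

open Cfsg

variable {X : Type*} [Group X] {N : Type*} [AddCommGroup N] [DistribMulAction X N]

/-- `[N, A]`. -/
def comm (A : Subgroup X) : AddSubgroup N :=
  AddSubgroup.closure {m | ∃ a ∈ A, ∃ n : N, m = a • n - n}

/-- `A` acts quadratically on `N`. -/
def IsQuad (A : Subgroup X) (N : Type*) [AddCommGroup N] [DistribMulAction X N] : Prop :=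
  ∀ a ∈ A, ∀ a' ∈ A, ∀ n : N, a' • (a • n - n) = a • n - n

theorem sub_mem_comm {A : Subgroup X} {a : X} (ha : a ∈ A) (n : N) : a • n - n ∈ comm A :=
  AddSubgroup.subset_closure ⟨a, ha, n, rfl⟩

theorem fix_comm {A : Subgroup X} (hq : IsQuad A N) {a : X} (ha : a ∈ A) {u : N}
    (hu : u ∈ comm A) : a • u = u := by
  induction hu using AddSubgroup.closure_induction with
  | mem m hm => obtain ⟨a', ha', n, rfl⟩ := hm; exact hq a' ha' a ha n
  | zero => exact smul_zero a
  | add m m' _ _ ihm ihm' => rw [smul_add, ihm, ihm']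
  | neg m _ ih => rw [smul_neg, ih]

theorem smul_mem_comm_conj {A : Subgroup X} (g : X) {u : N} (hu : u ∈ comm A) :
    g • u ∈ comm (N := N) (conjBy A g) := by
  induction hu using AddSubgroup.closure_induction with
  | mem m hm =>
    obtain ⟨a, ha, n, rfl⟩ := hm
    refine AddSubgroup.subset_closure
      ⟨g * a * g⁻¹, mem_conjBy.2 (by simpa [mul_assoc] using ha), g • n, ?_⟩
    rw [smul_sub, mul_smul, mul_smul, inv_smul_smul]
  | zero => rw [smul_zero]; exact zero_mem _
  | add m m' _ _ ihm ihm' => rw [smul_add]; exact add_mem ihm ihm'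
  | neg m _ ih => rw [smul_neg]; exact neg_mem ih

theorem quad_conj {A : Subgroup X} (hq : IsQuad A N) (g : X) : IsQuad (conjBy A g) N := by
  intro a ha a' ha' n
  have h := hq _ (mem_conjBy.1 ha) _ (mem_conjBy.1 ha') (g⁻¹ • n)
  simp only [mul_smul, smul_inv_smul, ← smul_sub] at h
  exact smul_left_cancel g⁻¹ h

variable {A B : Subgroup X}

theorem inv_smul_eq (hq : IsQuad A N) {a : X} (ha : a ∈ A) (n : N) :
    a⁻¹ • n = n - (a • n - n) := by
  rw [inv_smul_eq_iff, smul_sub, fix_comm hq ha (sub_mem_comm ha n)]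
  abel

/-- `u - α β u` is fixed by both subgroups. -/
theorem err_mem (hqA : IsQuad A N) (hqB : IsQuad B N) {a b : X} (ha : a ∈ A) (hb : b ∈ B)
    (hab : conjBy A b⁻¹ = conjBy B a⁻¹) {u : N} (hu : u ∈ comm A) :
    u - (a • (b • u - u) - (b • u - u)) ∈ comm (N := N) A ⊓ comm B := by
  refine AddSubgroup.mem_inf.2 ⟨sub_mem hu (sub_mem_comm ha _), ?_⟩
  have h1 := smul_mem_comm_conj a (smul_mem_comm_conj b⁻¹ hu)
  rw [hab, conjBy_conjBy, mul_inv_cancel, conjBy_one, inv_smul_eq hqB hb, smul_sub,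
    fix_comm hqA ha hu] at h1
  have h2 := add_mem h1 (zero_mem (comm (N := N) B))
  have : u - (a • (b • u - u) - (b • u - u)) = u - a • (b • u - u) + (b • u - u) := by abel
  rw [this]
  exact add_mem h1 (sub_mem_comm hb u)

/-- On `[N, A] + [N, B]`: `α β α = α`. -/
theorem alpha_beta_alpha (hqA : IsQuad A N) (hqB : IsQuad B N) {a b : X} (ha : a ∈ A)
    (hb : b ∈ B) (hab : conjBy A b⁻¹ = conjBy B a⁻¹) {m : N} (hm : m ∈ comm (N := N) A ⊔ comm B) :
    a • (b • (a • m - m) - (a • m - m)) - (b • (a • m - m) - (a • m - m)) = a • m - m := by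
  obtain ⟨u, hu, w, hw, rfl⟩ := AddSubgroup.mem_sup.1 hm
  have e : a • (u + w) - (u + w) = a • w - w := by rw [smul_add, fix_comm hqA ha hu]; abel
  rw [e]
  have hz := err_mem hqB hqA hb ha hab.symm hw
  have h1 := fix_comm hqA ha hz.2
  rw [smul_sub] at h1
  have h2 : a • w - a • (b • (a • w - w) - (a • w - w)) =
      w - (b • (a • w - w) - (a • w - w)) := h1
  rw [sub_eq_sub_iff_add_eq_add] at h2 ⊢
  calc a • (b • (a • w - w) - (a • w - w)) + w
      = w + a • (b • (a • w - w) - (a • w - w)) := add_comm _ _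
    _ = a • w + (b • (a • w - w) - (a • w - w)) := h2.symm

/-- The element `a b⁻¹ a b a⁻¹` acts like `b⁻¹` on `[N, A] + [N, B]`. -/
theorem smul_eq_inv (hqA : IsQuad A N) (hqB : IsQuad B N) {a b : X} (ha : a ∈ A)
    (hb : b ∈ B) (hab : conjBy A b⁻¹ = conjBy B a⁻¹) {m : N} (hm : m ∈ comm (N := N) A ⊔ comm B) :
    a • b⁻¹ • a • b • a⁻¹ • m = b⁻¹ • m := by
  have haba := alpha_beta_alpha hqA hqB ha hb hab hm
  have hbab := alpha_beta_alpha hqB hqA hb ha hab.symm (sup_comm (comm (N := N) A) (comm B) ▸ hm)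
  have hA : ∀ n : N, a • (a • n - n) = a • n - n := fun n => hqA a ha a ha n
  have hB : ∀ n : N, b • (b • n - n) = b • n - n := fun n => hqB b hb b hb n
  let α : N → N := fun n => a • n - n
  let β : N → N := fun n => b • n - n
  have αadd : ∀ x y, α (x + y) = α x + α y := fun x y => by simp only [α, smul_add]; abel
  have αsub : ∀ x y, α (x - y) = α x - α y := fun x y => by simp only [α, smul_sub]; abel
  have βadd : ∀ x y, β (x + y) = β x + β y := fun x y => by simp only [β, smul_add]; abel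
  have βsub : ∀ x y, β (x - y) = β x - β y := fun x y => by simp only [β, smul_sub]; abel
  have αα : ∀ n, α (α n) = 0 := fun n => by simp only [α]; rw [hA]; abel
  have ββ : ∀ n, β (β n) = 0 := fun n => by simp only [β]; rw [hB]; abel
  have e1 : a⁻¹ • m = m - α m := inv_smul_eq hqA ha m
  have e2 : ∀ n, b • n = n + β n := fun n => by simp only [β]; abel
  have e3 : ∀ n, a • n = n + α n := fun n => by simp only [α]; abel
  have e4 : ∀ n, b⁻¹ • n = n - β n := fun n => inv_smul_eq hqB hb n
  have f1 : α (β (α m)) = α m := haba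
  have f2 : β (α (β m)) = β m := hbab
  have s1 : b • a⁻¹ • m = m - α m + β m - β (α m) := by rw [e1, e2, βsub]; abel
  have s2 : a • b • a⁻¹ • m = m - α m + β m - β (α m) + α (β m) := by
    rw [e3 (b • a⁻¹ • m), s1]
    simp only [αsub, αadd, αα, f1]
    abel
  have s3 : b⁻¹ • a • b • a⁻¹ • m = m - α m - β m + α (β m) := by
    rw [e4 (a • b • a⁻¹ • m), s2]
    simp only [βsub, βadd, ββ, f2]
    abel
  rw [e3 (b⁻¹ • a • b • a⁻¹ • m), s3, e4]
  simp only [αsub, αadd, αα]
  abel

/-- The normal subgroup of elements fixing `[N, A] + [N, B]` pointwise. -/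
def kern (A B : Subgroup X) (N : Type*) [AddCommGroup N] [DistribMulAction X N] : Subgroup X where
  carrier := {x | ∀ m ∈ comm (N := N) A ⊔ comm B, x • m = m}
  one_mem' := fun m _ => one_smul X m
  mul_mem' := fun {x y} hx hy m hm => by rw [mul_smul, hy m hm, hx m hm]
  inv_mem' := fun {x} hx m hm => by rw [inv_smul_eq_iff, hx m hm]

theorem sup_stable (hqA : IsQuad A N) (hqB : IsQuad B N) (hX : A ⊔ B = ⊤) (g : X) {m : N}
    (hm : m ∈ comm (N := N) A ⊔ comm B) : g • m ∈ comm (N := N) A ⊔ comm B := by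
  have hg : g ∈ A ⊔ B := hX ▸ Subgroup.mem_top g
  have key : ∀ y ∈ A ⊔ B, ∀ n ∈ comm (N := N) A ⊔ comm B,
      y • n ∈ comm (N := N) A ⊔ comm B ∧ y⁻¹ • n ∈ comm (N := N) A ⊔ comm B := by
    intro y hy
    rw [Subgroup.sup_eq_closure] at hy
    induction hy using Subgroup.closure_induction with
    | mem z hz =>
      intro n hn
      have h1 : ∀ w ∈ (A : Set X) ∪ B, w • n - n ∈ comm (N := N) A ⊔ comm B := fun w hw =>
        hw.elim (fun h => AddSubgroup.mem_sup_left (sub_mem_comm h n))
          (fun h => AddSubgroup.mem_sup_right (sub_mem_comm h n))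
      have hz' : z⁻¹ ∈ (A : Set X) ∪ B :=
        hz.elim (fun h => Or.inl (inv_mem (s := A) h)) (fun h => Or.inr (inv_mem (s := B) h))
      exact ⟨by simpa using add_mem (h1 z hz) hn, by simpa using add_mem (h1 _ hz') hn⟩
    | one => intro n hn; simp [hn]
    | mul x z _ _ ihx ihz =>
      intro n hn
      exact ⟨by rw [mul_smul]; exact (ihx _ (ihz n hn).1).1,
        by rw [mul_inv_rev, mul_smul]; exact (ihz _ (ihx n hn).2).2⟩
    | inv x _ ih => intro n hn; rw [inv_inv]; exact ⟨(ih n hn).2, (ih n hn).1⟩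
  exact (key g hg m hm).1

theorem kern_normal (hqA : IsQuad A N) (hqB : IsQuad B N) (hX : A ⊔ B = ⊤) :
    (kern A B N).Normal := by
  refine ⟨fun x hx g m hm => ?_⟩
  rw [mul_smul, mul_smul, hx _ (sup_stable hqA hqB hX g⁻¹ hm), smul_inv_smul]

/-- If the kernel on `[N, A] + [N, B]` is not central, the whole group acts quadratically. -/
theorem quad_all (h : IsRankOneGroup X A B) (hqA : IsQuad A N) (hqB : IsQuad B N)
    (hK : kern A B N ⊔ A = ⊤) : ∀ (x y : X) (n : N), y • (x • n - n) = x • n - n := by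
  have hfixU : ∀ u ∈ comm (N := N) A, ∀ x : X, x • u = u := by
    intro u hu x
    have hle : kern A B N ⊔ A ≤ MulAction.stabilizer X u :=
      sup_le (fun k hk => hk u (AddSubgroup.mem_sup_left hu)) (fun a ha => fix_comm hqA ha hu)
    exact hle (hK ▸ Subgroup.mem_top x)
  obtain ⟨g, -, hg⟩ := RankOne.right_mem_unipotent h.2
  have hfixM : ∀ m ∈ comm (N := N) A ⊔ comm B, ∀ x : X, x • m = m := by
    intro m hm x
    obtain ⟨u, hu, w, hw, rfl⟩ := AddSubgroup.mem_sup.1 hm
    have hw' : g⁻¹ • w ∈ comm (N := N) A := by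
      have := smul_mem_comm_conj g⁻¹ hw
      rwa [hg, conjBy_conjBy, inv_mul_cancel, conjBy_one] at this
    have hwfix : ∀ z : X, z • w = w := by
      intro z
      have h1 := hfixU _ hw' (g⁻¹ * z * g)
      rw [mul_smul, mul_smul, smul_inv_smul] at h1
      exact smul_left_cancel g⁻¹ h1
    rw [smul_add, hfixU u hu x, hwfix]
  have hmem : ∀ x ∈ A ⊔ B, ∀ n : N, x • n - n ∈ comm (N := N) A ⊔ comm B := by
    intro x hx
    rw [Subgroup.sup_eq_closure] at hx
    induction hx using Subgroup.closure_induction with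
    | mem z hz =>
      exact fun n => hz.elim (fun h => AddSubgroup.mem_sup_left (sub_mem_comm h n))
        (fun h => AddSubgroup.mem_sup_right (sub_mem_comm h n))
    | one => intro n; simp
    | mul x z _ _ ihx ihz =>
      intro n
      have := add_mem (ihx (z • n)) (ihz n)
      simpa [mul_smul] using this
    | inv x _ ih =>
      intro n
      have h1 := ih (x⁻¹ • n)
      rw [smul_inv_smul] at h1
      simpa using neg_mem h1
  intro x y n
  exact hfixM _ (hmem x (h.1 ▸ Subgroup.mem_top x) n) y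

/-- If the whole group does not act quadratically then the kernel on `[N, A] + [N, B]` is
central. -/
theorem kern_le_center (h : IsRankOneGroup X A B) (hqA : IsQuad A N) (hqB : IsQuad B N)
    (hX : ¬ ∀ (x y : X) (n : N), y • (x • n - n) = x • n - n) :
    kern A B N ≤ Subgroup.center X :=
  (RankOne.group_dichotomy h _ (kern_normal hqA hqB h.1)).resolve_left
    fun hK => hX (quad_all h hqA hqB hK)

theorem quad_right (h : IsRankOneGroup X A B) (hqA : IsQuad A N) : IsQuad B N := by
  obtain ⟨g, -, hg⟩ := RankOne.right_mem_unipotent h.2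
  rw [hg]; exact quad_conj hqA g

/-- The special condition follows from quadratic action. -/
theorem special (h : IsRankOneGroup X A B) (hqA : IsQuad A N)
    (hX : ¬ ∀ (x y : X) (n : N), y • (x • n - n) = x • n - n) : IsSpecialRankOnePair A B := by
  have hqB := quad_right h hqA
  refine ⟨h.2, fun a ha _ b hb _ hab => ?_⟩
  -- `a b⁻¹ a b a⁻¹` lies in `B`
  have hb' : a * (b⁻¹ * a * b) * a⁻¹ ∈ B := by
    have h1 : b⁻¹ * a * b ∈ conjBy A b⁻¹ := mem_conjBy.2 (by simpa [mul_assoc] using ha)
    rw [hab] at h1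
    simpa [mul_assoc] using mem_conjBy.1 h1
  have hker : a * (b⁻¹ * a * b) * a⁻¹ * b ∈ kern A B N := by
    intro m hm
    rw [mul_smul]
    have := smul_eq_inv hqA hqB ha hb hab (sup_stable hqA hqB h.1 b hm)
    simp only [mul_smul]
    rw [this, inv_smul_smul]
  have h1 := RankOne.centralizer_inf_eq_one (RankOnePair_symm h.2) (mul_mem hb' hb)
    (Subgroup.center_le_centralizer _ (kern_le_center h hqA hqB hX hker))
  have h2 : a * (b⁻¹ * a * b) * a⁻¹ = b⁻¹ := eq_inv_of_mul_eq_one_left h1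
  calc b⁻¹ * a * b = a⁻¹ * (a * (b⁻¹ * a * b) * a⁻¹) * a := by simp [mul_assoc]
    _ = a⁻¹ * b⁻¹ * a := by rw [h2]

theorem pow_smul_eq (hq : IsQuad A N) {a : X} (ha : a ∈ A) (m : ℕ) (n : N) :
    (a ^ m) • n = n + m • (a • n - n) := by
  induction m with
  | zero => simp
  | succ k ih =>
    rw [pow_succ', mul_smul, ih, smul_add, smul_comm a k, fix_comm hq ha (sub_mem_comm ha n),
      succ_nsmul]
    abel

end CfsgLib.RootSubgroups.Quad
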