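import Cfsg.Agent.RootSubgroups.SL2

/-!
# A presentation of SL₂ over a finite field

Root groups satisfying Steinberg's relations give a homomorphism from SL₂.
-/

set_option autoImplicit false

namespace CfsgLib.RootSubgroups.SLTwo

open Matrix

variable {k : Type*} [Field k] {G : Type*} [Group G]

/-- Steinberg's relations for two root groups. -/
structure RootData (k : Type*) [Field k] (G : Type*) [Group G] where
  x : k → G
  y : k → G
  x_add : ∀ r s, x (r + s) = x r * x s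
  y_add : ∀ r s, y (r + s) = y r * y s
  braid : ∀ t, t ≠ 0 → x t * y t⁻¹ * x t = y t⁻¹ * x t * y t⁻¹
  conj_x : ∀ t, t ≠ 0 → ∀ r, x t * y t⁻¹ * x t * x r = y (r / (t * t)) * (x t * y t⁻¹ * x t)
  conj_y : ∀ t, t ≠ 0 → ∀ r, x t * y t⁻¹ * x t * y r = x (t * t * r) * (x t * y t⁻¹ * x t)

namespace RootData

variable (D : RootData k G)

/-- The Weyl element. -/
def W (t : k) : G := D.x t * D.y t⁻¹ * D.x t

/-- Diagonal elements. -/
def P (u v : k) : G := D.W u * D.W (-v)

theorem x_zero : D.x 0 = 1 := by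
  have := D.x_add 0 0
  rw [add_zero] at this
  exact mul_eq_left.1 this.symm

theorem y_zero : D.y 0 = 1 := by
  have := D.y_add 0 0
  rw [add_zero] at this
  exact mul_eq_left.1 this.symm

theorem x_neg (r : k) : D.x (-r) = (D.x r)⁻¹ :=
  eq_inv_of_mul_eq_one_left (by rw [← D.x_add, neg_add_cancel, x_zero])

theorem y_neg (r : k) : D.y (-r) = (D.y r)⁻¹ :=
  eq_inv_of_mul_eq_one_left (by rw [← D.y_add, neg_add_cancel, y_zero])

theorem W_neg (t : k) : D.W (-t) = (D.W t)⁻¹ := by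
  simp [W, inv_neg, x_neg, y_neg, mul_assoc]

theorem x_eq {u : k} (hu : u ≠ 0) : D.x u = D.y (-u⁻¹) * D.W u * D.y (-u⁻¹) := by
  rw [W, D.braid u hu, y_neg]
  simp [mul_assoc]

theorem W_mul_x {t : k} (ht : t ≠ 0) (r : k) : D.W t * D.x r = D.y (r / (t * t)) * D.W t :=
  D.conj_x t ht r

theorem W_mul_y {t : k} (ht : t ≠ 0) (r : k) : D.W t * D.y r = D.x (t * t * r) * D.W t :=
  D.conj_y t ht r

/-- The identity coming from additivity. -/
theorem W_mul_W {u v : k} (hu : u ≠ 0) (hv : v ≠ 0) (hw : u + v ≠ 0) :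
    D.W u * D.W v = D.W (u * (u + v) / v) * D.W (u + v) := by
  have h := D.x_add u v
  rw [D.x_eq hu, D.x_eq hv, D.x_eq hw] at h
  have h1 : D.y (-(u + v)⁻¹) * D.W (u + v) * D.y (-(u + v)⁻¹) =
      D.y (-u⁻¹) * (D.W u * D.y (-u⁻¹ + -v⁻¹)) * D.W v * D.y (-v⁻¹) := by
    rw [h, D.y_add]
    simp [mul_assoc]
  rw [D.W_mul_y hu] at h1
  have hr : u * u * (-u⁻¹ + -v⁻¹) = -(u * (u + v) / v) := by
    field_simp; ring
  have hs : (u * (u + v) / v)⁻¹ = u⁻¹ + -(u + v)⁻¹ := by
    field_simp; ring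
  have ht : (u + v) * (u + v) * (-(u + v)⁻¹ + v⁻¹) = u * (u + v) / v := by
    field_simp; ring
  rw [hr, x_neg] at h1
  calc D.W u * D.W v = D.x (u * (u + v) / v) * (D.y u⁻¹ *
        (D.y (-(u + v)⁻¹) * D.W (u + v) * D.y (-(u + v)⁻¹)) * D.y v⁻¹) := by
        rw [h1, y_neg, y_neg]
        simp [W, mul_assoc]
    _ = D.x (u * (u + v) / v) * D.y (u⁻¹ + -(u + v)⁻¹) *
        (D.W (u + v) * D.y (-(u + v)⁻¹ + v⁻¹)) := by
        rw [D.y_add, D.y_add]
        simp [mul_assoc]
    _ = D.W (u * (u + v) / v) * D.W (u + v) := by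
        rw [show D.W (u + v) * D.y (-(u + v)⁻¹ + v⁻¹) = D.x (u * (u + v) / v) * D.W (u + v) from
          ht ▸ D.conj_y _ hw _, ← hs]
        simp [W, mul_assoc]

/-- `g` scales the root groups by `l`. -/
def Acts (g : G) (l : k) : Prop :=
  ∀ r, g * D.x r = D.x (l * r) * g ∧ g * D.y r = D.y (r / l) * g

theorem acts_one : D.Acts 1 1 := fun r => by simp

theorem acts_mul {g h : G} {l m : k} (hg : D.Acts g l) (hh : D.Acts h m) :
    D.Acts (g * h) (l * m) := by
  intro r
  constructor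
  · rw [mul_assoc g h, (hh r).1, ← mul_assoc g, (hg _).1, mul_assoc, mul_assoc l]
  · rw [mul_assoc g h, (hh r).2, ← mul_assoc g, (hg _).2, mul_assoc, div_div, mul_comm m l]

theorem acts_pow {g : G} {l : k} (hg : D.Acts g l) : ∀ n : ℕ, D.Acts (g ^ n) (l ^ n)
  | 0 => by simpa using D.acts_one
  | n + 1 => by rw [pow_succ, pow_succ]; exact D.acts_mul (acts_pow hg n) hg

theorem acts_inv {g : G} {l : k} (hl : l ≠ 0) (hg : D.Acts g l) : D.Acts g⁻¹ l⁻¹ := by
  intro r
  constructor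
  · have := (hg (l⁻¹ * r)).1
    rw [mul_inv_cancel_left₀ hl] at this
    rw [inv_mul_eq_iff_eq_mul, ← mul_assoc, this, mul_inv_cancel_right]
  · have := (hg (r / l⁻¹)).2
    rw [div_inv_eq_mul, mul_div_cancel_right₀ r hl] at this
    rw [div_inv_eq_mul, inv_mul_eq_iff_eq_mul, ← mul_assoc, this, mul_inv_cancel_right]

theorem acts_P {u v : k} (hu : u ≠ 0) (hv : v ≠ 0) : D.Acts (D.P u v) (u * u / (v * v)) := by
  have hv' : -v ≠ 0 := neg_ne_zero.2 hv
  intro r
  constructor
  · rw [P, W, W, mul_assoc, D.conj_x _ hv', ← mul_assoc, D.conj_y _ hu, mul_assoc, neg_mul_neg,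
      show u * u * (r / (v * v)) = u * u / (v * v) * r by field_simp]
  · rw [P, W, W, mul_assoc, D.conj_y _ hv', ← mul_assoc, D.conj_x _ hu, mul_assoc, neg_mul_neg,
      show v * v * r / (u * u) = r / (u * u / (v * v)) by field_simp]

theorem acts_W {g : G} {l : k} (hg : D.Acts g l) (t : k) : g * D.W t = D.W (l * t) * g := by
  have h1 := (hg t).1
  have h2 := (hg t⁻¹).2
  rw [show t⁻¹ / l = (l * t)⁻¹ by rw [mul_inv, div_eq_inv_mul]] at h2
  rw [W, W, ← mul_assoc, ← mul_assoc, h1, mul_assoc _ g, h2, ← mul_assoc, mul_assoc _ g, h1,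
    ← mul_assoc]

theorem acts_P' {g : G} {l : k} (hg : D.Acts g l) (u v : k) :
    g * D.P u v = D.P (l * u) (l * v) * g := by
  rw [P, P, ← mul_assoc, D.acts_W hg, mul_assoc, D.acts_W hg, mul_assoc, mul_neg]

theorem commute_of_acts_one {g : G} (hg : D.Acts g 1) (u v : k) : Commute g (D.P u v) := by
  have := D.acts_P' hg u v
  simp only [one_mul] at this
  exact this

theorem P_mul (u v w : k) : D.P u v * D.P v w = D.P u w := by
  rw [P, P, P, W_neg, W_neg]
  simp [mul_assoc]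

theorem P_self (u : k) : D.P u u = 1 := by rw [P, W_neg, mul_inv_cancel]

section Finite

variable [Finite k]

theorem P_commute {u v s t : k} (hu : u ≠ 0) (hv : v ≠ 0) (hs : s ≠ 0) (ht : t ≠ 0) :
    Commute (D.P u v) (D.P s t) := by
  classical
  obtain ⟨g₀, hg₀⟩ := IsCyclic.exists_monoid_generator (α := kˣ)
  have hg : D.Acts (D.P (g₀ : k) 1) ((g₀ : k) * g₀) := by
    simpa using D.acts_P g₀.ne_zero (one_ne_zero (α := k))
  have key : ∀ a b : k, a ≠ 0 → b ≠ 0 → ∃ (n : ℕ) (z : G),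
      D.Acts z 1 ∧ D.P a b = D.P (g₀ : k) 1 ^ n * z := by
    intro a b ha hb
    obtain ⟨n, hn⟩ := Submonoid.mem_powers_iff _ _ |>.1 (hg₀ (Units.mk0 (a / b) (div_ne_zero ha hb)))
    have hn' : (g₀ : k) ^ n = a / b := by
      rw [← Units.val_pow_eq_pow_val, hn]; rfl
    refine ⟨n, _, ?_, (mul_inv_cancel_left _ _).symm⟩
    have hne : ((g₀ : k) * g₀) ^ n ≠ 0 := pow_ne_zero _ (mul_ne_zero g₀.ne_zero g₀.ne_zero)
    have := D.acts_mul (D.acts_inv hne (D.acts_pow hg n)) (D.acts_P ha hb)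
    rwa [mul_pow, hn', show (a / b * (a / b))⁻¹ * (a * a / (b * b)) = 1 by field_simp] at this
  obtain ⟨n, z, hz, h1⟩ := key u v hu hv
  obtain ⟨m, z', hz', h2⟩ := key s t hs ht
  have hzc : Commute z (D.P s t) := D.commute_of_acts_one hz s t
  have hgc : Commute (D.P (g₀ : k) 1 ^ n) (D.P s t) := by
    rw [h2]
    exact (Commute.pow_pow_self _ n m).mul_right
      ((D.commute_of_acts_one hz' _ _).pow_right n).symm
  rw [h1]
  exact hgc.mul_left hzc

theorem P_scale_sq {u v s : k} (hu : u ≠ 0) (hv : v ≠ 0) (hs : s ≠ 0) :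
    D.P (s * s * u) (s * s * v) = D.P u v := by
  have h1 := D.acts_P' (D.acts_P hs one_ne_zero) u v
  rw [(D.P_commute hs one_ne_zero hu hv).eq, mul_one, div_one] at h1
  exact (mul_right_cancel h1).symm

omit [Finite k] in
theorem P_key {t : k} (ht : t ≠ 0) (ht1 : t ≠ 1) :
    D.P ((1 - t) * t) (1 - t) = D.P t 1 := by
  have h := D.W_mul_W ht (neg_ne_zero.2 one_ne_zero) (by simpa [sub_eq_add_neg] using sub_ne_zero.2 ht1)
  rw [P, P, h]
  congr 2
  · field_simp; ring
  · ring

/-- Nonsquares `t` with `1 - t` a nonsquare. -/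
theorem exists_nonsquares (h : ∃ n : k, ¬ IsSquare n) :
    ∃ t : k, ¬ IsSquare t ∧ ¬ IsSquare (1 - t) := by
  classical
  haveI := Fintype.ofFinite k
  obtain ⟨n, hn⟩ := h
  by_contra hc
  push Not at hc
  let N := Finset.univ.filter fun t : k => ¬ IsSquare t
  let S := Finset.univ.filter fun t : k => t ≠ 0 ∧ IsSquare t
  have h1 : N.image (fun t => 1 - t) ⊆ S := by
    intro r hr
    simp only [N, Finset.mem_image, Finset.mem_filter, Finset.mem_univ, true_and] at hr
    obtain ⟨t, ht, rfl⟩ := hr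
    simp only [S, Finset.mem_filter, Finset.mem_univ, true_and]
    exact ⟨fun h0 => ht (by rw [← sub_eq_zero.1 h0]; exact IsSquare.one), hc t ht⟩
  have h2 : S.card ≤ N.card := by
    refine Finset.card_le_card_of_injOn (fun s => n * s) (fun s hs => ?_)
      (fun a _ b _ hab => mul_left_cancel₀ (fun h0 => hn (by rw [h0]; exact IsSquare.zero)) hab)
    simp only [S, Finset.coe_filter, Set.mem_setOf_eq, Finset.mem_univ, true_and] at hs
    simp only [N, Finset.coe_filter, Set.mem_setOf_eq, Finset.mem_univ, true_and]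
    intro hns
    exact hn (by simpa [mul_div_cancel_right₀ n hs.1] using hns.div hs.2)
  have h3 : N.image (fun t => 1 - t) = S := Finset.eq_of_subset_of_card_le h1 (by
    rw [Finset.card_image_of_injective _ sub_right_injective]; exact h2)
  have h4 : (1 : k) ∈ N.image (fun t => 1 - t) := by
    rw [h3]; simp [S]
  simp only [N, Finset.mem_image, Finset.mem_filter, Finset.mem_univ, true_and] at h4
  obtain ⟨t, ht, ht0⟩ := h4
  exact ht (by rw [show t = 0 by simpa using ht0]; exact IsSquare.zero)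

/-- The diagonal elements depend only on the ratio. -/
theorem P_scale {u v r : k} (hu : u ≠ 0) (hv : v ≠ 0) (hr : r ≠ 0) :
    D.P (r * u) (r * v) = D.P u v := by
  classical
  haveI := Fintype.ofFinite k
  by_cases hns : ∃ n : k, ¬ IsSquare n
  swap
  · push Not at hns
    obtain ⟨s, rfl⟩ := hns r
    exact D.P_scale_sq hu hv (left_ne_zero_of_mul hr)
  obtain ⟨t, ht, hn⟩ := exists_nonsquares hns
  obtain ⟨n, hn_eq⟩ : ∃ n, n = 1 - t := ⟨_, rfl⟩
  rw [← hn_eq] at hn
  have ht0 : t ≠ 0 := fun h => ht (h ▸ IsSquare.zero)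
  have hn0 : n ≠ 0 := fun h => hn (h ▸ IsSquare.zero)
  have ht1 : t ≠ 1 := fun h => ht (h ▸ IsSquare.one)
  have hchar : ringChar k ≠ 2 := fun h2 => hn (FiniteField.isSquare_of_char_two h2 n)
  have hcls : ∀ a : k, a ≠ 0 → ∀ b : k, ¬ IsSquare b → ∃ s ≠ 0, a = s * s ∨ a = b * (s * s) := by
    intro a ha b hb
    have hb0 : b ≠ 0 := fun h => hb (h ▸ IsSquare.zero)
    by_cases has : IsSquare a
    · obtain ⟨s, rfl⟩ := has
      exact ⟨s, left_ne_zero_of_mul ha, Or.inl rfl⟩
    · obtain ⟨s, hs⟩ : IsSquare (a / b) := by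
        rw [← quadraticChar_one_iff_isSquare (div_ne_zero ha hb0), div_eq_mul_inv, map_mul,
          quadraticChar_neg_one_iff_not_isSquare.2 has,
          quadraticChar_neg_one_iff_not_isSquare.2 (by rwa [isSquare_inv])]
        norm_num
      exact ⟨s, fun h0 => div_ne_zero ha hb0 (by rw [hs, h0, mul_zero]),
        Or.inr (by rw [← hs]; field_simp)⟩
  -- square ratios
  have hsq : ∀ s w : k, s ≠ 0 → w ≠ 0 → D.P (s * s * w) w = D.P (s * s) 1 := by
    intro s w hs hw
    have hs2 : s * s ≠ 0 := mul_ne_zero hs hs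
    obtain ⟨e, he, rfl | rfl⟩ := hcls w hw n hn
    · rw [mul_comm (s * s)]
      conv_lhs => arg 3; rw [← mul_one (e * e)]
      exact D.P_scale_sq hs2 one_ne_zero he
    · rw [show s * s * (n * (e * e)) = e * e * (s * s * n) by ring, mul_comm n,
        D.P_scale_sq (mul_ne_zero hs2 hn0) hn0 he, ← D.P_mul _ (s * s) n,
        ← D.P_mul (s * s) 1 n]
      conv_lhs => arg 1; arg 3; rw [← mul_one (s * s)]
      rw [D.P_scale_sq hn0 one_ne_zero hs, ← mul_assoc,
        (D.P_commute hn0 one_ne_zero hs2 one_ne_zero).eq, mul_assoc, D.P_mul n 1 n, P_self,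
        mul_one]
  -- ratio `t`
  have hnt : ∀ w : k, w ≠ 0 → D.P (t * w) w = D.P t 1 := by
    intro w hw
    obtain ⟨e, he, rfl | rfl⟩ := hcls w hw n hn
    · rw [mul_comm t]
      conv_lhs => arg 3; rw [← mul_one (e * e)]
      exact D.P_scale_sq ht0 one_ne_zero he
    · rw [show t * (n * (e * e)) = e * e * (n * t) by ring,
        show n * (e * e) = e * e * n by ring,
        D.P_scale_sq (mul_ne_zero hn0 ht0) hn0 he, hn_eq, D.P_key ht0 ht1]
  -- all ratios
  have hall : ∀ a b : k, a ≠ 0 → b ≠ 0 → D.P a b = D.P (a / b) 1 := by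
    intro a b ha hb
    obtain ⟨s, hs, h | h⟩ := hcls (a / b) (div_ne_zero ha hb) t ht
    · rw [h, ← hsq s b hs hb, ← h, div_mul_cancel₀ a hb]
    · have h' : a = s * s * (t * b) := by
        rw [← div_mul_cancel₀ a hb, h]; ring
      rw [h, h', ← D.P_mul _ (t * b) b, hsq s _ hs (mul_ne_zero ht0 hb), hnt b hb,
        ← D.P_mul (t * (s * s)) t 1, mul_comm t (s * s), hsq s t hs ht0]
  rw [hall _ _ (mul_ne_zero hr hu) (mul_ne_zero hr hv), hall u v hu hv,
    mul_div_mul_left u v hr]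

/-- `W (-a) = P a 1 * W (-1)`. -/
theorem W_eq_P {a : k} (ha : a ≠ 0) : D.W (-a) = D.P a 1 * D.W (-1) := by
  rw [← D.P_scale ha one_ne_zero (neg_ne_zero.2 (one_ne_zero (α := k))), neg_one_mul, neg_one_mul,
    P, neg_neg, mul_assoc, W_neg D 1, mul_inv_cancel, mul_one]

/-- The map from SL₂ given by the Bruhat normal form. -/
noncomputable def map (g : Matrix.SpecialLinearGroup (Fin 2) k) : G :=
  open Classical in
  if g.1 1 0 = 0 then D.P (g.1 0 0) 1 * D.x (g.1 0 1 / g.1 0 0)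
  else D.x (g.1 0 0 / g.1 1 0) * D.W (-(g.1 1 0)⁻¹) * D.x (g.1 1 1 / g.1 1 0)

/-- The standard Weyl element of SL₂. -/
def weyl : Matrix.SpecialLinearGroup (Fin 2) k :=
  ⟨!![0, -1; 1, 0], by simp [Matrix.det_fin_two]⟩

omit [Finite k] in
@[simp] theorem coe_weyl :
    ((weyl : Matrix.SpecialLinearGroup (Fin 2) k) : Matrix (Fin 2) (Fin 2) k) = !![0, -1; 1, 0] := rfl

omit [Finite k] in
theorem map_pos {g : Matrix.SpecialLinearGroup (Fin 2) k} (h : g.1 1 0 = 0) :
    D.map g = D.P (g.1 0 0) 1 * D.x (g.1 0 1 / g.1 0 0) := if_pos h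

omit [Finite k] in
theorem map_neg {g : Matrix.SpecialLinearGroup (Fin 2) k} (h : g.1 1 0 ≠ 0) :
    D.map g = D.x (g.1 0 0 / g.1 1 0) * D.W (-(g.1 1 0)⁻¹) * D.x (g.1 1 1 / g.1 1 0) := if_neg h

theorem map_up (r : k) : D.map (up r) = D.x r := by
  simp [map, P_self]

theorem map_one_eq : D.map 1 = 1 := by
  simpa [up_zero, x_zero] using D.map_up 0

theorem map_weyl : D.map weyl = D.W (-1) := by
  simp [map, weyl, x_zero]

theorem map_mul_up (g : Matrix.SpecialLinearGroup (Fin 2) k) (r : k) :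
    D.map (g * up r) = D.map g * D.x r := by
  have hdet := g.2
  rw [Matrix.det_fin_two] at hdet
  have e00 : (g * up r).1 0 0 = g.1 0 0 := by simp [Matrix.mul_apply, Fin.sum_univ_two]
  have e10 : (g * up r).1 1 0 = g.1 1 0 := by simp [Matrix.mul_apply, Fin.sum_univ_two]
  have e01 : (g * up r).1 0 1 = g.1 0 0 * r + g.1 0 1 := by
    simp [Matrix.mul_apply, Fin.sum_univ_two]
  have e11 : (g * up r).1 1 1 = g.1 1 0 * r + g.1 1 1 := by
    simp [Matrix.mul_apply, Fin.sum_univ_two]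
  by_cases h : g.1 1 0 = 0
  · rw [D.map_pos h, D.map_pos (e10.trans h), e00, e01]
    rw [h, mul_zero, sub_zero] at hdet
    have h0 := left_ne_zero_of_mul_eq_one hdet
    rw [mul_assoc, ← D.x_add, add_div, mul_div_cancel_left₀ r h0, add_comm]
  · rw [D.map_neg h, D.map_neg (fun h0 => h (e10.symm.trans h0)), e00, e10, e11, mul_assoc _ _ (D.x r), ← D.x_add, add_div,
      mul_div_cancel_left₀ r h, add_comm]

theorem map_mul_weyl (g : Matrix.SpecialLinearGroup (Fin 2) k) :
    D.map (g * weyl) = D.map g * D.W (-1) := by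
  have hdet := g.2
  rw [Matrix.det_fin_two] at hdet
  have e00 : (g * weyl).1 0 0 = g.1 0 1 := by simp [Matrix.mul_apply, Fin.sum_univ_two]
  have e10 : (g * weyl).1 1 0 = g.1 1 1 := by simp [Matrix.mul_apply, Fin.sum_univ_two]
  have e01 : (g * weyl).1 0 1 = -g.1 0 0 := by simp [Matrix.mul_apply, Fin.sum_univ_two]
  have e11 : (g * weyl).1 1 1 = -g.1 1 0 := by simp [Matrix.mul_apply, Fin.sum_univ_two]
  have gp := fun h => D.map_pos (g := g) h
  have gn := fun h => D.map_neg (g := g) h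
  have hp := fun h => D.map_pos (g := g * weyl) h
  have hn := fun h => D.map_neg (g := g * weyl) h
  rw [e10] at hp hn
  rw [e00, e01] at hp
  rw [e00, e11] at hn
  generalize g.1 0 0 = a, g.1 0 1 = b, g.1 1 0 = c, g.1 1 1 = d at hdet gp gn hp hn ⊢
  by_cases hc : c = 0
  · subst hc
    rw [mul_zero, sub_zero] at hdet
    have ha := left_ne_zero_of_mul_eq_one hdet
    have hd := right_ne_zero_of_mul_eq_one hdet
    rw [hn hd, gp rfl, neg_zero, zero_div, x_zero, mul_one,
      eq_inv_of_mul_eq_one_right hdet, inv_inv, D.W_eq_P ha,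
      ← mul_assoc, (D.acts_P ha one_ne_zero _).1]
    congr 3
    rw [mul_one, div_one]; field_simp
  · rw [gn hc]
    by_cases hd : d = 0
    · subst hd
      rw [mul_zero, zero_sub] at hdet
      have hb : b ≠ 0 := fun h0 => by simp [h0] at hdet
      rw [hp rfl, zero_div, x_zero, mul_one,
        show b = -c⁻¹ from (by field_simp; linear_combination -hdet)]
      rw [mul_assoc, ← P]
      rw [(D.acts_P (neg_ne_zero.2 (inv_ne_zero hc)) one_ne_zero _).1]
      congr 2
      field_simp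
    · rw [hn hd]
      have hu : -c⁻¹ ≠ 0 := neg_ne_zero.2 (inv_ne_zero hc)
      have hs : d / c ≠ 0 := div_ne_zero hd hc
      have h1 : D.W (-c⁻¹) * D.W (d / c) * D.W (-1) = D.W (-d⁻¹) := by
        have h2 : D.W (-c⁻¹) * D.W (d / c) = D.P d⁻¹ 1 := by
          have := D.P_scale (inv_ne_zero hd) (one_ne_zero (α := k)) (neg_ne_zero.2 hs)
          rw [mul_one, P, neg_neg,
            show -(d / c) * d⁻¹ = -c⁻¹ by field_simp] at this
          exact this
        rw [h2, ← D.W_eq_P (inv_ne_zero hd)]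
      have h3 : D.y (-(d / c)⁻¹) * D.W (-1) = D.W (-1) * D.x (-(d / c)⁻¹) := by
        have := D.conj_x (-1) (neg_ne_zero.2 one_ne_zero) (-(d / c)⁻¹)
        rw [neg_mul_neg, one_mul, div_one] at this
        exact this.symm
      have h4 : D.W (-c⁻¹) * D.y (-(d / c)⁻¹) =
          D.x (-c⁻¹ * -c⁻¹ * -(d / c)⁻¹) * D.W (-c⁻¹) := D.conj_y _ hu _
      symm
      calc D.x (a / c) * D.W (-c⁻¹) * D.x (d / c) * D.W (-1)
          = D.x (a / c) * (D.W (-c⁻¹) * D.y (-(d / c)⁻¹)) * D.W (d / c) *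
            (D.y (-(d / c)⁻¹) * D.W (-1)) := by
            rw [D.x_eq hs]; simp [mul_assoc]
        _ = D.x (a / c + -c⁻¹ * -c⁻¹ * -(d / c)⁻¹) *
            (D.W (-c⁻¹) * D.W (d / c) * D.W (-1)) * D.x (-(d / c)⁻¹) := by
            rw [h3, h4, D.x_add]; simp [mul_assoc]
        _ = D.x (b / d) * D.W (-d⁻¹) * D.x (-c / d) := by
            rw [h1]
            congr 3
            · field_simp; linear_combination hdet
            · field_simp

theorem low_eq (r : k) : low r = weyl * up (-r) * weyl⁻¹ := by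
  rw [eq_mul_inv_iff_mul_eq]
  apply Subtype.ext
  simp [Matrix.mul_fin_two]

theorem map_mul_eq (g h : Matrix.SpecialLinearGroup (Fin 2) k) :
    D.map (g * h) = D.map g * D.map h := by
  let S : Subgroup (Matrix.SpecialLinearGroup (Fin 2) k) :=
    { carrier := {h | ∀ g, D.map (g * h) = D.map g * D.map h}
      one_mem' := fun g => by rw [mul_one, map_one_eq, mul_one]
      mul_mem' := fun {a b} ha hb g => by rw [← mul_assoc, hb, ha, hb a, mul_assoc]
      inv_mem' := fun {a} ha g => by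
        have h1 := ha (g * a⁻¹)
        have h2 := ha a⁻¹
        rw [inv_mul_cancel_right] at h1
        rw [inv_mul_cancel, map_one_eq] at h2
        rw [eq_inv_of_mul_eq_one_left h2.symm, h1, mul_inv_cancel_right] }
  have hup : ∀ r, up r ∈ S := fun r g => by rw [D.map_mul_up, D.map_up]
  have hw : weyl ∈ S := fun g => by rw [D.map_mul_weyl, D.map_weyl]
  have hS : ⊤ ≤ S := by
    rw [← sup_eq_top (k := k)]
    refine sup_le (fun x hx => ?_) (fun x hx => ?_)
    · obtain ⟨r, rfl⟩ := mem_lower.1 hx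
      rw [low_eq]
      exact mul_mem (mul_mem hw (hup _)) (inv_mem hw)
    · obtain ⟨r, rfl⟩ := mem_upper.1 hx
      exact hup r
  exact hS (Subgroup.mem_top h) g

/-- The homomorphism from SL₂. -/
noncomputable def toHom : Matrix.SpecialLinearGroup (Fin 2) k →* G where
  toFun := D.map
  map_one' := D.map_one_eq
  map_mul' := D.map_mul_eq

theorem toHom_up (r : k) : D.toHom (up r) = D.x r := D.map_up r

theorem toHom_low (r : k) : D.toHom (low r) = D.y (-r) := by
  rw [low_eq, map_mul, map_mul, map_inv, toHom_up]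
  show D.map weyl * D.x (-r) * (D.map weyl)⁻¹ = _
  rw [map_weyl, W, D.conj_x (-1) (neg_ne_zero.2 one_ne_zero), mul_inv_cancel_right, neg_mul_neg,
    one_mul, div_one]

end Finite

end RootData

end CfsgLib.RootSubgroups.SLTwo
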