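import Cfsg.Agent.RootSubgroups.SLTransvection

/-!
# Transvections in characteristic two as root involutions
-/

set_option autoImplicit false

namespace CfsgLib.RootSubgroups.SLTransv

open Cfsg Matrix CfsgLib.Classical.Linear

section SLTwoOrder

variable {F : Type*} [Field F] [CharP F 2]

theorem sl2_two_zero : (2 : F) = 0 := by
  simpa using CharP.cast_eq_zero F 2

theorem up_sq (s : F) : SLTwo.up s * SLTwo.up s = 1 := by
  rw [SLTwo.up_mul, ← two_mul, sl2_two_zero, zero_mul, SLTwo.up_zero]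

theorem low_sq (s : F) : SLTwo.low s * SLTwo.low s = 1 := by
  rw [SLTwo.low_mul, ← two_mul, sl2_two_zero, zero_mul, SLTwo.low_zero]

/-- Two unitriangular involutions of opposite shape have product of odd order. -/
theorem odd_orderOf_up_mul_low [Finite F] {s t : F} (hs : s ≠ 0) (ht : t ≠ 0) :
    Odd (orderOf (SLTwo.up s * SLTwo.low t)) := by
  rcases Nat.even_or_odd (orderOf (SLTwo.up s * SLTwo.low t)) with h | h
  swap
  · exact h
  exfalso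
  obtain ⟨m, hm⟩ := h
  set a := SLTwo.up s with ha
  set b := SLTwo.low t with hb
  have hai : a⁻¹ = a := inv_eq_of_mul_eq_one_right (up_sq s)
  have hbi : b⁻¹ = b := inv_eq_of_mul_eq_one_right (low_sq t)
  have hpos : 0 < orderOf (a * b) := orderOf_pos _
  set z := (a * b) ^ m with hz
  have hz2 : z * z = 1 := by rw [hz, ← pow_add, ← hm, pow_orderOf_eq_one]
  have hz1 : z ≠ 1 := fun h => pow_ne_one_of_lt_orderOf (by omega) (by omega) h
  have hzi : z⁻¹ = z := inv_eq_of_mul_eq_one_right hz2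
  have hza : a * z = z * a := by
    have h1 : a * (a * b) * a⁻¹ = (a * b)⁻¹ := by
      rw [_root_.mul_inv_rev, hai, hbi, ← mul_assoc, up_sq, one_mul]
    have h2 : a * z * a⁻¹ = z := by
      rw [hz, ← conj_pow, h1, inv_pow, ← hz, hzi]
    exact (mul_inv_eq_iff_eq_mul.1 h2)
  have hzb : b * z = z * b := by
    have hab : (a * b) * z = z * (a * b) := by
      rw [hz, ← pow_succ', pow_succ]
    calc b * z = a⁻¹ * ((a * b) * z) := by group
      _ = a⁻¹ * z * (a * b) := by rw [hab]; group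
      _ = z * a⁻¹ * (a * b) := by rw [hai, hza]
      _ = z * b := by group
  have e1 := congrArg (fun g : Matrix.SpecialLinearGroup (Fin 2) F => (g : Matrix (Fin 2) (Fin 2) F) 0 0) hza
  have e2 := congrArg (fun g : Matrix.SpecialLinearGroup (Fin 2) F => (g : Matrix (Fin 2) (Fin 2) F) 0 1) hza
  have e3 := congrArg (fun g : Matrix.SpecialLinearGroup (Fin 2) F => (g : Matrix (Fin 2) (Fin 2) F) 0 0) hzb
  simp only [ha, hb, Matrix.SpecialLinearGroup.coe_mul, Matrix.mul_apply, Fin.sum_univ_two] at e1 e2 e3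
  simp [SLTwo.up, SLTwo.low] at e1 e2 e3
  have h10 : (z : Matrix (Fin 2) (Fin 2) F) 1 0 = 0 := e1.resolve_left hs
  have h01 : (z : Matrix (Fin 2) (Fin 2) F) 0 1 = 0 := e3.resolve_right ht
  have h11 : (z : Matrix (Fin 2) (Fin 2) F) 1 1 = (z : Matrix (Fin 2) (Fin 2) F) 0 0 := by
    refine mul_left_cancel₀ hs ?_
    linear_combination e2
  have hd := Matrix.SpecialLinearGroup.det_coe z
  rw [Matrix.det_fin_two, h10, h01, h11, mul_zero, sub_zero] at hd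
  have h00 : (z : Matrix (Fin 2) (Fin 2) F) 0 0 = 1 := by
    have hsq : ((z : Matrix (Fin 2) (Fin 2) F) 0 0 - 1) * ((z : Matrix (Fin 2) (Fin 2) F) 0 0 - 1) = 0 := by
      linear_combination hd - ((z : Matrix (Fin 2) (Fin 2) F) 0 0 - 1) * (sl2_two_zero (F := F))
    exact sub_eq_zero.1 (mul_self_eq_zero.1 hsq)
  apply hz1
  refine Subtype.ext (Matrix.ext fun i j => ?_)
  fin_cases i <;> fin_cases j <;> simp [h10, h01, h11, h00]

/-- Over the field of two elements the product has order three. -/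
theorem pow_three_up_mul_low : (SLTwo.up (1 : F) * SLTwo.low (1 : F)) ^ 3 = 1 := by
  have h2 := sl2_two_zero (F := F)
  refine Subtype.ext (Matrix.ext fun i j => ?_)
  simp only [pow_three, Matrix.SpecialLinearGroup.coe_mul, Matrix.SpecialLinearGroup.coe_one]
  fin_cases i <;> fin_cases j <;>
    simp [SLTwo.up, SLTwo.low, Matrix.mul_apply, Fin.sum_univ_two] <;> grobner

end SLTwoOrder

variable {ι : Type} {F : Type*} [Fintype ι] [DecidableEq ι] [Field F] [CharP F 2]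

theorem tv_sq {v φ : ι → F} (h : φ ⬝ᵥ v = 0) : tv v φ * tv v φ = 1 := by
  rw [tv_mul h h, ← two_smul F, sl2_two_zero, zero_smul, tv_zero]

variable (ι F) in
/-- The transvections. -/
def transvectionSet : Set (Matrix.SpecialLinearGroup ι F) :=
  {t | ∃ v φ : ι → F, v ≠ 0 ∧ φ ≠ 0 ∧ φ ⬝ᵥ v = 0 ∧ t = tv v φ}

theorem orderOf_eq_two {d : Matrix.SpecialLinearGroup ι F} (hd : d ∈ transvectionSet ι F) : orderOf d = 2 := by
  obtain ⟨v, φ, hv, hφ, h, rfl⟩ := hd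
  exact orderOf_eq_prime (by rw [pow_two, tv_sq h]) (tv_ne_one hv hφ h)

theorem mul_order_four {v₁ φ₁ v₂ φ₂ : ι → F} (hv₁ : v₁ ≠ 0) (hφ₂ : φ₂ ≠ 0) (h₁ : φ₁ ⬝ᵥ v₁ = 0)
    (h₂ : φ₂ ⬝ᵥ v₂ = 0) (hα : φ₁ ⬝ᵥ v₂ ≠ 0) (hβ : φ₂ ⬝ᵥ v₁ = 0) :
    orderOf (tv v₁ φ₁ * tv v₂ φ₂) = 4 ∧ (tv v₁ φ₁ * tv v₂ φ₂) ^ 2 ∈ transvectionSet ι F := by
  have h9 : (tv v₁ φ₁ * tv v₂ φ₂) ^ 2 = tv v₁ ((φ₁ ⬝ᵥ v₂) • φ₂) := by
    rw [← tv_commutator h₁ h₂ hβ, inv_eq_of_mul_eq_one_right (tv_sq h₁), inv_eq_of_mul_eq_one_right (tv_sq h₂)]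
    simp only [pow_two, mul_assoc]
  have hne : (φ₁ ⬝ᵥ v₂) • φ₂ ≠ 0 := smul_ne_zero hα hφ₂
  refine ⟨?_, v₁, _, hv₁, hne, smul_dot hβ _, h9⟩
  haveI : Fact (Nat.Prime 2) := ⟨Nat.prime_two⟩
  refine orderOf_eq_prime_pow (p := 2) (n := 1) ?_ ?_
  · rw [pow_one, h9]; exact tv_ne_one hv₁ hne (smul_dot hβ _)
  · rw [show 2 ^ (1 + 1) = 2 * 2 by norm_num, pow_mul, h9, pow_two, tv_sq (smul_dot hβ _)]

theorem mul_cases [Finite F] {a b : Matrix.SpecialLinearGroup ι F} (ha : a ∈ transvectionSet ι F)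
    (hb : b ∈ transvectionSet ι F) :
    a * b = b * a ∨ (Odd (orderOf (a * b)) ∧ ((∀ x : F, x = 0 ∨ x = 1) → (a * b) ^ 3 = 1)) ∨
      (orderOf (a * b) = 4 ∧ (a * b) ^ 2 ∈ transvectionSet ι F) := by
  obtain ⟨v₁, φ₁, hv₁, hφ₁, h₁, rfl⟩ := ha
  obtain ⟨v₂, φ₂, hv₂, hφ₂, h₂, rfl⟩ := hb
  by_cases hα : φ₁ ⬝ᵥ v₂ = 0 <;> by_cases hβ : φ₂ ⬝ᵥ v₁ = 0
  · exact Or.inl (tv_comm h₁ h₂ hα hβ)
  · obtain ⟨ho, hm⟩ := mul_order_four hv₂ hφ₁ h₂ h₁ hβ hα
    have hinv : tv v₁ φ₁ * tv v₂ φ₂ = (tv v₂ φ₂ * tv v₁ φ₁)⁻¹ := by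
      rw [_root_.mul_inv_rev, inv_eq_of_mul_eq_one_right (tv_sq h₁), inv_eq_of_mul_eq_one_right (tv_sq h₂)]
    refine Or.inr (Or.inr ⟨by rw [hinv, orderOf_inv, ho], ?_⟩)
    obtain ⟨w, ψ, hw, hψ, hd, he⟩ := hm
    rw [hinv, inv_pow, he, inv_eq_of_mul_eq_one_right (tv_sq hd)]
    exact ⟨w, ψ, hw, hψ, hd, rfl⟩
  · exact Or.inr (Or.inr (mul_order_four hv₁ hφ₂ h₁ h₂ hα hβ))
  · obtain ⟨Φ, hinj, hup, hlow⟩ := exists_sl2_hom h₁ h₂ hα hβ
    have e : Φ (SLTwo.up (φ₁ ⬝ᵥ v₂) * SLTwo.low (φ₂ ⬝ᵥ v₁)) = tv v₁ φ₁ * tv v₂ φ₂ := by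
      rw [map_mul, hup, hlow, div_self hα, div_self hβ, one_smul, one_smul]
    refine Or.inr (Or.inl ⟨?_, fun h01 => ?_⟩)
    · rw [← e, orderOf_injective Φ hinj]
      exact odd_orderOf_up_mul_low hα hβ
    · rw [← e, ← map_pow, (h01 _).resolve_left hα, (h01 _).resolve_left hβ, pow_three_up_mul_low, map_one]

theorem rootInvolutionClass [Finite F] (h3 : 3 ≤ Fintype.card ι) :
    IsRootInvolutionClass (transvectionSet ι F) := by
  have : Nontrivial ι := Fintype.one_lt_card_iff_nontrivial.1 (by omega)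
  obtain ⟨i, j, hij⟩ := exists_pair_ne ι
  refine ⟨⟨fun d hd => orderOf_eq_two hd, ?_, ?_, fun a ha b hb => (mul_cases ha hb).imp id (Or.imp And.left id)⟩,
    ⟨tv (Pi.single i 1) (Pi.single j 1), _, _, by simp, by simp, by simp [hij.symm], rfl⟩, fun a ha b hb => ?_⟩
  · refine top_unique ?_
    rw [← closure_elementarySet (ι := ι) (F := F), Subgroup.closure_le]
    rintro _ ⟨p, q, hpq, c, rfl⟩
    rw [transvection_eq_tv]
    rcases eq_or_ne c 0 with rfl | hc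
    · rw [Pi.single_zero, tv_zero]; exact one_mem _
    · exact Subgroup.subset_closure ⟨_, _, by simp, by simp [hc], by simp [hpq.symm], rfl⟩
  · rintro _ ⟨v, φ, hv, hφ, h, rfl⟩ g
    rw [conj_tv h]
    refine ⟨_, _, ?_, ne_zero_vecMul _ hφ, by rw [dot_conj, h], rfl⟩
    intro hgv
    apply hv
    have h9 := congrArg (fun x => ((g⁻¹ : Matrix.SpecialLinearGroup ι F) : Matrix ι ι F) *ᵥ x) hgv
    simpa only [Matrix.mulVec_mulVec, ← Matrix.SpecialLinearGroup.coe_mul, inv_mul_cancel,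
      Matrix.SpecialLinearGroup.coe_one, Matrix.one_mulVec, Matrix.mulVec_zero] using h9
  · obtain ⟨v₁, φ₁, hv₁, hφ₁, h₁, rfl⟩ := ha
    obtain ⟨v₂, φ₂, hv₂, hφ₂, h₂, rfl⟩ := hb
    obtain ⟨g, hg⟩ := isConj_iff.1 (isConj_of_isTransvection h3 (isTransvection_tv hv₁ hφ₁ h₁)
      (isTransvection_tv hv₂ hφ₂ h₂))
    exact ⟨g, hg.symm⟩

end CfsgLib.RootSubgroups.SLTransv
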