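import Cfsg.Agent.OrthGeo.Eichler
import Cfsg.Agent.RootSubgroups.TransvectionClass
import Cfsg.Agent.RootSubgroups.SubgroupOf

/-!
# Siegel transvection groups of singular lines
-/

set_option autoImplicit false
set_option linter.unusedSectionVars false

namespace CfsgLib.RootSubgroups.SiegelLines

open Cfsg Cfsg.Geo CfsgLib.OrthGeo Module
open scoped Matrix MatrixGroups

variable {ι : Type} [Fintype ι] [DecidableEq ι] {F : Type*} [Field F]
variable {Q : (ι → F) → F}

attribute [-simp] CfsgLib.OrthGeo.bform_apply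

/-- The group fixing the perp of a line pointwise. -/
def sieg (Q : (ι → F) → F) (p r : ι → F) : Subgroup ↥(Cfsg.isometryGroup F Q) :=
  Subgroup.closure {σ : ↥(Cfsg.isometryGroup F Q) | ∀ v : ι → F,
    Q (v + p) - Q v - Q p = 0 → Q (v + r) - Q v - Q r = 0 →
      ((σ : GL ι F) : Matrix ι ι F) *ᵥ v = v}

/-- A basis of a singular line. -/
structure Line (Q : (ι → F) → F) (p r : ι → F) : Prop where
  indep : LinearIndependent F ![p, r]
  qp : Q p = 0
  qr : Q r = 0
  qs : Q (p + r) = 0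

variable (hQ : IsNondegenerateQuadraticForm Q)
include hQ

theorem Line.bpr {p r : ι → F} (h : Line Q p r) : bform hQ p r = 0 := by
  have := q_add hQ p r
  rw [h.qs, h.qp, h.qr] at this
  linear_combination -this

theorem Line.bpp {p r : ι → F} (h : Line Q p r) : bform hQ p p = 0 := by
  rw [b_self hQ, h.qp, mul_zero]

theorem Line.brr {p r : ι → F} (h : Line Q p r) : bform hQ r r = 0 := by
  rw [b_self hQ, h.qr, mul_zero]

theorem line_mk {p r : ι → F} (hp : Q p = 0) (hr : Q r = 0) (hb : bform hQ p r = 0)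
    (hi : LinearIndependent F ![p, r]) : Line Q p r :=
  ⟨hi, hp, hr, by rw [q_add hQ, hp, hr, hb, add_zero, add_zero]⟩

theorem Line.q_comb {p r : ι → F} (h : Line Q p r) (x y : F) : Q (x • p + y • r) = 0 := by
  rw [q_add hQ, q_smul hQ, q_smul hQ, h.qp, h.qr]
  simp [h.bpr hQ]

theorem Line.b_comb {p r : ι → F} (h : Line Q p r) (x y x' y' : F) :
    bform hQ (x • p + y • r) (x' • p + y' • r) = 0 := by
  simp [h.bpr hQ, h.bpp hQ, h.brr hQ, b_symm hQ r p]

/-- Prescribed values against two independent vectors. -/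
theorem exists_b_pair {p r : ι → F} (hi : LinearIndependent F ![p, r]) (s t : F) :
    ∃ v, bform hQ p v = s ∧ bform hQ r v = t := by
  let f : (ι → F) →ₗ[F] F × F := (bform hQ p).prod (bform hQ r)
  suffices hf : LinearMap.range f = ⊤ by
    obtain ⟨v, hv⟩ := LinearMap.range_eq_top.1 hf (s, t)
    exact ⟨v, congrArg Prod.fst hv, congrArg Prod.snd hv⟩
  by_contra hne
  obtain ⟨g, hg, hle⟩ := Submodule.exists_le_ker_of_lt_top _ (lt_top_iff_ne_top.2 hne)
  have h1 : ∀ v, bform hQ (g (1, 0) • p + g (0, 1) • r) v = 0 := by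
    intro v
    have h3 : (bform hQ p v, bform hQ r v) =
        bform hQ p v • ((1 : F), (0 : F)) + bform hQ r v • ((0 : F), (1 : F)) := by simp
    have h2 : g (bform hQ p v, bform hQ r v) = 0 := hle ⟨v, rfl⟩
    rw [h3, map_add, map_smul, map_smul, smul_eq_mul, smul_eq_mul] at h2
    simp only [map_add, map_smul, LinearMap.add_apply, LinearMap.smul_apply, smul_eq_mul]
    linear_combination h2
  obtain ⟨e1, e2⟩ := LinearIndependent.pair_iff.1 hi _ _ ((b_nondeg hQ).1 _ h1)
  apply hg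
  refine LinearMap.ext fun x => ?_
  rw [show x = x.1 • ((1 : F), (0 : F)) + x.2 • ((0 : F), (1 : F)) by simp, map_add, map_smul,
    map_smul, e1, e2]
  simp

/-- The Siegel transvection with parameter `t`. -/
noncomputable def tau {p r : ι → F} (h : Line Q p r) (t : F) : ↥(Cfsg.isometryGroup F Q) :=
  ⟨eichler hQ h.qp (w := t • r) (by rw [map_smul, h.bpr hQ, smul_zero]),
    eichler_mem_isometryGroup hQ _ _⟩

theorem tau_mulVec {p r : ι → F} (h : Line Q p r) (t : F) (x : ι → F) :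
    ((tau hQ h t : GL ι F) : Matrix ι ι F) *ᵥ x =
      x + (t * bform hQ r x) • p - (t * bform hQ p x) • r := by
  unfold tau
  rw [eichler_mulVec hQ, q_smul hQ, h.qr]
  simp [smul_smul, mul_comm]

theorem iso_ext {g g' : ↥(Cfsg.isometryGroup F Q)}
    (H : ∀ x, ((g : GL ι F) : Matrix ι ι F) *ᵥ x = ((g' : GL ι F) : Matrix ι ι F) *ᵥ x) : g = g' :=
  Subtype.ext (gl_ext H)

theorem coe_mul_mulVec (g g' : ↥(Cfsg.isometryGroup F Q)) (x : ι → F) :
    (((g * g' : ↥(Cfsg.isometryGroup F Q)) : GL ι F) : Matrix ι ι F) *ᵥ x =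
      ((g : GL ι F) : Matrix ι ι F) *ᵥ (((g' : GL ι F) : Matrix ι ι F) *ᵥ x) := by
  rw [Subgroup.coe_mul, Units.val_mul, Matrix.mulVec_mulVec]

theorem tau_add {p r : ι → F} (h : Line Q p r) (s t : F) :
    tau hQ h (s + t) = tau hQ h s * tau hQ h t := by
  refine iso_ext hQ fun x => ?_
  rw [coe_mul_mulVec hQ, tau_mulVec, tau_mulVec, tau_mulVec]
  simp only [map_add, map_sub, map_smul, smul_eq_mul, h.bpr hQ, h.bpp hQ, h.brr hQ,
    b_symm hQ r p]
  module

theorem tau_zero {p r : ι → F} (h : Line Q p r) : tau hQ h 0 = 1 := by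
  refine iso_ext hQ fun x => ?_
  rw [tau_mulVec]; simp

theorem tau_neg {p r : ι → F} (h : Line Q p r) (t : F) : tau hQ h (-t) = (tau hQ h t)⁻¹ :=
  eq_inv_of_mul_eq_one_left (by rw [← tau_add, neg_add_cancel, tau_zero])

theorem tau_eq_one {p r : ι → F} (h : Line Q p r) {t : F} (ht : tau hQ h t = 1) : t = 0 := by
  obtain ⟨v, hp, hr⟩ := exists_b_pair hQ h.indep 0 1
  have h1 := tau_mulVec hQ h t v
  rw [ht, hp, hr] at h1
  simp at h1
  exact h1.resolve_right (by simpa using h.indep.ne_zero 0)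

theorem fix_iff {p r : ι → F} (h : Line Q p r) (σ : ↥(Cfsg.isometryGroup F Q)) :
    (∀ v : ι → F, Q (v + p) - Q v - Q p = 0 → Q (v + r) - Q v - Q r = 0 →
      ((σ : GL ι F) : Matrix ι ι F) *ᵥ v = v) ↔ ∃ t, σ = tau hQ h t := by
  have hb : ∀ v y : ι → F, Q (v + y) - Q v - Q y = bform hQ v y := fun v y =>
    (bform_apply hQ v y).symm
  constructor
  · intro hf
    obtain ⟨a, hap, har⟩ := exists_b_pair hQ h.indep 1 0
    obtain ⟨c, hcp, hcr⟩ := exists_b_pair hQ h.indep 0 1
    have hsplit : ∀ x, ((σ : GL ι F) : Matrix ι ι F) *ᵥ x = x +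
        bform hQ p x • (((σ : GL ι F) : Matrix ι ι F) *ᵥ a - a) +
        bform hQ r x • (((σ : GL ι F) : Matrix ι ι F) *ᵥ c - c) := by
      intro x
      have h1 := hf (x - bform hQ p x • a - bform hQ r x • c)
        (by rw [hb, b_symm hQ]; simp only [map_sub, map_smul, smul_eq_mul, hap, hcp]; ring)
        (by rw [hb, b_symm hQ]; simp only [map_sub, map_smul, smul_eq_mul, har, hcr]; ring)
      rw [Matrix.mulVec_sub, Matrix.mulVec_sub, Matrix.mulVec_smul, Matrix.mulVec_smul] at h1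
      linear_combination (norm := module) h1
    have himg : ∀ x : ι → F, ∃ s t : F,
        ((σ : GL ι F) : Matrix ι ι F) *ᵥ x - x = s • p + t • r := by
      intro x
      refine ⟨bform hQ (((σ : GL ι F) : Matrix ι ι F) *ᵥ x - x) a,
        bform hQ (((σ : GL ι F) : Matrix ι ι F) *ᵥ x - x) c,
        sub_eq_zero.1 ((b_nondeg hQ).1 _ fun y => ?_)⟩
      obtain ⟨u, hu⟩ : ∃ u, u = ((σ : GL ι F) : Matrix ι ι F) *ᵥ x - x := ⟨_, rfl⟩
      rw [← hu]
      have hperp : bform hQ u (y - bform hQ p y • a - bform hQ r y • c) = 0 := by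
        have h2 := hf (y - bform hQ p y • a - bform hQ r y • c)
          (by rw [hb, b_symm hQ]; simp only [map_sub, map_smul, smul_eq_mul, hap, hcp]; ring)
          (by rw [hb, b_symm hQ]; simp only [map_sub, map_smul, smul_eq_mul, har, hcr]; ring)
        have h3 := isometry_b hQ σ.2 x (y - bform hQ p y • a - bform hQ r y • c)
        rw [h2] at h3
        rw [hu, LinearMap.map_sub₂, h3, sub_self]
      simp only [map_sub, map_smul, smul_eq_mul] at hperp
      simp only [map_sub, map_add, map_smul, LinearMap.sub_apply, LinearMap.add_apply,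
        LinearMap.smul_apply, smul_eq_mul]
      linear_combination hperp
    obtain ⟨α, β, hu⟩ := himg a
    obtain ⟨γ, δ, hw⟩ := himg c
    have hq : ∀ x z : ι → F, ((σ : GL ι F) : Matrix ι ι F) *ᵥ x - x = z →
        Q z + bform hQ x z = 0 := by
      intro x z hz
      have h1 := mem_isometryGroup.1 σ.2 x
      rw [sub_eq_iff_eq_add'.1 hz, q_add hQ] at h1
      linear_combination h1
    have ha := hq a _ hu
    have hc := hq c _ hw
    have hac := hq (a + c) ((α + γ) • p + (β + δ) • r) (by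
      rw [Matrix.mulVec_add]; linear_combination (norm := module) hu + hw)
    simp only [h.q_comb hQ, map_add, map_smul, LinearMap.add_apply, smul_eq_mul, b_symm hQ a p,
      b_symm hQ a r, b_symm hQ c p, b_symm hQ c r, hap, har, hcp, hcr] at ha hc hac
    have hα : α = 0 := by linear_combination ha
    have hδ : δ = 0 := by linear_combination hc
    have hβ : β = -γ := by linear_combination hac - hα - hδ
    refine ⟨γ, iso_ext hQ fun x => ?_⟩
    rw [hsplit, tau_mulVec, hu, hw, hα, hβ, hδ]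
    module
  · rintro ⟨t, rfl⟩ v hvp hvr
    rw [hb, b_symm hQ] at hvp hvr
    rw [tau_mulVec, hvp, hvr]
    simp

theorem mem_sieg {p r : ι → F} (h : Line Q p r) {σ : ↥(Cfsg.isometryGroup F Q)} :
    σ ∈ sieg Q p r ↔ ∃ t, σ = tau hQ h t := by
  refine ⟨fun hσ => ?_, fun hσ => Subgroup.subset_closure ((fix_iff hQ h σ).2 hσ)⟩
  unfold sieg at hσ
  induction hσ using Subgroup.closure_induction with
  | mem x hx => exact (fix_iff hQ h x).1 hx
  | one => exact ⟨0, (tau_zero hQ h).symm⟩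
  | mul x y _ _ hx hy =>
    obtain ⟨s, rfl⟩ := hx
    obtain ⟨t, rfl⟩ := hy
    exact ⟨s + t, (tau_add hQ h s t).symm⟩
  | inv x _ hx =>
    obtain ⟨s, rfl⟩ := hx
    exact ⟨-s, (tau_neg hQ h s).symm⟩

theorem tau_mem {p r : ι → F} (h : Line Q p r) (t : F) : tau hQ h t ∈ sieg Q p r :=
  (mem_sieg hQ h).2 ⟨t, rfl⟩

theorem sieg_comm {p r : ι → F} (h : Line Q p r) : IsMulCommutative (sieg Q p r) := ⟨⟨fun x y => by
  obtain ⟨s, hs⟩ := (mem_sieg hQ h).1 x.2
  obtain ⟨t, ht⟩ := (mem_sieg hQ h).1 y.2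
  refine Subtype.ext ?_
  show (x : ↥(Cfsg.isometryGroup F Q)) * y = y * x
  rw [hs, ht, ← tau_add, ← tau_add, add_comm]⟩⟩

theorem sieg_ne_bot {p r : ι → F} (h : Line Q p r) : sieg Q p r ≠ ⊥ := fun hb =>
  one_ne_zero (tau_eq_one hQ h (Subgroup.mem_bot.1 (hb ▸ tau_mem hQ h 1)))

/-- The group depends only on the line. -/
theorem sieg_change {a c a' c' : ι → F} {x y z w : F}
    (ha : a' = x • a + y • c) (hc : c' = z • a + w • c) (hd : x * w - y * z ≠ 0) :
    sieg Q a' c' = sieg Q a c := by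
  have hb : ∀ v u : ι → F, Q (v + u) - Q v - Q u = bform hQ v u := fun v u =>
    (bform_apply hQ v u).symm
  unfold sieg
  congr 1
  ext σ
  simp only [Set.mem_setOf_eq, hb, ha, hc, map_add, map_smul, smul_eq_mul]
  constructor
  · intro hf v h1 h2
    exact hf v (by rw [h1, h2]; ring) (by rw [h1, h2]; ring)
  · intro hf v h1 h2
    exact hf v ((mul_eq_zero.1 (show bform hQ v a * (x * w - y * z) = 0 by
        linear_combination w * h1 - y * h2)).resolve_right hd)
      ((mul_eq_zero.1 (show bform hQ v c * (x * w - y * z) = 0 by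
        linear_combination x * h2 - z * h1)).resolve_right hd)

theorem line_change {a c a' c' : ι → F} {x y z w : F} (h : Line Q a c)
    (ha : a' = x • a + y • c) (hc : c' = z • a + w • c) (hd : x * w - y * z ≠ 0) :
    Line Q a' c' := by
  subst ha hc
  refine line_mk hQ (h.q_comb hQ x y) (h.q_comb hQ z w) (h.b_comb hQ x y z w)
    (LinearIndependent.pair_iff.2 fun s t hst => ?_)
  obtain ⟨e1, e2⟩ := LinearIndependent.pair_iff.1 h.indep (s * x + t * z) (s * y + t * w)
    (by linear_combination (norm := module) hst)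
  exact ⟨(mul_eq_zero.1 (show s * (x * w - y * z) = 0 by
      linear_combination w * e1 - z * e2)).resolve_right hd,
    (mul_eq_zero.1 (show t * (x * w - y * z) = 0 by
      linear_combination x * e2 - y * e1)).resolve_right hd⟩

theorem line_swap {a c : ι → F} (h : Line Q a c) : Line Q c a :=
  line_change hQ (x := 0) (y := 1) (z := 1) (w := 0) h (by simp) (by simp) (by simp)

theorem sieg_swap (a c : ι → F) : sieg Q c a = sieg Q a c :=
  sieg_change hQ (x := 0) (y := 1) (z := 1) (w := 0) (by simp) (by simp) (by simp)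

theorem conj_tau {g : ↥(Cfsg.isometryGroup F Q)} {p r p' r' : ι → F} (h : Line Q p r)
    (h' : Line Q p' r') (ep : ((g : GL ι F) : Matrix ι ι F) *ᵥ p = p')
    (er : ((g : GL ι F) : Matrix ι ι F) *ᵥ r = r') (t : F) :
    g * tau hQ h t * g⁻¹ = tau hQ h' t := by
  refine Subtype.ext ?_
  exact conj_eichler hQ g.2 h.qp (by rw [map_smul, h.bpr hQ, smul_zero]) h'.qp
    (by rw [map_smul, h'.bpr hQ, smul_zero]) ep (by rw [Matrix.mulVec_smul, er])

theorem line_image (g : ↥(Cfsg.isometryGroup F Q)) {p r : ι → F} (h : Line Q p r) :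
    Line Q (((g : GL ι F) : Matrix ι ι F) *ᵥ p) (((g : GL ι F) : Matrix ι ι F) *ᵥ r) := by
  refine line_mk hQ (by rw [mem_isometryGroup.1 g.2, h.qp]) (by rw [mem_isometryGroup.1 g.2, h.qr])
    (by rw [isometry_b hQ g.2, h.bpr hQ]) (LinearIndependent.pair_iff.2 fun s t hst => ?_)
  refine LinearIndependent.pair_iff.1 h.indep s t ?_
  have h1 := congrArg (fun x => (((g : GL ι F)⁻¹ : GL ι F) : Matrix ι ι F) *ᵥ x) hst
  simpa [Matrix.mulVec_add, Matrix.mulVec_smul, inv_mulVec_cancel] using h1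

theorem conjBy_sieg (g : ↥(Cfsg.isometryGroup F Q)) {p r : ι → F} (h : Line Q p r) :
    conjBy (sieg Q p r) g =
      sieg Q (((g : GL ι F) : Matrix ι ι F) *ᵥ p) (((g : GL ι F) : Matrix ι ι F) *ᵥ r) := by
  ext σ
  rw [mem_conjBy, mem_sieg hQ h, mem_sieg hQ (line_image hQ g h)]
  refine exists_congr fun t => ?_
  rw [← conj_tau hQ h (line_image hQ g h) rfl rfl t]
  constructor
  · intro e; rw [← e]; simp [mul_assoc]
  · intro e; rw [e]; simp [mul_assoc]

/-- Mutually orthogonal lines give commuting groups. -/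
theorem commute_of_perp {p r a c : ι → F} (h : Line Q p r) (h' : Line Q a c)
    (h1 : bform hQ p a = 0) (h2 : bform hQ p c = 0) (h3 : bform hQ r a = 0) (h4 : bform hQ r c = 0)
    (s t : F) : tau hQ h s * tau hQ h' t = tau hQ h' t * tau hQ h s :=
  mul_inv_eq_iff_eq_mul.1 (conj_tau hQ h' h' (by rw [tau_mulVec, h1, h3]; simp)
    (by rw [tau_mulVec, h2, h4]; simp) t)

theorem commutator_bot_of_commute {p r a c : ι → F} (h : Line Q p r) (h' : Line Q a c)
    (hc : ∀ s t, tau hQ h s * tau hQ h' t = tau hQ h' t * tau hQ h s) :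
    ⁅sieg Q p r, sieg Q a c⁆ = ⊥ :=
  commutator_eq_bot_iff_commutes.2 fun x hx y hy => by
    obtain ⟨s, rfl⟩ := (mem_sieg hQ h).1 hx
    obtain ⟨t, rfl⟩ := (mem_sieg hQ h').1 hy
    exact hc s t

/-- Opposite lines in dual bases give an SL₂ pair. -/
theorem psl2_of_dual {p r a c : ι → F} (h : Line Q p r) (h' : Line Q a c)
    (h1 : bform hQ p a = 1) (h2 : bform hQ p c = 0) (h3 : bform hQ r a = 0) (h4 : bform hQ r c = 1) :
    IsPSL2PairOver F (sieg Q p r) (sieg Q a c) := by
  classical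
  have hpp := h.bpp hQ
  have hrr := h.brr hQ
  have hpr := h.bpr hQ
  have haa := h'.bpp hQ
  have hcc := h'.brr hQ
  have hac := h'.bpr hQ
  have hrp : bform hQ r p = 0 := by rw [b_symm hQ, hpr]
  have hca : bform hQ c a = 0 := by rw [b_symm hQ, hac]
  have hap : bform hQ a p = 1 := by rw [b_symm hQ, h1]
  have hcp : bform hQ c p = 0 := by rw [b_symm hQ, h2]
  have har : bform hQ a r = 0 := by rw [b_symm hQ, h3]
  have hcr : bform hQ c r = 1 := by rw [b_symm hQ, h4]
  let A₁ := planeMat p c (Cfsg.polarVec Q a) (Cfsg.polarVec Q r) (RingHom.id F) (1 : F)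
  let A₂ := planeMat r a (Cfsg.polarVec Q c) (Cfsg.polarVec Q p) (RingHom.id F) (-1 : F)
  have hcomm : ∀ M N, A₁ M * A₂ N = A₂ N * A₁ M := fun M N => Matrix.ext_iff_mulVec.2 fun x => by
    simp only [A₁, A₂, ← Matrix.mulVec_mulVec, planeMat_mulVec, polarVec_dot hQ, map_add, map_smul,
      smul_eq_mul, RingHom.id_apply, haa, hcc, hac, hca, hap, hcp, har, hcr, hpp, hrr, hpr, hrp, h1,
      h2, h3, h4]
    module
  let f₁ := planeHom (k := F) (RingHom.id F) (e := p) (f := c) (a := Cfsg.polarVec Q a)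
    (b := Cfsg.polarVec Q r) (δ := (1 : F)) (by rw [polarVec_dot hQ, hap])
    (by rw [polarVec_dot hQ, hac]) (by rw [polarVec_dot hQ, hrp]) (by rw [polarVec_dot hQ, h4])
    one_ne_zero
  let f₂ := planeHom (k := F) (RingHom.id F) (e := r) (f := a) (a := Cfsg.polarVec Q c)
    (b := Cfsg.polarVec Q p) (δ := (-1 : F)) (by rw [polarVec_dot hQ, hcr])
    (by rw [polarVec_dot hQ, hca]) (by rw [polarVec_dot hQ, hpr]) (by rw [polarVec_dot hQ, h1])
    (neg_ne_zero.2 one_ne_zero)
  let f : Matrix.SpecialLinearGroup (Fin 2) F →* Matrix ι ι F :=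
    { toFun := fun M => f₁ M * f₂ M
      map_one' := by rw [map_one, map_one, mul_one]
      map_mul' := fun M N => by
        have hc' : f₂ M * f₁ N = f₁ N * f₂ M := (hcomm _ _).symm
        rw [map_mul, map_mul, mul_assoc, ← mul_assoc (f₁ N), ← hc']
        simp [mul_assoc] }
  have hup : ∀ s, f (SLTwo.up s) = ((tau hQ h s : GL ι F) : Matrix ι ι F) :=
    fun s => Matrix.ext_iff_mulVec.2 fun x => by
      show (f₁ _ * f₂ _) *ᵥ x = _
      rw [← Matrix.mulVec_mulVec, tau_mulVec]
      simp only [f₁, f₂, planeHom, MonoidHom.coe_mk, OneHom.coe_mk, planeMat_mulVec, polarVec_dot hQ,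
        map_add, map_smul, smul_eq_mul, RingHom.id_apply, SLTwo.coe_up, hcr, hpr, har, hrr, hap, hrp,
        hcc, hca, h1, h4]
      simp [hrr, hrp, har, hca, h3]
      module
  have hlow : ∀ u, f (SLTwo.low u) = ((tau hQ h' (-u) : GL ι F) : Matrix ι ι F) :=
    fun u => Matrix.ext_iff_mulVec.2 fun x => by
      show (f₁ _ * f₂ _) *ᵥ x = _
      rw [← Matrix.mulVec_mulVec, tau_mulVec]
      simp only [f₁, f₂, planeHom, MonoidHom.coe_mk, OneHom.coe_mk, planeMat_mulVec, polarVec_dot hQ,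
        map_add, map_smul, smul_eq_mul, RingHom.id_apply, SLTwo.coe_low, hac, haa, hcc, hca]
      simp [haa, hac, hcc, hca, h3]
  have hiso : ∀ M, f.toHomUnits M ∈ Cfsg.isometryGroup F Q := by
    refine fun M => slTwo_induction (P := fun M => f.toHomUnits M ∈ Cfsg.isometryGroup F Q)
      (fun s => ?_) (fun u => ?_) (fun x y hx hy => by rw [map_mul]; exact mul_mem hx hy) M
    · rw [show f.toHomUnits (SLTwo.up s) = (tau hQ h s : GL ι F) from Units.ext (hup s)]
      exact SetLike.coe_mem _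
    · rw [show f.toHomUnits (SLTwo.low u) = (tau hQ h' (-u) : GL ι F) from Units.ext (hlow u)]
      exact SetLike.coe_mem _
  have hup' : ∀ s, f.toHomUnits.codRestrict _ hiso (SLTwo.up s) = tau hQ h s :=
    fun s => Subtype.ext (Units.ext (hup s))
  have hlow' : ∀ u, f.toHomUnits.codRestrict _ hiso (SLTwo.low u) = tau hQ h' (-u) :=
    fun u => Subtype.ext (Units.ext (hlow u))
  refine psl2Pair_of_hom (f.toHomUnits.codRestrict _ hiso) ?_ (fun g => ?_) (fun g => ?_)
  · intro M N he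
    have he' : f M = f N := congrArg (fun g : ↥(Cfsg.isometryGroup F Q) => ((g : GL ι F) : Matrix ι ι F)) he
    have hfix : ∀ (M : Matrix.SpecialLinearGroup (Fin 2) F),
        f M *ᵥ p = (M.1 0 0) • p + (M.1 1 0) • c ∧ f M *ᵥ c = (M.1 0 1) • p + (M.1 1 1) • c := by
      intro M
      constructor <;>
      · show (f₁ M * f₂ M) *ᵥ _ = _
        rw [← Matrix.mulVec_mulVec]
        simp only [f₁, f₂, planeHom, MonoidHom.coe_mk, OneHom.coe_mk, planeMat_mulVec, polarVec_dot hQ,
          RingHom.id_apply, hcp, hpp, hcc, h2, map_add, map_smul, smul_eq_mul, hap, hrp, hac, h4]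
        simp [hap, hrp, hac, h4]
        module
    obtain ⟨e1, e2⟩ := hfix M
    obtain ⟨e3, e4⟩ := hfix N
    rw [he'] at e1 e2
    have k1 := fun v => congrArg (fun y => bform hQ v y) (e1.symm.trans e3)
    have k2 := fun v => congrArg (fun y => bform hQ v y) (e2.symm.trans e4)
    simp only [map_add, map_smul, smul_eq_mul] at k1 k2
    have a1 := k1 a; have a2 := k1 r; have a3 := k2 a; have a4 := k2 r
    rw [hap, hac] at a1 a3
    rw [hrp, h4] at a2 a4
    refine Subtype.ext (Matrix.ext fun i j => ?_)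
    fin_cases i <;> fin_cases j
    · simpa using a1
    · simpa using a3
    · simpa using a2
    · simpa using a4
  · rw [mem_sieg hQ h]
    exact exists_congr fun s => by rw [hup']; exact eq_comm
  · rw [mem_sieg hQ h']
    constructor
    · rintro ⟨t, rfl⟩
      exact ⟨-t, by rw [hlow', neg_neg]⟩
    · rintro ⟨u, rfl⟩
      exact ⟨-u, hlow' u⟩

/-- Lines with non-singular pairing matrix give an SL₂ pair. -/
theorem psl2_of_det {p r a c : ι → F} (h : Line Q p r) (h' : Line Q a c)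
    (hd : bform hQ p a * bform hQ r c - bform hQ p c * bform hQ r a ≠ 0) :
    IsPSL2PairOver F (sieg Q p r) (sieg Q a c) := by
  obtain ⟨d, hdd⟩ : ∃ d, d = bform hQ p a * bform hQ r c - bform hQ p c * bform hQ r a := ⟨_, rfl⟩
  rw [← hdd] at hd
  have hne : bform hQ r c / d * (bform hQ p a / d) - -(bform hQ r a) / d * (-(bform hQ p c) / d) ≠ 0 := by
    rw [show bform hQ r c / d * (bform hQ p a / d) - -(bform hQ r a) / d * (-(bform hQ p c) / d) = d⁻¹ by
      field_simp; linear_combination -hdd]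
    exact inv_ne_zero hd
  rw [← sieg_change hQ (a := a) (c := c) rfl rfl hne]
  refine psl2_of_dual hQ h (line_change hQ h' rfl rfl hne) ?_ ?_ ?_ ?_ <;>
    simp only [map_add, map_smul, smul_eq_mul] <;> field_simp <;>
    (first | ring1 | linear_combination hdd | linear_combination -hdd)

/-- The commutator case, in normalised bases. -/
theorem comm_case_norm {p r a c : ι → F} (h : Line Q p r) (h' : Line Q a c)
    (h1 : bform hQ p a = 1) (h2 : bform hQ p c = 0) (h3 : bform hQ r a = 0) (h4 : bform hQ r c = 0) :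
    ⁅sieg Q p r, sieg Q a c⁆ = ⊥ ∨
      RootCommutatorCase {A | ∃ p r, Line Q p r ∧ A = sieg Q p r} (sieg Q p r) (sieg Q a c) := by
  have hpc : ∀ s, ((tau hQ h s : GL ι F) : Matrix ι ι F) *ᵥ c = c := fun s => by
    rw [tau_mulVec, h2, h4]; simp
  have hpa : ∀ s, ((tau hQ h s : GL ι F) : Matrix ι ι F) *ᵥ a = a - s • r := fun s => by
    rw [tau_mulVec, h1, h3]; simp
  by_cases hrc : LinearIndependent F ![r, c]
  swap
  · obtain ⟨k, hk⟩ : ∃ k : F, r = k • c := by
      rw [LinearIndependent.pair_iff' (by simpa using h.indep.ne_zero 1)] at hrc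
      push Not at hrc
      obtain ⟨k, hk⟩ := hrc
      have hk0 : k ≠ 0 := fun h0 => by
        rw [h0, zero_smul] at hk
        exact (show c ≠ 0 by simpa using h'.indep.ne_zero 1) hk.symm
      exact ⟨k⁻¹, by rw [← hk, inv_smul_smul₀ hk0]⟩
    refine Or.inl (commutator_bot_of_commute hQ h h' fun s t => mul_inv_eq_iff_eq_mul.1 ?_)
    have hl : Line Q (a - s • r) c :=
      line_change hQ (x := 1) (y := -(s * k)) (z := 0) (w := 1) h' (by rw [hk]; module) (by simp)
        (by simp)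
    rw [conj_tau hQ h' hl (hpa s) (hpc s) t]
    refine iso_ext hQ fun x => ?_
    rw [tau_mulVec, tau_mulVec, hk]
    simp only [map_sub, map_smul, LinearMap.sub_apply, LinearMap.smul_apply, smul_eq_mul]
    module
  right
  have hn : Line Q r c := line_mk hQ h.qr h'.qr h4 hrc
  have hra := h3
  have key : ∀ s t, tau hQ h s * tau hQ h' t * (tau hQ h s)⁻¹ * (tau hQ h' t)⁻¹ = tau hQ hn (-(s * t)) := by
    intro s t
    have hl : Line Q (a - s • r) c := by
      have := line_image hQ (tau hQ h s) h'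
      rwa [hpa, hpc] at this
    rw [conj_tau hQ h' hl (hpa s) (hpc s) t, ← tau_neg]
    refine iso_ext hQ fun x => ?_
    rw [coe_mul_mulVec hQ, tau_mulVec, tau_mulVec, tau_mulVec]
    simp only [map_add, map_sub, map_smul, LinearMap.sub_apply, LinearMap.smul_apply,
      smul_eq_mul, h'.bpp hQ, h'.brr hQ, h'.bpr hQ, h3, h4, b_symm hQ c a, b_symm hQ a r, b_symm hQ c r]
    module
  have hC : ⁅sieg Q p r, sieg Q a c⁆ = sieg Q r c := by
    refine le_antisymm (Subgroup.commutator_le.2 ?_) ?_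
    · intro x hx y hy
      obtain ⟨s, rfl⟩ := (mem_sieg hQ h).1 hx
      obtain ⟨t, rfl⟩ := (mem_sieg hQ h').1 hy
      rw [commutatorElement_def, key]
      exact tau_mem hQ hn _
    · intro x hx
      obtain ⟨u, rfl⟩ := (mem_sieg hQ hn).1 hx
      have := Subgroup.commutator_mem_commutator (tau_mem hQ h (-u)) (tau_mem hQ h' 1)
      rwa [commutatorElement_def, key, mul_one, neg_neg] at this
  refine ⟨⟨r, c, hn, hC⟩, ?_, ?_, ?_⟩
  · intro z hz
    rw [hC] at hz
    obtain ⟨u, rfl⟩ := (mem_sieg hQ hn).1 hz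
    have hle : sieg Q p r ⊔ sieg Q a c ≤ Subgroup.centralizer ({tau hQ hn u} : Set _) := by
      refine sup_le (fun y hy => ?_) (fun y hy => ?_) <;> rw [Subgroup.mem_centralizer_singleton_iff]
      · obtain ⟨s, rfl⟩ := (mem_sieg hQ h).1 hy
        exact commute_of_perp hQ h hn (h.bpr hQ) h2 (h.brr hQ) h4 s u
      · obtain ⟨s, rfl⟩ := (mem_sieg hQ h').1 hy
        exact commute_of_perp hQ h' hn (by rw [b_symm hQ, h3]) (h'.bpr hQ)
          (by rw [b_symm hQ, h4]) (h'.brr hQ) s u
    exact fun y hy => (Subgroup.mem_centralizer_singleton_iff.1 (hle hy)).symm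
  · intro x hx hx1
    obtain ⟨s, rfl⟩ := (mem_sieg hQ h).1 hx
    have hs : s ≠ 0 := fun h0 => hx1 (by rw [h0, tau_zero])
    rw [hC]
    refine le_antisymm ((Subgroup.closure_le _).2 ?_) fun y hy => ?_
    · rintro _ ⟨y, hy, rfl⟩
      obtain ⟨t, rfl⟩ := (mem_sieg hQ h').1 hy
      show _ ∈ sieg Q r c
      simp only [key]
      exact tau_mem hQ hn _
    · obtain ⟨u, rfl⟩ := (mem_sieg hQ hn).1 hy
      refine Subgroup.subset_closure ⟨tau hQ h' (-u / s), tau_mem hQ h' _, ?_⟩
      simp only [key]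
      congr 1
      field_simp
  · intro y hy hy1
    obtain ⟨t, rfl⟩ := (mem_sieg hQ h').1 hy
    have ht : t ≠ 0 := fun h0 => hy1 (by rw [h0, tau_zero])
    rw [hC]
    refine le_antisymm ((Subgroup.closure_le _).2 ?_) fun x hx => ?_
    · rintro _ ⟨x, hx, rfl⟩
      obtain ⟨s, rfl⟩ := (mem_sieg hQ h).1 hx
      show _ ∈ sieg Q r c
      simp only [key]
      exact tau_mem hQ hn _
    · obtain ⟨u, rfl⟩ := (mem_sieg hQ hn).1 hx
      refine Subgroup.subset_closure ⟨tau hQ h (-u / t), tau_mem hQ h _, ?_⟩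
      simp only [key]
      congr 1
      field_simp

theorem pair_of_ne {p r a c : ι → F} (h : Line Q p r) (h' : Line Q a c) (he : bform hQ p a ≠ 0) :
    ⁅sieg Q p r, sieg Q a c⁆ = ⊥ ∨ IsPSL2PairOver F (sieg Q p r) (sieg Q a c) ∨
      RootCommutatorCase {A | ∃ p r, Line Q p r ∧ A = sieg Q p r} (sieg Q p r) (sieg Q a c) := by
  by_cases hd : bform hQ p a * bform hQ r c - bform hQ p c * bform hQ r a = 0
  swap
  · exact Or.inr (Or.inl (psl2_of_det hQ h h' hd))
  obtain ⟨e, hee⟩ : ∃ e, e = bform hQ p a := ⟨_, rfl⟩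
  rw [← hee] at he hd
  have hd1 : e⁻¹ * 1 - 0 * (-(bform hQ r a) / e) ≠ 0 := by simp [he]
  have hd2 : (1 : F) * 1 - 0 * (-(bform hQ p c) / e) ≠ 0 := by simp
  rw [← sieg_change hQ (a := p) (c := r) rfl rfl hd1, ← sieg_change hQ (a := a) (c := c) rfl rfl hd2]
  refine (comm_case_norm hQ (line_change hQ h rfl rfl hd1) (line_change hQ h' rfl rfl hd2)
    ?_ ?_ ?_ ?_).imp_right Or.inr <;>
  · simp only [map_add, map_smul, LinearMap.add_apply, LinearMap.smul_apply, smul_eq_mul, ← hee]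
    field_simp
    first | ring1 | linear_combination hd | linear_combination -hd

theorem pair_trichotomy {p r a c : ι → F} (h : Line Q p r) (h' : Line Q a c) :
    ⁅sieg Q p r, sieg Q a c⁆ = ⊥ ∨ IsPSL2PairOver F (sieg Q p r) (sieg Q a c) ∨
      RootCommutatorCase {A | ∃ p r, Line Q p r ∧ A = sieg Q p r} (sieg Q p r) (sieg Q a c) := by
  by_cases h1 : bform hQ p a = 0
  swap
  · exact pair_of_ne hQ h h' h1
  by_cases h2 : bform hQ p c = 0
  swap
  · rw [← sieg_swap hQ a c]; exact pair_of_ne hQ h (line_swap hQ h') h2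
  by_cases h3 : bform hQ r a = 0
  swap
  · rw [← sieg_swap hQ p r]; exact pair_of_ne hQ (line_swap hQ h) h' h3
  by_cases h4 : bform hQ r c = 0
  swap
  · rw [← sieg_swap hQ p r, ← sieg_swap hQ a c]
    exact pair_of_ne hQ (line_swap hQ h) (line_swap hQ h') h4
  exact Or.inl (commutator_bot_of_commute hQ h h' (commute_of_perp hQ h h' h1 h2 h3 h4))

/-- A singular vector perpendicular to `a` pairing non-trivially with two given singular vectors. -/
theorem exists_common (hn : 6 ≤ Fintype.card ι) {a x y : ι → F} (ha : Q a = 0)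
    (hx : Q x = 0) (hy : Q y = 0) (hax : bform hQ a x = 0) (hay : bform hQ a y = 0)
    (hxa : ∀ t : F, t • a ≠ x) (hya : ∀ t : F, t • a ≠ y) :
    ∃ z, Q z = 0 ∧ bform hQ a z = 0 ∧ bform hQ x z ≠ 0 ∧ bform hQ y z ≠ 0 := by
  classical
  have hdual : ∀ x, Q x = 0 → bform hQ a x = 0 → (∀ t : F, t • a ≠ x) →
      ∃ z, Q z = 0 ∧ bform hQ a z = 0 ∧ bform hQ x z = 1 := by
    intro x hx hax hxa
    obtain ⟨z, hz1, hz2⟩ : ∃ z, bform hQ a z = 0 ∧ bform hQ x z = 1 := by
      by_cases ha0 : a = 0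
      · have hx0 : x ≠ 0 := fun h0 => hxa 0 (by rw [h0, zero_smul])
        obtain ⟨z, hz⟩ : ∃ z, bform hQ x z ≠ 0 := by
          by_contra hc; push Not at hc
          exact hx0 ((b_nondeg hQ).1 x hc)
        exact ⟨(bform hQ x z)⁻¹ • z, by simp [ha0], by simp [hz]⟩
      · exact exists_b_pair hQ ((LinearIndependent.pair_iff' ha0).2 hxa) 0 1
    refine ⟨z - Q z • x, ?_, by simp [hz1, hax], ?_⟩
    · rw [q_sub hQ, q_smul hQ, hx, map_smul, b_symm hQ z x, hz2]; simp
    · simp [hz2, b_self hQ, hx]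
  obtain ⟨x', hx', hax', hxx'⟩ := hdual x hx hax hxa
  obtain ⟨y', hy', hay', hyy'⟩ := hdual y hy hay hya
  by_cases h1 : bform hQ y x' = 0
  swap
  · exact ⟨x', hx', hax', by rw [hxx']; exact one_ne_zero, h1⟩
  by_cases h2 : bform hQ x y' = 0
  swap
  · exact ⟨y', hy', hay', h2, by rw [hyy']; exact one_ne_zero⟩
  by_cases hb : bform hQ x y = 0
  · refine ⟨x' + y' - bform hQ x' y' • x, ?_, by simp [hax', hay', hax], ?_, ?_⟩
    · rw [q_sub hQ, q_add hQ, q_smul hQ, hx, hx', hy', map_smul, map_add, LinearMap.add_apply,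
        b_symm hQ x' x, b_symm hQ y' x, hxx', h2]
      simp
    · simp [hxx', h2, b_self hQ, hx]
    · rw [map_sub, map_add, map_smul, h1, hyy', b_symm hQ y x, hb]; simp
  obtain ⟨W, hW⟩ : ∃ W, W = Submodule.span F ({a, x, y} : Set (ι → F)) := ⟨_, rfl⟩
  obtain ⟨w, hw, hQw⟩ : ∃ w ∈ perp hQ W, Q w ≠ 0 := by
    by_contra hc
    push Not at hc
    have hle := le_perp_self hQ (S := perp hQ W) hc
    rw [perp_perp hQ] at hle
    have h3 : finrank F W ≤ 3 := by
      have := finrank_span_finset_le_card (R := F) ({a, x, y} : Finset (ι → F))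
      rw [hW, show ({a, x, y} : Set (ι → F)) = ↑({a, x, y} : Finset (ι → F)) by ext; simp]
      exact this.trans Finset.card_le_three
    have h4 := finrank_perp_add hQ W
    have heq : perp hQ W = W := Submodule.eq_of_le_of_finrank_le hle (by omega)
    have hxW : x ∈ perp hQ W := heq.symm ▸ hW ▸ Submodule.subset_span (by simp)
    exact hb ((mem_perp' hQ).1 hxW y (hW ▸ Submodule.subset_span (by simp)))
  have hwm : ∀ v ∈ ({a, x, y} : Set (ι → F)), bform hQ v w = 0 := fun v hv =>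
    (mem_perp hQ).1 hw v (hW ▸ Submodule.subset_span hv)
  have hwa := hwm a (by simp)
  have hwx := hwm x (by simp)
  have hwy := hwm y (by simp)
  refine ⟨(-(Q w) / bform hQ x y) • x + y + w, ?_, by simp [hax, hay, hwa], ?_, ?_⟩
  · rw [q_add hQ, q_add hQ, q_smul hQ, hx, hy, map_smul, map_add, LinearMap.add_apply,
      LinearMap.smul_apply, map_smul, LinearMap.smul_apply, hwx, hwy, smul_eq_mul, smul_eq_mul]
    field_simp
    ring
  · simp [b_self hQ, hx, hwx, hb]
  · rw [map_add, map_add, map_smul, b_symm hQ y x, b_self hQ, hy, hwy, smul_eq_mul,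
      div_mul_cancel₀ _ hb]
    simpa using hQw

/-- Two lines have a common opposite line. -/
theorem exists_common_opposite (hn : 6 ≤ Fintype.card ι) {p r s u : ι → F} (h : Line Q p r)
    (h' : Line Q s u) : ∃ a c, Line Q a c ∧
      bform hQ p a * bform hQ r c - bform hQ p c * bform hQ r a ≠ 0 ∧
      bform hQ s a * bform hQ u c - bform hQ s c * bform hQ u a ≠ 0 := by
  have hp0 : p ≠ 0 := by simpa using h.indep.ne_zero 0
  have hs0 : s ≠ 0 := by simpa using h'.indep.ne_zero 0
  obtain ⟨a, haQ, -, hpa, hsa⟩ := exists_common hQ hn (a := 0) (q_zero hQ) h.qp h'.qp (by simp)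
    (by simp) (fun t => by simpa using hp0.symm) (fun t => by simpa using hs0.symm)
  have hl : ∀ {p r : ι → F}, Line Q p r → bform hQ p a ≠ 0 →
      Q (bform hQ r a • p - bform hQ p a • r) = 0 ∧
      bform hQ a (bform hQ r a • p - bform hQ p a • r) = 0 ∧
      ∀ t : F, t • a ≠ bform hQ r a • p - bform hQ p a • r := by
    intro p r h hpa
    refine ⟨by rw [sub_eq_add_neg, ← neg_smul]; exact h.q_comb hQ _ _, ?_, fun t ht => ?_⟩
    · simp [b_symm hQ a p, b_symm hQ a r, mul_comm]
    · have h1 := congrArg (fun v => bform hQ p v) ht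
      simp [h.bpp hQ, h.bpr hQ] at h1
      rw [h1.resolve_right hpa, zero_smul] at ht
      obtain ⟨-, e⟩ := LinearIndependent.pair_iff.1 h.indep (bform hQ r a) (-bform hQ p a)
        (by rw [neg_smul, ← sub_eq_add_neg, ← ht])
      exact hpa (neg_eq_zero.1 e)
  obtain ⟨hx1, hx2, hx3⟩ := hl h hpa
  obtain ⟨hy1, hy2, hy3⟩ := hl h' hsa
  obtain ⟨c, hcQ, hac, hxc, hyc⟩ := exists_common hQ hn haQ hx1 hy1 hx2 hy2 hx3 hy3
  simp only [map_sub, map_smul, LinearMap.sub_apply, LinearMap.smul_apply, smul_eq_mul] at hxc hyc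
  have ha0 : a ≠ 0 := fun h0 => hpa (by rw [h0, map_zero])
  refine ⟨a, c, line_mk hQ haQ hcQ hac ((LinearIndependent.pair_iff' ha0).2 fun t ht => hxc ?_),
    fun h0 => hxc (by linear_combination -h0), fun h0 => hyc (by linear_combination -h0)⟩
  rw [← ht, map_smul, map_smul, smul_eq_mul, smul_eq_mul]
  ring

/-- The Siegel groups form a set of abstract root subgroups with connected graph of rank one pairs. -/
theorem main (hn : 6 ≤ Fintype.card ι) (S : Set (Subgroup ↥(Cfsg.isometryGroup F Q)))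
    (hS : S = {A | ∃ p r, Line Q p r ∧ A = sieg Q p r}) :
    IsKRootSubgroupSet F ((fun A => A.subgroupOf (⨆ B ∈ S, B)) '' S) ∧
      IsConnectedFamily (FAdj S) S := by
  constructor
  · obtain ⟨K, hK⟩ : ∃ K : Subgroup ↥(Cfsg.isometryGroup F Q), K = ⨆ B ∈ S, B := ⟨_, rfl⟩
    rw [← hK]
    have hle : ∀ A ∈ S, A ≤ K := fun A hA =>
      hK ▸ le_biSup (fun B : Subgroup ↥(Cfsg.isometryGroup F Q) => B) hA
    have hinj : Function.Injective (Subgroup.map K.subtype) :=
      Subgroup.map_injective K.subtype_injective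
    have hback : ∀ {A : Subgroup ↥(Cfsg.isometryGroup F Q)}, A ≤ K →
        (A.subgroupOf K).map K.subtype = A := fun {A} h => by
      rw [Subgroup.subgroupOf_map_subtype, inf_of_le_left h]
    have hlift : ∀ {A B : Subgroup ↥(Cfsg.isometryGroup F Q)}, A ≤ K → B ≤ K →
        IsPSL2PairOver F A B → IsPSL2PairOver F (A.subgroupOf K) (B.subgroupOf K) := by
      rintro A B hA hB ⟨φ, hr, hker, hu, hl⟩
      have hφ : ∀ x, φ x ∈ K := fun x => (sup_le hA hB) (hr ▸ ⟨x, rfl⟩)
      refine ⟨φ.codRestrict K hφ, ?_, by rwa [MonoidHom.ker_codRestrict], ?_, ?_⟩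
      · apply hinj
        rw [Subgroup.map_sup, hback hA, hback hB, ← hr, MonoidHom.map_range]
        rfl
      · apply hinj
        rw [Subgroup.map_map, hback hA, ← hu]
        rfl
      · apply hinj
        rw [Subgroup.map_map, hback hB, ← hl]
        rfl
    have tri : ∀ A ∈ S, ∀ B ∈ S, ⁅A, B⁆ = ⊥ ∨ IsPSL2PairOver F A B ∨ RootCommutatorCase S A B := by
      rw [hS]
      rintro _ ⟨p, r, h, rfl⟩ _ ⟨a, c, h', rfl⟩
      exact pair_trichotomy hQ h h'
    have hab : ∀ A ∈ S, IsMulCommutative A := by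
      rw [hS]; rintro _ ⟨p, r, h, rfl⟩; exact sieg_comm hQ h
    have hset := Within.isRootSubgroupSet (H := K) hK.symm hab
      (by rw [hS]; rintro _ ⟨p, r, h, rfl⟩; exact sieg_ne_bot hQ h)
      (by rw [hS]; rintro _ ⟨p, r, h, rfl⟩ g _; exact ⟨_, _, line_image hQ g h, conjBy_sieg hQ g h⟩)
      (fun A hA B hB => (tri A hA B hB).imp id (Or.imp isRankOnePair_of_psl2Pair id))
    refine ⟨hset, ?_⟩
    rintro _ ⟨A, hA, rfl⟩ _ ⟨B, hB, rfl⟩ hr
    rcases tri A hA B hB with h | h | h
    · refine absurd ?_ (RankOne.commutator_ne_bot hr)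
      apply hinj
      rw [Subgroup.map_commutator, hback (hle A hA), hback (hle B hB), h, Subgroup.map_bot]
    · exact hlift (hle A hA) (hle B hB) h
    · exact absurd (Within.commutatorCase hle hA hB h)
        (not_commCase_of_rankOne (hset.commutative _ ⟨A, hA, rfl⟩) hr)
  · rw [hS]
    rintro _ ⟨p, r, h, rfl⟩ _ ⟨s, u, h', rfl⟩
    obtain ⟨a, c, hN, hd1, hd2⟩ := exists_common_opposite hQ hn h h'
    have r1 := isRankOnePair_of_psl2Pair (psl2_of_det hQ h hN hd1)
    have r2 := RankOne.symm (isRankOnePair_of_psl2Pair (psl2_of_det hQ h' hN hd2))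
    exact (Relation.ReflTransGen.single ⟨⟨p, r, h, rfl⟩, ⟨a, c, hN, rfl⟩, r1⟩).tail
      ⟨⟨a, c, hN, rfl⟩, ⟨s, u, h', rfl⟩, r2⟩

end CfsgLib.RootSubgroups.SiegelLines
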