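import Cfsg.Agent.RootSubgroups.SL2Hom
import Cfsg.Agent.RootSubgroups.Special

/-!
# The minimal subgroups of a special rank one group
-/

set_option autoImplicit false

namespace CfsgLib.RootSubgroups.AbSpecial

open Cfsg Matrix

variable {G : Type*} [Group G] {A B : Subgroup G} {p : ℕ} [Fact p.Prime]

theorem pow_zmod_add {g : G} (hg : g ^ p = 1) (r s : ZMod p) :
    g ^ (r + s).val = g ^ r.val * g ^ s.val := by
  rw [← pow_add, pow_eq_pow_mod (r.val + s.val) hg, ZMod.val_add]

theorem pow_zmod_mul {g : G} (hg : g ^ p = 1) (r s : ZMod p) :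
    (g ^ r.val) ^ s.val = g ^ (r * s).val := by
  rw [← pow_mul, pow_eq_pow_mod (r.val * s.val) hg, ZMod.val_mul]

variable (h : AbSpecial A B) (hexp : ∀ x ∈ A, x ^ p = 1) {a : G} (ha : a ∈ A) (ha1 : a ≠ 1)
include h hexp ha ha1

theorem opp_exp : opp A B a ^ p = 1 := by
  rw [← flip_conj_self h ha ha1, pow_eq_one_iff_conj]
  exact hexp a ha

theorem pow_ne_one {t : ZMod p} (ht : t ≠ 0) : a ^ t.val ≠ 1 := by
  intro h0
  have hp : p.Prime := Fact.out
  have h1 := orderOf_dvd_of_pow_eq_one h0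
  rw [orderOf_eq_prime (hexp a ha) ha1] at h1
  exact ht ((ZMod.val_eq_zero t).1 (Nat.eq_zero_of_dvd_of_lt h1 t.val_lt))

theorem opp_zmod_pow {t : ZMod p} (ht : t ≠ 0) :
    opp A B (a ^ t.val) = opp A B a ^ (t⁻¹).val := by
  have hp : p.Prime := Fact.out
  have hat := pow_ne_one h hexp ha ha1 ht
  have hpow : opp A B (a ^ t.val) ^ p = 1 := opp_exp h hexp (pow_mem ha _) hat
  have h1 : opp A B (a ^ t.val) ^ t.val = opp A B a := by
    refine opp_pow h t.val (Nat.pos_of_ne_zero fun h0 => ht ((ZMod.val_eq_zero t).1 h0)) ?_ a ha hat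
    intro k hk hkt x hx hxk
    by_contra hx1
    have h2 := orderOf_dvd_of_pow_eq_one hxk
    rw [orderOf_eq_prime (hexp x hx) hx1] at h2
    exact absurd (Nat.le_of_dvd hk h2) (by have := t.val_lt; omega)
  rw [← h1, pow_zmod_mul_self hpow t ht]
where
  pow_zmod_mul_self {g : G} (hg : g ^ p = 1) (t : ZMod p) (ht : t ≠ 0) :
      (g ^ t.val) ^ (t⁻¹).val = g := by
    rw [pow_zmod_mul hg, mul_inv_cancel₀ ht, ZMod.val_one, pow_one]

/-- Steinberg's relations in a special rank one group of prime exponent. -/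
noncomputable def rootData : SLTwo.RootData (ZMod p) G where
  x r := a ^ r.val
  y r := opp A B a ^ r.val
  x_add := pow_zmod_add (hexp a ha)
  y_add := pow_zmod_add (opp_exp h hexp ha ha1)
  braid t ht := by
    rw [← opp_zmod_pow h hexp ha ha1 ht]
    exact braid h (pow_mem ha _) (pow_ne_one h hexp ha ha1 ht)
  conj_x t ht r := by
    have h1 := flip_conj_self h (pow_mem ha t.val) (pow_ne_one h hexp ha ha1 ht)
    simp only [flip1, opp_zmod_pow h hexp ha ha1 ht] at h1
    have h2 := congrArg (fun g => g ^ (r / t).val) h1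
    simp only [conj_pow] at h2
    rw [pow_zmod_mul (hexp a ha), pow_zmod_mul (opp_exp h hexp ha ha1),
      mul_div_cancel₀ r ht] at h2
    rw [show r / (t * t) = t⁻¹ * (r / t) by field_simp]
    exact mul_inv_eq_iff_eq_mul.1 h2
  conj_y t ht r := by
    have h1 := flip_conj_opp h (pow_mem ha t.val) (pow_ne_one h hexp ha ha1 ht)
    simp only [flip1, opp_zmod_pow h hexp ha ha1 ht] at h1
    have h2 := congrArg (fun g => g ^ (t * r).val) h1
    simp only [conj_pow] at h2
    rw [pow_zmod_mul (hexp a ha), pow_zmod_mul (opp_exp h hexp ha ha1),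
      inv_mul_cancel_left₀ ht, ← mul_assoc] at h2
    exact mul_inv_eq_iff_eq_mul.1 h2

/-- `⟨a, opp a⟩` is an image of SL₂(p) with central kernel. -/
theorem minimal_sl2 :
    Nonempty (↥(Subgroup.closure ({a, opp A B a} : Set G)) ≃* SpecialLinearGroup (Fin 2) (ZMod p)) ∨
    Nonempty (↥(Subgroup.closure ({a, opp A B a} : Set G)) ≃*
      ProjectiveSpecialLinearGroup (Fin 2) (ZMod p)) := by
  classical
  obtain ⟨D, hD⟩ : ∃ D, D = rootData h hexp ha ha1 := ⟨_, rfl⟩
  obtain ⟨f, hf⟩ : ∃ f, f = D.toHom := ⟨_, rfl⟩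
  have hx : ∀ r, f (SLTwo.up r) = a ^ r.val := fun r => by
    rw [hf, SLTwo.RootData.toHom_up, hD]; rfl
  have hy : ∀ r, f (SLTwo.low r) = opp A B a ^ (-r).val := fun r => by
    rw [hf, SLTwo.RootData.toHom_low, hD]; rfl
  have hrange : f.range = Subgroup.closure ({a, opp A B a} : Set G) := by
    refine le_antisymm ?_ ((Subgroup.closure_le _).2 ?_)
    · rw [MonoidHom.range_eq_map, ← SLTwo.sup_eq_top, Subgroup.map_sup]
      refine sup_le ?_ ?_
      · rintro _ ⟨g, hg, rfl⟩
        obtain ⟨r, rfl⟩ := SLTwo.mem_lower.1 hg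
        rw [hy]
        exact pow_mem (Subgroup.subset_closure (by simp)) _
      · rintro _ ⟨g, hg, rfl⟩
        obtain ⟨r, rfl⟩ := SLTwo.mem_upper.1 hg
        rw [hx]
        exact pow_mem (Subgroup.subset_closure (by simp)) _
    · rintro g (rfl | rfl)
      · exact ⟨SLTwo.up 1, by rw [hx, ZMod.val_one, pow_one]⟩
      · exact ⟨SLTwo.low (-1), by rw [hy, neg_neg, ZMod.val_one, pow_one]⟩
  have hker : f.ker ≤ Subgroup.center _ := by
    rcases RankOne.normal_dichotomy (SLTwo.isRankOnePair (k := ZMod p)) (N := f.ker)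
      (by rw [SLTwo.sup_eq_top]; exact le_top)
      (fun x _ n hn => (inferInstance : f.ker.Normal).conj_mem n hn x) with hs | hc
    · exfalso
      apply ha1
      refine RankOne.eq_one_of_normalizes h.rk ha (conjBy_self_of_mem ?_)
      have h1 : f (SLTwo.up 1) ∈ Subgroup.map f (f.ker ⊔ lowerUnipotentSL2 (ZMod p)) := by
        refine ⟨_, ?_, rfl⟩
        rw [hs, SLTwo.sup_eq_top]
        trivial
      rw [hx, ZMod.val_one, pow_one, Subgroup.map_sup, Subgroup.map_eq_bot_iff _ |>.2 le_rfl,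
        bot_sup_eq] at h1
      obtain ⟨g, hg, hga⟩ := h1
      obtain ⟨r, rfl⟩ := SLTwo.mem_lower.1 hg
      rw [hy] at hga
      exact hga ▸ pow_mem (opp_mem h ha) _
    · rwa [SLTwo.sup_eq_top, Subgroup.coe_top, Subgroup.centralizer_univ] at hc
  by_cases hbot : f.ker = ⊥
  · exact Or.inl ⟨((MonoidHom.ofInjective ((f.ker_eq_bot_iff).1 hbot)).trans
      (MulEquiv.subgroupCongr hrange)).symm⟩
  · refine Or.inr ?_
    have heq : f.ker = Subgroup.center _ := by
      refine le_antisymm hker fun z hz => ?_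
      obtain ⟨w, hw, hw1⟩ := f.ker.bot_or_exists_ne_one.resolve_left hbot
      have hscalar : ∀ g ∈ Subgroup.center (SpecialLinearGroup (Fin 2) (ZMod p)),
          g = 1 ∨ g = -1 := by
        intro g hg
        obtain ⟨r, hr, hrg⟩ := Matrix.SpecialLinearGroup.mem_center_iff.1 hg
        rw [Fintype.card_fin, sq_eq_one_iff] at hr
        refine hr.imp (fun h1 => Subtype.ext ?_) (fun h1 => Subtype.ext ?_)
        · rw [← hrg, h1]; simp
        · rw [← hrg, h1]; simp [Matrix.diagonal_neg, ← Matrix.diagonal_one]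
      rcases hscalar z hz with rfl | rfl
      · exact one_mem _
      · rcases hscalar w (hker hw) with rfl | rfl
        · exact absurd rfl hw1
        · exact hw
    exact ⟨((MulEquiv.subgroupCongr hrange).symm.trans
      (QuotientGroup.quotientKerEquivRange f).symm).trans (QuotientGroup.quotientMulEquivOfEq heq)⟩

end CfsgLib.RootSubgroups.AbSpecial
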