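import Cfsg.Agent.RootSubgroups.Special

/-!
# Normal subgroups of the derived group of a special rank one group
-/

set_option autoImplicit false

namespace CfsgLib.RootSubgroups

open Cfsg
open scoped commutatorElement

variable {G : Type*} [Group G]

theorem exists_eq_mul_of_sup {N A : Subgroup G} (hn : ∀ a ∈ A, ∀ n ∈ N, a * n * a⁻¹ ∈ N) {x : G}
    (hx : x ∈ N ⊔ A) : ∃ n ∈ N, ∃ a ∈ A, n * a = x := by
  rw [Subgroup.sup_eq_closure] at hx
  induction hx using Subgroup.closure_induction with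
  | mem y hy =>
    rcases hy with hy | hy
    · exact ⟨y, hy, 1, one_mem _, mul_one y⟩
    · exact ⟨1, one_mem _, y, hy, one_mul y⟩
  | one => exact ⟨1, one_mem _, 1, one_mem _, one_mul 1⟩
  | mul y z _ _ ihy ihz =>
    obtain ⟨n, hn', a, ha, rfl⟩ := ihy
    obtain ⟨m, hm, b, hb, rfl⟩ := ihz
    exact ⟨n * (a * m * a⁻¹), mul_mem hn' (hn a ha m hm), a * b, mul_mem ha hb,
      by simp [mul_assoc]⟩
  | inv y _ ih =>
    obtain ⟨n, hn', a, ha, rfl⟩ := ih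
    exact ⟨a⁻¹ * n⁻¹ * a, by simpa using hn a⁻¹ (inv_mem ha) n⁻¹ (inv_mem hn'), a⁻¹, inv_mem ha,
      by simp [mul_assoc]⟩

/-- A normal supplement of a commutative subgroup contains the commutator subgroup. -/
theorem commutator_le_of_supplement {N A X : Subgroup G}
    (hn : ∀ x ∈ X, ∀ n ∈ N, x * n * x⁻¹ ∈ N) (hsup : N ⊔ A = X)
    (hA : ∀ a ∈ A, ∀ e ∈ A, a * e = e * a) : ⁅X, X⁆ ≤ N := by
  have hAX : A ≤ X := hsup ▸ le_sup_right
  rw [Subgroup.commutator_le]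
  intro x hx y hy
  obtain ⟨n, hn', a, ha, rfl⟩ :=
    exists_eq_mul_of_sup (fun a ha => hn a (hAX ha)) (hsup.symm ▸ hx)
  obtain ⟨m, hm, e, he, rfl⟩ :=
    exists_eq_mul_of_sup (fun a ha => hn a (hAX ha)) (hsup.symm ▸ hy)
  have e1 : ⁅n * a, m * e⁆ = n * (a * m * a⁻¹) * (e * n⁻¹ * e⁻¹) * m⁻¹ := by
    have h' : a * e * a⁻¹ = e := by rw [hA a ha e he, mul_inv_cancel_right]
    calc ⁅n * a, m * e⁆ = n * (a * m * a⁻¹) * (a * e * a⁻¹) * n⁻¹ * e⁻¹ * m⁻¹ := by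
          simp [commutatorElement_def, mul_assoc]
      _ = _ := by rw [h']; simp [mul_assoc]
  rw [e1]
  exact mul_mem (mul_mem (mul_mem hn' (hn a (hAX ha) m hm))
    (hn e (hAX he) _ (inv_mem hn'))) (inv_mem hm)

theorem derived_conj_mem {X : Subgroup G} {g : G} (hg : g ∈ X) {z : G} (hz : z ∈ ⁅X, X⁆) :
    g * z * g⁻¹ ∈ ⁅X, X⁆ := by
  have : ⁅X, X⁆ ≤ (⁅X, X⁆).comap (MulAut.conj g).toMonoidHom := by
    rw [Subgroup.commutator_le]
    intro x hx y hy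
    rw [Subgroup.mem_comap]
    show g * ⁅x, y⁆ * g⁻¹ ∈ _
    have e : g * ⁅x, y⁆ * g⁻¹ = ⁅g * x * g⁻¹, g * y * g⁻¹⁆ := by
      simp [commutatorElement_def, mul_assoc]
    rw [e]
    exact Subgroup.commutator_mem_commutator (mul_mem (mul_mem hg hx) (inv_mem hg))
      (mul_mem (mul_mem hg hy) (inv_mem hg))
  exact this hz

theorem conjBy_derived {X : Subgroup G} {g : G} (hg : g ∈ X) :
    conjBy ⁅X, X⁆ g = ⁅X, X⁆ := by
  ext z
  rw [mem_conjBy]
  constructor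
  · intro hz
    simpa [mul_assoc] using derived_conj_mem hg hz
  · intro hz
    simpa [mul_assoc] using derived_conj_mem (inv_mem hg) hz

theorem derived_le (X : Subgroup G) : ⁅X, X⁆ ≤ X := by
  rw [Subgroup.commutator_le]
  intro x hx y hy
  rw [commutatorElement_def]
  exact mul_mem (mul_mem (mul_mem hx hy) (inv_mem hx)) (inv_mem hy)

/-- A perfect subgroup with only central and improper normal subgroups is quasisimple. -/
theorem isQuasisimple_of_dichotomy {K : Subgroup G} (hperf : ⁅K, K⁆ = K) (hne : K ≠ ⊥)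
    (hd : ∀ M : Subgroup G, M ≤ K → (∀ x ∈ K, ∀ m ∈ M, x * m * x⁻¹ ∈ M) →
      M ≤ Subgroup.centralizer (K : Set G) ∨ M = K) : IsQuasisimple ↥K := by
  have hc : commutator ↥K = ⊤ := by
    apply Subgroup.map_injective (Subgroup.subtype_injective K)
    rw [Subgroup.map_subtype_commutator, hperf, ← MonoidHom.range_eq_map, Subgroup.range_subtype]
  refine ⟨⟨hc⟩, ?_⟩
  haveI : Nontrivial (↥K ⧸ Subgroup.center ↥K) := by
    rw [QuotientGroup.nontrivial_iff]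
    intro htop
    apply hne
    rw [← hperf, commutator_eq_bot_iff_commutes]
    intro a ha b hb
    exact congrArg Subtype.val ((Subgroup.mem_center_iff.1
      (htop ▸ Subgroup.mem_top (⟨b, hb⟩ : ↥K))) ⟨a, ha⟩)
  refine ⟨fun N hN => ?_⟩
  let M₀ := N.comap (QuotientGroup.mk' (Subgroup.center ↥K))
  have hM₀ : M₀.Normal := hN.comap _
  rcases hd (M₀.map K.subtype) (Subgroup.map_subtype_le _) (by
    rintro x hx _ ⟨m, hm, rfl⟩
    exact ⟨⟨x, hx⟩ * m * ⟨x, hx⟩⁻¹, hM₀.conj_mem m hm _, rfl⟩) with hz | he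
  · left
    rw [Subgroup.eq_bot_iff_forall]
    intro z hz'
    obtain ⟨x, rfl⟩ := QuotientGroup.mk'_surjective _ z
    refine (QuotientGroup.eq_one_iff x).2 (Subgroup.mem_center_iff.2 fun y => Subtype.ext ?_)
    exact Subgroup.mem_centralizer_iff.1 (hz ⟨x, hz', rfl⟩) y y.2
  · right
    have hM₀top : M₀ = ⊤ := Subgroup.map_injective (Subgroup.subtype_injective K)
      (by rw [he, ← MonoidHom.range_eq_map, Subgroup.range_subtype])
    rw [eq_top_iff]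
    intro z _
    obtain ⟨x, rfl⟩ := QuotientGroup.mk'_surjective _ z
    exact (hM₀top ▸ Subgroup.mem_top x : x ∈ M₀)

namespace AbSpecial

variable {A B : Subgroup G}

/-- The element `flip e⁻¹ * flip a` normalizes both unipotent subgroups. -/
theorem flip_quot_fix (h : AbSpecial A B) {a e : G} (ha : a ∈ A) (ha1 : a ≠ 1) (he : e ∈ A)
    (he1 : e ≠ 1) :
    conjBy A ((flip1 A B e)⁻¹ * flip1 A B a) = A ∧ conjBy B ((flip1 A B e)⁻¹ * flip1 A B a) = B := by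
  constructor
  · rw [← conjBy_conjBy, conjBy_flip_left h ha ha1, conjBy_eq_iff, inv_inv,
      conjBy_flip_left h he he1]
  · rw [← conjBy_conjBy, conjBy_flip_right h ha ha1, conjBy_eq_iff, inv_inv,
      conjBy_flip_right h he he1]

/-- `[A, H]` absorbs the differences of the maps induced by the flips. -/
def Absorbs (A B D : Subgroup G) : Prop :=
  ∀ a ∈ A, a ≠ 1 → ∀ e ∈ A, e ≠ 1 → ∀ y ∈ A,
    ((flip1 A B e)⁻¹ * flip1 A B a) * y * ((flip1 A B e)⁻¹ * flip1 A B a)⁻¹ * y⁻¹ ∈ D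

/-- Action of `opp a` on the points. -/
theorem exists_point (h : AbSpecial A B) {D : Subgroup G} (hDA : D ≤ A) (hD : Absorbs A B D)
    {a y : G} (ha : a ∈ A) (ha1 : a ≠ 1) (hy : y ∈ A) (hy1 : y ≠ 1) (hay : a ≠ y) :
    ∃ d ∈ D, d ≠ y ∧ conjBy B (opp A B a * y) = conjBy B (y⁻¹ * d) := by
  have hv : a⁻¹ * y ∈ A := mul_mem (inv_mem ha) hy
  have hv1 : a⁻¹ * y ≠ 1 := fun h0 => hay (inv_mul_eq_one.1 h0)
  set v := a⁻¹ * y with hvdef
  have hnv := flip_conj_mem h ha ha1 hv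
  have hnv1 : flip1 A B a * v * (flip1 A B a)⁻¹ ≠ 1 := fun h0 => hv1 (by
    simpa [mul_assoc] using congrArg (fun t => (flip1 A B a)⁻¹ * t * flip1 A B a) h0)
  obtain ⟨r, hr, hr1, hrv⟩ := exists_opp_eq h hnv hnv1
  -- `r ≡ v` modulo `D`
  have hrel : (flip1 A B r)⁻¹ * flip1 A B a * v * ((flip1 A B r)⁻¹ * flip1 A B a)⁻¹ = r := by
    have h1 := flip_conj_self h hr hr1
    rw [hrv] at h1
    calc (flip1 A B r)⁻¹ * flip1 A B a * v * ((flip1 A B r)⁻¹ * flip1 A B a)⁻¹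
        = (flip1 A B r)⁻¹ * (flip1 A B a * v * (flip1 A B a)⁻¹) * flip1 A B r := by
          simp [mul_assoc]
      _ = r := by rw [← h1]; simp [mul_assoc]
  have hd := hD a ha ha1 r hr hr1 v hv
  rw [hrel] at hd
  have hz : conjBy B (opp A B a * y) = conjBy B (a⁻¹ * r⁻¹) := by
    have e1 : opp A B a * y = a⁻¹ * ((flip1 A B a * v * (flip1 A B a)⁻¹) * flip1 A B a) := by
      simp [flip1, hvdef, mul_assoc]
    rw [e1, ← hrv, ← mul_assoc, ← conjBy_conjBy, conjBy_flip_right h ha ha1, ← conjBy_conjBy,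
      opp_conj h hr hr1, conjBy_conjBy]
  have e2 : a⁻¹ * r⁻¹ = y⁻¹ * (r * v⁻¹)⁻¹ := by
    have hc : a⁻¹ * r⁻¹ = r⁻¹ * a⁻¹ := h.commA _ (inv_mem ha) _ (inv_mem hr)
    have hc2 : r * v⁻¹ = v⁻¹ * r := h.commA _ hr _ (inv_mem hv)
    rw [hc2, hvdef]
    rw [hc]
    have hc3 : r⁻¹ * a⁻¹ = a⁻¹ * r⁻¹ := hc.symm
    have hya : y⁻¹ * r⁻¹ = r⁻¹ * y⁻¹ := h.commA _ (inv_mem hy) _ (inv_mem hr)
    simp only [mul_inv_rev, inv_inv]
    rw [← mul_assoc y⁻¹, hya, mul_assoc, h.commA _ (inv_mem ha) _ hy, ← mul_assoc y⁻¹,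
      inv_mul_cancel, one_mul]
  refine ⟨(r * v⁻¹)⁻¹, inv_mem hd, fun h0 => ?_, by rw [hz, e2]⟩
  have hB : conjBy B (opp A B a * y) = B := by rw [hz, e2, h0, inv_mul_cancel, conjBy_one]
  rw [← conjBy_conjBy, conjBy_eq_iff, conjBy_self_of_mem (inv_mem (opp_mem h ha))] at hB
  exact hy1 (RankOne.eq_one_of_normalizes h.rk hy hB)

/-- Small `D` forces small `A`. -/
theorem encard_le (h : AbSpecial A B) {D : Subgroup G} (hDA : D ≤ A) (hD : Absorbs A B D)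
    {y : G} (hy : y ∈ A) (hy1 : y ≠ 1) :
    ((A : Set G) \ {1, y}).encard ≤ ((D : Set G) \ {y}).encard := by
  classical
  have hex : ∀ a ∈ (A : Set G) \ {1, y}, ∃ d ∈ (D : Set G) \ {y},
      conjBy B (opp A B a * y) = conjBy B (y⁻¹ * d) := by
    rintro a ⟨ha, hne⟩
    simp only [Set.mem_insert_iff, Set.mem_singleton_iff, not_or] at hne
    obtain ⟨d, hd, hdy, he⟩ := exists_point h hDA hD ha hne.1 hy hy1 hne.2
    exact ⟨d, ⟨hd, hdy⟩, he⟩
  choose! f hf hfe using hex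
  refine Set.encard_le_encard_of_injOn hf fun a ha e he hae => ?_
  have h1 := (hfe a ha).trans (hae ▸ (hfe e he).symm)
  rw [← conjBy_conjBy, ← conjBy_conjBy, conjBy_eq_iff, conjBy_conjBy] at h1
  have hP : conjBy B y ∈ unipotentSubgroups A B :=
    RankOne.conjBy_mem_unipotent (RankOne.right_mem_unipotent h.rk) (Subgroup.mem_sup_left hy)
  have hne : B ≠ conjBy B y := fun h0 => hy1 (RankOne.eq_one_of_normalizes h.rk hy h0.symm)
  have h2 := RankOne.eq_one_of_normalizes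
    (RankOne.pair_of_mem h.rk (RankOne.right_mem_unipotent h.rk) hP hne)
    (mul_mem (inv_mem (opp_mem h ha.1)) (opp_mem h he.1)) h1.symm
  exact opp_injective h ha.1 he.1 (inv_mul_eq_one.1 h2)

theorem exists_ne_pair {y : G} : ((A : Set G)).encard ≤ ((A : Set G) \ {1, y}).encard + 2 := by
  refine le_trans (Set.encard_le_encard_diff_add_encard _ _) (add_le_add le_rfl ?_)
  refine (Set.encard_insert_le _ _).trans ?_
  rw [Set.encard_singleton]
  norm_num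

theorem card_eq_encard (A : Subgroup G) : ENat.card A = (A : Set G).encard := rfl

/-- If `A` has more than three elements then so does every absorbing subgroup. -/
theorem three_lt_absorbing (h : AbSpecial A B) (hA : 3 < ENat.card A) {D : Subgroup G}
    (hDA : D ≤ A) (hD : Absorbs A B D) : 3 < ENat.card D := by
  by_contra hle
  rw [not_lt, card_eq_encard] at hle
  rw [card_eq_encard] at hA
  have hDfin : (D : Set G).Finite := Set.finite_of_encard_le_coe hle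
  obtain ⟨y₀, hy₀, hy₀1⟩ := RankOne.exists_left h.rk
  have hb : ∀ y ∈ A, y ≠ 1 → (A : Set G).encard ≤ ((D : Set G) \ {y}).encard + 2 :=
    fun y hy hy1 => exists_ne_pair.trans (add_le_add (encard_le h hDA hD hy hy1) le_rfl)
  have hAfin : (A : Set G).Finite := Set.finite_of_encard_le_coe (k := 5)
    ((hb y₀ hy₀ hy₀1).trans (le_trans (add_le_add ((Set.encard_le_encard
      Set.diff_subset).trans hle) le_rfl) (by norm_num)))
  rw [← hAfin.cast_ncard_eq] at hA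
  rw [← hDfin.cast_ncard_eq] at hle
  have hA4 : 3 < (A : Set G).ncard := by exact_mod_cast hA
  have hD3 : (D : Set G).ncard ≤ 3 := by exact_mod_cast hle
  have hdvd : (D : Set G).ncard ∣ (A : Set G).ncard := by
    have h1 := Subgroup.card_dvd_of_le hDA
    rwa [← Nat.card_coe_set_eq, ← Nat.card_coe_set_eq]
  by_cases hDb : ∀ y ∈ D, y = 1
  · have h1 : (A : Set G).encard ≤ 1 + 2 := by
      refine (hb y₀ hy₀ hy₀1).trans (add_le_add ?_ le_rfl)
      refine (Set.encard_le_encard (t := {1}) fun d hd => hDb d hd.1).trans ?_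
      rw [Set.encard_singleton]
    rw [← hAfin.cast_ncard_eq] at h1
    have h2 : (A : Set G).ncard ≤ 3 := by exact_mod_cast h1
    omega
  · push Not at hDb
    obtain ⟨y, hy, hy1⟩ := hDb
    have h1 := hb y (hDA hy) hy1
    have h2 : ((D : Set G) \ {y}).encard + 1 = (D : Set G).encard :=
      Set.encard_diff_singleton_add_one hy
    have hfin' : ((D : Set G) \ {y}).Finite := hDfin.subset Set.diff_subset
    rw [← hAfin.cast_ncard_eq, ← hfin'.cast_ncard_eq] at h1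
    rw [← hfin'.cast_ncard_eq, ← hDfin.cast_ncard_eq] at h2
    have h3 : (A : Set G).ncard ≤ ((D : Set G) \ {y}).ncard + 2 := by exact_mod_cast h1
    have h4 : ((D : Set G) \ {y}).ncard + 1 = (D : Set G).ncard := by exact_mod_cast h2
    have h5 : (A : Set G).ncard = 4 ∧ (D : Set G).ncard = 3 := by omega
    rw [h5.1, h5.2] at hdvd
    norm_num at hdvd

theorem derived_sup (h : AbSpecial A B) : ⁅A ⊔ B, A ⊔ B⁆ ⊔ A = A ⊔ B := by
  refine le_antisymm (sup_le (derived_le _) le_sup_left) (sup_le le_sup_right ?_)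
  intro b hb
  by_cases hb1 : b = 1
  · rw [hb1]; exact one_mem _
  obtain ⟨a, ha, ha1, rfl⟩ := exists_opp_eq h hb hb1
  rw [← flip_conj_self h ha ha1]
  have : flip1 A B a * a * (flip1 A B a)⁻¹ = ⁅flip1 A B a, a⁆ * a := by
    simp [commutatorElement_def, mul_assoc]
  rw [this]
  exact mul_mem (Subgroup.mem_sup_left (Subgroup.commutator_mem_commutator (flip_mem h ha)
    (Subgroup.mem_sup_left ha))) (Subgroup.mem_sup_right ha)

theorem absorbs_inf_derived (h : AbSpecial A B) : Absorbs A B (A ⊓ ⁅A ⊔ B, A ⊔ B⁆) := by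
  intro a ha ha1 e he he1 y hy
  refine Subgroup.mem_inf.2 ⟨?_, ?_⟩
  · refine mul_mem ?_ (inv_mem hy)
    exact (flip_quot_fix h ha ha1 he he1).1.le (mem_conjBy.2 (by simpa [mul_assoc] using hy))
  · exact Subgroup.commutator_mem_commutator
      (mul_mem (inv_mem (flip_mem h he)) (flip_mem h ha)) (Subgroup.mem_sup_left hy)

theorem absorbs_diagonal (h : AbSpecial A B) :
    Absorbs A B ⁅A, rankOneDiagonal A B⁆ ∧ ⁅A, rankOneDiagonal A B⁆ ≤ A := by
  constructor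
  · intro a ha ha1 e he he1 y hy
    obtain ⟨hA, hB⟩ := flip_quot_fix h ha ha1 he he1
    have hH : (flip1 A B e)⁻¹ * flip1 A B a ∈ rankOneDiagonal A B :=
      Subgroup.mem_inf.2 ⟨Subgroup.mem_inf.2 ⟨mul_mem (inv_mem (flip_mem h he)) (flip_mem h ha),
        conjBy_eq_self_iff.1 hA⟩, conjBy_eq_self_iff.1 hB⟩
    rw [Subgroup.commutator_comm]
    exact Subgroup.commutator_mem_commutator hH hy
  · rw [Subgroup.commutator_le]
    intro x hx y hy
    rw [commutatorElement_def, mul_assoc (x * y), mul_assoc x y, ← mul_assoc y x⁻¹]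
    refine mul_mem hx ?_
    exact (conjBy_eq_self_iff.2 hy.1.2).le (mem_conjBy.2 (by simpa [mul_assoc] using hx))

/-- The pair induced on the derived group. -/
theorem derived_pair (h : AbSpecial A B) (hA : 3 < ENat.card A) :
    AbSpecial (A ⊓ ⁅A ⊔ B, A ⊔ B⁆) (B ⊓ ⁅A ⊔ B, A ⊔ B⁆) ∧
    (∀ a ∈ A ⊓ ⁅A ⊔ B, A ⊔ B⁆,
      flip1 (A ⊓ ⁅A ⊔ B, A ⊔ B⁆) (B ⊓ ⁅A ⊔ B, A ⊔ B⁆) a = flip1 A B a) ∧
    3 < ENat.card ↥(A ⊓ ⁅A ⊔ B, A ⊔ B⁆) := by
  set X' := ⁅A ⊔ B, A ⊔ B⁆ with hX'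
  have hbig : 3 < ENat.card ↥(A ⊓ X') :=
    three_lt_absorbing h hA inf_le_left (absorbs_inf_derived h)
  have hmap : ∀ (C : Subgroup G) (g : G), g ∈ A ⊔ B →
      conjBy (C ⊓ X') g = conjBy C g ⊓ X' := by
    intro C g hg
    rw [show conjBy (C ⊓ X') g = conjBy C g ⊓ conjBy X' g from
      Subgroup.map_inf C X' _ (MulAut.conj g).injective, hX', conjBy_derived hg]
  have hopp : ∀ a ∈ A ⊓ X', a ≠ 1 → opp A B a ∈ B ⊓ X' := by
    intro a ha ha1
    refine ⟨opp_mem h ha.1, ?_⟩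
    rw [← flip_conj_self h ha.1 ha1]
    exact derived_conj_mem (flip_mem h ha.1) ha.2
  have hopp' : ∀ b ∈ B ⊓ X', b ≠ 1 → ∃ a ∈ A ⊓ X', a ≠ 1 ∧ opp A B a = b := by
    intro b hb hb1
    obtain ⟨a, ha, ha1, rfl⟩ := exists_opp_eq h hb.1 hb1
    refine ⟨a, ⟨ha, ?_⟩, ha1, rfl⟩
    rw [← flip_conj_opp h ha ha1]
    exact derived_conj_mem (flip_mem h ha) hb.2
  obtain ⟨a₀, ha₀, ha₀1⟩ : ∃ a ∈ A ⊓ X', a ≠ 1 := by
    by_contra hc
    push Not at hc
    rw [card_eq_encard, show ((A ⊓ X' : Subgroup G) : Set G) = {1} from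
      Set.Subset.antisymm (fun x hx => hc x hx) (Set.singleton_subset_iff.2 (one_mem _)),
      Set.encard_singleton] at hbig
    exact absurd hbig (by norm_num)
  have hne : A ⊓ X' ≠ B ⊓ X' := by
    intro he
    have : a₀ ∈ B ⊓ X' := he ▸ ha₀
    exact ha₀1 (RankOne.eq_one_of_normalizes h.rk ha₀.1 (conjBy_self_of_mem this.1))
  have hc : IsRankOnePair (A ⊓ X') (B ⊓ X') := by
    refine ⟨hne, ?_, ?_, fun a ha ha1 => ?_, fun b hb hb1 => ?_⟩
    · refine ⟨⟨1, ?_⟩⟩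
      rw [Subgroup.upperCentralSeries_one, eq_top_iff]
      exact fun x _ => Subgroup.mem_center_iff.2 fun y =>
        Subtype.ext (h.commA _ y.2.1 _ x.2.1)
    · refine ⟨⟨1, ?_⟩⟩
      rw [Subgroup.upperCentralSeries_one, eq_top_iff]
      exact fun x _ => Subgroup.mem_center_iff.2 fun y =>
        Subtype.ext (h.commB _ y.2.1 _ x.2.1)
    · refine ⟨(opp A B a)⁻¹, inv_mem (hopp a ha ha1), fun h0 =>
        opp_ne_one h ha.1 ha1 (inv_eq_one.1 h0), ?_⟩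
      rw [inv_inv, hmap A _ (Subgroup.mem_sup_right (opp_mem h ha.1)), opp_conj h ha.1 ha1,
        hmap B _ (inv_mem (Subgroup.mem_sup_left ha.1))]
    · obtain ⟨a, ha, ha1, rfl⟩ := hopp' b hb hb1
      refine ⟨a⁻¹, inv_mem ha, inv_ne_one.2 ha1, ?_⟩
      rw [inv_inv, hmap B _ (Subgroup.mem_sup_left ha.1),
        hmap A _ (inv_mem (Subgroup.mem_sup_right (opp_mem h ha.1))), opp_inv_conj h ha.1 ha1]
  have hspecial : IsSpecialRankOnePair (A ⊓ X') (B ⊓ X') := by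
    refine ⟨hc, fun a ha ha1 b hb hb1 hab => ?_⟩
    obtain ⟨b0, -, hu⟩ := RankOne.partner_unique hc ha ha1
    have hcanon : conjBy (A ⊓ X') ((opp A B a)⁻¹)⁻¹ = conjBy (B ⊓ X') a⁻¹ := by
      rw [inv_inv, hmap A _ (Subgroup.mem_sup_right (opp_mem h ha.1)), opp_conj h ha.1 ha1,
        hmap B _ (inv_mem (Subgroup.mem_sup_left ha.1))]
    have hb' : b = (opp A B a)⁻¹ := (hu b ⟨hb, hb1, hab⟩).trans (hu _
      ⟨inv_mem (hopp a ha ha1), fun h0 => opp_ne_one h ha.1 ha1 (inv_eq_one.1 h0), hcanon⟩).symm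
    exact h.sp.2 a ha.1 ha1 b hb.1 hb1 (by rw [hb', inv_inv]; exact opp_conj h ha.1 ha1)
  have h1 : AbSpecial (A ⊓ X') (B ⊓ X') :=
    ⟨hspecial, fun x hx y hy => h.commA x hx.1 y hy.1, fun x hx y hy => h.commB x hx.1 y hy.1⟩
  refine ⟨h1, fun a ha => ?_, hbig⟩
  by_cases ha1 : a = 1
  · simp [flip1, ha1, opp_one]
  · have := opp_unique h1 ha ha1 (hopp a ha ha1) (by
      rw [hmap A _ (Subgroup.mem_sup_right (opp_mem h ha.1)), opp_conj h ha.1 ha1,
        hmap B _ (inv_mem (Subgroup.mem_sup_left ha.1))])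
    rw [flip1, flip1, this]

theorem derived_perfect (h : AbSpecial A B) (hA : 3 < ENat.card A) :
    ⁅⁅A ⊔ B, A ⊔ B⁆, ⁅A ⊔ B, A ⊔ B⁆⁆ = ⁅A ⊔ B, A ⊔ B⁆ := by
  refine le_antisymm (derived_le _) ?_
  have hn : ∀ x ∈ A ⊔ B, ∀ n ∈ ⁅⁅A ⊔ B, A ⊔ B⁆, ⁅A ⊔ B, A ⊔ B⁆⁆,
      x * n * x⁻¹ ∈ ⁅⁅A ⊔ B, A ⊔ B⁆, ⁅A ⊔ B, A ⊔ B⁆⁆ := by
    intro x hx n hn
    have h1 : n ∈ ⁅⁅A ⊔ B, A ⊔ B⁆, ⁅A ⊔ B, A ⊔ B⁆⁆ := hn
    have hmap : conjBy ⁅⁅A ⊔ B, A ⊔ B⁆, ⁅A ⊔ B, A ⊔ B⁆⁆ x =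
        ⁅⁅A ⊔ B, A ⊔ B⁆, ⁅A ⊔ B, A ⊔ B⁆⁆ := by
      rw [show conjBy ⁅⁅A ⊔ B, A ⊔ B⁆, ⁅A ⊔ B, A ⊔ B⁆⁆ x =
        ⁅conjBy ⁅A ⊔ B, A ⊔ B⁆ x, conjBy ⁅A ⊔ B, A ⊔ B⁆ x⁆ from Subgroup.map_commutator _ _ _,
        conjBy_derived hx]
    exact hmap.le (mem_conjBy.2 (by simpa [mul_assoc] using h1))
  rcases RankOne.normal_dichotomy h.rk ((derived_le _).trans (derived_le _)) hn with hs | hc
  · exact commutator_le_of_supplement hn hs h.commA
  · exfalso
    obtain ⟨h1, -, hbig⟩ := derived_pair h hA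
    obtain ⟨a, ha, ha1⟩ := RankOne.exists_left h1.rk
    have hcm := opp_mem h1 ha
    have hc1 := opp_ne_one h1 ha ha1
    set c := opp (A ⊓ ⁅A ⊔ B, A ⊔ B⁆) (B ⊓ ⁅A ⊔ B, A ⊔ B⁆) a
    have hz := hc (Subgroup.commutator_mem_commutator ha.2 hcm.2)
    have hne : B ≠ conjBy B a := fun h0 =>
      ha1 (RankOne.eq_one_of_normalizes h.rk ha.1 h0.symm)
    have hu := RankOne.conjBy_mem_unipotent (RankOne.right_mem_unipotent h.rk)
      (Subgroup.mem_sup_left (T := B) ha.1)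
    have hcomm := (symm h).commA
    apply hc1
    refine RankOne.eq_one_of_commutes
      (RankOne.pair_of_mem h.rk (RankOne.right_mem_unipotent h.rk) hu hne) hcm.1 fun x hx => ?_
    -- `conjBy B a` is commutative and contains `z c`
    have hzc : ⁅a, c⁆ * c ∈ conjBy B a := by
      rw [commutatorElement_def, inv_mul_cancel_right]
      exact mem_conjBy.2 (by simpa [mul_assoc] using hcm.1)
    have h2 : (⁅a, c⁆ * c) * x = x * (⁅a, c⁆ * c) := by
      have e1 := h.commB _ (mem_conjBy.1 hzc) _ (mem_conjBy.1 hx)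
      simpa [mul_assoc] using congrArg (fun t => a * t * a⁻¹) e1
    have h3 : x * ⁅a, c⁆ = ⁅a, c⁆ * x :=
      Subgroup.mem_centralizer_iff.1 hz x (RankOne.le_sup_of_mem hu hx)
    rw [← mul_assoc, h3, mul_assoc, mul_assoc] at h2
    exact mul_left_cancel h2

/-- Normal subgroups of the derived group are central or everything. -/
theorem derived_dichotomy (h : AbSpecial A B) (hA : 3 < ENat.card A) {M : Subgroup G}
    (hM : M ≤ ⁅A ⊔ B, A ⊔ B⁆)
    (hMn : ∀ x ∈ ⁅A ⊔ B, A ⊔ B⁆, ∀ m ∈ M, x * m * x⁻¹ ∈ M) :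
    M ≤ Subgroup.centralizer ((A ⊔ B : Subgroup G) : Set G) ∨ M = ⁅A ⊔ B, A ⊔ B⁆ := by
  set X' := ⁅A ⊔ B, A ⊔ B⁆ with hX'
  have hX'X : X' ≤ A ⊔ B := derived_le _
  have hAn : ∀ a ∈ A, ∀ n ∈ X', a * n * a⁻¹ ∈ X' := fun a ha n hn =>
    derived_conj_mem (Subgroup.mem_sup_left ha) hn
  by_cases hfix : ∀ m ∈ M, conjBy A m = A
  · left
    have hall : ∀ C ∈ unipotentSubgroups A B, ∀ m ∈ M, conjBy C m = C := by
      rintro C ⟨y, hy, rfl⟩ m hm
      obtain ⟨x, hx, a, ha, rfl⟩ := exists_eq_mul_of_sup hAn ((derived_sup h).symm ▸ hy)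
      rw [← conjBy_conjBy A x a, conjBy_self_of_mem ha]
      have h1 := hfix _ (hMn x⁻¹ (inv_mem hx) m hm)
      rw [inv_inv] at h1
      have h2 := congrArg (fun C => conjBy C x) h1
      simpa [conjBy_conjBy, mul_assoc] using h2
    intro m hm
    have key : ∀ (C D : Subgroup G), IsRankOnePair C D → C ∈ unipotentSubgroups A B →
        D ∈ unipotentSubgroups A B → C ≤ A ⊔ B → ∀ c ∈ C, m * c = c * m := by
      intro C D hCD hC hD hle c hc
      have h1 : m * c * m⁻¹ * c⁻¹ ∈ C :=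
        mul_mem ((hall C hC m hm).le (mem_conjBy.2 (by simpa [mul_assoc] using hc))) (inv_mem hc)
      have h2 : conjBy D (m * c * m⁻¹ * c⁻¹) = D := by
        rw [show m * c * m⁻¹ * c⁻¹ = m * (c * (m⁻¹ * c⁻¹)) by simp [mul_assoc], ← conjBy_conjBy,
          ← conjBy_conjBy, ← conjBy_conjBy,
          hall _ (RankOne.conjBy_mem_unipotent hD (inv_mem (hle hc))) _ (inv_mem hm),
          conjBy_conjBy D c, mul_inv_cancel, conjBy_one, hall D hD m hm]
      have h3 := RankOne.eq_one_of_normalizes hCD h1 h2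
      calc m * c = m * c * m⁻¹ * c⁻¹ * (c * m) := by simp [mul_assoc]
        _ = c * m := by rw [h3, one_mul]
    exact RankOne.commutes_sup
      (key A B h.rk RankOne.left_mem_unipotent (RankOne.right_mem_unipotent h.rk) le_sup_left)
      (key B A (RankOne.symm h.rk) (RankOne.right_mem_unipotent h.rk) RankOne.left_mem_unipotent
        le_sup_right)
  · right
    push Not at hfix
    obtain ⟨m₀, hm₀, hne⟩ := hfix
    obtain ⟨a₀, ha₀, hC⟩ := ((RankOne.mem_unipotent_iff h.rk).1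
      (RankOne.conjBy_mem_unipotent RankOne.left_mem_unipotent (hX'X (hM hm₀)))).resolve_left hne
    -- replace `M` by a conjugate containing an element mapping `A` to `B`
    set M₁ := conjBy M a₀⁻¹ with hM₁
    have hM₁X : M₁ ≤ X' :=
      (conjBy_mono _ hM).trans (conjBy_derived (inv_mem (Subgroup.mem_sup_left ha₀))).le
    suffices hM₁eq : M₁ = X' by
      rw [hM₁, conjBy_eq_iff, inv_inv, hX', conjBy_derived (Subgroup.mem_sup_left ha₀)] at hM₁eq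
      exact hM₁eq
    have hM₁n : ∀ x ∈ X', ∀ m ∈ M₁, x * m * x⁻¹ ∈ M₁ := by
      intro x hx m hm
      rw [hM₁, mem_conjBy] at hm ⊢
      have := hMn _ (derived_conj_mem (Subgroup.mem_sup_left ha₀) hx) _ hm
      simpa [mul_assoc] using this
    obtain ⟨m, hm, hmB⟩ : ∃ m ∈ M₁, conjBy A m = B := by
      refine ⟨a₀⁻¹ * m₀ * a₀, mem_conjBy.2 (by simpa [mul_assoc] using hm₀), ?_⟩
      rw [← conjBy_conjBy, conjBy_self_of_mem ha₀, ← conjBy_conjBy, hC, conjBy_conjBy,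
        inv_mul_cancel, conjBy_one]
    clear_value M₁
    clear hM₁ hne hC hm₀ hMn hM
    obtain ⟨h1, hflip, hbig⟩ := derived_pair h hA
    rw [← hX'] at h1 hflip hbig
    -- the quotient of `X'` by `M₁`
    let N : Subgroup ↥X' := M₁.subgroupOf X'
    haveI : N.Normal := ⟨fun n hn g => Subgroup.mem_subgroupOf.2 (by
      simpa using hM₁n _ g.2 _ (Subgroup.mem_subgroupOf.1 hn))⟩
    let q : ↥X' → ↥X' ⧸ N := fun x => (x : ↥X' ⧸ N)
    have hqm : q ⟨m, hM₁X hm⟩ = 1 :=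
      (QuotientGroup.eq_one_iff _).2 (Subgroup.mem_subgroupOf.2 hm)
    -- images of `B` are images of `A`
    have himg : ∀ b ∈ B ⊓ X', ∃ (a : G) (haX : a ∈ X') (hbX : b ∈ X'),
        a ∈ A ∧ q ⟨b, hbX⟩ = q ⟨a, haX⟩ := by
      intro b hb
      have hbA : m⁻¹ * b * m ∈ A := mem_conjBy.1 (hmB.symm.le hb.1)
      have hbX : m⁻¹ * b * m ∈ X' := mul_mem (mul_mem (inv_mem (hM₁X hm)) hb.2) (hM₁X hm)
      refine ⟨_, hbX, hb.2, hbA, ?_⟩
      have e : (⟨m⁻¹ * b * m, hbX⟩ : ↥X') = ⟨m, hM₁X hm⟩⁻¹ * ⟨b, hb.2⟩ * ⟨m, hM₁X hm⟩ :=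
        Subtype.ext rfl
      show q ⟨b, hb.2⟩ = q ⟨m⁻¹ * b * m, hbX⟩
      rw [e]
      show _ = ((⟨m, hM₁X hm⟩⁻¹ * ⟨b, hb.2⟩ * ⟨m, hM₁X hm⟩ : ↥X') : ↥X' ⧸ N)
      rw [QuotientGroup.mk_mul, QuotientGroup.mk_mul, QuotientGroup.mk_inv,
        show ((⟨m, hM₁X hm⟩ : ↥X') : ↥X' ⧸ N) = 1 from hqm]
      simp [q]
    have hab : ∀ x y : ↥X', (x : G) ∈ A → (y : G) ∈ A → q x * q y = q y * q x := by
      intro x y hx hy
      show ((x : ↥X') : ↥X' ⧸ N) * y = y * x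
      rw [← QuotientGroup.mk_mul, ← QuotientGroup.mk_mul,
        show x * y = y * x from Subtype.ext (h.commA _ hx _ hy)]
    -- flips act trivially modulo `M₁`
    have hflipq : ∀ a ∈ A ⊓ X', a ≠ 1 → ∀ y ∈ A ⊓ X', ∃ hy' : flip1 A B a * y * (flip1 A B a)⁻¹ ∈ X',
        ∀ hy0 : y ∈ X', q ⟨_, hy'⟩ = q ⟨y, hy0⟩ := by
      intro a ha ha1 y hy
      have hmem : flip1 A B a * y * (flip1 A B a)⁻¹ ∈ X' :=
        derived_conj_mem (flip_mem h ha.1) hy.2
      refine ⟨hmem, fun hy0 => ?_⟩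
      have hoppB : opp (A ⊓ X') (B ⊓ X') a ∈ B ⊓ X' := opp_mem h1 ha
      obtain ⟨c, hcX, hoX, hcA, hco⟩ := himg _ hoppB
      have hsa : opp (A ⊓ X') (B ⊓ X') a = opp A B a := by
        have := hflip a ha
        simpa [flip1] using this
      have e : (⟨flip1 A B a * y * (flip1 A B a)⁻¹, hmem⟩ : ↥X') =
          ⟨a, ha.2⟩ * ⟨_, hoX⟩ * ⟨a, ha.2⟩ * ⟨y, hy0⟩ * (⟨a, ha.2⟩ * ⟨_, hoX⟩ * ⟨a, ha.2⟩)⁻¹ :=
        Subtype.ext (by simp [flip1, hsa])
      show ((⟨flip1 A B a * y * (flip1 A B a)⁻¹, hmem⟩ : ↥X') : ↥X' ⧸ N) = _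
      rw [e]
      simp only [QuotientGroup.mk_mul, QuotientGroup.mk_inv]
      show q ⟨a, ha.2⟩ * q ⟨_, hoX⟩ * q ⟨a, ha.2⟩ * q ⟨y, hy0⟩ *
        (q ⟨a, ha.2⟩ * q ⟨_, hoX⟩ * q ⟨a, ha.2⟩)⁻¹ = q ⟨y, hy0⟩
      rw [hco, mul_inv_eq_iff_eq_mul]
      have e1 : Commute (q ⟨y, hy0⟩) (q ⟨a, ha.2⟩) := hab _ _ hy.1 ha.1
      have e2 : Commute (q ⟨y, hy0⟩) (q ⟨c, hcX⟩) := hab _ _ hy.1 hcA
      exact ((e1.mul_right e2).mul_right e1).eq.symm
    -- `M₁` meets `A`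
    obtain ⟨x₀, hx₀, hx₀1⟩ : ∃ x ∈ M₁ ⊓ A, x ≠ 1 := by
      by_contra hc
      push Not at hc
      have habs : Absorbs (A ⊓ X') (B ⊓ X') (M₁ ⊓ (A ⊓ X')) := by
        intro a ha ha1 e he he1 y hy
        rw [hflip a ha, hflip e he]
        have hwA : (flip1 A B e)⁻¹ * flip1 A B a * y * ((flip1 A B e)⁻¹ * flip1 A B a)⁻¹ ∈ A :=
          (flip_quot_fix h ha.1 ha1 he.1 he1).1.le (mem_conjBy.2 (by simpa [mul_assoc] using hy.1))
        set w := (flip1 A B e)⁻¹ * flip1 A B a * y * ((flip1 A B e)⁻¹ * flip1 A B a)⁻¹ with hw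
        have hwX : w ∈ X' :=
          derived_conj_mem (mul_mem (inv_mem (flip_mem h he.1)) (flip_mem h ha.1)) hy.2
        have hwy : w * y⁻¹ ∈ A ⊓ X' :=
          Subgroup.mem_inf.2 ⟨mul_mem hwA (inv_mem hy.1), mul_mem hwX (inv_mem hy.2)⟩
        refine ⟨?_, hwy⟩
        obtain ⟨hy1, hq1⟩ := hflipq a ha ha1 y hy
        obtain ⟨hy2, hq2⟩ := hflipq e he he1 w ⟨hwA, hwX⟩
        have e1 : flip1 A B e * w * (flip1 A B e)⁻¹ = flip1 A B a * y * (flip1 A B a)⁻¹ := by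
          simp [hw, mul_assoc]
        have e2 : q ⟨w, hwX⟩ = q ⟨y, hy.2⟩ := by
          rw [← hq2 hwX, ← hq1 hy.2]
          congr 1
          exact Subtype.ext e1
        have e3 : (⟨y, hy.2⟩ : ↥X')⁻¹ * ⟨w, hwX⟩ ∈ N := QuotientGroup.eq.1 e2.symm
        have e4 : y⁻¹ * w ∈ M₁ := Subgroup.mem_subgroupOf.1 e3
        rwa [h.commA _ (inv_mem hy.1) _ hwA] at e4
      have hbot : (M₁ ⊓ (A ⊓ X') : Subgroup G) = ⊥ := by
        rw [Subgroup.eq_bot_iff_forall]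
        exact fun x hx => hc x ⟨hx.1, hx.2.1⟩
      have h3 := three_lt_absorbing h1 hbig inf_le_right habs
      rw [card_eq_encard, hbot, Subgroup.coe_bot, Set.encard_singleton] at h3
      exact absurd h3 (by norm_num)
    -- intersect the conjugates
    let I : Subgroup G := ⨅ a ∈ A, conjBy M₁ a
    have hI : ∀ z, z ∈ I ↔ ∀ a ∈ A, a⁻¹ * z * a ∈ M₁ := by
      intro z
      simp only [I, Subgroup.mem_iInf, mem_conjBy]
    have hIM : I ≤ M₁ := fun z hz => by simpa using (hI z).1 hz 1 (one_mem _)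
    have hx₀I : x₀ ∈ I := by
      rw [hI]
      intro a ha
      rw [mul_assoc, h.commA x₀ hx₀.2 a ha, inv_mul_cancel_left]
      exact hx₀.1
    have hIn : ∀ x ∈ A ⊔ B, ∀ n ∈ I, x * n * x⁻¹ ∈ I := by
      intro x hx n hn
      obtain ⟨u, hu, a, ha, rfl⟩ := exists_eq_mul_of_sup hAn ((derived_sup h).symm ▸ hx)
      rw [hI]
      intro e he
      have h1 := (hI n).1 hn (a⁻¹ * e) (mul_mem (inv_mem ha) he)
      have h2 := hM₁n _ (derived_conj_mem (inv_mem (Subgroup.mem_sup_left he)) hu) _ h1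
      simpa [mul_assoc] using h2
    rcases RankOne.normal_dichotomy h.rk (hIM.trans (hM₁X.trans hX'X)) hIn with hs | hc
    · exact le_antisymm hM₁X ((commutator_le_of_supplement hIn hs h.commA).trans hIM)
    · exact absurd (RankOne.centralizer_inf_eq_one h.rk hx₀.2 (hc hx₀I)) hx₀1

theorem derived_ne_bot (h : AbSpecial A B) : ⁅A ⊔ B, A ⊔ B⁆ ≠ ⊥ := fun h0 =>
  RankOne.commutator_ne_bot h.rk
    (le_bot_iff.1 (h0 ▸ Subgroup.commutator_mono le_sup_left le_sup_right))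

theorem derived_quasisimple (h : AbSpecial A B) (hA : 3 < ENat.card A) :
    IsQuasisimple ↥(⁅A ⊔ B, A ⊔ B⁆) :=
  isQuasisimple_of_dichotomy (derived_perfect h hA) (derived_ne_bot h) fun _ hM hMn =>
    (derived_dichotomy h hA hM hMn).imp_left fun hc =>
      hc.trans (Subgroup.centralizer_le (derived_le _))

end AbSpecial

end CfsgLib.RootSubgroups
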