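import Cfsg.Agent.RootSubgroups.RankOne

/-!
# Groups of unipotent linear maps generated by an invariant family
-/

set_option autoImplicit false

namespace CfsgLib.RootSubgroups.Unip

open Cfsg

variable {k : Type*} [Field k] {M : Type*} [AddCommGroup M] [Module k M]

local notation "GL'" => LinearMap.GeneralLinearGroup k M

/-- The span of the endomorphisms `g - 1`, `g ∈ U`. -/
def disp (U : Subgroup GL') : Submodule k (Module.End k M) :=
  Submodule.span k ((fun g : GL' => (g : Module.End k M) - 1) '' (U : Set GL'))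

theorem sub_mem_disp {U : Subgroup GL'} {g : GL'} (hg : g ∈ U) :
    (g : Module.End k M) - 1 ∈ disp U :=
  Submodule.subset_span ⟨g, hg, rfl⟩

theorem disp_mono {U V : Subgroup GL'} (h : U ≤ V) : disp U ≤ disp V :=
  Submodule.span_mono (Set.image_mono h)

theorem mul_sub_one (g h : GL') : ((g * h : GL') : Module.End k M) - 1 =
    ((g : Module.End k M) - 1) * ((h : Module.End k M) - 1) + (((g : Module.End k M) - 1) +
      ((h : Module.End k M) - 1)) := by
  rw [Units.val_mul, sub_mul, mul_sub, one_mul, mul_one]; abel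

theorem disp_mul_le (U : Subgroup GL') : disp U * disp U ≤ disp U := by
  unfold disp
  rw [Submodule.span_mul_span, Submodule.span_le]
  rintro _ ⟨_, ⟨g, hg, rfl⟩, _, ⟨h, hh, rfl⟩, rfl⟩
  have := mul_sub_one g h
  simp only [SetLike.mem_coe]
  rw [eq_sub_of_add_eq this.symm]
  exact Submodule.sub_mem _ (sub_mem_disp (mul_mem hg hh))
    (Submodule.add_mem _ (sub_mem_disp hg) (sub_mem_disp hh))

theorem isUnipotentOn_iff {U : Subgroup GL'} :
    IsUnipotentOn U ↔ ∃ n, disp U ^ n = ⊥ := by
  constructor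
  · rintro ⟨n, hn⟩
    refine ⟨n, ?_⟩
    unfold disp
    rw [Submodule.span_pow, Submodule.span_eq_bot]
    intro x hx
    obtain ⟨f, rfl⟩ := Set.mem_pow.1 hx
    choose g hg hge using fun i => (f i).2
    have := hn (List.ofFn g) (fun y hy => by
      obtain ⟨i, rfl⟩ := List.mem_ofFn.1 hy
      exact hg i) (List.length_ofFn)
    simp only [List.bind_eq_flatMap, List.pure_def, List.flatMap_singleton', List.map_flatMap,
      List.map_map, List.map_ofFn, List.map_cons, List.map_nil] at this
    simpa [List.flatMap_singleton', ← List.map_eq_flatMap, Function.comp_def, hge] using this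
  · rintro ⟨n, hn⟩
    refine ⟨n, fun l hl hlen => ?_⟩
    have key : ∀ l : List GL', (∀ g ∈ l, g ∈ U) →
        (List.map (fun g : GL' => (g : Module.End k M) - 1) l).prod ∈ disp U ^ l.length := by
      intro l
      induction l with
      | nil => intro _; simp [Submodule.one_le.mp le_rfl]
      | cons a t ih =>
        intro h
        rw [List.map_cons, List.prod_cons, List.length_cons, pow_succ']
        exact Submodule.mul_mem_mul (sub_mem_disp (h a (by simp)))
          (ih fun g hg => h g (by simp [hg]))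
    have := key l hl
    rw [hlen, hn] at this
    simpa [List.bind_eq_flatMap, ← List.map_eq_flatMap, Function.comp_def] using
      (Submodule.mem_bot k).1 this

theorem disp_pow_anti (U : Subgroup GL') {i : ℕ} (hi : 0 < i) :
    disp U ^ (i + 1) ≤ disp U ^ i := by
  obtain ⟨j, rfl⟩ : ∃ j, i = j + 1 := ⟨i - 1, by omega⟩
  rw [pow_succ, pow_succ, mul_assoc]
  exact mul_le_mul' le_rfl (disp_mul_le U)

/-- The normalizer condition in a unipotent group. -/
theorem exists_normalizing {U H : Subgroup GL'} (hU : IsUnipotentOn U) (hHU : H ≤ U)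
    (hne : H ≠ U) : ∃ g ∈ U, g ∉ H ∧ conjBy H g = H := by
  classical
  obtain ⟨n, hn⟩ := isUnipotentOn_iff.1 hU
  obtain ⟨g₀, hg₀, hg₀H⟩ : ∃ g ∈ U, g ∉ H := by
    by_contra hc
    push Not at hc
    exact hne (le_antisymm hHU hc)
  -- the deepest layer not inside `H`
  let P : ℕ → Prop := fun i => ∃ g ∈ U, g ∉ H ∧ (g : Module.End k M) - 1 ∈ disp U ^ (i + 1)
  have h0 : P 0 := ⟨g₀, hg₀, hg₀H, by rw [zero_add, pow_one]; exact sub_mem_disp hg₀⟩
  have hbound : ¬ P n := by
    rintro ⟨g, -, hgH, hg⟩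
    rw [pow_succ, hn, Submodule.bot_mul, Submodule.mem_bot, sub_eq_zero] at hg
    exact hgH (by rw [show g = 1 from Units.ext hg]; exact one_mem H)
  obtain ⟨i, hi, hi'⟩ : ∃ i, P i ∧ ¬ P (i + 1) := by
    by_contra hc
    push Not at hc
    exact hbound (Nat.rec h0 hc n)
  obtain ⟨g, hgU, hgH, hg⟩ := hi
  have hcomm : ∀ h ∈ H, ∀ x ∈ U, (x = g ∨ x = g⁻¹) → x * h * x⁻¹ ∈ H := by
    intro h hh x hxU hx
    have hd : (g : Module.End k M) * h - h * g ∈ disp U ^ (i + 1 + 1) := by
      have e : (g : Module.End k M) * h - h * g =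
          ((g : Module.End k M) - 1) * ((h : Module.End k M) - 1) -
          ((h : Module.End k M) - 1) * ((g : Module.End k M) - 1) := by
        simp only [sub_mul, mul_sub, one_mul, mul_one]; abel
      rw [e]
      refine Submodule.sub_mem _ ?_ ?_
      · rw [pow_succ]; exact Submodule.mul_mem_mul hg (sub_mem_disp (hHU hh))
      · rw [pow_succ' (disp U) (i + 1)]; exact Submodule.mul_mem_mul (sub_mem_disp (hHU hh)) hg
    have hmul : ∀ z ∈ disp U ^ (i + 1 + 1), ∀ y ∈ U,
        z * (y : Module.End k M) ∈ disp U ^ (i + 1 + 1) ∧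
        (y : Module.End k M) * z ∈ disp U ^ (i + 1 + 1) := by
      intro z hz y hy
      have hanti := disp_pow_anti U (i := i + 1 + 1) (by omega)
      constructor
      · have h1 : z * ((y : Module.End k M) - 1) ∈ disp U ^ (i + 1 + 1) := hanti (by
          rw [pow_succ]; exact Submodule.mul_mem_mul hz (sub_mem_disp hy))
        simpa [mul_sub] using Submodule.add_mem _ h1 hz
      · have h1 : ((y : Module.End k M) - 1) * z ∈ disp U ^ (i + 1 + 1) := hanti (by
          rw [pow_succ']; exact Submodule.mul_mem_mul (sub_mem_disp hy) hz)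
        simpa [sub_mul] using Submodule.add_mem _ h1 hz
    have hcU : x * h * x⁻¹ * h⁻¹ ∈ U :=
      mul_mem (mul_mem (mul_mem hxU (hHU hh)) (inv_mem hxU)) (inv_mem (hHU hh))
    have hdeep : ((x * h * x⁻¹ * h⁻¹ : GL') : Module.End k M) - 1 ∈ disp U ^ (i + 1 + 1) := by
      rcases hx with rfl | rfl
      · have e : ((x * h * x⁻¹ * h⁻¹ : GL') : Module.End k M) - 1 =
            ((x : Module.End k M) * h - h * x) * ((x⁻¹ * h⁻¹ : GL') : Module.End k M) := by
          have : (1 : Module.End k M) = ((h * x * (x⁻¹ * h⁻¹) : GL') : Module.End k M) := by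
            simp [mul_assoc]
          rw [this]
          simp only [Units.val_mul, sub_mul, mul_assoc]
        rw [e]
        exact (hmul _ hd _ (mul_mem (inv_mem hxU) (inv_mem (hHU hh)))).1
      · have e : ((g⁻¹ * h * g⁻¹⁻¹ * h⁻¹ : GL') : Module.End k M) - 1 =
            -(((g⁻¹ : GL') : Module.End k M) * (((g : Module.End k M) * h - h * g) *
              ((h⁻¹ : GL') : Module.End k M))) := by
          have : (1 : Module.End k M) = ((g⁻¹ * (g * h * h⁻¹) : GL') : Module.End k M) := by
            simp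
          rw [this, inv_inv]
          simp only [Units.val_mul, sub_mul, mul_sub, mul_assoc, neg_sub]
        rw [e]
        exact Submodule.neg_mem _
          (hmul _ (hmul _ hd _ (inv_mem (hHU hh))).1 _ (inv_mem hgU)).2
    have hin : x * h * x⁻¹ * h⁻¹ ∈ H := by
      by_contra hout
      exact hi' ⟨_, hcU, hout, hdeep⟩
    simpa using mul_mem hin hh
  refine ⟨g, hgU, hgH, ?_⟩
  ext x
  rw [mem_conjBy]
  constructor
  · intro hx
    simpa [mul_assoc] using hcomm _ hx g hgU (Or.inl rfl)
  · intro hx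
    simpa [mul_assoc] using hcomm x hx g⁻¹ (inv_mem hgU) (Or.inr rfl)

theorem disp_conj {V : Subgroup GL'} {q : GL'} (hq : conjBy V q = V) {v : GL'} (hv : v ∈ V) :
    (q : Module.End k M) * ((v : Module.End k M) - 1) =
      (((q * v * q⁻¹ : GL') : Module.End k M) - 1) * q ∧ q * v * q⁻¹ ∈ V := by
  refine ⟨?_, hq ▸ mem_conjBy.2 (by simpa [mul_assoc] using hv)⟩
  simp [mul_sub, sub_mul, mul_assoc]

/-- A unipotent group normalized by a unipotent group generates a unipotent group with it. -/
theorem sup_unipotent {V Q : Subgroup GL'} (hV : IsUnipotentOn V) (hQ : IsUnipotentOn Q)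
    (hn : ∀ q ∈ Q, conjBy V q = V) : IsUnipotentOn (V ⊔ Q) := by
  obtain ⟨nV, hnV⟩ := isUnipotentOn_iff.1 hV
  obtain ⟨nQ, hnQ⟩ := isUnipotentOn_iff.1 hQ
  set LV := disp V with hLV
  set LQ := disp Q with hLQ
  set E : Submodule k (Module.End k M) := 1 ⊔ LQ with hE
  set I := LV * E with hI
  have hVV : LV * LV ≤ LV := disp_mul_le V
  have hQQ : LQ * LQ ≤ LQ := disp_mul_le Q
  have hQE : LQ ≤ E := le_sup_right
  have hEE : E * E ≤ E := by
    rw [hE, Submodule.sup_mul, one_mul, Submodule.mul_sup, mul_one]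
    exact sup_le le_rfl (sup_le le_sup_right (hQQ.trans le_sup_right))
  have hVI : LV ≤ I := by
    rw [hI, hE, Submodule.mul_sup, mul_one]; exact le_sup_left
  have hEV : E * LV ≤ I := by
    rw [hE, Submodule.sup_mul, one_mul]
    refine sup_le hVI ?_
    rw [hLQ, hLV]
    unfold disp
    rw [Submodule.span_mul_span, Submodule.span_le]
    rintro _ ⟨_, ⟨q, hq, rfl⟩, _, ⟨v, hv, rfl⟩, rfl⟩
    simp only [SetLike.mem_coe]
    rw [sub_mul, one_mul]
    obtain ⟨e, hv'⟩ := disp_conj (hn q hq) hv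
    refine Submodule.sub_mem _ ?_ (hVI (sub_mem_disp hv))
    rw [e]
    refine Submodule.mul_mem_mul (sub_mem_disp hv') ?_
    rw [← sub_add_cancel (q : Module.End k M) 1]
    exact Submodule.add_mem _ (hQE (sub_mem_disp hq))
      ((le_sup_left : (1 : Submodule k (Module.End k M)) ≤ E) (Submodule.one_le.mp le_rfl))
  have hIE : I * E ≤ I := by rw [hI, mul_assoc]; exact mul_le_mul' le_rfl hEE
  have hII : I * I ≤ I := by
    calc I * I = LV * (E * LV) * E := by rw [hI]; simp only [mul_assoc]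
      _ ≤ LV * I * E := mul_le_mul' (mul_le_mul' le_rfl hEV) le_rfl
      _ ≤ I := by
        rw [hI, ← mul_assoc LV LV E]
        exact le_trans (mul_le_mul' (mul_le_mul' hVV le_rfl) le_rfl) hIE
  have hEI : E * I ≤ I := by
    calc E * I = E * LV * E := by rw [hI, mul_assoc]
      _ ≤ I * E := mul_le_mul' hEV le_rfl
      _ ≤ I := hIE
  set R := I ⊔ LQ with hR
  have hRR : R * R ≤ R := by
    rw [hR, Submodule.sup_mul, Submodule.mul_sup, Submodule.mul_sup]
    exact sup_le (sup_le (hII.trans le_sup_left)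
      (((mul_le_mul' le_rfl hQE).trans hIE).trans le_sup_left))
      (sup_le (((mul_le_mul' hQE le_rfl).trans hEI).trans le_sup_left) (hQQ.trans le_sup_right))
  have hpow : ∀ j, R ^ (j + 1) ≤ I ⊔ LQ ^ (j + 1) := by
    intro j
    induction j with
    | zero => simp [hR]
    | succ j ih =>
      have hle : LQ ^ (j + 1) ≤ E := by
        clear ih
        induction j with
        | zero => simpa using hQE
        | succ m ihm =>
          rw [pow_succ]; exact (mul_le_mul' ihm hQE).trans hEE
      rw [pow_succ, pow_succ LQ]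
      refine (mul_le_mul' ih le_rfl).trans ?_
      rw [hR, Submodule.sup_mul, Submodule.mul_sup, Submodule.mul_sup]
      exact sup_le (sup_le (hII.trans le_sup_left)
        (((mul_le_mul' le_rfl hQE).trans hIE).trans le_sup_left))
        (sup_le (((mul_le_mul' hle le_rfl).trans hEI).trans le_sup_left) le_sup_right)
  have hIpow : ∀ j, I ^ (j + 1) ≤ LV ^ (j + 1) * E := by
    intro j
    induction j with
    | zero => simp [hI]
    | succ j ih =>
      calc I ^ (j + 1 + 1) = I ^ (j + 1) * I := pow_succ _ _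
        _ ≤ LV ^ (j + 1) * E * I := mul_le_mul' ih le_rfl
        _ = LV ^ (j + 1) * (E * I) := mul_assoc _ _ _
        _ ≤ LV ^ (j + 1) * I := mul_le_mul' le_rfl hEI
        _ = LV ^ (j + 1 + 1) * E := by rw [hI, ← mul_assoc, ← pow_succ]
  have hle : disp (V ⊔ Q) ≤ R := by
    unfold disp
    rw [Submodule.span_le]
    rintro _ ⟨g, hg, rfl⟩
    rw [SetLike.mem_coe] at hg ⊢
    rw [Subgroup.sup_eq_closure] at hg
    have hgen : ∀ x : GL', x ∈ V ∨ x ∈ Q → (x : Module.End k M) - 1 ∈ R := fun x hx =>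
      hx.elim (fun h => (le_sup_left : I ≤ R) (hVI (sub_mem_disp h)))
        (fun h => (le_sup_right : LQ ≤ R) (sub_mem_disp h))
    induction hg using Subgroup.closure_induction'' with
    | mem x hx => exact hgen x hx
    | inv_mem x hx => exact hgen _ (hx.imp inv_mem inv_mem)
    | one => simp
    | mul x y _ _ ihx ihy =>
      beta_reduce at ihx ihy ⊢
      rw [mul_sub_one]
      exact Submodule.add_mem _ (hRR (Submodule.mul_mem_mul ihx ihy))
        (Submodule.add_mem _ ihx ihy)
  refine isUnipotentOn_iff.2 ⟨(nQ + 1) * (nV + 1), le_bot_iff.1 ?_⟩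
  refine (pow_le_pow_left' hle _).trans ?_
  rw [pow_mul]
  refine (pow_le_pow_left' (hpow nQ) _).trans ?_
  rw [pow_succ LQ, hnQ, Submodule.bot_mul, sup_bot_eq]
  refine (hIpow nV).trans ?_
  rw [pow_succ, hnV, Submodule.bot_mul, Submodule.bot_mul]

section Family

/-- The subgroup generated by a subfamily. -/
def join (T : Set (Subgroup GL')) : Subgroup GL' := ⨆ A ∈ T, A

theorem le_join {T : Set (Subgroup GL')} {A : Subgroup GL'} (hA : A ∈ T) : A ≤ join T :=
  le_iSup₂ (f := fun B (_ : B ∈ T) => B) A hA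

theorem join_mono {T T' : Set (Subgroup GL')} (h : T ⊆ T') : join T ≤ join T' :=
  iSup₂_le fun A hA => le_join (h hA)

/-- The members whose displacements lie in the span of those of `T`. -/
def hat (W : Set (Subgroup GL')) (T : Set (Subgroup GL')) : Set (Subgroup GL') :=
  {A | A ∈ W ∧ ∀ g ∈ A, (g : Module.End k M) - 1 ∈ disp (join T)}

theorem subset_hat (W : Set (Subgroup GL')) {T : Set (Subgroup GL')} (hT : T ⊆ W) : T ⊆ hat W T :=
  fun _ hA => ⟨hT hA, fun _ hg => sub_mem_disp (le_join hA hg)⟩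

theorem disp_hat_le (W : Set (Subgroup GL')) (T : Set (Subgroup GL')) : disp (join (hat W T)) ≤ disp (join T) := by
  conv_lhs => unfold disp
  rw [Submodule.span_le]
  rintro _ ⟨g, hg, rfl⟩
  rw [SetLike.mem_coe] at hg ⊢
  unfold join at hg
  rw [show (⨆ A ∈ hat W T, A) = Subgroup.closure (⋃ A ∈ hat W T, (A : Set GL')) by
    simp [Subgroup.closure_iUnion]] at hg
  induction hg using Subgroup.closure_induction'' with
  | mem x hx =>
    obtain ⟨A, hA, hxA⟩ := Set.mem_iUnion₂.1 hx
    exact hA.2 x hxA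
  | inv_mem x hx =>
    obtain ⟨A, hA, hxA⟩ := Set.mem_iUnion₂.1 hx
    exact hA.2 _ (inv_mem hxA)
  | one => simp
  | mul x y _ _ ihx ihy =>
    beta_reduce at ihx ihy ⊢
    rw [mul_sub_one]
    exact Submodule.add_mem _ (disp_mul_le _ (Submodule.mul_mem_mul ihx ihy))
      (Submodule.add_mem _ ihx ihy)

theorem hat_unipotent (W : Set (Subgroup GL')) {T : Set (Subgroup GL')} (hT : IsUnipotentOn (join T)) :
    IsUnipotentOn (join (hat W T)) := by
  obtain ⟨n, hn⟩ := isUnipotentOn_iff.1 hT
  exact isUnipotentOn_iff.2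
    ⟨n, le_bot_iff.1 ((pow_le_pow_left' (disp_hat_le W T) n).trans hn.le)⟩

/-- Maximal unipotent subfamilies. -/
def IsMaxFam (W : Set (Subgroup GL')) (T : Set (Subgroup GL')) : Prop :=
  T ⊆ W ∧ IsUnipotentOn (join T) ∧
    ∀ T' : Set (Subgroup (LinearMap.GeneralLinearGroup k M)), T ⊆ T' → T' ⊆ W →
    IsUnipotentOn (join T') → T' ⊆ T

theorem hat_le_of_max (W : Set (Subgroup GL')) {T : Set (Subgroup GL')} (hT : IsMaxFam W T) : hat W T ⊆ T :=
  hT.2.2 _ (subset_hat W hT.1) (fun _ hA => hA.1) (hat_unipotent W hT.2.1)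

theorem exists_max (W : Set (Subgroup GL')) [FiniteDimensional k M] {T : Set (Subgroup GL')} (hTW : T ⊆ W)
    (hT : IsUnipotentOn (join T)) : ∃ T', T ⊆ T' ∧ IsMaxFam W T' := by
  classical
  let P : ℕ → Prop := fun d => ∃ T', T ⊆ T' ∧ T' ⊆ W ∧ IsUnipotentOn (join T') ∧
    Module.finrank k (disp (join T')) = d
  have hbd : ∀ d, P d → d ≤ Module.finrank k (Module.End k M) := by
    rintro d ⟨T', -, -, -, rfl⟩; exact Submodule.finrank_le _
  obtain ⟨T', h1, h2, h3, h4⟩ : P (Nat.findGreatest P (Module.finrank k (Module.End k M))) :=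
    Nat.findGreatest_spec (hbd _ ⟨T, subset_rfl, hTW, hT, rfl⟩) ⟨T, subset_rfl, hTW, hT, rfl⟩
  refine ⟨hat W T', h1.trans (subset_hat W h2), fun _ hA => hA.1, hat_unipotent W h3, ?_⟩
  intro T'' hsub hW hu A hA
  refine ⟨hW hA, fun g hg => ?_⟩
  have hle : disp (join T') ≤ disp (join T'') :=
    disp_mono (join_mono ((subset_hat W h2).trans hsub))
  have hP : P (Module.finrank k (disp (join T''))) :=
    ⟨T'', h1.trans ((subset_hat W h2).trans hsub), hW, hu, rfl⟩
  have := Nat.le_findGreatest (hbd _ hP) hP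
  rw [← h4] at this
  rw [Submodule.eq_of_le_of_finrank_le hle this]
  exact sub_mem_disp (le_join hA hg)

theorem join_conj (T : Set (Subgroup GL')) (g : GL') :
    conjBy (join T) g = join ((fun A => conjBy A g) '' T) := by
  unfold join
  rw [iSup_image]
  simp [Subgroup.map_iSup]
  rfl

theorem join_unipotent (W : Set (Subgroup GL')) [FiniteDimensional k M] {G : Subgroup GL'} (hWG : ∀ A ∈ W, A ≤ G)
    (hWW : ∀ A ∈ W, ∀ B ∈ W, IsUnipotentOn (A ⊔ B))
    (hWconj : ∀ A ∈ W, ∀ g ∈ G, conjBy A g ∈ W) : IsUnipotentOn (join W) := by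
  classical
  have hsingle : ∀ A ∈ W, ∃ T, A ∈ T ∧ IsMaxFam W T := by
    intro A hA
    have h1 : IsUnipotentOn (join {A}) := by
      simpa [join] using hWW A hA A hA
    obtain ⟨T, hT, hmax⟩ := exists_max W (Set.singleton_subset_iff.2 hA) h1
    exact ⟨T, hT rfl, hmax⟩
  by_cases huniq : ∀ T T', IsMaxFam W T → IsMaxFam W T' → T = T'
  · obtain ⟨T, -, hT⟩ := exists_max W (T := ∅) (Set.empty_subset _)
      (by refine isUnipotentOn_iff.2 ⟨1, ?_⟩
          simp [join, disp, Submodule.span_eq_bot])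
    have : W = T := by
      refine Set.Subset.antisymm (fun A hA => ?_) hT.1
      obtain ⟨T', hA', hT'⟩ := hsingle A hA
      exact huniq T' T hT' hT ▸ hA'
    rw [this]; exact hT.2.1
  push Not at huniq
  obtain ⟨T₁, T₂, hT₁, hT₂, hne⟩ := huniq
  exfalso
  -- take two maximal subfamilies with largest intersection
  let P : ℕ → Prop := fun d => ∃ T T', IsMaxFam W T ∧ IsMaxFam W T' ∧ T ≠ T' ∧
    Module.finrank k (disp (join (T ∩ T'))) = d
  have hbd : ∀ d, P d → d ≤ Module.finrank k (Module.End k M) := by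
    rintro d ⟨T, T', -, -, -, rfl⟩; exact Submodule.finrank_le _
  clear hsingle
  obtain ⟨T, T', hT, hT', hne', hd⟩ :
      P (Nat.findGreatest P (Module.finrank k (Module.End k M))) :=
    Nat.findGreatest_spec (hbd _ ⟨T₁, T₂, hT₁, hT₂, hne, rfl⟩) ⟨T₁, T₂, hT₁, hT₂, hne, rfl⟩
  set I := T ∩ T' with hI
  have hIu : IsUnipotentOn (join I) := by
    obtain ⟨n, hn⟩ := isUnipotentOn_iff.1 hT.2.1
    exact isUnipotentOn_iff.2 ⟨n, le_bot_iff.1
      ((pow_le_pow_left' (disp_mono (join_mono Set.inter_subset_left)) n).trans hn.le)⟩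
  -- a member outside `I` normalizing `join I`
  have key : ∀ S, IsMaxFam W S → I ⊆ S → S ≠ I →
      ∃ x ∈ S, x ∉ I ∧ ∀ g ∈ x, conjBy (join I) g = join I := by
    intro S hS hIS hne''
    by_contra hc
    push Not at hc
    let U := join S
    let N : Subgroup GL' := U ⊓ Subgroup.normalizer ((join I : Subgroup GL') : Set GL')
    have hN : ∀ g, g ∈ N ↔ g ∈ U ∧ conjBy (join I) g = join I := fun g => by
      simp only [N, Subgroup.mem_inf, conjBy_eq_self_iff]
    have hUG : U ≤ G := iSup₂_le fun A hA => hWG A (hS.1 hA)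
    have hNU : N ≠ U := by
      intro he
      apply hne''
      refine Set.Subset.antisymm (fun x hx => ?_) hIS
      by_contra hxI
      obtain ⟨g, hg, hg'⟩ := hc x hx hxI
      exact hg' ((hN g).1 (he ▸ le_join hx hg)).2
    obtain ⟨g, hgU, hgN, hgfix⟩ := exists_normalizing hS.2.1 inf_le_left hNU
    apply hgN
    refine (hN g).2 ⟨hgU, ?_⟩
    have step : ∀ y ∈ U, conjBy N y = N → conjBy (join I) y ≤ join I := by
      intro y hy hfix
      rw [join_conj]
      refine iSup₂_le ?_
      rintro _ ⟨A, hA, rfl⟩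
      have hAN : A ≤ N := fun a ha => (hN a).2
        ⟨le_join (hIS hA) ha, conjBy_self_of_mem (le_join hA ha)⟩
      have hle : conjBy A y ≤ N := hfix ▸ conjBy_mono y hAN
      have hmem : conjBy A y ∈ S :=
        hat_le_of_max W hS ⟨hWconj A (hS.1 (hIS hA)) y (hUG hy), fun a ha =>
          sub_mem_disp ((hN a).1 (hle ha)).1⟩
      by_cases hI' : conjBy A y ∈ I
      · exact le_join hI'
      · obtain ⟨a, ha, ha'⟩ := hc _ hmem hI'
        exact absurd ((hN a).1 (hle ha)).2 ha'
    refine le_antisymm (step g hgU hgfix) ?_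
    have h2 := conjBy_mono g (step g⁻¹ (inv_mem hgU)
      (conjBy_eq_iff.2 (by rw [inv_inv, hgfix])))
    rwa [conjBy_conjBy, mul_inv_cancel, conjBy_one] at h2
  have hTI : T ≠ I := fun he => hne' (Set.Subset.antisymm (he ▸ Set.inter_subset_right)
    (hT.2.2 T' (he ▸ Set.inter_subset_right) hT'.1 hT'.2.1))
  have hTI' : T' ≠ I := fun he => hne' (Set.Subset.antisymm
    (hT'.2.2 T (he ▸ Set.inter_subset_left) hT.1 hT.2.1) (he ▸ Set.inter_subset_left))
  obtain ⟨x, hx, hxI, hxn⟩ := key T hT Set.inter_subset_left hTI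
  obtain ⟨y, hy, hyI, hyn⟩ := key T' hT' Set.inter_subset_right hTI'
  have hxy : IsUnipotentOn (join I ⊔ (x ⊔ y)) :=
    sup_unipotent hIu (hWW x (hT.1 hx) y (hT'.1 hy)) fun q hq => conjBy_eq_self_iff.2
      ((sup_le (fun g hg => conjBy_eq_self_iff.1 (hxn g hg))
        (fun g hg => conjBy_eq_self_iff.1 (hyn g hg)) :
          x ⊔ y ≤ Subgroup.normalizer ((join I : Subgroup GL') : Set GL')) hq)
  have hJ : IsUnipotentOn (join (I ∪ {x, y})) := by
    convert hxy using 1
    simp only [join, iSup_union, iSup_insert, iSup_singleton]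
  obtain ⟨T'', hsub, hT''⟩ := exists_max W (T := I ∪ {x, y})
    (Set.union_subset (Set.inter_subset_left.trans hT.1)
      (Set.insert_subset_iff.2 ⟨hT.1 hx, Set.singleton_subset_iff.2 (hT'.1 hy)⟩)) hJ
  have grow : ∀ S, IsMaxFam W S → I ⊆ S → ∀ z, z ∈ S → z ∉ I → z ∈ T'' → S = T'' := by
    intro S hS hIS z hz hzI hzT
    by_contra hne''
    have hlt : disp (join I) < disp (join (S ∩ T'')) := by
      refine lt_of_le_of_ne (disp_mono (join_mono (Set.subset_inter hIS
        ((Set.subset_union_left).trans hsub)))) fun he => hzI ?_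
      have hz' : ∀ g ∈ z, (g : Module.End k M) - 1 ∈ disp (join I) := fun g hg =>
        he ▸ sub_mem_disp (le_join (Set.mem_inter hz hzT) hg)
      exact ⟨hat_le_of_max W hT ⟨hS.1 hz, fun g hg =>
          disp_mono (join_mono Set.inter_subset_left) (hz' g hg)⟩,
        hat_le_of_max W hT' ⟨hS.1 hz, fun g hg =>
          disp_mono (join_mono Set.inter_subset_right) (hz' g hg)⟩⟩
    have h1 := Submodule.finrank_lt_finrank_of_lt hlt
    have hP : P (Module.finrank k (disp (join (S ∩ T'')))) := ⟨S, T'', hS, hT'', hne'', rfl⟩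
    have h2 := Nat.le_findGreatest (hbd _ hP) hP
    rw [← hd] at h2
    omega
  exact hne' ((grow T hT Set.inter_subset_left x hx hxI (hsub (Or.inr (Or.inl rfl)))).trans
    (grow T' hT' Set.inter_subset_right y hy hyI (hsub (Or.inr (Or.inr rfl)))).symm)

end Family

end CfsgLib.RootSubgroups.Unip
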